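import Cfsg.Agent.Lib.Sporadic.Monomial
import Cfsg.Agent.Lib.Compute.GF4

/-!
# The monomial group of the hexacode
-/

set_option autoImplicit false

namespace Cfsg.Agent.Lib.Sporadic.Hexacode

open Cfsg Cfsg.Agent.Lib.Compute.GF4 Cfsg.Agent.Lib.Sporadic.Monomial

/-- The first basis word. -/
def B1 : Fin 6 → F4 := ![.w, .v, .v, .w, .v, .w]

/-- The second basis word. -/
def B2 : Fin 6 → F4 := ![.v, .w, .w, .v, .v, .w]

/-- The third basis word. -/
def B3 : Fin 6 → F4 := ![.v, .w, .v, .w, .w, .v]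

theorem w_sq : F4.w ^ 2 = F4.v := by decide

theorem hex4 : hexacode F4 F4.w = Submodule.span F4 {B1, B2, B3} := by
  simp only [hexacode, w_sq]
  rfl

/-- Membership, as a finite search. -/
def InH (x : Fin 6 → F4) : Prop := ∃ a b c : F4, a • B1 + b • B2 + c • B3 = x

instance : DecidablePred InH := fun x => inferInstanceAs (Decidable (∃ a b c : F4, a • B1 + b • B2 + c • B3 = x))

theorem mem_iff (x : Fin 6 → F4) : x ∈ hexacode F4 F4.w ↔ InH x := by
  rw [hex4]
  exact Submodule.mem_span_triple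

/-- The test. -/
def Test (σ : Equiv.Perm (Fin 6)) (c : Fin 6 → F4ˣ) : Prop :=
  InH (monomialMap σ c B1) ∧ InH (monomialMap σ c B2) ∧ InH (monomialMap σ c B3)

instance (σ : Equiv.Perm (Fin 6)) (c : Fin 6 → F4ˣ) : Decidable (Test σ c) :=
  inferInstanceAs (Decidable (InH (monomialMap σ c B1) ∧ InH (monomialMap σ c B2) ∧ InH (monomialMap σ c B3)))

theorem pres_iff (σ : Equiv.Perm (Fin 6)) (c : Fin 6 → F4ˣ) : Pres (hexacode F4 F4.w) σ c ↔ Test σ c := by
  constructor
  · intro h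
    have hB : ∀ x ∈ ({B1, B2, B3} : Set (Fin 6 → F4)), InH (monomialMap σ c x) := by
      intro x hx
      rw [← mem_iff]
      apply h
      rw [hex4]
      exact Submodule.subset_span hx
    exact ⟨hB _ (by simp), hB _ (by simp), hB _ (by simp)⟩
  · rintro ⟨h1, h2, h3⟩
    apply Pres.of_span hex4
    intro x hx
    rw [mem_iff]
    simp only [Set.mem_insert_iff, Set.mem_singleton_iff] at hx
    rcases hx with rfl | rfl | rfl
    · exact h1
    · exact h2
    · exact h3

/-- A unit. -/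
def uI : F4ˣ := ⟨.i, .i, by decide, by decide⟩
/-- A unit. -/
def uW : F4ˣ := ⟨.w, .v, by decide, by decide⟩
/-- A unit. -/
def uV : F4ˣ := ⟨.v, .w, by decide, by decide⟩

/-- The base. -/
def b4 : Fin 4 → Fin 6 := ![0, 1, 2, 3]

theorem b4_inj : Function.Injective b4 := by decide

/-- The transversals. -/
def entries : List ((Fin 6 × Fin 6 × Fin 6 × Fin 6) × (Fin 6 → F4ˣ)) := [
  ((0, 1, 0, 1), ![uI, uI, uI, uI, uI, uI]),
  ((0, 1, 2, 3), ![uI, uI, uI, uI, uI, uI]),
  ((0, 2, 1, 3), ![uI, uI, uI, uI, uI, uI]),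
  ((0, 3, 1, 2), ![uI, uI, uI, uI, uI, uI]),
  ((0, 4, 1, 2), ![uI, uW, uI, uV, uW, uV]),
  ((0, 5, 1, 2), ![uI, uV, uI, uW, uW, uV]),
  ((1, 2, 3, 4), ![uI, uW, uV, uW, uV, uI]),
  ((1, 3, 2, 4), ![uI, uV, uV, uW, uW, uI]),
  ((1, 4, 2, 3), ![uI, uI, uW, uV, uI, uI]),
  ((1, 5, 2, 3), ![uI, uI, uV, uW, uI, uI]),
  ((2, 3, 4, 5), ![uI, uI, uI, uI, uI, uI]),
  ((2, 4, 3, 5), ![uI, uI, uI, uI, uI, uI]),
  ((2, 5, 3, 4), ![uI, uI, uI, uI, uI, uI]),
  ((3, 4, 4, 5), ![uI, uW, uV, uV, uV, uV]),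
  ((3, 5, 5, 4), ![uI, uV, uW, uW, uW, uW])]

/-- The permutation of an entry. -/
def pE (e : (Fin 6 × Fin 6 × Fin 6 × Fin 6)) : Equiv.Perm (Fin 6) := Equiv.swap e.1 e.2.1 * Equiv.swap e.2.2.1 e.2.2.2

theorem entries_ok : (entries.all fun e => decide (Test (pE e.1) e.2 ∧ e.1.1 ≠ e.1.2.1 ∧ e.1.2.2.1 ≠ e.1.2.2.2)) = true := by
  decide +kernel

theorem sign_pE {e : (Fin 6 × Fin 6 × Fin 6 × Fin 6)} (h1 : e.1 ≠ e.2.1) (h2 : e.2.2.1 ≠ e.2.2.2) : Equiv.Perm.sign (pE e) = 1 := by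
  rw [pE, map_mul, Equiv.Perm.sign_swap h1, Equiv.Perm.sign_swap h2]
  rfl

theorem levels : ∀ k : Fin 4, ∀ x : Fin 6, (∀ j : Fin 4, j < k → x ≠ b4 j) →
    (entries.any fun e => decide ((∀ j : Fin 4, j < k → pE e.1 (b4 j) = b4 j) ∧ pE e.1 (b4 k) = x)) = true := by
  decide +kernel

theorem triv (σ : Equiv.Perm (Fin 6)) (hs : Equiv.Perm.sign σ = 1) (h : ∀ i : Fin 4, σ (b4 i) = b4 i) : σ = 1 := by
  have h0 : σ 0 = 0 := h 0
  have h1 : σ 1 = 1 := h 1
  have h2 : σ 2 = 2 := h 2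
  have h3 : σ 3 = 3 := h 3
  have key : ∀ y : Fin 6, y ≠ 0 → y ≠ 1 → y ≠ 2 → y ≠ 3 → y = 4 ∨ y = 5 := by decide
  have hne : ∀ x : Fin 6, x ≠ 0 → x ≠ 1 → x ≠ 2 → x ≠ 3 → σ x = 4 ∨ σ x = 5 := by
    intro x h0' h1' h2' h3'
    apply key
    · intro e
      exact h0' (σ.injective (e.trans h0.symm))
    · intro e
      exact h1' (σ.injective (e.trans h1.symm))
    · intro e
      exact h2' (σ.injective (e.trans h2.symm))
    · intro e
      exact h3' (σ.injective (e.trans h3.symm))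
  have h4 := hne 4 (by decide) (by decide) (by decide) (by decide)
  have h5 := hne 5 (by decide) (by decide) (by decide) (by decide)
  rcases h4 with h4 | h4
  · rcases h5 with h5 | h5
    · exact absurd (σ.injective (h5.trans h4.symm)) (by decide)
    · apply Equiv.ext
      intro i
      fin_cases i <;> simp_all
  · rcases h5 with h5 | h5
    · exfalso
      have e : σ = Equiv.swap 4 5 := by
        apply Equiv.ext
        intro i
        have : ∀ i : Fin 6, i = 0 ∨ i = 1 ∨ i = 2 ∨ i = 3 ∨ i = 4 ∨ i = 5 := by decide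
        rcases this i with rfl | rfl | rfl | rfl | rfl | rfl
        · rw [h0]; decide
        · rw [h1]; decide
        · rw [h2]; decide
        · rw [h3]; decide
        · rw [h4]; decide
        · rw [h5]; decide
      rw [e, Equiv.Perm.sign_swap (by decide)] at hs
      exact absurd hs (by decide)
    · exact absurd (σ.injective (h5.trans h4.symm)) (by decide)

theorem diag4 : ∀ c : Fin 6 → F4ˣ, Test 1 c → ∀ i j, c i = c j := by
  decide +kernel

theorem swap4 : ∀ c : Fin 6 → F4ˣ, ¬ Test (Equiv.swap 0 1) c := by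
  decide +kernel

/-- The permutation parts over the concrete field. -/
theorem parts4 : permParts (hexacode F4 F4.w) = alternatingGroup (Fin 6) := by
  have h1 : (permParts (hexacode F4 F4.w)) ⊓ alternatingGroup (Fin 6) = alternatingGroup (Fin 6) := by
    refine (eq_and_card (Q := (permParts (hexacode F4 F4.w)) ⊓ alternatingGroup (Fin 6)) inf_le_right b4 b4_inj ?_ ?_).1
    · intro k x hx
      have h2 := levels k x hx
      obtain ⟨e, he, h3⟩ := List.any_eq_true.1 h2
      rw [decide_eq_true_eq] at h3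
      have h4 := List.all_eq_true.1 entries_ok e he
      rw [decide_eq_true_eq] at h4
      refine ⟨pE e.1, Subgroup.mem_inf.2 ⟨⟨e.2, (pres_iff _ _).2 h4.1⟩, ?_⟩, h3.1, h3.2⟩
      rw [Equiv.Perm.mem_alternatingGroup]
      exact sign_pE h4.2.1 h4.2.2
    · intro g hg h2
      rw [Equiv.Perm.mem_alternatingGroup] at hg
      exact triv g hg h2
  have h2 : alternatingGroup (Fin 6) ≤ permParts (hexacode F4 F4.w) := by
    rw [← h1]
    exact inf_le_left
  refine le_antisymm ?_ h2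
  intro σ hσ
  rw [Equiv.Perm.mem_alternatingGroup]
  rcases Int.units_eq_one_or (Equiv.Perm.sign σ) with h3 | h3
  · exact h3
  · exfalso
    have h4 : σ * Equiv.swap 0 1 ∈ alternatingGroup (Fin 6) := by
      rw [Equiv.Perm.mem_alternatingGroup, map_mul, h3, Equiv.Perm.sign_swap (by decide)]
      rfl
    have h5 := (permParts (hexacode F4 F4.w)).mul_mem ((permParts (hexacode F4 F4.w)).inv_mem hσ) (h2 h4)
    rw [inv_mul_cancel_left] at h5
    obtain ⟨c, hc⟩ := h5
    exact swap4 c ((pres_iff _ _).1 hc)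

/-! ### Transport -/

section transport

variable {F : Type*} [Field F] {ω : F}

theorem hexacode_map (e : F ≃+* F4) (hω : e ω = F4.w) (x : Fin 6 → F) :
    x ∈ hexacode F ω ↔ (fun i => e (x i)) ∈ hexacode F4 F4.w := by
  have hB1 : ∀ i, e ((![ω, ω ^ 2, ω ^ 2, ω, ω ^ 2, ω] : Fin 6 → F) i) = (![F4.w, F4.w ^ 2, F4.w ^ 2, F4.w, F4.w ^ 2, F4.w] : Fin 6 → F4) i := by
    intro i
    fin_cases i <;> simp [map_pow, hω]
  have hB2 : ∀ i, e ((![ω ^ 2, ω, ω, ω ^ 2, ω ^ 2, ω] : Fin 6 → F) i) = (![F4.w ^ 2, F4.w, F4.w, F4.w ^ 2, F4.w ^ 2, F4.w] : Fin 6 → F4) i := by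
    intro i
    fin_cases i <;> simp [map_pow, hω]
  have hB3 : ∀ i, e ((![ω ^ 2, ω, ω ^ 2, ω, ω, ω ^ 2] : Fin 6 → F) i) = (![F4.w ^ 2, F4.w, F4.w ^ 2, F4.w, F4.w, F4.w ^ 2] : Fin 6 → F4) i := by
    intro i
    fin_cases i <;> simp [map_pow, hω]
  unfold hexacode
  rw [Submodule.mem_span_triple, Submodule.mem_span_triple]
  constructor
  · rintro ⟨a, b, c, rfl⟩
    refine ⟨e a, e b, e c, ?_⟩
    funext i
    simp only [Pi.add_apply, Pi.smul_apply, smul_eq_mul, map_add, map_mul, hB1, hB2, hB3]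
  · rintro ⟨a, b, c, h⟩
    refine ⟨e.symm a, e.symm b, e.symm c, ?_⟩
    funext i
    apply e.injective
    have h1 := congrFun h i
    simp only [Pi.add_apply, Pi.smul_apply, smul_eq_mul, map_add, map_mul, hB1, hB2, hB3, RingEquiv.apply_symm_apply]
    exact h1

theorem pres_map (e : F ≃+* F4) (hω : e ω = F4.w) (σ : Equiv.Perm (Fin 6)) (c : Fin 6 → Fˣ) :
    Pres (hexacode F ω) σ c ↔ Pres (hexacode F4 F4.w) σ (fun i => Units.map (e : F →* F4) (c i)) := by
  constructor
  · intro h x hx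
    have h1 : (fun i => e.symm (x i)) ∈ hexacode F ω := by
      rw [hexacode_map e hω]
      simpa using hx
    have h2 := (hexacode_map e hω _).1 (h _ h1)
    convert h2 using 1
    funext i
    simp [monomialMap]
  · intro h x hx
    have h2 := h _ ((hexacode_map e hω _).1 hx)
    rw [hexacode_map e hω]
    convert h2 using 1
    funext i
    simp [monomialMap]

/-- Units transported back. -/
theorem exists_pres_map (e : F ≃+* F4) (hω : e ω = F4.w) (σ : Equiv.Perm (Fin 6)) (c : Fin 6 → F4ˣ)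
    (h : Pres (hexacode F4 F4.w) σ c) : ∃ d : Fin 6 → Fˣ, Pres (hexacode F ω) σ d := by
  refine ⟨fun i => Units.map (e.symm : F4 →* F) (c i), (pres_map e hω σ _).2 ?_⟩
  convert h using 2
  apply Units.ext
  simp

end transport

/-- The Frobenius automorphism. -/
def frob : F4 ≃+* F4 where
  toFun x := x * x
  invFun x := x * x
  left_inv := by decide
  right_inv := by decide
  map_mul' := by decide
  map_add' := by decide

/-- An isomorphism taking the chosen element to the standard one. -/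
theorem exists_iso (F : Type*) [Field F] [Fintype F] (hF : Fintype.card F = 4) (ω : F) (hω : ω ^ 2 + ω + 1 = 0) :
    ∃ e : F ≃+* F4, e ω = F4.w := by
  have h1 : (equivOfCard F hF ω) ^ 2 + equivOfCard F hF ω + 1 = 0 := by
    rw [← map_pow, ← map_add, ← map_one (equivOfCard F hF), ← map_add, hω, map_zero]
  have h2 : ∀ z : F4, z ^ 2 + z + 1 = 0 → z = F4.w ∨ z = F4.v := by decide
  rcases h2 _ h1 with h3 | h3
  · exact ⟨_, h3⟩
  · refine ⟨(equivOfCard F hF).trans frob, ?_⟩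
    show frob (equivOfCard F hF ω) = _
    rw [h3]
    rfl

/-- The statement `S1611`. -/
theorem s1611 (F : Type*) [Field F] [Fintype F] [DecidableEq F] (hF : Fintype.card F = 4) (ω : F) (hω : ω ^ 2 + ω + 1 = 0) :
    Nat.card {f : Equiv.Perm (Fin 6) × (Fin 6 → Fˣ) // (∀ x ∈ hexacode F ω, monomialMap f.1 f.2 x ∈ hexacode F ω)} = 1080 ∧
    (∀ c : Fin 6 → Fˣ, (∀ x ∈ hexacode F ω, monomialMap 1 c x ∈ hexacode F ω) → ∀ i j, c i = c j) ∧
    {σ : Equiv.Perm (Fin 6) | ∃ c : Fin 6 → Fˣ, (∀ x ∈ hexacode F ω, monomialMap σ c x ∈ hexacode F ω)} =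
      (alternatingGroup (Fin 6) : Set (Equiv.Perm (Fin 6))) := by
  obtain ⟨e, he⟩ := exists_iso F hF ω hω
  have hdiag : ∀ c : Fin 6 → Fˣ, Pres (hexacode F ω) 1 c → ∀ i j, c i = c j := by
    intro c hc i j
    have h1 := diag4 _ ((pres_iff _ _).1 ((pres_map e he _ _).1 hc)) i j
    have h2 : (e : F →* F4) (c i : F) = (e : F →* F4) (c j : F) := congrArg Units.val h1
    exact Units.ext (e.injective h2)
  have hparts : permParts (hexacode F ω) = alternatingGroup (Fin 6) := by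
    rw [← parts4]
    ext σ
    constructor
    · rintro ⟨c, hc⟩
      exact ⟨_, (pres_map e he _ _).1 hc⟩
    · rintro ⟨c, hc⟩
      exact exists_pres_map e he _ _ hc
  refine ⟨?_, hdiag, ?_⟩
  · rw [card_pres (hexacode F ω) 0 hdiag, hparts]
    have h1 : Nat.card (alternatingGroup (Fin 6)) = 360 := by
      have h2 := two_mul_nat_card_alternatingGroup (α := Fin 6)
      have h4 : Nat.card (Equiv.Perm (Fin 6)) = 720 := by
        rw [Nat.card_perm]
        simp [Nat.factorial]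
      omega
    have h3 : Nat.card Fˣ = 3 := by
      rw [Nat.card_eq_fintype_card, Fintype.card_units, hF]
    rw [h1, h3]
  · exact congrArg (fun S : Subgroup (Equiv.Perm (Fin 6)) => (S : Set (Equiv.Perm (Fin 6)))) hparts

end Cfsg.Agent.Lib.Sporadic.Hexacode
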