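import Mathlib
import Cfsg.Agent.Lib.Sporadic.LeechCen3Chain

/-!
# A group of order `9797760` of permutations of `378` points with a quotient `PSU₄(3)`
-/

set_option autoImplicit false
set_option maxRecDepth 1000000
set_option maxHeartbeats 0

namespace Cfsg.Agent.Lib.Sporadic.LeechCen3

open Cfsg Subgroup Cfsg.Agent.Lib.Compute.PermCert Cfsg.Agent.Lib.Compute.Schur2.SU43
  Cfsg.Agent.Lib.Sporadic.LeechCenGrp


/-! ### The incidence -/

/-- The incidence. -/
def memF (y : Fin 280) (x : Fin 378) : Bool := memB y x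

theorem rowsOK : nodupB ((List.range 280).map rowN) = true := by decide +kernel

theorem testBit_rowN (i j : ℕ) : (rowN i).testBit j = (decide (j < 378) && memB i j) := by
  show (Nat.land (Nat.shiftRight Pm (Nat.mul 378 i)) (Nat.sub (Nat.pow 2 378) 1)).testBit j = _
  show ((Pm >>> (378 * i)) &&& (2 ^ 378 - 1)).testBit j = _
  rw [Nat.testBit_and, Nat.testBit_shiftRight, Nat.testBit_two_pow_sub_one, Bool.and_comm]
  show _ = (decide (j < 378) && Nat.testBit Pm (378 * i + j))
  rfl

theorem hrow : ∀ y y' : Fin 280, (∀ x, memF y x = memF y' x) → y = y' := by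
  intro y y' h
  have e : rowN y = rowN y' := by
    apply Nat.eq_of_testBit_eq
    intro j
    rw [testBit_rowN, testBit_rowN]
    by_cases hj : j < 378
    · have := h ⟨j, hj⟩
      simp only [hj, decide_true, Bool.true_and]
      exact this
    · simp [hj]
  have hnd := nodupB_iff rowsOK
  have hy : y.val < ((List.range 280).map rowN).length := by simp
  have hy' : y'.val < ((List.range 280).map rowN).length := by simp
  have e2 : ((List.range 280).map rowN)[y.val]'hy = ((List.range 280).map rowN)[y'.val]'hy' := by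
    simpa using e
  exact Fin.ext ((hnd.getElem_inj_iff).1 e2)

/-- The check of the compatibility with the incidence. -/
def relB (e h : Elt) : Bool :=
  allB (fun y => allB (fun x => (memB (get 9 511 h.f y) (get 9 511 e.f x)) == memB y x) 378) 280

theorem relOK : prs.all (fun p => validB 9 511 378 p.1 && validB 9 511 280 p.2 && relB p.1 p.2) = true := by
  decide +kernel

theorem incRel_of {e h : Elt} (h1 : validB 9 511 378 e = true) (h2 : validB 9 511 280 h = true) (h3 : relB e h = true) :
    IncRel memF (permOf 9 511 378 e) (permOf 9 511 280 h) := by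
  intro y x
  have h4 := (allB_iff _ _).1 ((allB_iff _ _).1 h3 y y.2) x x.2
  rw [beq_iff_eq] at h4
  show memB _ _ = memB _ _
  rw [permOf_apply h1, permOf_apply h2]
  exact h4

/-- The set of pairs. -/
def prS : Set (Equiv.Perm (Fin 378) × Equiv.Perm (Fin 280)) :=
  {p | ∃ q ∈ prs, p = (permOf 9 511 378 q.1, permOf 9 511 280 q.2)}

theorem prS_rel : ∀ p ∈ prS, IncRel memF p.1 p.2 := by
  rintro _ ⟨q, hq, rfl⟩
  have := List.all_eq_true.1 relOK q hq
  simp only [Bool.and_eq_true] at this
  exact incRel_of this.1.1 this.1.2 this.2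

theorem HH_eq : HH = closure (Prod.fst '' prS) := by
  show Subgroup.closure _ = Subgroup.closure _
  congr 1
  ext x
  constructor
  · rintro ⟨e, he, rfl⟩
    rw [nextH] at he
    have he' : e ∈ prs.map Prod.fst := he
    obtain ⟨q, hq, rfl⟩ := List.mem_map.1 he'
    exact ⟨_, ⟨q, hq, rfl⟩, rfl⟩
  · rintro ⟨_, ⟨q, hq, rfl⟩, rfl⟩
    refine ⟨q.1, ?_, rfl⟩
    rw [nextH]
    exact List.mem_map.2 ⟨q, hq, rfl⟩

theorem PP_eq : PP = closure (Prod.snd '' prS) := by
  show Subgroup.closure _ = Subgroup.closure _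
  congr 1
  ext x
  constructor
  · rintro ⟨e, he, rfl⟩
    rw [nextP] at he
    have he' : e ∈ prs.map Prod.snd := he
    obtain ⟨q, hq, rfl⟩ := List.mem_map.1 he'
    exact ⟨_, ⟨q, hq, rfl⟩, rfl⟩
  · rintro ⟨_, ⟨q, hq, rfl⟩, rfl⟩
    refine ⟨q.2, ?_, rfl⟩
    rw [nextP]
    exact List.mem_map.2 ⟨q, hq, rfl⟩

theorem hI_one : permOf 9 511 280 hI = 1 := by
  have hv : validB 9 511 280 hI = true := by decide +kernel
  have hi : allB (fun i => Nat.beq (get 9 511 hI.f i) i) 280 = true := by decide +kernel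
  ext i
  rw [permOf_apply hv]
  have := (allB_iff _ _).1 hi i i.2
  rw [Nat.beq_eq] at this
  rw [this]
  rfl

/-! ### The element of order three -/

/-- The element of order three. -/
noncomputable def nuP : Equiv.Perm (Fin 378) := permOf 9 511 378 nuE

theorem nuE_valid : validB 9 511 378 nuE = true := by decide +kernel

theorem nuP_mem : nuP ∈ HH := permOf_mem_genGroup (w := 9) (m := 511) (n := 378) (gens := nextGens lsH) (e := nuE) (by rw [nextH]; simp)

theorem nu_three : allB (fun i => Nat.beq (get 9 511 nuE.f (get 9 511 nuE.f (get 9 511 nuE.f i))) i) 378 = true := by decide +kernel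

theorem nuP_pow : nuP ^ 3 = 1 := by
  ext i
  have h1 := (allB_iff _ _).1 nu_three i i.2
  rw [Nat.beq_eq] at h1
  have e : (nuP ^ 3) i = nuP (nuP (nuP i)) := by
    simp [pow_succ, Equiv.Perm.mul_apply]
  rw [e]
  show ((permOf 9 511 378 nuE) ((permOf 9 511 378 nuE) ((permOf 9 511 378 nuE) i)) : ℕ) = _
  rw [permOf_apply nuE_valid, permOf_apply nuE_valid, permOf_apply nuE_valid]
  exact h1

theorem nuP_ne : nuP ≠ 1 := by
  intro h
  have h1 : (nuP ⟨0, by norm_num⟩ : ℕ) = 0 := by rw [h]; rfl
  have h2 : (nuP ⟨0, by norm_num⟩ : ℕ) = get 9 511 nuE.f 0 := permOf_apply nuE_valid _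
  rw [h2] at h1
  revert h1
  decide +kernel

theorem orderOf_nuP : orderOf nuP = 3 :=
  haveI : Fact (Nat.Prime 3) := ⟨by norm_num⟩
  orderOf_eq_prime nuP_pow nuP_ne

theorem card_zp : Nat.card (zpowers nuP) = 3 := by rw [Nat.card_zpowers, orderOf_nuP]

/-- Commuting tables. -/
def commB (e₁ e₂ : Elt) : Bool :=
  allB (fun i => Nat.beq (get 9 511 e₁.f (get 9 511 e₂.f i)) (get 9 511 e₂.f (get 9 511 e₁.f i))) 378

theorem commOK : prs.all (fun p => commB p.1 nuE) = true := by decide +kernel

theorem comm_of {e₁ e₂ : Elt} (h1 : validB 9 511 378 e₁ = true) (h2 : validB 9 511 378 e₂ = true) (h : commB e₁ e₂ = true) :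
    permOf 9 511 378 e₁ * permOf 9 511 378 e₂ = permOf 9 511 378 e₂ * permOf 9 511 378 e₁ := by
  ext i
  have h3 := (allB_iff _ _).1 h i i.2
  rw [Nat.beq_eq] at h3
  rw [Equiv.Perm.mul_apply, Equiv.Perm.mul_apply, permOf_apply h1, permOf_apply h2, permOf_apply h2, permOf_apply h1]
  exact h3

theorem HH_comm : ∀ x ∈ HH, x * nuP = nuP * x := by
  intro x hx
  have h0 : HH ≤ centralizer ({nuP} : Set (Equiv.Perm (Fin 378))) := by
    rw [HH_eq, closure_le]
    rintro _ ⟨_, ⟨q, hq, rfl⟩, rfl⟩
    rw [SetLike.mem_coe, mem_centralizer_singleton_iff]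
    have := List.all_eq_true.1 relOK q hq
    simp only [Bool.and_eq_true] at this
    exact comm_of this.1.1 nuE_valid (List.all_eq_true.1 commOK q hq)
  exact mem_centralizer_singleton_iff.1 (h0 hx)

/-- The element inverting. -/
noncomputable def tP : Equiv.Perm (Fin 378) := permOf 9 511 378 eG0

theorem eG0_valid : validB 9 511 378 eG0 = true := by decide +kernel

theorem t_chk : allB (fun i => Nat.beq (get 9 511 eG0.f (get 9 511 nuE.f i)) (get 9 511 nuE.g (get 9 511 eG0.f i))) 378 = true := by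
  decide +kernel

theorem tP_conj : tP * nuP * tP⁻¹ = nuP⁻¹ := by
  have h : tP * nuP = nuP⁻¹ * tP := by
    ext i
    have h3 := (allB_iff _ _).1 t_chk i i.2
    rw [Nat.beq_eq] at h3
    rw [Equiv.Perm.mul_apply, Equiv.Perm.mul_apply]
    show ((permOf 9 511 378 eG0) ((permOf 9 511 378 nuE) i) : ℕ) = ((permOf 9 511 378 nuE)⁻¹ ((permOf 9 511 378 eG0) i) : Fin 378)
    rw [permOf_symm_apply nuE_valid, permOf_apply eG0_valid, permOf_apply nuE_valid, permOf_apply eG0_valid]
    exact h3
  rw [h]
  group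

theorem nu_inv_ne : nuP⁻¹ ≠ nuP := by
  intro h
  have h1 : nuP * nuP = 1 := by
    nth_rw 1 [← h]
    group
  apply nuP_ne
  have h2 : nuP ^ 3 = nuP := by
    rw [pow_succ, pow_two, h1, one_mul]
  rw [← h2, nuP_pow]

theorem tP_ne : tP * nuP ≠ nuP * tP := by
  intro h
  have h1 : tP * nuP * tP⁻¹ = nuP := by
    rw [h]
    group
  rw [tP_conj] at h1
  exact nu_inv_ne h1

/-! ### The quotient -/

/-- The matrix checks. -/
def mcA : ℕ := 381036027122273
/-- The matrix checks. -/
def mcB : ℕ := 1737658255475276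
/-- The matrix checks. -/
def mcI : ℕ := 205894618938100

theorem eltA : eltOK hA mcA = true := by decide +kernel
theorem eltB : eltOK hB mcB = true := by decide +kernel
theorem eltI : eltOK hI mcI = true := by decide +kernel

theorem hall : ∀ e ∈ nextGens lsP, permOf 9 511 280 e ∈ Cfsg.Agent.Lib.Compute.Schur2.SU43.φ.range := by
  intro e he
  rw [nextP] at he
  have h1 : e ∈ [hA, hB, hI] := he
  simp only [List.mem_cons, List.not_mem_nil, or_false] at h1
  rcases h1 with rfl | rfl | rfl
  · exact permOf_mem_range eltA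
  · exact permOf_mem_range eltB
  · exact permOf_mem_range eltI

theorem exists_phi : ∃ φ : ↥HH →* PSU 4 K9 3, Function.Surjective φ ∧
    ∀ x : ↥HH, φ x = 1 ↔ (x : Equiv.Perm (Fin 378)) ∈ zpowers nuP := by
  obtain ⟨φ, hs, hr⟩ := exists_inc_hom hrow prS prS_rel HH_eq PP_eq
  obtain ⟨e⟩ := nonempty_iso (gens := nextGens lsP) hall card_PP
  let φ' : ↥HH →* PSU 4 K9 3 := e.toMonoidHom.comp φ
  have hs' : Function.Surjective φ' := e.surjective.comp hs
  have hker : ∀ x : ↥HH, φ' x = 1 ↔ φ x = 1 := by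
    intro x
    show e (φ x) = 1 ↔ _
    exact map_eq_one_iff e e.injective
  let nuH : ↥HH := ⟨nuP, nuP_mem⟩
  have hnu : φ nuH = 1 := by
    have h1 : IncRel memF nuP (permOf 9 511 280 hI) := prS_rel _ ⟨(nuE, hI), by simp [prs], rfl⟩
    rw [hI_one] at h1
    exact Subtype.ext (IncRel.unique hrow (hr nuH) h1)
  have hord : Nat.card (zpowers nuH) = 3 := by
    rw [Nat.card_zpowers]
    rw [← orderOf_nuP]
    exact Subgroup.orderOf_mk _ _
  have hle : zpowers nuH ≤ φ.ker := by
    rw [zpowers_le]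
    exact hnu
  have hk : Nat.card φ.ker = 3 := by
    have h1 := Subgroup.card_mul_index φ.ker
    rw [Subgroup.index_ker, MonoidHom.range_eq_top.2 hs, Subgroup.card_top, card_HH, card_PP] at h1
    omega
  have heq : zpowers nuH = φ.ker := Subgroup.eq_of_le_of_card_ge hle (by rw [hk, hord])
  refine ⟨φ', hs', ?_⟩
  intro x
  rw [hker]
  constructor
  · intro hx
    have h1 : x ∈ zpowers nuH := by
      rw [heq]
      exact hx
    obtain ⟨k, hk⟩ := mem_zpowers_iff.1 h1
    refine mem_zpowers_iff.2 ⟨k, ?_⟩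
    rw [← hk]
    rfl
  · intro hx
    obtain ⟨k, hk⟩ := mem_zpowers_iff.1 hx
    have h1 : x ∈ zpowers nuH := by
      refine mem_zpowers_iff.2 ⟨k, Subtype.ext ?_⟩
      exact hk
    rw [heq] at h1
    exact h1

/-! ### The generators of the whole group -/

theorem genL_valid : genL.all (validB 9 511 378) = true := by decide +kernel

theorem eA_word : wordCheck 9 511 378 genL [2,0,4,4,1] eA = true := by decide +kernel
theorem eB_word : wordCheck 9 511 378 genL [1,2,5,2,0] eB = true := by decide +kernel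
theorem nu_word : wordCheck 9 511 378 genL [0,4,1,5,3,5,0,4,1,5,3,5] nuE = true := by decide +kernel

theorem HH_le : HH ≤ genGroup 9 511 378 genL := by
  rw [HH_eq, closure_le]
  rintro _ ⟨_, ⟨q, hq, rfl⟩, rfl⟩
  have hv := List.all_eq_true.1 relOK q hq
  simp only [Bool.and_eq_true] at hv
  simp only [prs, List.mem_cons, List.not_mem_nil, or_false] at hq
  rcases hq with rfl | rfl | rfl
  · exact wordCheck_mem genL_valid hv.1.1 eA_word
  · exact wordCheck_mem genL_valid hv.1.1 eB_word
  · exact wordCheck_mem genL_valid hv.1.1 nu_word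

end Cfsg.Agent.Lib.Sporadic.LeechCen3
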