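import Mathlib

/-!
# Group theory for the centraliser of an element of order three
-/

set_option autoImplicit false

namespace Cfsg.Agent.Lib.Sporadic.LeechCenGrp

open Subgroup

section inc

variable {X Y : Type*} (mem : Y → X → Bool)

/-- Compatibility of two permutations with an incidence. -/
def IncRel (g : Equiv.Perm X) (h : Equiv.Perm Y) : Prop := ∀ y x, mem (h y) (g x) = mem y x

variable {mem}

theorem IncRel.one : IncRel mem 1 1 := fun _ _ => rfl

theorem IncRel.mul {g g' : Equiv.Perm X} {h h' : Equiv.Perm Y} (H : IncRel mem g h) (H' : IncRel mem g' h') :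
    IncRel mem (g * g') (h * h') := fun y x => by
  rw [Equiv.Perm.mul_apply, Equiv.Perm.mul_apply, H, H']

theorem IncRel.inv {g : Equiv.Perm X} {h : Equiv.Perm Y} (H : IncRel mem g h) : IncRel mem g⁻¹ h⁻¹ := fun y x => by
  have := H (h⁻¹ y) (g⁻¹ x)
  rw [show h (h⁻¹ y) = y by simp, show g (g⁻¹ x) = x by simp] at this
  exact this.symm

theorem IncRel.unique (hrow : ∀ y y', (∀ x, mem y x = mem y' x) → y = y') {g : Equiv.Perm X} {h h' : Equiv.Perm Y}
    (H : IncRel mem g h) (H' : IncRel mem g h') : h = h' := by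
  ext y
  have : h y = h' y := hrow _ _ (fun x => by
    obtain ⟨x₀, rfl⟩ := g.surjective x
    rw [H, H'])
  rw [this]

/-- The homomorphism defined by an incidence. -/
theorem exists_inc_hom (hrow : ∀ y y', (∀ x, mem y x = mem y' x) → y = y')
    (S : Set (Equiv.Perm X × Equiv.Perm Y))
    (hS : ∀ p ∈ S, IncRel mem p.1 p.2) {A : Subgroup (Equiv.Perm X)} {B : Subgroup (Equiv.Perm Y)}
    (hA : A = closure (Prod.fst '' S)) (hB : B = closure (Prod.snd '' S)) :
    ∃ φ : ↥A →* ↥B, Function.Surjective φ ∧ ∀ a : ↥A, IncRel mem (a : Equiv.Perm X) (φ a : Equiv.Perm Y) := by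
  have h1 : ∀ a ∈ A, ∃ b ∈ B, IncRel mem a b := by
    intro a ha
    rw [hA] at ha
    induction ha using closure_induction with
    | mem x hx =>
      obtain ⟨p, hp, rfl⟩ := hx
      exact ⟨p.2, by rw [hB]; exact subset_closure ⟨p, hp, rfl⟩, hS p hp⟩
    | one => exact ⟨1, one_mem _, IncRel.one⟩
    | mul x y _ _ hx hy =>
      obtain ⟨b, hb, hr⟩ := hx
      obtain ⟨b', hb', hr'⟩ := hy
      exact ⟨b * b', mul_mem hb hb', hr.mul hr'⟩
    | inv x _ hx =>
      obtain ⟨b, hb, hr⟩ := hx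
      exact ⟨b⁻¹, inv_mem hb, hr.inv⟩
  have h2 : ∀ b ∈ B, ∃ a ∈ A, IncRel mem a b := by
    intro b hb
    rw [hB] at hb
    induction hb using closure_induction with
    | mem x hx =>
      obtain ⟨p, hp, rfl⟩ := hx
      exact ⟨p.1, by rw [hA]; exact subset_closure ⟨p, hp, rfl⟩, hS p hp⟩
    | one => exact ⟨1, one_mem _, IncRel.one⟩
    | mul x y _ _ hx hy =>
      obtain ⟨b, hb, hr⟩ := hx
      obtain ⟨b', hb', hr'⟩ := hy
      exact ⟨b * b', mul_mem hb hb', hr.mul hr'⟩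
    | inv x _ hx =>
      obtain ⟨b, hb, hr⟩ := hx
      exact ⟨b⁻¹, inv_mem hb, hr.inv⟩
  choose f hf hrel using fun a : ↥A => h1 a a.2
  let φ : ↥A →* ↥B := MonoidHom.mk' (fun a => ⟨f a, hf a⟩) (by
    intro a a'
    apply Subtype.ext
    exact IncRel.unique hrow (hrel (a * a')) ((hrel a).mul (hrel a')))
  refine ⟨φ, ?_, hrel⟩
  rintro ⟨b, hb⟩
  obtain ⟨a, ha, hr⟩ := h2 b hb
  exact ⟨⟨a, ha⟩, Subtype.ext (IncRel.unique hrow (hrel ⟨a, ha⟩) hr)⟩

end inc

section count

/-- Counting by a map whose fibres are in cosets. -/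
theorem card_le_of_fibers {D : Type*} [Group D] [Finite D] (H : Subgroup D) {X : Type*} [Fintype X] (f : D → X)
    (hf : ∀ a b, f a = f b → a⁻¹ * b ∈ H) : Nat.card D ≤ Fintype.card X * Nat.card H := by
  have h1 := Subgroup.card_mul_index H
  have h2 : H.index ≤ Fintype.card X := by
    rw [Subgroup.index, ← Nat.card_eq_fintype_card]
    apply Nat.card_le_card_of_injective (fun q : D ⧸ H => f q.out)
    intro q q' e
    have := hf _ _ e
    rw [← QuotientGroup.out_eq' q, ← QuotientGroup.out_eq' q']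
    exact (QuotientGroup.eq).2 this
  calc Nat.card D = Nat.card H * H.index := h1.symm
    _ ≤ Nat.card H * Fintype.card X := Nat.mul_le_mul_left _ h2
    _ = _ := mul_comm _ _

end count

section final

variable {Γ P : Type*} [Group Γ] [Group P]

/-- A lower bound from an element not centralising. -/
theorem two_mul_le [Finite Γ] {H : Subgroup Γ} {ν t : Γ} (hc : ∀ x ∈ H, x * ν = ν * x) (ht : t * ν ≠ ν * t) :
    2 * Nat.card H ≤ Nat.card Γ := by
  set C : Subgroup Γ := centralizer ({ν} : Set Γ) with hC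
  have h1 : H ≤ C := fun x hx => mem_centralizer_singleton_iff.2 (hc x hx)
  have h2 : Nat.card H ≤ Nat.card C := Subgroup.card_le_of_le h1
  have h3 := Subgroup.card_mul_index C
  have h4 : C.index ≠ 1 := by
    intro h
    have : C = ⊤ := Subgroup.index_eq_one.1 h
    have ht' : t ∈ C := by rw [this]; trivial
    exact ht (mem_centralizer_singleton_iff.1 ht')
  have h5 : C.index ≠ 0 := Subgroup.index_ne_zero_of_finite
  have h6 : 2 ≤ C.index := by omega
  calc 2 * Nat.card H ≤ 2 * Nat.card C := Nat.mul_le_mul_left _ h2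
    _ ≤ C.index * Nat.card C := Nat.mul_le_mul_right _ h6
    _ = Nat.card Γ := by rw [mul_comm]; exact h3

/-- The structure of a group with a subgroup of index two centralising an element of order three. -/
theorem dichotomy [Finite Γ] {H : Subgroup Γ} {ν t : Γ} (hidx : H.index = 2) (hc : ∀ x ∈ H, x * ν = ν * x) (htH : t ∉ H)
    (ht : t * ν * t⁻¹ = ν⁻¹) (x : Γ) (hx : x ∉ H) : x * ν * x⁻¹ = ν⁻¹ := by
  have hnorm : H.Normal := Subgroup.normal_of_index_eq_two hidx
  have h1 : x⁻¹ * t ∈ H := by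
    have := Subgroup.mul_mem_iff_of_index_two (H := H) hidx (a := x⁻¹) (b := t)
    rw [this]
    simp [hx, htH]
  have h2 : (x⁻¹ * t) * ν = ν * (x⁻¹ * t) := hc _ h1
  have h3 : ν * x⁻¹ = x⁻¹ * t * ν * t⁻¹ := by
    rw [h2]
    group
  calc x * ν * x⁻¹ = x * (ν * x⁻¹) := by group
    _ = x * (x⁻¹ * t * ν * t⁻¹) := by rw [h3]
    _ = t * ν * t⁻¹ := by group
    _ = ν⁻¹ := ht

/-- No normal 2-subgroups. -/
theorem no_normal_two_of [Finite Γ] [Finite P] [IsSimpleGroup P] {H : Subgroup Γ} {ν t : Γ} (hidx : H.index = 2)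
    (hc : ∀ x ∈ H, x * ν = ν * x) (htH : t ∉ H) (ht : t * ν * t⁻¹ = ν⁻¹) (hν3 : ν ^ 3 = 1) (hν1 : ν ≠ 1)
    (φ : ↥H →* P) (hφ : Function.Surjective φ) (hker : ∀ x : ↥H, φ x = 1 → (x : Γ) ∈ zpowers ν)
    (hP : ∀ k : ℕ, Nat.card P ≠ 2 ^ k) (W : Subgroup Γ) (hW : W.Normal) (h2 : IsPGroup 2 W) : W = ⊥ := by
  have h23 : ∀ u ∈ W, u ^ 3 = 1 → u = 1 := by
    intro u hu h3
    obtain ⟨k, hk⟩ := h2 ⟨u, hu⟩
    have hk' : u ^ (2 ^ k) = 1 := congrArg Subtype.val hk
    have hg : Nat.gcd (2 ^ k) 3 = 1 := Nat.Coprime.pow_left k (by norm_num)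
    have := pow_gcd_eq_one.2 ⟨hk', h3⟩
    rwa [hg, pow_one] at this
  have hWH : W ≤ H := by
    intro w hw
    by_contra hwH
    have e := dichotomy hidx hc htH ht w hwH
    have hm : w * ν * w⁻¹ * ν⁻¹ ∈ W := by
      have h5 : ν * w⁻¹ * ν⁻¹ ∈ W := hW.conj_mem _ (inv_mem hw) ν
      have : w * ν * w⁻¹ * ν⁻¹ = w * (ν * w⁻¹ * ν⁻¹) := by group
      rw [this]
      exact mul_mem hw h5
    rw [e] at hm
    have e2 : ν⁻¹ * ν⁻¹ = ν := by
      have : ν * (ν * ν) = 1 := by
        rw [← hν3, pow_succ, pow_two, mul_assoc]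
      have h6 : ν * ν = ν⁻¹ := by
        rw [eq_inv_iff_mul_eq_one]
        rw [← this]
        group
      rw [← h6]
      calc ν * ν * (ν * ν) = (ν * (ν * ν)) * ν := by group
        _ = ν := by rw [this, one_mul]
    rw [e2] at hm
    exact hν1 (h23 ν hm hν3)
  let W₁ : Subgroup ↥H := W.subgroupOf H
  have hW₁ : W₁.Normal := by
    constructor
    rintro ⟨a, ha⟩ ha' ⟨g, hg⟩
    exact hW.conj_mem a ha' g
  have hm : (W₁.map φ).Normal := Subgroup.Normal.map hW₁ φ hφ
  rcases hm.eq_bot_or_eq_top with h | h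
  · rw [eq_bot_iff]
    intro w hw
    have hwH := hWH hw
    have h4 : φ ⟨w, hwH⟩ ∈ W₁.map φ := ⟨⟨w, hwH⟩, hw, rfl⟩
    rw [h, Subgroup.mem_bot] at h4
    obtain ⟨k, hk⟩ := mem_zpowers_iff.1 (hker ⟨w, hwH⟩ h4)
    have hk' : ν ^ k = w := hk
    have h5 : w ^ 3 = 1 := by
      rw [← hk', ← zpow_natCast, ← zpow_mul, mul_comm, zpow_mul, zpow_natCast, hν3, one_zpow]
    exact (Subgroup.mem_bot).2 (h23 w hw h5)
  · exfalso
    have hpg : IsPGroup 2 W₁ := by
      rintro ⟨⟨a, ha⟩, ha'⟩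
      obtain ⟨k, hk⟩ := h2 ⟨a, ha'⟩
      have hk' : a ^ (2 ^ k) = 1 := congrArg Subtype.val hk
      exact ⟨k, Subtype.ext (Subtype.ext hk')⟩
    have h6 : IsPGroup 2 (W₁.map φ) := hpg.map φ
    rw [h] at h6
    have h7 : IsPGroup 2 P := by
      intro g
      obtain ⟨k, hk⟩ := h6 ⟨g, trivial⟩
      exact ⟨k, congrArg Subtype.val hk⟩
    obtain ⟨k, hk⟩ := IsPGroup.iff_card.1 h7
    exact hP k hk

/-- Passing to a group mapping onto. -/
theorem transfer_fischer {X : Type*} [Group X] [Finite X] (f : X →* Γ) (hf : Function.Surjective f) {H : Subgroup Γ} {ν : Γ}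
    [Finite Γ] (hν : ν ∈ H) (hidx : H.index = 2) (hn : (zpowers ν).Normal) (hc3 : Nat.card (zpowers ν) = 3)
    (φ : ↥H →* P) (hφ : Function.Surjective φ) (hker : ∀ x : ↥H, φ x = 1 ↔ (x : Γ) ∈ zpowers ν) :
    ∃ (N M : Subgroup X) (_ : N.Normal) (_ : M.Normal), f.ker ≤ N ∧ N ≤ M ∧ Nat.card N = 3 * Nat.card f.ker ∧
      Nonempty (↥M ⧸ N.subgroupOf M ≃* P) ∧ M.index = 2 := by
  set N : Subgroup X := (zpowers ν).comap f with hN
  set M : Subgroup X := H.comap f with hM
  have hHn : H.Normal := Subgroup.normal_of_index_eq_two hidx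
  have hNM : N ≤ M := by
    intro x hx
    have h1 : f x ∈ zpowers ν := hx
    have h2 : zpowers ν ≤ H := by
      rw [zpowers_le]
      exact hν
    exact h2 h1
  have hMidx : M.index = 2 := by
    rw [hM, Subgroup.index_comap_of_surjective _ hf, hidx]
  have hcN : Nat.card N = 3 * Nat.card f.ker := by
    have e1 := Subgroup.card_mul_index N
    have e2 := Subgroup.card_mul_index f.ker
    have e3 : N.index = (zpowers ν).index := Subgroup.index_comap_of_surjective _ hf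
    have e4 : f.ker.index = Nat.card Γ := by
      rw [Subgroup.index_ker, MonoidHom.range_eq_top.2 hf, Subgroup.card_top]
    have e5 := Subgroup.card_mul_index (zpowers ν)
    rw [hc3] at e5
    rw [e3] at e1
    rw [e4, ← e5] at e2
    have hpos : (zpowers ν).index ≠ 0 := Subgroup.index_ne_zero_of_finite
    apply Nat.eq_of_mul_eq_mul_right (Nat.pos_of_ne_zero hpos)
    rw [e1, ← e2]
    ring
  let f₁ : ↥M →* ↥H := (f.comp M.subtype).codRestrict H (fun x => x.2)
  have hf₁ : Function.Surjective f₁ := by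
    rintro ⟨y, hy⟩
    obtain ⟨x, rfl⟩ := hf y
    exact ⟨⟨x, hy⟩, rfl⟩
  let g : ↥M →* P := φ.comp f₁
  have hg : Function.Surjective g := hφ.comp hf₁
  have hgk : N.subgroupOf M = g.ker := by
    ext x
    rw [MonoidHom.mem_ker, Subgroup.mem_subgroupOf]
    show f x ∈ zpowers ν ↔ φ (f₁ x) = 1
    rw [hker]
    rfl
  refine ⟨N, M, Subgroup.Normal.comap hn f, Subgroup.Normal.comap hHn f, ?_, hNM, hcN, ?_, hMidx⟩
  · intro x hx
    have : f x = 1 := hx
    show f x ∈ zpowers ν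
    rw [this]
    exact one_mem _
  · exact ⟨(QuotientGroup.quotientMulEquivOfEq hgk).trans (QuotientGroup.quotientKerEquivOfSurjective g hg)⟩

end final

end Cfsg.Agent.Lib.Sporadic.LeechCenGrp
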