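import Mathlib
import Cfsg.Agent.Lib.Sporadic.LeechEnum
import Cfsg.Agent.Lib.Sporadic.LeechOrbits

/-!
# Orbits of stabilisers in `Co0` on sets of minimal vectors, by explicit trees

A tree of generators starting from a root produces a list of lattice vectors in one orbit of a
subgroup; distinctness is certified with a search tree of codes of the vectors.  When the list is as
long as an invariant finite set containing the root, the set is a single orbit.
-/

set_option autoImplicit false

namespace Cfsg.Agent.Lib.Sporadic.LeechTree

open Cfsg Cfsg.Agent.Lib.Sporadic.GolayCore Cfsg.Agent.Lib.Sporadic.LeechBasic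
  Cfsg.Agent.Lib.Sporadic.LeechNorm Cfsg.Agent.Lib.Sporadic.LeechFacts
  Cfsg.Agent.Lib.Sporadic.LeechAut Cfsg.Agent.Lib.Sporadic.LeechMat
  Cfsg.Agent.Lib.Sporadic.LeechOrb Cfsg.Agent.Lib.Sporadic.LeechShape
  Cfsg.Agent.Lib.Sporadic.LeechKey Cfsg.Agent.Lib.Sporadic.LeechMin
  Cfsg.Agent.Lib.Sporadic.LeechA0 Cfsg.Agent.Lib.Sporadic.LeechEnum
  Cfsg.Agent.Lib.Sporadic.M24Chain Cfsg.Agent.Lib.Sporadic.M24Tbl

/-! ### Search trees of natural numbers -/

/-- A binary tree of natural numbers. -/
inductive BST where
  | leaf : BST
  | node : BST → ℕ → BST → BST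

/-- Search for a number. -/
def BST.has : BST → ℕ → Bool
  | .leaf, _ => false
  | .node l x r, k => bif Nat.blt k x then l.has k else bif Nat.blt x k then r.has k else true

/-- Insertion of a number. -/
def BST.ins : BST → ℕ → BST
  | .leaf, k => .node .leaf k .leaf
  | .node l x r, k =>
    bif Nat.blt k x then .node (l.ins k) x r else bif Nat.blt x k then .node l x (r.ins k) else .node l x r

theorem BST.has_ins (t : BST) (k j : ℕ) : (t.ins k).has j = (Nat.beq j k || t.has j) := by
  induction t with
  | leaf =>
    simp only [BST.ins, BST.has]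
    rcases lt_trichotomy j k with h | h | h
    · have h1 : Nat.blt j k = true := by simpa [Nat.blt_eq] using h
      have h2 : Nat.beq j k = false := by
        rw [← Bool.not_eq_true, Nat.beq_eq]; omega
      simp [h1, h2]
    · subst h
      have h1 : Nat.blt j j = false := by
        rw [← Bool.not_eq_true, Nat.blt_eq]; omega
      simp [h1]
    · have h1 : Nat.blt j k = false := by
        rw [← Bool.not_eq_true, Nat.blt_eq]; omega
      have h2 : Nat.beq j k = false := by
        rw [← Bool.not_eq_true, Nat.beq_eq]; omega
      have h3 : Nat.blt k j = true := by simpa [Nat.blt_eq] using h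
      simp [h1, h2, h3]
  | node l x r ihl ihr =>
    have hb : ∀ a b : ℕ, Nat.blt a b = decide (a < b) := by
      intro a b
      by_cases h : a < b
      · simp [h, Nat.blt_eq]
      · have : Nat.blt a b = false := by
          rw [← Bool.not_eq_true, Nat.blt_eq]; exact h
        simp [h, this]
    have hq : ∀ a b : ℕ, Nat.beq a b = decide (a = b) := by
      intro a b
      by_cases h : a = b
      · simp [h]
      · have : Nat.beq a b = false := by
          rw [← Bool.not_eq_true, Nat.beq_eq]; exact h
        simp [h, this]
    simp only [BST.ins, hb]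
    by_cases h1 : k < x
    · simp only [h1, decide_true, cond_true, BST.has, hb, ihl, hq]
      by_cases h2 : j < x
      · simp [h2]
      · by_cases h3 : x < j
        · have : j ≠ k := by omega
          simp [h2, h3, this]
        · have : j ≠ k := by omega
          simp [h2, h3, this]
    · by_cases h1' : x < k
      · simp only [h1, h1', decide_true, decide_false, cond_true, cond_false, BST.has, hb, ihr, hq]
        by_cases h2 : j < x
        · have : j ≠ k := by omega
          simp [h2, this]
        · by_cases h3 : x < j
          · simp [h2, h3]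
          · have : j ≠ k := by omega
            simp [h2, h3, this]
      · have hkx : k = x := by omega
        subst hkx
        simp only [h1, decide_false, cond_false, BST.has, hb, hq]
        by_cases h2 : j < k
        · have : j ≠ k := by omega
          simp [h2, this]
        · by_cases h3 : k < j
          · have : j ≠ k := by omega
            simp [h2, h3, this]
          · have : j = k := by omega
            simp [this]

/-! ### Codes of vectors -/

/-- A code of a list vector: only depends on the first 24 coordinates. -/
def codeL (l : List ℤ) : ℕ :=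
  (List.range 24).foldl (fun acc i => Nat.add (Nat.mul acc 17) (l.getD i 0 + 8).toNat) 0

/-- The same code on functions. -/
def codeV (x : GolayPt → ℤ) : ℕ :=
  (List.range 24).foldl (fun acc i => Nat.add (Nat.mul acc 17) (x (pt i) + 8).toNat) 0

theorem codeL_eq (l : List ℤ) : codeL l = codeV (vecOf l) := by
  unfold codeL codeV
  apply List.foldl_ext
  intro a i hi
  have : vecOf l (pt i) = l.getD i 0 := by
    unfold vecOf
    rw [idx_pt (List.mem_range.1 hi)]
  rw [this]

/-- An element of the subgroup with a known action. -/
theorem acts_sameIn {K : Subgroup Co0} {g : Co0} {f : List ℤ → List ℤ} (h : Acts g f) (hg : g ∈ K)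
    (l : List ℤ) (hl : vecOf l ∈ leechLattice) : SameIn K (vecOf l) (vecOf (f l)) :=
  ⟨hl, h.mem hl, g, hg, h.smul hl (h.mem hl)⟩

/-! ### Running a tree -/

/-- Walks through a tree given by a sequence of pairs (number of elements to pop, generator). -/
def runT (gens : List (List ℤ → List ℤ)) : ℕ → ℕ → List (List ℤ) → BST → Bool
  | 0, _, _, _ => true
  | fuel + 1, c, st, t =>
    match st.drop (c % 32) with
    | [] => false
    | top :: rest =>
      let new := (gens.getD (c / 32 % 16) id) top
      bif t.has (codeL new) then false
      else runT gens fuel (c / 512) (new :: top :: rest) (t.ins (codeL new))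

theorem runT_sound {K : Subgroup Co0} {gens : List (List ℤ → List ℤ)}
    (H : ∀ f ∈ gens, ∀ l, vecOf l ∈ leechLattice → SameIn K (vecOf l) (vecOf (f l)))
    (R : GolayPt → ℤ) (fuel c : ℕ) (st : List (List ℤ)) (t : BST)
    (h : runT gens fuel c st t = true) (hst : ∀ l ∈ st, SameIn K R (vecOf l)) :
    ∃ O : List (List ℤ), O.length = fuel ∧ (∀ l ∈ O, SameIn K R (vecOf l)) ∧
      (O.map codeL).Nodup ∧ ∀ l ∈ O, t.has (codeL l) = false := by
  induction fuel generalizing c st t with
  | zero => exact ⟨[], rfl, by simp, by simp, by simp⟩
  | succ fuel ih =>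
    simp only [runT] at h
    cases hd : st.drop (c % 32) with
    | nil =>
      rw [hd] at h
      simp at h
    | cons top rest =>
      rw [hd] at h
      simp only at h
      have hsub : ∀ l ∈ top :: rest, l ∈ st := fun l hl => by
        rw [← hd] at hl
        exact List.mem_of_mem_drop hl
      have htop := hst top (hsub top (by simp))
      set new := (gens.getD (c / 32 % 16) id) top with hnew
      have hnewS : SameIn K R (vecOf new) := by
        by_cases hk : c / 32 % 16 < gens.length
        · have h1 : gens.getD (c / 32 % 16) id ∈ gens := by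
            rw [List.getD_eq_getElem _ _ hk]
            exact List.getElem_mem hk
          exact htop.trans (H _ h1 _ htop.right_mem)
        · have h1 : new = top := by
            rw [hnew, List.getD_eq_default _ _ (by omega)]
            rfl
          rw [h1]
          exact htop
      cases hq : t.has (codeL new) with
      | true =>
        rw [hq] at h
        simp at h
      | false =>
        rw [hq] at h
        simp only [cond_false] at h
        obtain ⟨O, h1, h2, h3, h4⟩ := ih (c / 512) (new :: top :: rest) (t.ins (codeL new)) h (by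
          intro l hl
          rcases List.mem_cons.1 hl with rfl | hl
          · exact hnewS
          · exact hst l (hsub l hl))
        refine ⟨new :: O, by simp [h1], ?_, ?_, ?_⟩
        · intro l hl
          rcases List.mem_cons.1 hl with rfl | hl
          · exact hnewS
          · exact h2 l hl
        · rw [List.map_cons, List.nodup_cons]
          refine ⟨?_, h3⟩
          intro hmem
          obtain ⟨l, hl, e⟩ := List.mem_map.1 hmem
          have h5 := h4 l hl
          rw [BST.has_ins, e] at h5
          simp at h5
        · intro l hl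
          rcases List.mem_cons.1 hl with rfl | hl
          · exact hq
          · have h5 := h4 l hl
            rw [BST.has_ins] at h5
            simp only [Bool.or_eq_false_iff] at h5
            exact h5.2

/-- The list of vectors of a tree. -/
theorem tree_list {K : Subgroup Co0} {gens : List (List ℤ → List ℤ)}
    (H : ∀ f ∈ gens, ∀ l, vecOf l ∈ leechLattice → SameIn K (vecOf l) (vecOf (f l)))
    {root : List ℤ} (hr : vecOf root ∈ leechLattice) {fuel c : ℕ}
    (h : runT gens fuel c [root] (BST.leaf.ins (codeL root)) = true) :
    ∃ O : List (GolayPt → ℤ), O.length = fuel + 1 ∧ (∀ x ∈ O, SameIn K (vecOf root) x) ∧ O.Nodup := by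
  obtain ⟨O, h1, h2, h3, h4⟩ := runT_sound H (vecOf root) fuel c [root] _ h (by
    intro l hl
    rw [List.mem_singleton] at hl
    subst hl
    exact SameIn.refl hr)
  refine ⟨(root :: O).map vecOf, by simp [h1], ?_, ?_⟩
  · intro x hx
    obtain ⟨l, hl, rfl⟩ := List.mem_map.1 hx
    rcases List.mem_cons.1 hl with rfl | hl
    · exact SameIn.refl hr
    · exact h2 l hl
  · apply List.Nodup.of_map codeV
    rw [List.map_map]
    have e : (codeV ∘ vecOf) = codeL := by
      funext l
      exact (codeL_eq l).symm
    rw [e, List.map_cons, List.nodup_cons]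
    refine ⟨?_, h3⟩
    intro hmem
    obtain ⟨l, hl, e'⟩ := List.mem_map.1 hmem
    have h5 := h4 l hl
    rw [BST.has_ins, e'] at h5
    simp at h5

/-- An invariant set of the size of a tree is an orbit. -/
theorem orbit_of_tree {K : Subgroup Co0} {gens : List (List ℤ → List ℤ)}
    (H : ∀ f ∈ gens, ∀ l, vecOf l ∈ leechLattice → SameIn K (vecOf l) (vecOf (f l)))
    {root : List ℤ} (hr : vecOf root ∈ leechLattice) {fuel c : ℕ}
    (h : runT gens fuel c [root] (BST.leaf.ins (codeL root)) = true)
    (S : Set (GolayPt → ℤ)) (hS : S.ncard = fuel + 1) (hrS : vecOf root ∈ S)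
    (hinv : ∀ x, SameIn K (vecOf root) x → x ∈ S) :
    ∀ x ∈ S, SameIn K (vecOf root) x := by
  classical
  obtain ⟨O, h1, h2, h3⟩ := tree_list H hr h
  have hfin : S.Finite := Set.finite_of_ncard_pos (by omega)
  have hsub : (O.toFinset : Set (GolayPt → ℤ)) ⊆ S := by
    intro x hx
    exact hinv x (h2 x (List.mem_toFinset.1 (Finset.mem_coe.1 hx)))
  have hcard : (O.toFinset : Set (GolayPt → ℤ)).ncard = S.ncard := by
    rw [Set.ncard_coe_finset, List.toFinset_card_of_nodup h3, h1, hS]
  have heq := Set.eq_of_subset_of_ncard_le hsub hcard.ge hfin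
  intro x hx
  rw [← heq] at hx
  exact h2 x (List.mem_toFinset.1 (Finset.mem_coe.1 hx))

/-! ### Counting by inner products -/

/-- Inner product of a list vector with a vector given by a function with offset `4`. -/
def dotL : List ℤ → ℕ → (ℕ → ℕ) → ℤ
  | [], _, _ => 0
  | a :: as, s, y => Int.add (Int.mul a (Int.sub (Int.ofNat (y s)) 4)) (dotL as (s + 1) y)

theorem dotL_eq_range (b : List ℤ) (s : ℕ) (y : ℕ → ℕ) :
    dotL b s y = ((List.range b.length).map fun i => b.getD i 0 * ((y (s + i) : ℤ) - 4)).sum := by
  induction b generalizing s with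
  | nil => simp [dotL]
  | cons a as ih =>
    simp only [dotL, List.length_cons]
    rw [List.range_succ_eq_map, List.map_cons, List.sum_cons, List.map_map, ih (s + 1)]
    show a * ((y s : ℤ) - 4) + _ = _
    congr 1
    apply congrArg
    apply List.map_congr_left
    intro i _
    simp only [Function.comp_apply, Nat.succ_eq_add_one]
    have e : s + 1 + i = s + (i + 1) := by omega
    rw [e]
    simp

/-- Inner products with a vector of the form `vecOf b`. -/
theorem dotL_eq (b : List ℤ) (hb : b.length = 24) (y : ℕ → ℕ) :
    dotL b 0 y = dotInt (vecOf b) (vecF y) := by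
  rw [dotL_eq_range, hb]
  have := sum_golayPt (fun i => b.getD i 0 * ((y (0 + i) : ℤ) - 4))
  rw [← this]
  unfold dotInt
  refine Finset.sum_congr rfl fun p _ => ?_
  simp [vecOf, vecF]

/-- A list of conditions on inner products. -/
def condsP (C : List (List ℤ × ℤ)) (y : ℕ → ℕ) : Bool :=
  C.all fun bt => decide (dotL bt.1 0 y = bt.2)

/-- The set of vectors with prescribed inner products. -/
def condsQ (C : List (List ℤ × ℤ)) (w : GolayPt → ℤ) : Prop :=
  ∀ bt ∈ C, dotInt (vecOf bt.1) w = bt.2

theorem condsP_iff (C : List (List ℤ × ℤ)) (hC : ∀ bt ∈ C, bt.1.length = 24) (y : ℕ → ℕ) :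
    condsP C y = true ↔ condsQ C (vecF y) := by
  unfold condsP condsQ
  rw [List.all_eq_true]
  refine forall_congr' fun bt => imp_congr_right fun hbt => ?_
  rw [← dotL_eq _ (hC bt hbt), decide_eq_true_eq]

theorem ncard_conds (C : List (List ℤ × ℤ)) (hC : ∀ bt ∈ C, bt.1.length = 24) :
    {w : GolayPt → ℤ | w ∈ leechLattice ∧ sqNorm w = 32 ∧ condsQ C w}.ncard = cntP (condsP C) := by
  rw [← countP_allMinF]
  exact ncard_of_P _ _ (condsP_iff C hC)

end Cfsg.Agent.Lib.Sporadic.LeechTree
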