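import Mathlib
import Cfsg.Agent.Lib.Sporadic.LeechTree

/-!
# More on orbits of stabilisers in `Co0`
-/

set_option autoImplicit false

namespace Cfsg.Agent.Lib.Sporadic.LeechTree

open Cfsg Cfsg.Agent.Lib.Sporadic.GolayCore Cfsg.Agent.Lib.Sporadic.LeechBasic
  Cfsg.Agent.Lib.Sporadic.LeechNorm Cfsg.Agent.Lib.Sporadic.LeechFacts
  Cfsg.Agent.Lib.Sporadic.LeechAut Cfsg.Agent.Lib.Sporadic.LeechMat
  Cfsg.Agent.Lib.Sporadic.LeechOrb Cfsg.Agent.Lib.Sporadic.LeechShape
  Cfsg.Agent.Lib.Sporadic.LeechKey Cfsg.Agent.Lib.Sporadic.LeechMin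
  Cfsg.Agent.Lib.Sporadic.LeechA0 Cfsg.Agent.Lib.Sporadic.LeechEnum
  Cfsg.Agent.Lib.Sporadic.M24Chain Cfsg.Agent.Lib.Sporadic.M24Tbl

/-- Inner product of list vectors, for the kernel. -/
def dotLL (a b : List ℤ) : ℤ := ((List.range 24).map fun i => a.getD i 0 * b.getD i 0).sum

theorem dotInt_vecOf (a b : List ℤ) : dotInt (vecOf a) (vecOf b) = dotLL a b := by
  unfold dotInt dotLL
  rw [← sum_golayPt]
  rfl

theorem _root_.Cfsg.Agent.Lib.Sporadic.LeechShape.SameIn.dot_eq {K : Subgroup Co0} {U : leechLattice} (hK : K ≤ MulAction.stabilizer Co0 U)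
    {x y : GolayPt → ℤ} (h : SameIn K x y) : dotInt (U : GolayPt → ℤ) y = dotInt (U : GolayPt → ℤ) x := by
  obtain ⟨hx, hy, g, hg, e⟩ := h
  have h1 : g • U = U := hK hg
  have h2 := co0_dotInt g U ⟨x, hx⟩
  rw [h1, e] at h2
  exact h2

theorem _root_.Cfsg.Agent.Lib.Sporadic.LeechShape.SameIn.norm_eq {K : Subgroup Co0} {x y : GolayPt → ℤ} (h : SameIn K x y) : sqNorm y = sqNorm x := by
  obtain ⟨hx, hy, g, hg, e⟩ := h
  have h2 := co0_sqNorm g ⟨x, hx⟩
  rw [e] at h2
  exact h2

/-- The count of a subset of the lattice, in terms of functions. -/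
theorem ncard_sub (P : (GolayPt → ℤ) → Prop) :
    {x : leechLattice | P (x : GolayPt → ℤ)}.ncard = {w : GolayPt → ℤ | w ∈ leechLattice ∧ P w}.ncard := by
  rw [← Set.ncard_image_of_injective _ Subtype.val_injective]
  congr 1
  ext w
  constructor
  · rintro ⟨x, hx, rfl⟩
    exact ⟨x.2, hx⟩
  · rintro ⟨h1, h2⟩
    exact ⟨⟨w, h1⟩, h2, rfl⟩

/-- Elements of the orbit on the lattice. -/
theorem _root_.Cfsg.Agent.Lib.Sporadic.LeechShape.SameIn.exists_smul' {K : Subgroup Co0} {x y : GolayPt → ℤ} (h : SameIn K x y) (a b : leechLattice)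
    (ha : (a : GolayPt → ℤ) = x) (hb : (b : GolayPt → ℤ) = y) : ∃ g ∈ K, g • a = b := by
  obtain ⟨hx, hy, g, hg, e⟩ := h
  refine ⟨g, hg, ?_⟩
  have h1 : a = ⟨x, hx⟩ := Subtype.ext ha
  have h2 : b = ⟨y, hy⟩ := Subtype.ext hb
  rw [h1, h2, e]

theorem dotInt_add_right {α : Type*} [Fintype α] (u v w : α → ℤ) : dotInt u (v + w) = dotInt u v + dotInt u w := by
  unfold dotInt
  rw [← Finset.sum_add_distrib]
  apply Finset.sum_congr rfl
  intro i _
  simp only [Pi.add_apply]
  ring

theorem dotInt_self {α : Type*} [Fintype α] (u : α → ℤ) : dotInt u u = sqNorm u := by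
  unfold dotInt sqNorm
  apply Finset.sum_congr rfl
  intro i _
  ring

/-- The subgroup fixes the vectors of the conditions. -/
def FixesC (K : Subgroup Co0) (C : List (List ℤ × ℤ)) : Prop :=
  ∀ bt ∈ C, ∃ hb : vecOf bt.1 ∈ leechLattice, K ≤ MulAction.stabilizer Co0 (⟨vecOf bt.1, hb⟩ : leechLattice)

/-- A set given by inner products, of the size of a tree, is an orbit. -/
theorem orbit_conds {K : Subgroup Co0} {gens : List (List ℤ → List ℤ)}
    (H : ∀ f ∈ gens, ∀ l, vecOf l ∈ leechLattice → SameIn K (vecOf l) (vecOf (f l)))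
    {root : List ℤ} (hr : vecOf root ∈ leechLattice) {fuel c : ℕ}
    (h : runT gens fuel c [root] (BST.leaf.ins (codeL root)) = true)
    {C : List (List ℤ × ℤ)} (hC : ∀ bt ∈ C, bt.1.length = 24) (hcnt : cntP (condsP C) = fuel + 1)
    (hn : normL root = 32) (hK : FixesC K C) (hroot : ∀ bt ∈ C, dotLL bt.1 root = bt.2) :
    ∀ x, x ∈ leechLattice → sqNorm x = 32 → condsQ C x → SameIn K (vecOf root) x := by
  have hrn : sqNorm (vecOf root) = 32 := by rw [sqNorm_vecOf, hn]
  have hrQ : condsQ C (vecOf root) := by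
    intro bt hbt
    rw [dotInt_vecOf, hroot bt hbt]
  intro x hx hxn hxQ
  refine orbit_of_tree H hr h {w : GolayPt → ℤ | w ∈ leechLattice ∧ sqNorm w = 32 ∧ condsQ C w} ?_
    ⟨hr, hrn, hrQ⟩ ?_ x ⟨hx, hxn, hxQ⟩
  · rw [ncard_conds C hC, hcnt]
  · intro y hy
    refine ⟨hy.right_mem, by rw [hy.norm_eq, hrn], ?_⟩
    intro bt hbt
    obtain ⟨hb, hle⟩ := hK bt hbt
    have h1 := hy.dot_eq hle
    have h2 : dotInt (vecOf bt.1) y = dotInt (vecOf bt.1) (vecOf root) := h1
    rw [h2]
    exact hrQ bt hbt

/-- Conjugation: transitivity transported. -/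
theorem trans_conj {P Q : leechLattice → Prop} {fix fix' : Co0 → Prop} (g : Co0)
    (hfix : ∀ h, fix' h → fix (g⁻¹ * h * g)) (hPQ : ∀ y, P y → Q (g • y))
    (hQ : ∀ y y', Q y → Q y' → ∃ h, fix' h ∧ h • y = y') :
    ∀ y y', P y → P y' → ∃ k, fix k ∧ k • y = y' := by
  intro y y' hy hy'
  obtain ⟨h, hh, e⟩ := hQ _ _ (hPQ y hy) (hPQ y' hy')
  refine ⟨g⁻¹ * h * g, hfix h hh, ?_⟩
  rw [mul_smul, mul_smul, e, inv_smul_smul]

/-- Elements of an orbit give elements of the subgroup. -/
theorem exists_of_orbit {K : Subgroup Co0} {r : GolayPt → ℤ} {a b : leechLattice}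
    (ha : SameIn K r (a : GolayPt → ℤ)) (hb : SameIn K r (b : GolayPt → ℤ)) : ∃ h ∈ K, h • a = b :=
  (ha.symm.trans hb).exists_smul' a b rfl rfl

/-- A variant of `runT` checking a predicate on each vector. -/
def runTP (p : List ℤ → Bool) (gens : List (List ℤ → List ℤ)) : ℕ → ℕ → List (List ℤ) → BST → Bool
  | 0, _, _, _ => true
  | fuel + 1, c, st, t =>
    match st.drop (c % 32) with
    | [] => false
    | top :: rest =>
      let new := (gens.getD (c / 32 % 16) id) top
      bif t.has (codeL new) then false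
      else bif p new then runTP p gens fuel (c / 512) (new :: top :: rest) (t.ins (codeL new))
      else false

theorem runTP_sound {K : Subgroup Co0} {gens : List (List ℤ → List ℤ)} {p : List ℤ → Bool}
    (H : ∀ f ∈ gens, ∀ l, vecOf l ∈ leechLattice → SameIn K (vecOf l) (vecOf (f l)))
    (R : GolayPt → ℤ) (fuel c : ℕ) (st : List (List ℤ)) (t : BST)
    (h : runTP p gens fuel c st t = true) (hst : ∀ l ∈ st, SameIn K R (vecOf l)) :
    ∃ O : List (List ℤ), O.length = fuel ∧ (∀ l ∈ O, SameIn K R (vecOf l)) ∧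
      (O.map codeL).Nodup ∧ (∀ l ∈ O, t.has (codeL l) = false) ∧ ∀ l ∈ O, p l = true := by
  induction fuel generalizing c st t with
  | zero => exact ⟨[], rfl, by simp, by simp, by simp, by simp⟩
  | succ fuel ih =>
    simp only [runTP] at h
    cases hd : st.drop (c % 32) with
    | nil =>
      rw [hd] at h
      simp at h
    | cons top rest =>
      rw [hd] at h
      simp only at h
      have hsub : ∀ l ∈ top :: rest, l ∈ st := fun l hl => by
        rw [← hd] at hl
        exact List.mem_of_mem_drop hl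
      have htop := hst top (hsub top (by simp))
      set new := (gens.getD (c / 32 % 16) id) top with hnew
      have hnewS : SameIn K R (vecOf new) := by
        by_cases hk : c / 32 % 16 < gens.length
        · have h1 : gens.getD (c / 32 % 16) id ∈ gens := by
            rw [List.getD_eq_getElem _ _ hk]
            exact List.getElem_mem hk
          exact htop.trans (H _ h1 _ htop.right_mem)
        · have h1 : new = top := by
            rw [hnew, List.getD_eq_default _ _ (by omega)]
            rfl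
          rw [h1]
          exact htop
      cases hq : t.has (codeL new) with
      | true =>
        rw [hq] at h
        simp at h
      | false =>
        rw [hq] at h
        simp only [cond_false] at h
        cases hpn : p new with
        | false =>
          rw [hpn] at h
          simp at h
        | true =>
          rw [hpn] at h
          simp only [cond_true] at h
          obtain ⟨O, h1, h2, h3, h4, h5⟩ := ih (c / 512) (new :: top :: rest) (t.ins (codeL new)) h (by
            intro l hl
            rcases List.mem_cons.1 hl with rfl | hl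
            · exact hnewS
            · exact hst l (hsub l hl))
          refine ⟨new :: O, by simp [h1], ?_, ?_, ?_, ?_⟩
          · intro l hl
            rcases List.mem_cons.1 hl with rfl | hl
            · exact hnewS
            · exact h2 l hl
          · rw [List.map_cons, List.nodup_cons]
            refine ⟨?_, h3⟩
            intro hmem
            obtain ⟨l, hl, e⟩ := List.mem_map.1 hmem
            have h6 := h4 l hl
            rw [BST.has_ins, e] at h6
            simp at h6
          · intro l hl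
            rcases List.mem_cons.1 hl with rfl | hl
            · exact hq
            · have h6 := h4 l hl
              rw [BST.has_ins] at h6
              simp only [Bool.or_eq_false_iff] at h6
              exact h6.2
          · intro l hl
            rcases List.mem_cons.1 hl with rfl | hl
            · exact hpn
            · exact h5 l hl

/-- A predicate verified along a tree holds on an invariant set of the size of the tree. -/
theorem forall_of_treeP {K : Subgroup Co0} {gens : List (List ℤ → List ℤ)} {p : List ℤ → Bool}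
    (H : ∀ f ∈ gens, ∀ l, vecOf l ∈ leechLattice → SameIn K (vecOf l) (vecOf (f l)))
    {root : List ℤ} (hr : vecOf root ∈ leechLattice) {fuel c : ℕ}
    (h : runTP p gens fuel c [root] (BST.leaf.ins (codeL root)) = true) (hp : p root = true)
    (S : Set (GolayPt → ℤ)) (hS : S.ncard = fuel + 1) (hrS : vecOf root ∈ S)
    (hinv : ∀ x, SameIn K (vecOf root) x → x ∈ S) :
    ∀ x ∈ S, ∃ l, x = vecOf l ∧ p l = true := by
  classical
  obtain ⟨O, h1, h2, h3, h4, h5⟩ := runTP_sound H (vecOf root) fuel c [root] _ h (by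
    intro l hl
    rw [List.mem_singleton] at hl
    subst hl
    exact SameIn.refl hr)
  have hnd : ((root :: O).map vecOf).Nodup := by
    apply List.Nodup.of_map codeV
    rw [List.map_map]
    have e : (codeV ∘ vecOf) = codeL := by
      funext l
      exact (codeL_eq l).symm
    rw [e, List.map_cons, List.nodup_cons]
    refine ⟨?_, h3⟩
    intro hmem
    obtain ⟨l, hl, e'⟩ := List.mem_map.1 hmem
    have h6 := h4 l hl
    rw [BST.has_ins, e'] at h6
    simp at h6
  have hfin : S.Finite := Set.finite_of_ncard_pos (by omega)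
  set F : Finset (GolayPt → ℤ) := ((root :: O).map vecOf).toFinset with hF
  have hsub : (F : Set (GolayPt → ℤ)) ⊆ S := by
    intro x hx
    obtain ⟨l, hl, rfl⟩ := List.mem_map.1 (List.mem_toFinset.1 (Finset.mem_coe.1 hx))
    rcases List.mem_cons.1 hl with rfl | hl
    · exact hrS
    · exact hinv _ (h2 l hl)
  have hcard : (F : Set (GolayPt → ℤ)).ncard = S.ncard := by
    rw [Set.ncard_coe_finset, hF, List.toFinset_card_of_nodup hnd, hS]
    simp [h1]
  have heq := Set.eq_of_subset_of_ncard_le hsub hcard.ge hfin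
  intro x hx
  rw [← heq] at hx
  obtain ⟨l, hl, rfl⟩ := List.mem_map.1 (List.mem_toFinset.1 (Finset.mem_coe.1 hx))
  refine ⟨l, rfl, ?_⟩
  rcases List.mem_cons.1 hl with rfl | hl
  · exact hp
  · exact h5 l hl

/-- A predicate verified along a tree holds on a set given by inner products. -/
theorem forall_conds {K : Subgroup Co0} {gens : List (List ℤ → List ℤ)} {p : List ℤ → Bool}
    (H : ∀ f ∈ gens, ∀ l, vecOf l ∈ leechLattice → SameIn K (vecOf l) (vecOf (f l)))
    {root : List ℤ} (hr : vecOf root ∈ leechLattice) {fuel c : ℕ}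
    (h : runTP p gens fuel c [root] (BST.leaf.ins (codeL root)) = true) (hp : p root = true)
    {C : List (List ℤ × ℤ)} (hC : ∀ bt ∈ C, bt.1.length = 24) (hcnt : cntP (condsP C) = fuel + 1)
    (hn : normL root = 32) (hK : FixesC K C) (hroot : ∀ bt ∈ C, dotLL bt.1 root = bt.2) :
    ∀ x, x ∈ leechLattice → sqNorm x = 32 → condsQ C x → ∃ l, x = vecOf l ∧ p l = true := by
  have hrn : sqNorm (vecOf root) = 32 := by rw [sqNorm_vecOf, hn]
  have hrQ : condsQ C (vecOf root) := by
    intro bt hbt
    rw [dotInt_vecOf, hroot bt hbt]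
  intro x hx hxn hxQ
  refine forall_of_treeP H hr h hp {w : GolayPt → ℤ | w ∈ leechLattice ∧ sqNorm w = 32 ∧ condsQ C w} ?_
    ⟨hr, hrn, hrQ⟩ ?_ x ⟨hx, hxn, hxQ⟩
  · rw [ncard_conds C hC, hcnt]
  · intro y hy
    refine ⟨hy.right_mem, by rw [hy.norm_eq, hrn], ?_⟩
    intro bt hbt
    obtain ⟨hb, hle⟩ := hK bt hbt
    have h1 := hy.dot_eq hle
    have h2 : dotInt (vecOf bt.1) y = dotInt (vecOf bt.1) (vecOf root) := h1
    rw [h2]
    exact hrQ bt hbt

/-- A matrix equal to its transpose is an involution (or trivial). -/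
theorem matCo0_sq_of_symm {M : List (List ℤ)} {D : ℤ} (hM : matCheck M D = true) (hs : transp M = M) :
    matCo0 hM * matCo0 hM = 1 := by
  have key : ∀ x : leechLattice, matCo0 hM • (matCo0 hM • x) = x := by
    intro x
    have h1 : (matCo0 hM).1.symm (matCo0 hM • x) = x := by
      show (matCo0 hM).1.symm ((matCo0 hM).1 x) = x
      exact Equiv.symm_apply_apply _ x
    have h2 : ∀ y : leechLattice, (matCo0 hM).1.symm y = matCo0 hM • y := by
      intro y
      apply Subtype.ext
      funext k
      show matAct (transp M) y k / D = matAct M y k / D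
      rw [hs]
    rw [← h2]
    exact h1
  apply Subtype.ext
  apply Equiv.ext
  intro x
  exact key x

/-- An orbit, from transitivity and invariance. -/
theorem orbit_eq_set {K : Subgroup Co0} {y : leechLattice} {S : Set leechLattice} (hy : y ∈ S)
    (h1 : ∀ k ∈ K, ∀ z ∈ S, k • z ∈ S) (h2 : ∀ z ∈ S, ∃ k ∈ K, k • y = z) :
    MulAction.orbit K y = S := by
  ext z
  constructor
  · rintro ⟨k, rfl⟩
    exact h1 k.1 k.2 y hy
  · intro hz
    obtain ⟨k, hk, e⟩ := h2 z hz
    exact ⟨⟨k, hk⟩, e⟩

/-- Minimal vectors with inner product 32 coincide. -/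
theorem eq_of_dot_32 {x y : leechLattice} (hx : sqNorm (x : GolayPt → ℤ) = 32) (hy : sqNorm (y : GolayPt → ℤ) = 32)
    (h : dotInt (x : GolayPt → ℤ) (y : GolayPt → ℤ) = 32) : x = y := by
  have h1 := sqNorm_add (x : GolayPt → ℤ) (-(y : GolayPt → ℤ))
  rw [sqNorm_neg, dotInt_neg_right, hx, hy, h] at h1
  have h2 : sqNorm ((x : GolayPt → ℤ) + -(y : GolayPt → ℤ)) = 0 := by
    rw [h1]
    norm_num
  have h3 := sqNorm_eq_zero _ h2
  apply Subtype.ext
  funext p
  have := congrFun h3 p
  simp only [Pi.add_apply, Pi.neg_apply, Pi.zero_apply] at this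
  omega

end Cfsg.Agent.Lib.Sporadic.LeechTree
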