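import Mathlib
import Cfsg.Agent.S0397
import Cfsg.Agent.S1573
import Cfsg.Agent.Lib.Sporadic.LeechOrbits
import Cfsg.Agent.Lib.Sporadic.LeechTree2

/-!
# Orders of stabilisers in the automorphism group of the lattice
-/

set_option autoImplicit false

namespace Cfsg.Agent.Lib.Sporadic.LeechOrders

open Cfsg Cfsg.Agent.Lib.Sporadic.LeechBasic
  Cfsg.Agent.Lib.Sporadic.LeechNorm Cfsg.Agent.Lib.Sporadic.LeechFacts
  Cfsg.Agent.Lib.Sporadic.LeechAut Cfsg.Agent.Lib.Sporadic.LeechClasses
  Cfsg.Agent.Lib.Sporadic.LeechA0 Cfsg.Agent.Lib.Sporadic.LeechTree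
open MulAction

abbrev V := GolayPt → ℤ

instance finite_Co0 : Finite Co0 :=
  Nat.finite_of_card_ne_zero (by rw [Cfsg.Agent.S0397.result]; norm_num)

/-- The stabiliser inside a subgroup. -/
def stabIn (A : Subgroup Co0) (x : leechLattice) : stabilizer A x ≃* ↥(A ⊓ stabilizer Co0 x) where
  toFun g := ⟨g.1.1, Subgroup.mem_inf.2 ⟨g.1.2, g.2⟩⟩
  invFun g := ⟨⟨g.1, (Subgroup.mem_inf.1 g.2).1⟩, (Subgroup.mem_inf.1 g.2).2⟩
  left_inv g := rfl
  right_inv g := rfl
  map_mul' g g' := rfl

/-- Orbit-stabiliser inside a subgroup. -/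
theorem card_inf_stab (A : Subgroup Co0) (x : leechLattice) (S : Set leechLattice) (hx : x ∈ S)
    (h1 : ∀ k ∈ A, ∀ z ∈ S, k • z ∈ S) (h2 : ∀ z ∈ S, ∃ k ∈ A, k • x = z) :
    Nat.card ↥(A ⊓ stabilizer Co0 x) * S.ncard = Nat.card A := by
  have h3 := (stabilizer A x).card_mul_index
  rw [index_stabilizer, orbit_eq_set hx h1 h2, Nat.card_congr (stabIn A x).toEquiv] at h3
  exact h3

theorem card_stab_top (x : leechLattice) (S : Set leechLattice) (hx : x ∈ S)
    (h1 : ∀ k : Co0, ∀ z ∈ S, k • z ∈ S) (h2 : ∀ z ∈ S, ∃ k : Co0, k • x = z) :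
    Nat.card (stabilizer Co0 x) * S.ncard = 8315553613086720000 := by
  have h3 := (stabilizer Co0 x).card_mul_index
  have e : orbit Co0 x = S := by
    ext z
    constructor
    · rintro ⟨k, rfl⟩
      exact h1 k x hx
    · intro hz
      obtain ⟨k, e⟩ := h2 z hz
      exact ⟨k, e⟩
  rw [index_stabilizer, e, Cfsg.Agent.S0397.result] at h3
  exact h3

theorem ncard_sphere (N : ℤ) : {x : leechLattice | sqNorm (x : V) = N}.ncard = (X N).card := by
  rw [← Set.ncard_coe_finset]
  congr 1
  ext x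
  simp [mem_X]

/-- The order of the stabiliser of a vector of norm 48. -/
theorem card_stab48 (v : leechLattice) (hv : sqNorm (v : V) = 48) :
    Nat.card (stabilizer Co0 v) = 495766656000 := by
  have h := card_stab_top v {x : leechLattice | sqNorm (x : V) = 48} hv
    (fun k z hz => (co0_sqNorm k z).trans hz)
    (fun z hz => Cfsg.Agent.Lib.Sporadic.LeechOrbits.co0_transitive_48 v z hv hz)
  rw [ncard_sphere, card_X48] at h
  omega

/-- The order of the stabiliser of a minimal vector. -/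
theorem card_stab32 (v : leechLattice) (hv : sqNorm (v : V) = 32) :
    Nat.card (stabilizer Co0 v) = 42305421312000 := by
  have h := card_stab_top v {x : leechLattice | sqNorm (x : V) = 32} hv
    (fun k z hz => (co0_sqNorm k z).trans hz)
    (fun z hz => Cfsg.Agent.Lib.Sporadic.LeechMin.co0_transitive_min v z hv hz)
  rw [ncard_sphere, card_X32] at h
  omega

/-- The order of the joint stabiliser of two minimal vectors of inner product `-8`. -/
theorem card_stab_m8 (v w : leechLattice) (hv : sqNorm (v : V) = 32) (hw : sqNorm (w : V) = 32)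
    (hd : dotInt (v : V) (w : V) = -8) :
    Nat.card ↥(stabilizer Co0 v ⊓ stabilizer Co0 w) = 898128000 := by
  have h := card_inf_stab (stabilizer Co0 v) w {x : leechLattice | sqNorm (x : V) = 32 ∧ dotInt (v : V) (x : V) = -8}
    ⟨hw, hd⟩
    (by
      rintro k hk z ⟨h1, h2⟩
      have hk' : k • v = v := hk
      refine ⟨(co0_sqNorm k z).trans h1, ?_⟩
      rw [← hk', co0_dotInt]
      exact h2)
    (by
      rintro z ⟨h1, h2⟩
      obtain ⟨k, hk1, hk2⟩ := co2_trans_m8 v w z hv hw h1 hd h2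
      exact ⟨k, hk1, hk2⟩)
  rw [card_stab32 v hv, ncard_sub (fun x => sqNorm x = 32 ∧ dotInt (v : V) x = -8)] at h
  have h2 := (Cfsg.Agent.S1573.result (v : V) v.2 hv).2.1
  rw [h2] at h
  omega

end Cfsg.Agent.Lib.Sporadic.LeechOrders
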