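import Mathlib

/-!
# Simplicity from an action with a simple point stabiliser

A finite group acting transitively, with a simple point stabiliser, known subdegrees excluding
non-trivial blocks and no regular normal subgroup, is simple.
-/

set_option autoImplicit false

namespace Cfsg.Agent.Lib.Sporadic.SimpleAct

open MulAction

/-- Sub-sums of a list. -/
def subSums : List ℕ → List ℕ
  | [] => [0]
  | n :: ns => subSums ns ++ (subSums ns).map (fun s => n + s)

theorem ncard_inter_mem_subSums {Ω : Type*} [Finite Ω] (S : Set Ω) :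
    ∀ L : List (Set Ω × ℕ), (L.map Prod.fst).Pairwise Disjoint → (∀ O ∈ L, O.1.ncard = O.2) →
      (∀ O ∈ L, S ∩ O.1 = ∅ ∨ O.1 ⊆ S) →
      (S ∩ {y | ∃ O ∈ L, y ∈ O.1}).ncard ∈ subSums (L.map Prod.snd) := by
  intro L
  induction L with
  | nil =>
    intro _ _ _
    simp [subSums]
  | cons O L ih =>
    intro h1 h2 h3
    simp only [List.map_cons, List.pairwise_cons] at h1
    have ih' := ih h1.2 (fun P hP => h2 P (List.mem_cons_of_mem _ hP))
      (fun P hP => h3 P (List.mem_cons_of_mem _ hP))
    have e : S ∩ {y | ∃ P ∈ O :: L, y ∈ P.1} = (S ∩ O.1) ∪ (S ∩ {y | ∃ P ∈ L, y ∈ P.1}) := by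
      ext y
      simp only [Set.mem_inter_iff, Set.mem_setOf_eq, List.mem_cons, Set.mem_union, exists_eq_or_imp]
      tauto
    have hd : Disjoint (S ∩ O.1) (S ∩ {y | ∃ P ∈ L, y ∈ P.1}) := by
      rw [Set.disjoint_left]
      rintro y ⟨-, hy⟩ ⟨-, P, hP, hyP⟩
      have := h1.1 P.1 (List.mem_map_of_mem hP)
      exact (Set.disjoint_left.1 this) hy hyP
    rw [e, Set.ncard_union_eq hd (Set.toFinite _) (Set.toFinite _)]
    simp only [List.map_cons, subSums, List.mem_append, List.mem_map]
    rcases h3 O (by simp) with h | h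
    · left
      rw [h]
      simpa using ih'
    · right
      refine ⟨_, ih', ?_⟩
      rw [Set.inter_eq_right.2 h, h2 O (by simp)]

variable {G Ω : Type*} [Group G] [MulAction G Ω]

/-- The orbits of a point stabiliser. -/
structure OrbitData (G : Type*) [Group G] {Ω : Type*} [MulAction G Ω] (a : Ω) (L : List (Set Ω × ℕ)) : Prop where
  pair : (L.map Prod.fst).Pairwise Disjoint
  card : ∀ O ∈ L, O.1.ncard = O.2
  nota : ∀ O ∈ L, a ∉ O.1
  cover : ∀ y, y = a ∨ ∃ O ∈ L, y ∈ O.1
  trans : ∀ O ∈ L, ∀ y ∈ O.1, ∀ y' ∈ O.1, ∃ h : G, h • a = a ∧ h • y = y'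

theorem ncard_invariant [Finite Ω] {a : Ω} {L : List (Set Ω × ℕ)} (D : OrbitData G a L) (S : Set Ω)
    (ha : a ∈ S) (hS : ∀ h : G, h • a = a → ∀ y ∈ S, h • y ∈ S) :
    ∃ s ∈ subSums (L.map Prod.snd), S.ncard = s + 1 := by
  refine ⟨_, ncard_inter_mem_subSums S L D.pair D.card ?_, ?_⟩
  · intro O hO
    by_cases h : S ∩ O.1 = ∅
    · exact Or.inl h
    · right
      obtain ⟨y, hy1, hy2⟩ := Set.nonempty_iff_ne_empty.2 h
      intro y' hy'
      obtain ⟨k, hk1, hk2⟩ := D.trans O hO y hy2 y' hy'
      rw [← hk2]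
      exact hS k hk1 y hy1
  · have e : S = {a} ∪ (S ∩ {y | ∃ O ∈ L, y ∈ O.1}) := by
      ext y
      simp only [Set.mem_union, Set.mem_singleton_iff, Set.mem_inter_iff, Set.mem_setOf_eq]
      constructor
      · intro hy
        rcases D.cover y with h | h
        · exact Or.inl h
        · exact Or.inr ⟨hy, h⟩
      · rintro (rfl | h)
        · exact ha
        · exact h.1
    conv_lhs => rw [e]
    rw [Set.union_comm, Set.ncard_union_eq _ (Set.toFinite _) (Set.toFinite _), Set.ncard_singleton]
    rw [Set.disjoint_left]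
    rintro y ⟨-, O, hO, hy⟩ rfl
    exact D.nota O hO hy

/-- A normal subgroup fixes the point or is transitive. -/
theorem normal_dichotomy [Finite G] [Finite Ω] [IsPretransitive G Ω] {a : Ω} {L : List (Set Ω × ℕ)}
    (D : OrbitData G a L)
    (hnum : ∀ s ∈ subSums (L.map Prod.snd), (s + 1) ∣ Nat.card Ω → s = 0 ∨ s + 1 = Nat.card Ω)
    (N : Subgroup G) [hN : N.Normal] : N ≤ stabilizer G a ∨ ∀ y, ∃ n ∈ N, n • a = y := by
  have hB : IsBlock G (orbit N a) := IsBlock.orbit_of_normal a
  have hmem : a ∈ orbit N a := mem_orbit_self a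
  have hd := hB.ncard_dvd_card ⟨a, hmem⟩
  obtain ⟨s, hs, hc⟩ := ncard_invariant D (orbit N a) hmem (by
    rintro h hh y ⟨⟨n, hn⟩, rfl⟩
    refine ⟨⟨h * n * h⁻¹, hN.conj_mem n hn h⟩, ?_⟩
    show (h * n * h⁻¹) • a = h • (n • a)
    have : h⁻¹ • a = a := by
      conv_lhs => rw [← hh]
      rw [inv_smul_smul]
    rw [mul_smul, mul_smul, this])
  rw [hc] at hd
  rcases hnum s hs hd with h | h
  · left
    rw [h] at hc
    intro n hn
    have h1 : n • a ∈ orbit N a := ⟨⟨n, hn⟩, rfl⟩
    obtain ⟨x, hx⟩ := Set.ncard_eq_one.1 hc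
    rw [hx] at h1 hmem
    rw [Set.mem_singleton_iff] at h1 hmem
    show n • a = a
    rw [h1, hmem]
  · right
    rw [h] at hc
    have huniv : orbit N a = Set.univ := by
      apply Set.eq_of_subset_of_ncard_le (Set.subset_univ _)
      rw [hc, Set.ncard_univ]
    intro y
    have hy : y ∈ orbit N a := by
      rw [huniv]
      trivial
    obtain ⟨⟨n, hn⟩, e⟩ := hy
    exact ⟨n, hn, e⟩

theorem fix_of_le [IsPretransitive G Ω] {a : Ω} {N : Subgroup G} [hN : N.Normal] (h : N ≤ stabilizer G a)
    {n : G} (hn : n ∈ N) (y : Ω) : n • y = y := by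
  obtain ⟨g, rfl⟩ := exists_smul_eq G a y
  have h1 : (g⁻¹ * n * g) • a = a := h (by
    have := hN.conj_mem n hn g⁻¹
    simpa using this)
  calc n • g • a = g • (g⁻¹ * n * g) • a := by simp [mul_smul]
    _ = g • a := by rw [h1]

/-- A finite group acting transitively, with a simple point stabiliser, known subdegrees excluding
blocks and without regular normal subgroups, is simple. -/
theorem isSimple_of_orbitData [Finite G] [Finite Ω] [IsPretransitive G Ω] {a : Ω} {L : List (Set Ω × ℕ)}
    (D : OrbitData G a L)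
    (hnum : ∀ s ∈ subSums (L.map Prod.snd), (s + 1) ∣ Nat.card Ω → s = 0 ∨ s + 1 = Nat.card Ω)
    (hH : IsSimpleGroup (stabilizer G a)) (hmoved : ∃ O ∈ L, 2 ≤ O.2)
    (hreg : ∀ N : Subgroup G, N.Normal → Nat.card N = Nat.card Ω → (∀ y, ∃ n ∈ N, n • a = y) →
      (N ⊓ stabilizer G a = ⊥) → (∀ C : Subgroup N, C.Characteristic → C = ⊥ ∨ C = ⊤) → False) :
    IsSimpleGroup G := by
  classical
  have key1 : ∀ (N : Subgroup G) [N.Normal], N ≤ stabilizer G a → N = ⊥ := by
    intro N _ hle
    have hn : (N.subgroupOf (stabilizer G a)).Normal := inferInstance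
    rcases hH.eq_bot_or_eq_top_of_normal _ hn with h | h
    · rw [Subgroup.subgroupOf_eq_bot] at h
      rwa [disjoint_iff, inf_eq_left.2 hle] at h
    · exfalso
      rw [Subgroup.subgroupOf_eq_top] at h
      obtain ⟨O, hO, h2⟩ := hmoved
      have hc := D.card O hO
      rw [← hc] at h2
      have hfin : O.1.Finite := Set.toFinite _
      obtain ⟨y, hy, y', hy', hne⟩ := (Set.one_lt_ncard hfin).1 h2
      obtain ⟨k, hk1, hk2⟩ := D.trans O hO y hy y' hy'
      exact hne (by rw [← hk2, fix_of_le hle (h hk1) y])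
  have hnt : Nontrivial G := by
    by_contra hcon
    rw [not_nontrivial_iff_subsingleton] at hcon
    have := hH.toNontrivial
    obtain ⟨x, y, hxy⟩ := exists_pair_ne (stabilizer G a)
    exact hxy (Subtype.ext (Subsingleton.elim _ _))
  refine ⟨?_⟩
  intro N hN
  rcases normal_dichotomy D hnum N with h | h
  · exact Or.inl (key1 N h)
  have hn : ((N ⊓ stabilizer G a).subgroupOf (stabilizer G a)).Normal := by
    have : (N.subgroupOf (stabilizer G a)).Normal := inferInstance
    rwa [Subgroup.inf_subgroupOf_right]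
  rcases hH.eq_bot_or_eq_top_of_normal _ hn with h0 | h0
  · exfalso
    rw [Subgroup.subgroupOf_eq_bot, disjoint_iff, inf_assoc, inf_idem] at h0
    have hcard : Nat.card N = Nat.card Ω := by
      apply Nat.card_congr
      apply Equiv.ofBijective (fun n : N => (n : G) • a)
      constructor
      · rintro ⟨n, hn⟩ ⟨n', hn'⟩ e
        have e' : n • a = n' • a := e
        have h1 : n'⁻¹ * n ∈ N ⊓ stabilizer G a := by
          refine Subgroup.mem_inf.2 ⟨N.mul_mem (N.inv_mem hn') hn, ?_⟩
          show (n'⁻¹ * n) • a = a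
          rw [mul_smul, e', inv_smul_smul]
        rw [h0, Subgroup.mem_bot] at h1
        apply Subtype.ext
        show n = n'
        exact (inv_mul_eq_one.1 h1).symm
      · intro y
        obtain ⟨n, hn, e⟩ := h y
        exact ⟨⟨n, hn⟩, e⟩
    refine hreg N hN hcard h h0 ?_
    intro C hC
    have hCn : (C.map N.subtype).Normal := inferInstance
    rcases normal_dichotomy D hnum (C.map N.subtype) with h1 | h1
    · left
      have h2 := key1 (C.map N.subtype) h1
      rwa [Subgroup.map_eq_bot_iff_of_injective _ N.subtype_injective] at h2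
    · right
      apply Subgroup.eq_top_of_le_card
      have h3 : Nat.card Ω ≤ Nat.card (C.map N.subtype) := by
        apply Nat.card_le_card_of_surjective (fun n : C.map N.subtype => (n : G) • a)
        intro y
        obtain ⟨n, hn, e⟩ := h1 y
        exact ⟨⟨n, hn⟩, e⟩
      have h4 : Nat.card (C.map N.subtype) = Nat.card C :=
        Nat.card_congr (C.equivMapOfInjective N.subtype N.subtype_injective).symm.toEquiv
      omega
  · right
    rw [Subgroup.subgroupOf_eq_top] at h0
    rw [eq_top_iff]
    intro g _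
    obtain ⟨n, hn, e⟩ := h (g • a)
    have h1 : n⁻¹ * g ∈ stabilizer G a := by
      show (n⁻¹ * g) • a = a
      rw [mul_smul, ← e, inv_smul_smul]
    have h2 := (Subgroup.mem_inf.1 (h0 h1)).1
    have : g = n * (n⁻¹ * g) := by group
    rw [this]
    exact N.mul_mem hn h2

/-! ### Excluding regular normal subgroups -/

/-- A normal subgroup of order coprime to its index is characteristic. -/
theorem characteristic_of_coprime {N : Type*} [Group N] [Finite N] (K : Subgroup N) [hK : K.Normal]
    (hco : (Nat.card K).Coprime K.index) : K.Characteristic := by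
  rw [Subgroup.characteristic_iff_map_le]
  rintro φ _ ⟨x, hx, rfl⟩
  set g := φ.toMonoidHom x with hg
  have h1 : g ^ Nat.card K = 1 := by
    have h2 : x ^ Nat.card K = 1 := by
      have := pow_card_eq_one' (x := (⟨x, hx⟩ : K))
      exact congrArg Subtype.val this
    rw [hg, ← map_pow, h2, map_one]
  have h3 : g ^ K.index ∈ K := Subgroup.pow_index_mem K g
  have ho : orderOf g ∣ Nat.card K := orderOf_dvd_of_pow_eq_one h1
  have hco' : (orderOf g).Coprime K.index := Nat.Coprime.coprime_dvd_left ho hco
  obtain ⟨m, hm⟩ := exists_pow_eq_self_of_coprime hco'.symm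
  rw [← hm]
  exact K.pow_mem h3 m

/-- No characteristically simple group with a suitable Sylow subgroup. -/
theorem false_of_sylow {N : Type*} [Group N] [Finite N] (hC : ∀ C : Subgroup N, C.Characteristic → C = ⊥ ∨ C = ⊤)
    {p : ℕ} [Fact p.Prime] (P : Sylow p N) (h1 : Nat.card P ≠ 1) (h2 : Nat.card P ≠ Nat.card N)
    (hP : (P : Subgroup N).Normal ∨ Subgroup.normalizer (P : Set N) ≤ Subgroup.centralizer (P : Set N)) : False := by
  have main : ∀ K : Subgroup N, K.Characteristic → Nat.card K ≠ 1 → Nat.card K ≠ Nat.card N → False := by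
    intro K hK h3 h4
    rcases hC K hK with rfl | rfl
    · simp at h3
    · simp [Subgroup.card_top] at h4
  rcases hP with hP | hP
  · exact main P (P.characteristic_of_normal hP) h1 h2
  · have hcomp := MonoidHom.ker_transferSylow_isComplement' P hP
    set K := (MonoidHom.transferSylow P hP).ker with hK
    have hc := hcomp.card_mul_card
    have hidx : K.index = Nat.card P := by
      have := K.card_mul_index
      have hpos : 0 < Nat.card K := Nat.card_pos
      exact Nat.eq_of_mul_eq_mul_left hpos (this.trans hc.symm)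
    have hnd : ¬ p ∣ Nat.card K := MonoidHom.not_dvd_card_ker_transferSylow P hP
    have hK' : K.Normal := MonoidHom.normal_ker _
    have hco : (Nat.card K).Coprime K.index := by
      rw [hidx]
      obtain ⟨k, hk⟩ := P.2.exists_card_eq
      rw [hk]
      exact Nat.Coprime.pow_right _ ((Nat.Prime.coprime_iff_not_dvd Fact.out).2 hnd).symm
    refine main K (characteristic_of_coprime K hco) ?_ ?_
    · intro h
      rw [h, one_mul] at hc
      exact h2 hc
    · intro h
      rw [h] at hc
      have hpos : 0 < Nat.card N := Nat.card_pos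
      apply h1
      have : Nat.card N * Nat.card P = Nat.card N * 1 := by rw [hc, mul_one]
      exact Nat.eq_of_mul_eq_mul_left hpos this

/-- No characteristically simple group of order `p ^ a * m` if the number of Sylow subgroups is
`1` or `m`, with a Sylow subgroup of order `p` or `p ^ 2`. -/
theorem false_of_order {N : Type*} [Group N] [Finite N] (hC : ∀ C : Subgroup N, C.Characteristic → C = ⊥ ∨ C = ⊤)
    {p a m : ℕ} [hp : Fact p.Prime] (hcard : Nat.card N = p ^ a * m) (hpm : ¬ p ∣ m) (ha : a = 1 ∨ a = 2) (hm : 1 < m)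
    (hd : ∀ d, d ∣ m → d % p = 1 → d = 1 ∨ d = m) : False := by
  have hp1 : 1 < p := hp.out.one_lt
  have ham : a ≠ 0 := by rcases ha with rfl | rfl <;> norm_num
  obtain ⟨P⟩ : Nonempty (Sylow p N) := inferInstance
  have hPc : Nat.card P = p ^ a := by
    rw [P.card_eq_multiplicity, hcard]
    congr 1
    rw [Nat.factorization_mul (by positivity) (by omega), Nat.Prime.factorization_pow hp.out]
    simp [Nat.factorization_eq_zero_of_not_dvd hpm]
  have hidx : (P : Subgroup N).index = m := by
    have := (P : Subgroup N).card_mul_index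
    rw [hPc, hcard] at this
    exact Nat.eq_of_mul_eq_mul_left (by positivity) this
  have hcount : Nat.card (Sylow p N) ∣ m := hidx ▸ P.card_dvd_index
  have hmod : Nat.card (Sylow p N) % p = 1 := by
    have := card_sylow_modEq_one p N
    rw [Nat.ModEq, Nat.mod_eq_of_lt hp1] at this
    exact this
  have hpa : p ^ a ≠ 1 := by
    exact (Nat.one_lt_pow ham hp1).ne'
  refine false_of_sylow hC P (by rw [hPc]; exact hpa) (by
    rw [hPc, hcard]
    intro h
    have h3 : 0 < p ^ a := by positivity
    have : p ^ a * 1 = p ^ a * m := by rw [mul_one]; exact h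
    have := Nat.eq_of_mul_eq_mul_left h3 this
    omega) ?_
  rcases hd _ hcount hmod with h | h
  · left
    have : Subsingleton (Sylow p N) := (Nat.card_eq_one_iff_unique.1 h).1
    exact P.normal_of_subsingleton
  · right
    have h1 : (Subgroup.normalizer (P : Set N)).index = m := by
      rw [← h, P.card_eq_index_normalizer]
    have h2 : Nat.card (Subgroup.normalizer (P : Set N)) = Nat.card P := by
      have e1 := (Subgroup.normalizer (P : Set N)).card_mul_index
      have e2 := (P : Subgroup N).card_mul_index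
      rw [h1] at e1
      rw [hidx] at e2
      exact Nat.eq_of_mul_eq_mul_right (by omega) (e1.trans e2.symm)
    have h3 : Subgroup.normalizer (P : Set N) = P := by
      symm
      exact Subgroup.eq_of_le_of_card_ge Subgroup.le_normalizer h2.le
    rw [h3]
    intro x hx
    rw [Subgroup.mem_centralizer_iff]
    intro y hy
    have hcomm : ∀ u v : P, u * v = v * u := by
      rcases ha with rfl | rfl
      · have : Fact (Nat.card P).Prime := ⟨by rw [hPc, pow_one]; exact hp.out⟩
        have hc := isCyclic_of_prime_card (α := P) rfl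
        intro u v
        exact (IsCyclic.commGroup (α := P)).mul_comm u v
      · exact IsPGroup.commutative_of_card_eq_prime_sq hPc
    exact congrArg Subtype.val (hcomm ⟨y, hy⟩ ⟨x, hx⟩)

theorem false_100 {N : Type*} [Group N] [Finite N] (hc : Nat.card N = 100)
    (hC : ∀ C : Subgroup N, C.Characteristic → C = ⊥ ∨ C = ⊤) : False := by
  haveI : Fact (Nat.Prime 5) := ⟨by norm_num⟩
  refine false_of_order hC (p := 5) (a := 2) (m := 4) (by rw [hc]; norm_num) (by norm_num) (Or.inr rfl) (by norm_num) ?_
  intro d hd hm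
  have : d ≤ 4 := Nat.le_of_dvd (by norm_num) hd
  interval_cases d <;> simp_all

theorem false_2025 {N : Type*} [Group N] [Finite N] (hc : Nat.card N = 2025)
    (hC : ∀ C : Subgroup N, C.Characteristic → C = ⊥ ∨ C = ⊤) : False := by
  haveI : Fact (Nat.Prime 5) := ⟨by norm_num⟩
  refine false_of_order hC (p := 5) (a := 2) (m := 81) (by rw [hc]; norm_num) (by norm_num) (Or.inr rfl) (by norm_num) ?_
  intro d hd hm
  have h : d ∣ 3 ^ 4 := by simpa using hd
  obtain ⟨k, hk, rfl⟩ := (Nat.dvd_prime_pow (by norm_num)).1 h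
  interval_cases k <;> simp_all

theorem false_47104 {N : Type*} [Group N] [Finite N] (hc : Nat.card N = 47104)
    (hC : ∀ C : Subgroup N, C.Characteristic → C = ⊥ ∨ C = ⊤) : False := by
  haveI : Fact (Nat.Prime 23) := ⟨by norm_num⟩
  refine false_of_order hC (p := 23) (a := 1) (m := 2048) (by rw [hc]; norm_num) (by norm_num) (Or.inl rfl) (by norm_num) ?_
  intro d hd hm
  have h : d ∣ 2 ^ 11 := by simpa using hd
  obtain ⟨k, hk, rfl⟩ := (Nat.dvd_prime_pow (by norm_num)).1 h
  interval_cases k <;> simp_all

theorem false_11178 {N : Type*} [Group N] [Finite N] (hc : Nat.card N = 11178)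
    (hC : ∀ C : Subgroup N, C.Characteristic → C = ⊥ ∨ C = ⊤) : False := by
  haveI : Fact (Nat.Prime 2) := ⟨by norm_num⟩
  obtain ⟨P⟩ : Nonempty (Sylow 2 N) := inferInstance
  have hPc : Nat.card P = 2 := by
    rw [P.card_eq_multiplicity, hc]
    have : Nat.factorization 11178 2 = 1 := by
      have e : 11178 = 2 ^ 1 * 5589 := by norm_num
      rw [e, Nat.factorization_mul (by norm_num) (by norm_num), Nat.Prime.factorization_pow Nat.prime_two]
      simp [Nat.factorization_eq_zero_of_not_dvd (show ¬ 2 ∣ 5589 by norm_num)]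
    rw [this, pow_one]
  have hmin : (Nat.card N).minFac = 2 := by
    rw [hc]
    norm_num
  have hcyc : IsCyclic P := isCyclic_of_prime_card hPc
  exact false_of_sylow hC P (by rw [hPc]; norm_num) (by rw [hPc, hc]; norm_num)
    (Or.inr (IsCyclic.normalizer_le_centralizer hmin hcyc))

end Cfsg.Agent.Lib.Sporadic.SimpleAct
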