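import Mathlib
import Cfsg.Agent.S0397
import Cfsg.Agent.S0398
import Cfsg.Agent.S1573
import Cfsg.Agent.S1574
import Cfsg.Agent.S1575
import Cfsg.Agent.S1576
import Cfsg.Agent.Lib.Sporadic.LeechOrders
import Cfsg.Agent.Lib.Sporadic.LeechLocal
import Cfsg.Agent.Lib.Sporadic.SimpleAct

/-!
# The automorphism group of the lattice modulo its centre is simple

The proof acts on the minimal vectors. A normal subgroup containing the central involution has
orbits of size two or is transitive, by the sizes of the suborbits. Using the simple point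
stabiliser, the only other possibility is a regular normal subgroup; but the four odd primes
dividing the order give elements in four different classes of vectors up to sign, and there are
only three.
-/

set_option autoImplicit false

namespace Cfsg.Agent.Lib.Sporadic.LeechCo1

open Cfsg Cfsg.Agent.Lib.Sporadic.LeechBasic
  Cfsg.Agent.Lib.Sporadic.LeechNorm Cfsg.Agent.Lib.Sporadic.LeechFacts
  Cfsg.Agent.Lib.Sporadic.LeechAut
  Cfsg.Agent.Lib.Sporadic.LeechA0 Cfsg.Agent.Lib.Sporadic.LeechTree
  Cfsg.Agent.Lib.Sporadic.LeechOrders Cfsg.Agent.Lib.Sporadic.SimpleAct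
open Cfsg.Agent.Lib.Sporadic.LeechClasses (card_X32)
open Cfsg.Agent.Lib.Sporadic.LeechMin (co0_transitive_min)
open Cfsg.Agent.Lib.Sporadic.LeechLocal (mem_center_iff negCo0_mul_smul)
open MulAction

/-- The minimal vectors. -/
def OmA : SubMulAction Co0 leechLattice where
  carrier := {x | sqNorm (x : V) = 32}
  smul_mem' := fun k z hz => (co0_sqNorm k z).trans hz

theorem dot_neg_right (x y : V) : dotInt x (-y) = -dotInt x y := dotInt_neg_right x y

theorem dot_cases {x y : leechLattice} (hx : sqNorm (x : V) = 32) (hy : sqNorm (y : V) = 32) :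
    y = x ∨ y = -x ∨ dotInt (x : V) (y : V) = 16 ∨ dotInt (x : V) (y : V) = -16 ∨
      dotInt (x : V) (y : V) = 8 ∨ dotInt (x : V) (y : V) = -8 ∨ dotInt (x : V) (y : V) = 0 := by
  by_cases h1 : y = x
  · exact Or.inl h1
  by_cases h2 : y = -x
  · exact Or.inr (Or.inl h2)
  right; right
  have h3 := sqNorm_add (x : V) (y : V)
  rw [hx, hy] at h3
  have h4 := sqNorm_add (x : V) (-(y : V))
  rw [sqNorm_neg, dotInt_neg_right, hx, hy] at h4
  have h5 : (16 : ℤ) ∣ sqNorm ((x : V) + (y : V)) := sixteen_dvd _ (add_mem x.2 y.2)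
  have h6 : 32 ≤ sqNorm ((x : V) + (y : V)) := by
    apply min_norm_32 _ (add_mem x.2 y.2)
    intro h
    apply h2
    apply Subtype.ext
    show (y : V) = -(x : V)
    exact (eq_neg_of_add_eq_zero_left (by rw [add_comm]; exact h))
  have h7 : 32 ≤ sqNorm ((x : V) + -(y : V)) := by
    apply min_norm_32 _ (add_mem x.2 (neg_mem y.2))
    intro h
    apply h1
    apply Subtype.ext
    exact (eq_of_add_neg_eq_zero h).symm
  obtain ⟨k, hk⟩ := h5
  omega

theorem neg_sqNorm {y : leechLattice} (hy : sqNorm (y : V) = 32) : sqNorm ((-y : leechLattice) : V) = 32 := by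
  show sqNorm (-(y : V)) = 32
  rw [sqNorm_neg, hy]

theorem dot_neg_coe (x y : leechLattice) : dotInt (x : V) ((-y : leechLattice) : V) = -dotInt (x : V) (y : V) :=
  dotInt_neg_right _ _

/-- Transitivity up to sign. -/
theorem trans_abs (v y y' : leechLattice) (hv : sqNorm (v : V) = 32) (hy : sqNorm (y : V) = 32)
    (hy' : sqNorm (y' : V) = 32) (hd : (dotInt (v : V) (y : V)).natAbs = (dotInt (v : V) (y' : V)).natAbs)
    (h3 : (dotInt (v : V) (y : V)).natAbs ≠ 32) :
    ∃ k : Co0, k • v = v ∧ (k • y = y' ∨ k • y = -y') := by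
  have key : ∀ z : leechLattice, sqNorm (z : V) = 32 → ∃ z' : leechLattice, sqNorm (z' : V) = 32 ∧
      (z' = z ∨ z' = -z) ∧ dotInt (v : V) (z' : V) = -((dotInt (v : V) (z : V)).natAbs : ℤ) := by
    intro z hz
    by_cases h : dotInt (v : V) (z : V) ≤ 0
    · exact ⟨z, hz, Or.inl rfl, by omega⟩
    · refine ⟨-z, neg_sqNorm hz, Or.inr rfl, ?_⟩
      rw [dot_neg_coe]
      omega
  obtain ⟨z, hz, hz1, hz2⟩ := key y hy
  obtain ⟨z', hz', hz1', hz2'⟩ := key y' hy'
  have hzz : dotInt (v : V) (z : V) = dotInt (v : V) (z' : V) := by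
    rw [hz2, hz2', hd]
  have hvals : dotInt (v : V) (z : V) = -16 ∨ dotInt (v : V) (z : V) = -8 ∨ dotInt (v : V) (z : V) = 0 := by
    rcases dot_cases hv hz with h | h | h | h | h | h | h
    · exfalso
      rw [h, dotInt_self, hv] at hz2
      omega
    · exfalso
      rw [h, dot_neg_coe, dotInt_self, hv] at hz2
      omega
    · omega
    · omega
    · omega
    · omega
    · omega
  have main : ∃ k : Co0, k • v = v ∧ (k • z = z' ∨ k • z = -z') := by
    rcases hvals with h | h | h
    · obtain ⟨k, h1, h2⟩ := Cfsg.Agent.S1574.result v z z' hv hz hz' h (by rw [← hzz]; exact h)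
      exact ⟨k, h1, Or.inl h2⟩
    · obtain ⟨k, h1, h2⟩ := Cfsg.Agent.S1575.result v z z' hv hz hz' h (by rw [← hzz]; exact h)
      exact ⟨k, h1, Or.inl h2⟩
    · exact Cfsg.Agent.S1576.result v z z' hv hz hz' h (by rw [← hzz]; exact h)
  obtain ⟨k, hk, hk2⟩ := main
  refine ⟨k, hk, ?_⟩
  have hk3 : k • y = z' ∨ k • y = -z' := by
    rcases hz1 with rfl | rfl
    · exact hk2
    · rw [co0_map_neg] at hk2
      rcases hk2 with e | e
      · right
        rw [← e, neg_neg]
      · left
        exact neg_injective e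
  rcases hz1' with rfl | rfl
  · exact hk3
  · rcases hk3 with e | e
    · right
      exact e
    · left
      rw [e, neg_neg]

theorem card_OmA : Nat.card OmA = 196560 := by
  have h : Nat.card OmA = {x : leechLattice | sqNorm (x : V) = 32}.ncard := Nat.card_coe_set_eq _
  rw [h, ncard_sphere, card_X32]

instance finite_OmA : Finite OmA := Nat.finite_of_card_ne_zero (by rw [card_OmA]; norm_num)

instance pretrans_OmA : IsPretransitive Co0 OmA := ⟨fun x y => by
  obtain ⟨g, hg⟩ := co0_transitive_min x.1 y.1 x.2 y.2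
  exact ⟨g, Subtype.ext hg⟩⟩

/-- The number of vectors with a given inner product. -/
theorem ncard_dot (a : OmA) (c : ℤ) :
    {y : OmA | dotInt ((a : leechLattice) : V) ((y : leechLattice) : V) = c}.ncard =
      {w : V | w ∈ leechLattice ∧ sqNorm w = 32 ∧ dotInt ((a : leechLattice) : V) w = c}.ncard := by
  rw [← Set.ncard_image_of_injective _ (f := fun y : OmA => ((y : leechLattice) : V))
    (fun x y e => Subtype.ext (Subtype.ext e))]
  congr 1
  ext w
  constructor
  · rintro ⟨y, hy, rfl⟩
    exact ⟨y.1.2, y.2, hy⟩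
  · rintro ⟨h1, h2, h3⟩
    exact ⟨⟨⟨w, h1⟩, h2⟩, h3, rfl⟩

theorem ncard_m16 (a : OmA) : {y : OmA | dotInt ((a : leechLattice) : V) ((y : leechLattice) : V) = -16}.ncard = 4600 := by
  rw [ncard_dot]
  exact (Cfsg.Agent.S1573.result _ a.1.2 a.2).1

theorem ncard_m8 (a : OmA) : {y : OmA | dotInt ((a : leechLattice) : V) ((y : leechLattice) : V) = -8}.ncard = 47104 := by
  rw [ncard_dot]
  exact (Cfsg.Agent.S1573.result _ a.1.2 a.2).2.1

theorem ncard_0 (a : OmA) : {y : OmA | dotInt ((a : leechLattice) : V) ((y : leechLattice) : V) = 0}.ncard = 93150 := by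
  rw [ncard_dot]
  exact (Cfsg.Agent.S1573.result _ a.1.2 a.2).2.2

/-- Negation on minimal vectors. -/
def negOm (a : OmA) : OmA := (negCo0 : Co0) • a

theorem coe_negOm (a : OmA) : ((negOm a : OmA) : leechLattice) = -(a : leechLattice) := rfl

theorem dot_negOm (a y : OmA) : dotInt ((a : leechLattice) : V) ((negOm y : OmA) : leechLattice) =
    -dotInt ((a : leechLattice) : V) ((y : leechLattice) : V) := dotInt_neg_right _ _

theorem negOm_negOm (y : OmA) : negOm (negOm y) = y := by
  apply Subtype.ext
  rw [coe_negOm, coe_negOm, neg_neg]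

theorem ncard_pos_of (a : OmA) (c : ℤ) :
    {y : OmA | dotInt ((a : leechLattice) : V) ((y : leechLattice) : V) = -c}.ncard =
      {y : OmA | dotInt ((a : leechLattice) : V) ((y : leechLattice) : V) = c}.ncard := by
  apply Set.ncard_congr (fun y _ => negOm y)
  · intro y hy
    show dotInt _ _ = c
    rw [dot_negOm]
    have : dotInt ((a : leechLattice) : V) ((y : leechLattice) : V) = -c := hy
    omega
  · intro y y' _ _ e
    have := congrArg negOm e
    simpa [negOm_negOm] using this
  · intro y hy
    refine ⟨negOm y, ?_, negOm_negOm y⟩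
    show dotInt _ _ = -c
    rw [dot_negOm]
    have : dotInt ((a : leechLattice) : V) ((y : leechLattice) : V) = c := hy
    omega

theorem ncard_abs (a : OmA) (c n : ℕ) (hc : c ≠ 0)
    (hn : {y : OmA | dotInt ((a : leechLattice) : V) ((y : leechLattice) : V) = -(c : ℤ)}.ncard = n) :
    {y : OmA | (dotInt ((a : leechLattice) : V) ((y : leechLattice) : V)).natAbs = c}.ncard = 2 * n := by
  have e : {y : OmA | (dotInt ((a : leechLattice) : V) ((y : leechLattice) : V)).natAbs = c} =
      {y : OmA | dotInt ((a : leechLattice) : V) ((y : leechLattice) : V) = -(c : ℤ)} ∪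
      {y : OmA | dotInt ((a : leechLattice) : V) ((y : leechLattice) : V) = (c : ℤ)} := by
    ext y
    simp only [Set.mem_ofPred_eq, Set.mem_union]
    omega
  have hd : Disjoint {y : OmA | dotInt ((a : leechLattice) : V) ((y : leechLattice) : V) = -(c : ℤ)}
      {y : OmA | dotInt ((a : leechLattice) : V) ((y : leechLattice) : V) = (c : ℤ)} := by
    rw [Set.disjoint_left]
    intro y h1 h2
    have h1' : dotInt ((a : leechLattice) : V) ((y : leechLattice) : V) = -(c : ℤ) := h1
    have h2' : dotInt ((a : leechLattice) : V) ((y : leechLattice) : V) = (c : ℤ) := h2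
    omega
  rw [e, Set.ncard_union_eq hd (Set.toFinite _) (Set.toFinite _), ← ncard_pos_of a (c : ℤ), hn]
  omega

theorem ncard_abs16 (a : OmA) :
    {y : OmA | (dotInt ((a : leechLattice) : V) ((y : leechLattice) : V)).natAbs = 16}.ncard = 9200 :=
  ncard_abs a 16 4600 (by norm_num) (ncard_m16 a)

theorem ncard_abs8 (a : OmA) :
    {y : OmA | (dotInt ((a : leechLattice) : V) ((y : leechLattice) : V)).natAbs = 8}.ncard = 94208 :=
  ncard_abs a 8 47104 (by norm_num) (ncard_m8 a)

theorem ncard_abs0 (a : OmA) :
    {y : OmA | (dotInt ((a : leechLattice) : V) ((y : leechLattice) : V)).natAbs = 0}.ncard = 93150 := by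
  rw [← ncard_0 a]
  congr 1
  ext y
  simp only [Set.mem_ofPred_eq]
  omega

theorem neg_neg_one : negCo0 * negCo0 = 1 := by
  apply Cfsg.Agent.Lib.Sporadic.LeechMonomial.co0_ext_u8
  intro i
  apply Subtype.ext
  rw [negCo0_mul_smul, one_smul]
  simp [coe_negCo0_smul]

/-- The size of an orbit of a normal subgroup containing the central involution. -/
theorem orbit_cases (N : Subgroup Co0) [hN : N.Normal] (hneg : negCo0 ∈ N) (a : OmA) :
    (orbit N a).ncard = 2 ∨ (orbit N a).ncard = 196560 := by
  classical
  have hB : IsBlock Co0 (orbit N a) := IsBlock.orbit_of_normal a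
  have hmem : a ∈ orbit N a := mem_orbit_self a
  have hd := hB.ncard_dvd_card ⟨a, hmem⟩
  rw [card_OmA] at hd
  set S := orbit N a with hS
  have hSneg : ∀ y ∈ S, negOm y ∈ S := by
    rintro y ⟨⟨n, hn⟩, rfl⟩
    refine ⟨⟨negCo0 * n, N.mul_mem hneg hn⟩, ?_⟩
    show (negCo0 * n) • a = negCo0 • (n • a)
    rw [mul_smul]
  have hSinv : ∀ k : Co0, k • a = a → ∀ y ∈ S, k • y ∈ S := by
    rintro h hh y ⟨⟨n, hn⟩, rfl⟩
    refine ⟨⟨h * n * h⁻¹, hN.conj_mem n hn h⟩, ?_⟩
    show (h * n * h⁻¹) • a = h • (n • a)
    have : h⁻¹ • a = a := by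
      conv_lhs => rw [← hh]
      rw [inv_smul_smul]
    rw [mul_smul, mul_smul, this]
  let P : ℕ → Set OmA := fun c => {y | (dotInt ((a : leechLattice) : V) ((y : leechLattice) : V)).natAbs = c}
  let L : List (Set OmA × ℕ) := [(P 16, 9200), (P 8, 94208), (P 0, 93150)]
  have hpair : (L.map Prod.fst).Pairwise Disjoint := by
    have hdisj : ∀ c c' : ℕ, c ≠ c' → Disjoint (P c) (P c') := by
      intro c c' hne
      rw [Set.disjoint_left]
      intro y h1 h2
      exact hne (h1.symm.trans h2)
    simp only [L, List.map_cons, List.map_nil, List.pairwise_cons, List.mem_cons, List.not_mem_nil, or_false,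
      forall_eq_or_imp, forall_eq, List.Pairwise.nil, IsEmpty.forall_iff, implies_true, and_true]
    exact ⟨⟨hdisj _ _ (by norm_num), hdisj _ _ (by norm_num)⟩, hdisj _ _ (by norm_num)⟩
  have hcard : ∀ O ∈ L, O.1.ncard = O.2 := by
    intro O hO
    simp only [L, List.mem_cons, List.not_mem_nil, or_false] at hO
    rcases hO with rfl | rfl | rfl
    · exact ncard_abs16 a
    · exact ncard_abs8 a
    · exact ncard_abs0 a
  have hinv : ∀ O ∈ L, S ∩ O.1 = ∅ ∨ O.1 ⊆ S := by
    have key : ∀ c : ℕ, c ≠ 32 → (S ∩ P c = ∅ ∨ P c ⊆ S) := by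
      intro c hc
      by_cases h : S ∩ P c = ∅
      · exact Or.inl h
      · right
        obtain ⟨y, hy1, hy2⟩ := Set.nonempty_iff_ne_empty.2 h
        intro y' hy'
        have hy2' : (dotInt ((a : leechLattice) : V) ((y : leechLattice) : V)).natAbs = c := hy2
        have hy3' : (dotInt ((a : leechLattice) : V) ((y' : leechLattice) : V)).natAbs = c := hy'
        obtain ⟨k, hk1, hk2⟩ := trans_abs a.1 y.1 y'.1 a.2 y.2 y'.2 (hy2'.trans hy3'.symm) (by rw [hy2']; exact hc)
        have hk1' : k • a = a := Subtype.ext hk1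
        have hm := hSinv k hk1' y hy1
        rcases hk2 with e | e
        · have : k • y = y' := Subtype.ext e
          rwa [this] at hm
        · have : k • y = negOm y' := Subtype.ext e
          rw [this] at hm
          have := hSneg _ hm
          rwa [negOm_negOm] at this
    intro O hO
    simp only [L, List.mem_cons, List.not_mem_nil, or_false] at hO
    rcases hO with rfl | rfl | rfl
    · exact key 16 (by norm_num)
    · exact key 8 (by norm_num)
    · exact key 0 (by norm_num)
  have h1 := ncard_inter_mem_subSums S L hpair hcard hinv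
  have hne : negOm a ≠ a := by
    intro h
    have h2 : dotInt ((a : leechLattice) : V) ((negOm a : OmA) : leechLattice) = 32 := by
      rw [h, dotInt_self]
      exact a.2
    rw [dot_negOm, dotInt_self] at h2
    have h9 : sqNorm ((a : leechLattice) : V) = 32 := a.2
    omega
  have hdotA : (dotInt ((a : leechLattice) : V) ((a : leechLattice) : V)).natAbs = 32 := by
    rw [dotInt_self, show sqNorm ((a : leechLattice) : V) = 32 from a.2]
    rfl
  have hdotB : (dotInt ((a : leechLattice) : V) ((negOm a : OmA) : leechLattice)).natAbs = 32 := by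
    rw [dot_negOm, Int.natAbs_neg, hdotA]
  have e : S = {a, negOm a} ∪ (S ∩ {y | ∃ O ∈ L, y ∈ O.1}) := by
    ext y
    simp only [Set.mem_union, Set.mem_insert_iff, Set.mem_singleton_iff, Set.mem_inter_iff, Set.mem_ofPred_eq]
    constructor
    · intro hy
      rcases dot_cases a.2 y.2 with h | h | h | h | h | h | h
      · exact Or.inl (Or.inl (Subtype.ext h))
      · exact Or.inl (Or.inr (Subtype.ext h))
      · exact Or.inr ⟨hy, (P 16, 9200), by simp [L], (by
          show (dotInt ((a : leechLattice) : V) ((y : leechLattice) : V)).natAbs = 16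
          rw [h]; rfl)⟩
      · exact Or.inr ⟨hy, (P 16, 9200), by simp [L], (by
          show (dotInt ((a : leechLattice) : V) ((y : leechLattice) : V)).natAbs = 16
          rw [h]; rfl)⟩
      · exact Or.inr ⟨hy, (P 8, 94208), by simp [L], (by
          show (dotInt ((a : leechLattice) : V) ((y : leechLattice) : V)).natAbs = 8
          rw [h]; rfl)⟩
      · exact Or.inr ⟨hy, (P 8, 94208), by simp [L], (by
          show (dotInt ((a : leechLattice) : V) ((y : leechLattice) : V)).natAbs = 8
          rw [h]; rfl)⟩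
      · exact Or.inr ⟨hy, (P 0, 93150), by simp [L], (by
          show (dotInt ((a : leechLattice) : V) ((y : leechLattice) : V)).natAbs = 0
          rw [h]; rfl)⟩
    · rintro ((rfl | rfl) | h)
      · exact hmem
      · exact hSneg _ hmem
      · exact h.1
  have hdisj : Disjoint ({a, negOm a} : Set OmA) (S ∩ {y | ∃ O ∈ L, y ∈ O.1}) := by
    rw [Set.disjoint_left]
    rintro y hy ⟨-, O, hO, hyO⟩
    have hy32 : (dotInt ((a : leechLattice) : V) ((y : leechLattice) : V)).natAbs = 32 := by
      rcases hy with rfl | hy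
      · exact hdotA
      · rw [Set.mem_singleton_iff] at hy
        rw [hy]
        exact hdotB
    simp only [L, List.mem_cons, List.not_mem_nil, or_false] at hO
    rcases hO with rfl | rfl | rfl
    · have : (dotInt ((a : leechLattice) : V) ((y : leechLattice) : V)).natAbs = 16 := hyO
      omega
    · have : (dotInt ((a : leechLattice) : V) ((y : leechLattice) : V)).natAbs = 8 := hyO
      omega
    · have : (dotInt ((a : leechLattice) : V) ((y : leechLattice) : V)).natAbs = 0 := hyO
      omega
  have hcS : S.ncard = 2 + (S ∩ {y | ∃ O ∈ L, y ∈ O.1}).ncard := by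
    conv_lhs => rw [e]
    rw [Set.ncard_union_eq hdisj (Set.toFinite _) (Set.toFinite _), Set.ncard_pair hne.symm]
  rw [hcS] at hd ⊢
  generalize (S ∩ {y | ∃ O ∈ L, y ∈ O.1}).ncard = s at h1 hd
  have hnum : ∀ s ∈ subSums (L.map Prod.snd), (2 + s) ∣ 196560 → s = 0 ∨ 2 + s = 196560 := by
    simp only [L, List.map_cons, List.map_nil]
    decide
  rcases hnum s h1 hd with h | h
  · left
    omega
  · right
    exact h

/-- Two elements of odd prime orders in a normal subgroup acting freely on a minimal vector. -/
theorem regular_ne (N : Subgroup Co0) [hN : N.Normal] (hneg : negCo0 ∈ N) {v : leechLattice}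
    (hv : sqNorm (v : V) = 32) (hfree : ∀ n ∈ N, n • v = v → n = 1) {p q : ℕ} (hpq : ¬ q ∣ 2 * p)
    {n n' : Co0} (hn : n ∈ N) (hn' : n' ∈ N) (h1 : orderOf n = p) (h2 : orderOf n' = q)
    (hd : (dotInt (v : V) ((n • v : leechLattice) : V)).natAbs = (dotInt (v : V) ((n' • v : leechLattice) : V)).natAbs)
    (h3 : (dotInt (v : V) ((n • v : leechLattice) : V)).natAbs ≠ 32) : False := by
  obtain ⟨k, hk, hk2⟩ := trans_abs v (n • v) (n' • v) hv ((co0_sqNorm _ _).trans hv) ((co0_sqNorm _ _).trans hv) hd h3
  set m := k * n * k⁻¹ with hm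
  have hmN : m ∈ N := hN.conj_mem n hn k
  have hkinv : k⁻¹ • v = v := by
    conv_lhs => rw [← hk]
    rw [inv_smul_smul]
  have hmv : m • v = k • (n • v) := by rw [hm, mul_smul, mul_smul, hkinv]
  have hmp : m ^ p = 1 := by
    rw [hm, conj_pow, ← h1, pow_orderOf_eq_one, mul_one, mul_inv_cancel]
  have hcase : m = n' ∨ m = negCo0 * n' := by
    rcases hk2 with e | e
    · left
      have h4 : (n'⁻¹ * m) • v = v := by rw [mul_smul, hmv, e, inv_smul_smul]
      have h5 := hfree _ (N.mul_mem (N.inv_mem hn') hmN) h4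
      exact (inv_mul_eq_one.1 h5).symm
    · right
      have ht : (negCo0 * n') • v = -(n' • v) := negCo0_mul_smul _ _
      have h4 : ((negCo0 * n')⁻¹ * m) • v = v := by rw [mul_smul, hmv, e, ← ht, inv_smul_smul]
      have h5 := hfree _ (N.mul_mem (N.inv_mem (N.mul_mem hneg hn')) hmN) h4
      exact (inv_mul_eq_one.1 h5).symm
  have hm2 : m * m = n' * n' := by
    rcases hcase with e | e
    · rw [e]
    · have hc : n' * negCo0 = negCo0 * n' := Subgroup.mem_center_iff.1 negCo0_mem_center n'
      rw [e]
      calc negCo0 * n' * (negCo0 * n') = negCo0 * (n' * negCo0) * n' := by group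
        _ = negCo0 * (negCo0 * n') * n' := by rw [hc]
        _ = (negCo0 * negCo0) * (n' * n') := by group
        _ = n' * n' := by rw [neg_neg_one, one_mul]
  have hsq : n' ^ (2 * p) = 1 := by
    rw [pow_mul, pow_two, ← hm2, ← pow_two, ← pow_mul, mul_comm, pow_mul, hmp, one_pow]
  exact hpq (h2 ▸ orderOf_dvd_of_pow_eq_one hsq)

theorem regular_false (N : Subgroup Co0) [hN : N.Normal] (hneg : negCo0 ∈ N) {v : leechLattice}
    (hv : sqNorm (v : V) = 32) (hfree : ∀ n ∈ N, n • v = v → n = 1) (hcard : Nat.card N = 196560) : False := by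
  have get : ∀ p : ℕ, p.Prime → p ∣ 196560 → ∃ n ∈ N, orderOf n = p := by
    intro p hp hd
    haveI := Fact.mk hp
    obtain ⟨x, hx⟩ := exists_prime_orderOf_dvd_card' (G := N) p (by rw [hcard]; exact hd)
    exact ⟨x, x.2, (Subgroup.orderOf_coe x).trans hx⟩
  have val : ∀ n ∈ N, 2 < orderOf n → (dotInt (v : V) ((n • v : leechLattice) : V)).natAbs = 16 ∨
      (dotInt (v : V) ((n • v : leechLattice) : V)).natAbs = 8 ∨
      (dotInt (v : V) ((n • v : leechLattice) : V)).natAbs = 0 := by
    intro n hn ho
    rcases dot_cases hv (show sqNorm ((n • v : leechLattice) : V) = 32 from (co0_sqNorm _ _).trans hv) with h | h | h | h | h | h | h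
    · exfalso
      rw [hfree n hn h, orderOf_one] at ho
      omega
    · exfalso
      have h4 : (negCo0 * n) • v = v := by rw [negCo0_mul_smul, h, neg_neg]
      have h5 := hfree _ (N.mul_mem hneg hn) h4
      have h6 : n = negCo0 := by
        calc n = (negCo0 * negCo0) * n := by rw [neg_neg_one, one_mul]
          _ = negCo0 * (negCo0 * n) := by rw [mul_assoc]
          _ = negCo0 := by rw [h5, mul_one]
      have h7 : n ^ 2 = 1 := by rw [pow_two, h6, neg_neg_one]
      have h8 := orderOf_le_of_pow_eq_one (by norm_num) h7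
      omega
    · left; rw [h]; rfl
    · left; rw [h]; rfl
    · right; left; rw [h]; rfl
    · right; left; rw [h]; rfl
    · right; right; rw [h]; rfl
  obtain ⟨n3, h3, o3⟩ := get 3 (by norm_num) (by norm_num)
  obtain ⟨n5, h5, o5⟩ := get 5 (by norm_num) (by norm_num)
  obtain ⟨n7, h7, o7⟩ := get 7 (by norm_num) (by norm_num)
  obtain ⟨n13, h13, o13⟩ := get 13 (by norm_num) (by norm_num)
  have v3 := val n3 h3 (by rw [o3]; norm_num)
  have v5 := val n5 h5 (by rw [o5]; norm_num)
  have v7 := val n7 h7 (by rw [o7]; norm_num)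
  have v13 := val n13 h13 (by rw [o13]; norm_num)
  have ne : ∀ {p q : ℕ} {n n' : Co0}, ¬ q ∣ 2 * p → n ∈ N → n' ∈ N → orderOf n = p → orderOf n' = q →
      ((dotInt (v : V) ((n • v : leechLattice) : V)).natAbs = 16 ∨
      (dotInt (v : V) ((n • v : leechLattice) : V)).natAbs = 8 ∨
      (dotInt (v : V) ((n • v : leechLattice) : V)).natAbs = 0) →
      (dotInt (v : V) ((n • v : leechLattice) : V)).natAbs ≠ (dotInt (v : V) ((n' • v : leechLattice) : V)).natAbs := by
    intro p q n n' hpq hn hn' h1 h2 hval e
    exact regular_ne N hneg hv hfree hpq hn hn' h1 h2 e (by omega)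
  have n35 := ne (by norm_num) h3 h5 o3 o5 v3
  have n37 := ne (by norm_num) h3 h7 o3 o7 v3
  have n313 := ne (by norm_num) h3 h13 o3 o13 v3
  have n57 := ne (by norm_num) h5 h7 o5 o7 v5
  have n513 := ne (by norm_num) h5 h13 o5 o13 v5
  have n713 := ne (by norm_num) h7 h13 o7 o13 v7
  omega

/-- A normal subgroup containing the central involution is the centre or everything. -/
theorem normal_main (hH : ∀ v : leechLattice, sqNorm (v : V) = 32 → IsSimpleGroup (stabilizer Co0 v))
    (N : Subgroup Co0) [hN : N.Normal] (hneg : negCo0 ∈ N) : N = Subgroup.center Co0 ∨ N = ⊤ := by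
  classical
  obtain ⟨a⟩ : Nonempty OmA := (Nat.card_pos_iff.1 (by rw [card_OmA]; norm_num)).1
  have hSimple := hH a.1 a.2
  have hn : ((N ⊓ stabilizer Co0 a.1).subgroupOf (stabilizer Co0 a.1)).Normal := by
    have : (N.subgroupOf (stabilizer Co0 a.1)).Normal := inferInstance
    rwa [Subgroup.inf_subgroupOf_right]
  rcases hSimple.eq_bot_or_eq_top_of_normal _ hn with h0 | h0
  · rw [Subgroup.subgroupOf_eq_bot, disjoint_iff, inf_assoc, inf_idem] at h0
    have hfree : ∀ n ∈ N, n • a.1 = a.1 → n = 1 := by
      intro n hn he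
      have : n ∈ N ⊓ stabilizer Co0 a.1 := Subgroup.mem_inf.2 ⟨hn, he⟩
      rwa [h0, Subgroup.mem_bot] at this
    have hcard : Nat.card N = (orbit N a).ncard := by
      rw [← Nat.card_coe_set_eq]
      apply Nat.card_congr
      apply Equiv.ofBijective (fun n : N => (⟨n • a, ⟨n, rfl⟩⟩ : orbit N a))
      constructor
      · rintro ⟨n, hn⟩ ⟨n', hn'⟩ e
        have e' : n • a = n' • a := congrArg Subtype.val e
        have e'' : n • a.1 = n' • a.1 := congrArg Subtype.val e'
        have h1 : n'⁻¹ * n = 1 := hfree _ (N.mul_mem (N.inv_mem hn') hn) (by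
          rw [mul_smul, e'', inv_smul_smul])
        apply Subtype.ext
        exact (inv_mul_eq_one.1 h1).symm
      · rintro ⟨y, ⟨n, rfl⟩⟩
        exact ⟨n, rfl⟩
    rcases orbit_cases N hneg a with h2 | h2
    · left
      rw [h2] at hcard
      have hle : N ≤ Subgroup.center Co0 := by
        intro x hx
        rw [mem_center_iff]
        by_contra hcon
        push_neg at hcon
        have h3 : (({⟨1, N.one_mem⟩, ⟨negCo0, hneg⟩, ⟨x, hx⟩} : Finset N) : Set N).ncard ≤ Nat.card N :=
          Set.ncard_le_card _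
        rw [Set.ncard_coe_finset, hcard, Finset.card_eq_three.2 ⟨_, _, _, ?_, ?_, ?_, rfl⟩] at h3
        · omega
        · intro e
          exact negCo0_ne_one (congrArg Subtype.val e).symm
        · intro e
          exact hcon.1 (congrArg Subtype.val e).symm
        · intro e
          exact hcon.2 (congrArg Subtype.val e).symm
      apply Subgroup.eq_of_le_of_card_ge hle
      rw [Cfsg.Agent.S0398.result, hcard]
    · exact absurd (regular_false N hneg a.2 hfree (by rw [hcard, h2])) id
  · rw [Subgroup.subgroupOf_eq_top] at h0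
    have hle : stabilizer Co0 a.1 ≤ N := fun x hx => (Subgroup.mem_inf.1 (h0 hx)).1
    rcases orbit_cases N hneg a with h2 | h2
    · exfalso
      -- the orbit of `a` is `a, -a`
      have hne : negOm a ≠ a := by
        intro h
        have h3 : dotInt ((a : leechLattice) : V) ((negOm a : OmA) : leechLattice) = 32 := by
          rw [h, dotInt_self]
          exact a.2
        rw [dot_negOm, dotInt_self] at h3
        have h9 : sqNorm ((a : leechLattice) : V) = 32 := a.2
        omega
      have horb : orbit N a = {a, negOm a} := by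
        symm
        apply Set.eq_of_subset_of_ncard_le _ (by rw [h2, Set.ncard_pair hne.symm]) (Set.toFinite _)
        intro y hy
        rcases hy with rfl | hy
        · exact mem_orbit_self _
        · rw [Set.mem_singleton_iff] at hy
          rw [hy]
          exact ⟨⟨negCo0, hneg⟩, rfl⟩
      have hall : ∀ n ∈ N, ∀ w : OmA, n • w = w ∨ n • w = negOm w := by
        intro n hn w
        obtain ⟨g, rfl⟩ := exists_smul_eq Co0 a w
        have h3 : (g⁻¹ * n * g) • a ∈ orbit N a := by
          refine ⟨⟨g⁻¹ * n * g, ?_⟩, rfl⟩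
          have := hN.conj_mem n hn g⁻¹
          simpa using this
        rw [horb] at h3
        have h4 : n • g • a = g • (g⁻¹ * n * g) • a := by
          simp [mul_smul]
        rw [h4]
        rcases h3 with h3 | h3
        · left
          rw [h3]
        · right
          rw [Set.mem_singleton_iff] at h3
          rw [h3]
          apply Subtype.ext
          show g • (-(a : leechLattice)) = -(g • (a : leechLattice))
          exact co0_map_neg _ _
      -- two vectors of inner product `-16`
      have hc := ncard_m16 a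
      have h1lt : 1 < {y : OmA | dotInt ((a : leechLattice) : V) ((y : leechLattice) : V) = -16}.ncard := by
        rw [hc]
        norm_num
      obtain ⟨w, hw, w', hw', hww⟩ := (Set.one_lt_ncard (Set.toFinite _)).1 h1lt
      obtain ⟨k, hk, hk2⟩ := Cfsg.Agent.S1574.result a.1 w.1 w'.1 a.2 w.2 w'.2 hw hw'
      have hkN := hle hk
      rcases hall k hkN w with e | e
      · have e3 : k • w = w' := Subtype.ext hk2
        exact hww (e.symm.trans e3)
      · have e3 : k • w = w' := Subtype.ext hk2
        have e2 : negOm w = w' := e.symm.trans e3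
        have h5 : dotInt ((a : leechLattice) : V) ((w' : leechLattice) : V) = -16 := hw'
        rw [← e2, dot_negOm] at h5
        have h6 : dotInt ((a : leechLattice) : V) ((w : leechLattice) : V) = -16 := hw
        omega
    · right
      have huniv : orbit N a = Set.univ := by
        apply Set.eq_of_subset_of_ncard_le (Set.subset_univ _)
        rw [h2, Set.ncard_univ, card_OmA]
      rw [eq_top_iff]
      intro g _
      have hy : g • a ∈ orbit N a := by
        rw [huniv]
        trivial
      obtain ⟨⟨n, hn⟩, e⟩ := hy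
      have e' : n • a = g • a := e
      have h1 : n⁻¹ * g ∈ stabilizer Co0 a.1 := by
        show (n⁻¹ * g) • a.1 = a.1
        have : (n⁻¹ * g) • a = a := by
          rw [mul_smul, ← e', inv_smul_smul]
        exact congrArg Subtype.val this
      have h2' := hle h1
      have : g = n * (n⁻¹ * g) := by group
      rw [this]
      exact N.mul_mem hn h2'

/-- The quotient by the centre is simple. -/
theorem simple_quot (hH : ∀ v : leechLattice, sqNorm (v : V) = 32 → IsSimpleGroup (stabilizer Co0 v)) :
    IsSimpleGroup (Co0 ⧸ Subgroup.center Co0) := by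
  classical
  have hc : Nat.card (Co0 ⧸ Subgroup.center Co0) = 4157776806543360000 := by
    have h := Subgroup.card_eq_card_quotient_mul_card_subgroup (Subgroup.center Co0)
    rw [Cfsg.Agent.S0397.result, Cfsg.Agent.S0398.result] at h
    omega
  haveI : Finite (Co0 ⧸ Subgroup.center Co0) := Nat.finite_of_card_ne_zero (by rw [hc]; norm_num)
  haveI : Nontrivial (Co0 ⧸ Subgroup.center Co0) := by
    rw [← Finite.one_lt_card_iff_nontrivial, hc]
    norm_num
  refine ⟨?_⟩
  intro H hH'
  let f := QuotientGroup.mk' (Subgroup.center Co0)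
  have hf : Function.Surjective f := QuotientGroup.mk'_surjective _
  haveI hNn : (H.comap f).Normal := Subgroup.Normal.comap hH' f
  have hneg : negCo0 ∈ H.comap f := by
    show f negCo0 ∈ H
    have : f negCo0 = 1 := (QuotientGroup.eq_one_iff _).2 negCo0_mem_center
    rw [this]
    exact H.one_mem
  rcases normal_main hH (H.comap f) hneg with h | h
  · left
    rw [eq_bot_iff]
    intro x hx
    obtain ⟨g, rfl⟩ := hf x
    have hg : g ∈ H.comap f := hx
    rw [h] at hg
    exact (Subgroup.mem_bot).2 ((QuotientGroup.eq_one_iff _).2 hg)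
  · right
    rw [eq_top_iff]
    intro x _
    obtain ⟨g, rfl⟩ := hf x
    have hg : g ∈ H.comap f := by
      rw [h]
      trivial
    exact hg

/-- The order of the quotient. -/
theorem card_quot : Nat.card (Co0 ⧸ Subgroup.center Co0) = 4157776806543360000 := by
  have h := Subgroup.card_eq_card_quotient_mul_card_subgroup (Subgroup.center Co0)
  rw [Cfsg.Agent.S0397.result, Cfsg.Agent.S0398.result] at h
  omega

end Cfsg.Agent.Lib.Sporadic.LeechCo1
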