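import Mathlib
import Cfsg.Agent.Lib.Sporadic.LeechTree2

/-!
# Orbit trees on vectors coded as natural numbers

Vectors with small coordinates are coded by natural numbers in base 32, so that the kernel works
with numerals only.
-/

set_option autoImplicit false

namespace Cfsg.Agent.Lib.Sporadic.LeechTree

open Cfsg Cfsg.Agent.Lib.Sporadic.GolayCore Cfsg.Agent.Lib.Sporadic.LeechBasic
  Cfsg.Agent.Lib.Sporadic.LeechNorm Cfsg.Agent.Lib.Sporadic.LeechFacts
  Cfsg.Agent.Lib.Sporadic.LeechAut Cfsg.Agent.Lib.Sporadic.LeechMat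
  Cfsg.Agent.Lib.Sporadic.LeechOrb Cfsg.Agent.Lib.Sporadic.LeechShape
  Cfsg.Agent.Lib.Sporadic.LeechKey Cfsg.Agent.Lib.Sporadic.LeechMin
  Cfsg.Agent.Lib.Sporadic.LeechA0 Cfsg.Agent.Lib.Sporadic.LeechEnum
  Cfsg.Agent.Lib.Sporadic.M24Chain Cfsg.Agent.Lib.Sporadic.M24Tbl

/-! ### Digits -/

/-- The digit at the bit position `s`. -/
def dg (c s : ℕ) : ℕ := Nat.land (Nat.shiftRight c s) 31

theorem dg_eq (c s : ℕ) : dg c s = c / 2 ^ s % 32 := by
  show (c >>> s) &&& 31 = _
  rw [Nat.shiftRight_eq_div_pow]
  exact Nat.and_two_pow_sub_one_eq_mod (c / 2 ^ s) 5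

theorem dg_lt (c s : ℕ) : dg c s < 32 := by
  rw [dg_eq]
  exact Nat.mod_lt _ (by norm_num)

theorem dg_zero (a b : ℕ) (ha : a < 32) : dg (a + 32 * b) 0 = a := by
  rw [dg_eq]
  simp only [pow_zero, Nat.div_one]
  omega

theorem dg_succ (a b j : ℕ) (ha : a < 32) : dg (a + 32 * b) (5 * (j + 1)) = dg b (5 * j) := by
  rw [dg_eq, dg_eq]
  have h1 : (2 : ℕ) ^ (5 * (j + 1)) = 32 * 2 ^ (5 * j) := by
    rw [mul_add, pow_add]
    ring
  rw [h1, ← Nat.div_div_eq_div_mul]
  have h2 : (a + 32 * b) / 32 = b := by omega
  rw [h2]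

/-- Decoding a code. -/
def decL (c : ℕ) : List ℤ := rangeL fun i => (dg c (5 * i) : ℤ) - 16

/-- The vector of a code. -/
def vecN (c : ℕ) : GolayPt → ℤ := fun p => (dg c (5 * idx p) : ℤ) - 16

theorem vecOf_decL (c : ℕ) : vecOf (decL c) = vecN c := by
  funext p
  unfold decL vecN
  rw [vecOf_rangeL]

/-- Coding a list vector. -/
def encL : List ℤ → ℕ
  | [] => 0
  | a :: as => Nat.add (Nat.mod (a + 16).toNat 32) (Nat.mul 32 (encL as))

theorem encL_lt (l : List ℤ) : encL l < 32 ^ l.length := by
  induction l with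
  | nil => simp [encL]
  | cons a as ih =>
    simp only [encL, List.length_cons]
    show (a + 16).toNat % 32 + 32 * encL as < _
    have h1 : (a + 16).toNat % 32 < 32 := Nat.mod_lt _ (by norm_num)
    rw [pow_succ]
    omega

theorem dg_encL (l : List ℤ) (j : ℕ) (hj : j < l.length) (hb : -16 ≤ l.getD j 0 ∧ l.getD j 0 < 16) :
    (dg (encL l) (5 * j) : ℤ) - 16 = l.getD j 0 := by
  induction l generalizing j with
  | nil => simp at hj
  | cons a as ih =>
    have h1 : (a + 16).toNat % 32 < 32 := Nat.mod_lt _ (by norm_num)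
    have e : encL (a :: as) = (a + 16).toNat % 32 + 32 * encL as := rfl
    cases j with
    | zero =>
      rw [e, Nat.mul_zero, dg_zero _ _ h1]
      simp only [List.getD_cons_zero] at hb ⊢
      omega
    | succ j =>
      rw [e, dg_succ _ _ _ h1]
      simp only [List.getD_cons_succ] at hb ⊢
      exact ih j (by simpa using hj) hb

theorem vecN_encL {l : List ℤ} (hl : l.length = 24) (hb : ∀ i < 24, -16 ≤ l.getD i 0 ∧ l.getD i 0 < 16) :
    vecN (encL l) = vecOf l := by
  funext p
  have hp := idx_lt p
  exact dg_encL l (idx p) (by omega) (hb _ hp)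

/-- Permutation of the digits. -/
def permAux (c : ℕ) : List ℕ → ℕ
  | [] => 0
  | s :: ss => Nat.add (dg c s) (Nat.mul 32 (permAux c ss))

theorem permAux_lt (c : ℕ) (ss : List ℕ) : permAux c ss < 32 ^ ss.length := by
  induction ss with
  | nil => simp [permAux]
  | cons a as ih =>
    simp only [permAux, List.length_cons]
    show dg c a + 32 * permAux c as < _
    have h1 := dg_lt c a
    rw [pow_succ]
    omega

theorem dg_permAux (c : ℕ) (ss : List ℕ) (j : ℕ) (hj : j < ss.length) :
    dg (permAux c ss) (5 * j) = dg c (ss.getD j 0) := by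
  induction ss generalizing j with
  | nil => simp at hj
  | cons a as ih =>
    have e : permAux c (a :: as) = dg c a + 32 * permAux c as := rfl
    cases j with
    | zero =>
      rw [e, Nat.mul_zero, dg_zero _ _ (dg_lt c a)]
      rfl
    | succ j =>
      rw [e, dg_succ _ _ _ (dg_lt c a), ih j (by simpa using hj)]
      rfl

theorem eq_of_dg {n : ℕ} {c c' : ℕ} (h : c < 32 ^ n) (h' : c' < 32 ^ n)
    (hd : ∀ j < n, dg c (5 * j) = dg c' (5 * j)) : c = c' := by
  induction n generalizing c c' with
  | zero =>
    simp at h h'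
    omega
  | succ n ih =>
    have e : c = c % 32 + 32 * (c / 32) := by omega
    have e' : c' = c' % 32 + 32 * (c' / 32) := by omega
    have h0 := hd 0 (by omega)
    rw [dg_eq, dg_eq] at h0
    simp only [Nat.mul_zero, pow_zero, Nat.div_one] at h0
    have hc : c / 32 < 32 ^ n := by
      rw [pow_succ] at h
      omega
    have hc' : c' / 32 < 32 ^ n := by
      rw [pow_succ] at h'
      omega
    have key : c / 32 = c' / 32 := ih hc hc' (fun j hj => by
      have h1 := hd (j + 1) (by omega)
      rw [e, e', dg_succ _ _ _ (Nat.mod_lt _ (by norm_num)), dg_succ _ _ _ (Nat.mod_lt _ (by norm_num))] at h1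
      exact h1)
    omega

theorem vecN_inj {c c' : ℕ} (h : c < 32 ^ 24) (h' : c' < 32 ^ 24) (e : vecN c = vecN c') : c = c' := by
  apply eq_of_dg h h'
  intro j hj
  have h1 := congrFun e (pt j)
  simp only [vecN, idx_pt hj] at h1
  omega

/-! ### Generators on codes -/

/-- A generator on codes. -/
def GenOK (K : Subgroup Co0) (f : ℕ → ℕ) : Prop :=
  ∀ c, vecN c ∈ leechLattice → sqNorm (vecN c) = 32 → SameIn K (vecN c) (vecN (f c)) ∧ f c < 32 ^ 24

/-- A bound for the coordinates of a minimal vector. -/
theorem coord_bound32 {x : GolayPt → ℤ} (h : sqNorm x = 32) (p : GolayPt) : -16 ≤ x p ∧ x p < 16 := by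
  have h1 : x p ^ 2 ≤ sqNorm x :=
    Finset.single_le_sum (f := fun i => x i ^ 2) (fun _ _ => sq_nonneg _) (Finset.mem_univ p)
  rw [h] at h1
  constructor <;> nlinarith

theorem genOK_fun {K : Subgroup Co0} {g : Co0} {f : List ℤ → List ℤ} (hA : Acts g f) (hg : g ∈ K)
    (hlen : ∀ l, (f l).length = 24) : GenOK K (fun c => encL (f (decL c))) := by
  intro c hc hn
  have hc' : vecOf (decL c) ∈ leechLattice := by rwa [vecOf_decL]
  have hS := acts_sameIn hA hg (decL c) hc'
  rw [vecOf_decL] at hS
  have hnew : sqNorm (vecOf (f (decL c))) = 32 := by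
    rw [hS.norm_eq, hn]
  have hb : ∀ i < 24, -16 ≤ (f (decL c)).getD i 0 ∧ (f (decL c)).getD i 0 < 16 := by
    intro i hi
    have := coord_bound32 hnew (pt i)
    simpa only [vecOf, idx_pt hi] using this
  refine ⟨?_, ?_⟩
  · show SameIn K (vecN c) (vecN (encL (f (decL c))))
    rw [vecN_encL (hlen _) hb]
    exact hS
  · have := encL_lt (f (decL c))
    rwa [hlen] at this

theorem length_matL (M : List (List ℤ)) (D : ℤ) (l : List ℤ) : (matL M D l).length = 24 := by
  simp [matL, rangeL]

theorem genOK_mat {K : Subgroup Co0} {M : List (List ℤ)} {D : ℤ} (hM : matCheck M D = true)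
    (hg : matCo0 hM ∈ K) : GenOK K (fun c => encL (matL M D (decL c))) :=
  genOK_fun (acts_mat hM) hg (length_matL M D)

/-- Permutation on codes. -/
theorem genOK_perm {K : Subgroup Co0} {g : Co0} {Ti : List ℕ} (hA : Acts g (permL Ti)) (hg : g ∈ K)
    (hlen : Ti.length = 24) (hlt : ∀ t ∈ Ti, t < 24) : GenOK K (fun c => permAux c (Ti.map fun t => 5 * t)) := by
  intro c hc hn
  have hc' : vecOf (decL c) ∈ leechLattice := by rwa [vecOf_decL]
  have hS := acts_sameIn hA hg (decL c) hc'
  rw [vecOf_decL] at hS
  have hlen' : (Ti.map fun t => 5 * t).length = 24 := by simp [hlen]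
  refine ⟨?_, ?_⟩
  · have e : vecOf (permL Ti (decL c)) = vecN (permAux c (Ti.map fun t => 5 * t)) := by
      funext p
      have hp := idx_lt p
      have hj : idx p < (Ti.map fun t => 5 * t).length := by omega
      have e2 : vecN (permAux c (Ti.map fun t => 5 * t)) p = (dg c ((Ti.map fun t => 5 * t).getD (idx p) 0) : ℤ) - 16 := by
        unfold vecN
        rw [dg_permAux _ _ _ hj]
      rw [e2]
      have hT : idx p < Ti.length := by omega
      have e3 : (Ti.map fun t => 5 * t).getD (idx p) 0 = 5 * Ti.getD (idx p) 0 := by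
        rw [List.getD_eq_getElem _ _ hj, List.getD_eq_getElem _ _ hT]
        simp
      rw [e3]
      have hlt' : Ti.getD (idx p) 0 < 24 := by
        rw [List.getD_eq_getElem _ _ hT]
        exact hlt _ (List.getElem_mem hT)
      unfold permL vecOf
      rw [show (rangeL fun j => (decL c).getD (Ti.getD j 0) 0).getD (idx p) 0 =
        vecOf (rangeL fun j => (decL c).getD (Ti.getD j 0) 0) p from rfl, vecOf_rangeL]
      have e4 : (decL c).getD (Ti.getD (idx p) 0) 0 = vecOf (decL c) (pt (Ti.getD (idx p) 0)) := by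
        unfold vecOf
        rw [idx_pt hlt']
      rw [e4, vecOf_decL]
      unfold vecN
      rw [idx_pt hlt']
    rw [← e]
    exact hS
  · have := permAux_lt c (Ti.map fun t => 5 * t)
    rwa [hlen'] at this

/-! ### Running a tree on codes -/

/-- Evaluates a natural number before going on. -/
def forceN {α : Type} (n : ℕ) (k : ℕ → α) : α :=
  Nat.rec (k 0) (fun m _ => k (Nat.succ m)) n

theorem forceN_eq {α : Type} (n : ℕ) (k : ℕ → α) : forceN n k = k n := by
  cases n <;> rfl

/-- Walks through a tree, checking a predicate. -/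
def runN (p : ℕ → Bool) (gens : List (ℕ → ℕ)) : ℕ → ℕ → List ℕ → BST → Bool
  | 0, _, _, _ => true
  | fuel + 1, c, st, t =>
    match st.drop (Nat.mod c 32) with
    | [] => false
    | top :: rest =>
      forceN ((gens.getD (Nat.mod (Nat.div c 32) 16) id) top) fun new =>
        bif t.has new then false
        else bif p new then runN p gens fuel (Nat.div c 512) (new :: top :: rest) (t.ins new)
        else false

theorem runN_sound {K : Subgroup Co0} {gens : List (ℕ → ℕ)} {p : ℕ → Bool}
    (H : ∀ f ∈ gens, GenOK K f) (R : GolayPt → ℤ) (fuel c : ℕ) (st : List ℕ) (t : BST)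
    (h : runN p gens fuel c st t = true)
    (hst : ∀ l ∈ st, SameIn K R (vecN l) ∧ sqNorm (vecN l) = 32 ∧ l < 32 ^ 24) :
    ∃ O : List ℕ, O.length = fuel ∧ (∀ l ∈ O, SameIn K R (vecN l) ∧ sqNorm (vecN l) = 32 ∧ l < 32 ^ 24) ∧
      O.Nodup ∧ (∀ l ∈ O, t.has l = false) ∧ ∀ l ∈ O, p l = true := by
  induction fuel generalizing c st t with
  | zero => exact ⟨[], rfl, by simp, by simp, by simp, by simp⟩
  | succ fuel ih =>
    simp only [runN, forceN_eq] at h
    cases hd : st.drop (Nat.mod c 32) with
    | nil =>
      rw [hd] at h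
      simp at h
    | cons top rest =>
      rw [hd] at h
      simp only at h
      have hsub : ∀ l ∈ top :: rest, l ∈ st := fun l hl => by
        rw [← hd] at hl
        exact List.mem_of_mem_drop hl
      obtain ⟨htop, htopn, htopb⟩ := hst top (hsub top (by simp))
      set new := (gens.getD (Nat.mod (Nat.div c 32) 16) id) top with hnew
      have hnewS : SameIn K R (vecN new) ∧ sqNorm (vecN new) = 32 ∧ new < 32 ^ 24 := by
        by_cases hk : Nat.mod (Nat.div c 32) 16 < gens.length
        · have h1 : gens.getD (Nat.mod (Nat.div c 32) 16) id ∈ gens := by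
            rw [List.getD_eq_getElem _ _ hk]
            exact List.getElem_mem hk
          obtain ⟨h2, h3⟩ := H _ h1 top htop.right_mem htopn
          have h4 := htop.trans h2
          exact ⟨h4, by rw [h2.norm_eq, htopn], h3⟩
        · have h1 : new = top := by
            rw [hnew, List.getD_eq_default _ _ (by omega)]
            rfl
          rw [h1]
          exact ⟨htop, htopn, htopb⟩
      cases hq : t.has new with
      | true =>
        rw [hq] at h
        simp at h
      | false =>
        rw [hq] at h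
        simp only [cond_false] at h
        cases hpn : p new with
        | false =>
          rw [hpn] at h
          simp at h
        | true =>
          rw [hpn] at h
          simp only [cond_true] at h
          obtain ⟨O, h1, h2, h3, h4, h5⟩ := ih (Nat.div c 512) (new :: top :: rest) (t.ins new) h (by
            intro l hl
            rcases List.mem_cons.1 hl with rfl | hl
            · exact hnewS
            · exact hst l (hsub l hl))
          refine ⟨new :: O, by simp [h1], ?_, ?_, ?_, ?_⟩
          · intro l hl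
            rcases List.mem_cons.1 hl with rfl | hl
            · exact hnewS
            · exact h2 l hl
          · rw [List.nodup_cons]
            refine ⟨?_, h3⟩
            intro hmem
            have h6 := h4 new hmem
            rw [BST.has_ins] at h6
            simp at h6
          · intro l hl
            rcases List.mem_cons.1 hl with rfl | hl
            · exact hq
            · have h6 := h4 l hl
              rw [BST.has_ins] at h6
              simp only [Bool.or_eq_false_iff] at h6
              exact h6.2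
          · intro l hl
            rcases List.mem_cons.1 hl with rfl | hl
            · exact hpn
            · exact h5 l hl

/-- A set given by inner products, of the size of a tree, is an orbit on which the predicate holds. -/
theorem orbit_condsN {K : Subgroup Co0} {gens : List (ℕ → ℕ)} {p : ℕ → Bool}
    (H : ∀ f ∈ gens, GenOK K f)
    {root : List ℤ} (hrl : root.length = 24) (hr : vecOf root ∈ leechLattice) {fuel c : ℕ}
    (h : runN p gens fuel c [encL root] (BST.leaf.ins (encL root)) = true) (hp : p (encL root) = true)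
    {C : List (List ℤ × ℤ)} (hC : ∀ bt ∈ C, bt.1.length = 24) (hcnt : cntP (condsP C) = fuel + 1)
    (hn : normL root = 32) (hK : FixesC K C) (hroot : ∀ bt ∈ C, dotLL bt.1 root = bt.2) :
    ∀ x, x ∈ leechLattice → sqNorm x = 32 → condsQ C x →
      SameIn K (vecOf root) x ∧ ∃ l, x = vecN l ∧ p l = true := by
  classical
  have hrn : sqNorm (vecOf root) = 32 := by rw [sqNorm_vecOf, hn]
  have hrQ : condsQ C (vecOf root) := by
    intro bt hbt
    rw [dotInt_vecOf, hroot bt hbt]
  have hrv : vecN (encL root) = vecOf root := by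
    apply vecN_encL hrl
    intro i hi
    have := coord_bound32 hrn (pt i)
    simpa only [vecOf, idx_pt hi] using this
  have hrb : encL root < 32 ^ 24 := by
    have := encL_lt root
    rwa [hrl] at this
  obtain ⟨O, h1, h2, h3, h4, h5⟩ := runN_sound H (vecOf root) fuel c [encL root] _ h (by
    intro l hl
    rw [List.mem_singleton] at hl
    subst hl
    rw [hrv]
    exact ⟨SameIn.refl hr, hrn, hrb⟩)
  set S : Set (GolayPt → ℤ) := {w : GolayPt → ℤ | w ∈ leechLattice ∧ sqNorm w = 32 ∧ condsQ C w} with hS
  have hSc : S.ncard = fuel + 1 := by rw [hS, ncard_conds C hC, hcnt]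
  have hfin : S.Finite := Set.finite_of_ncard_pos (by omega)
  have hroot' : encL root ∉ O := by
    intro hmem
    have h6 := h4 _ hmem
    rw [BST.has_ins] at h6
    simp at h6
  have hnd : ((encL root :: O).map vecN).Nodup := by
    refine List.Nodup.map_on ?_ (List.nodup_cons.2 ⟨hroot', h3⟩)
    intro a ha b hb e
    have hbd : ∀ z ∈ encL root :: O, z < 32 ^ 24 := by
      intro z hz
      rcases List.mem_cons.1 hz with rfl | hz
      · exact hrb
      · exact (h2 z hz).2.2
    exact vecN_inj (hbd a ha) (hbd b hb) e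
  set F : Finset (GolayPt → ℤ) := ((encL root :: O).map vecN).toFinset with hF
  have hsub : (F : Set (GolayPt → ℤ)) ⊆ S := by
    intro x hx
    obtain ⟨l, hl, rfl⟩ := List.mem_map.1 (List.mem_toFinset.1 (Finset.mem_coe.1 hx))
    rcases List.mem_cons.1 hl with rfl | hl
    · rw [hrv]
      exact ⟨hr, hrn, hrQ⟩
    · obtain ⟨h6, h7, -⟩ := h2 l hl
      refine ⟨h6.right_mem, h7, ?_⟩
      intro bt hbt
      obtain ⟨hb, hle⟩ := hK bt hbt
      have h8 := h6.dot_eq hle
      have h9 : dotInt (vecOf bt.1) (vecN l) = dotInt (vecOf bt.1) (vecOf root) := h8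
      rw [h9]
      exact hrQ bt hbt
  have hcard : (F : Set (GolayPt → ℤ)).ncard = S.ncard := by
    rw [Set.ncard_coe_finset, hF, List.toFinset_card_of_nodup hnd, hSc]
    simp [h1]
  have heq := Set.eq_of_subset_of_ncard_le hsub hcard.ge hfin
  intro x hx hxn hxQ
  have hxS : x ∈ S := ⟨hx, hxn, hxQ⟩
  rw [← heq] at hxS
  obtain ⟨l, hl, rfl⟩ := List.mem_map.1 (List.mem_toFinset.1 (Finset.mem_coe.1 hxS))
  rcases List.mem_cons.1 hl with rfl | hl
  · rw [hrv]
    exact ⟨SameIn.refl hr, encL root, hrv.symm, hp⟩
  · exact ⟨(h2 l hl).1, l, rfl, h5 l hl⟩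

end Cfsg.Agent.Lib.Sporadic.LeechTree
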