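import Mathlib
import Cfsg.Agent.Lib.Sporadic.LeechTreeN

/-!
# Partitions of sets of minimal vectors into orbits

Orbit trees whose sizes add up to the cardinality of the set show that the orbits fill the set.
-/

set_option autoImplicit false

namespace Cfsg.Agent.Lib.Sporadic.LeechTree

open Cfsg Cfsg.Agent.Lib.Sporadic.GolayCore Cfsg.Agent.Lib.Sporadic.LeechBasic
  Cfsg.Agent.Lib.Sporadic.LeechNorm Cfsg.Agent.Lib.Sporadic.LeechFacts
  Cfsg.Agent.Lib.Sporadic.LeechAut Cfsg.Agent.Lib.Sporadic.LeechMat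
  Cfsg.Agent.Lib.Sporadic.LeechOrb Cfsg.Agent.Lib.Sporadic.LeechShape
  Cfsg.Agent.Lib.Sporadic.LeechKey Cfsg.Agent.Lib.Sporadic.LeechMin
  Cfsg.Agent.Lib.Sporadic.LeechA0 Cfsg.Agent.Lib.Sporadic.LeechEnum
  Cfsg.Agent.Lib.Sporadic.M24Chain Cfsg.Agent.Lib.Sporadic.M24Tbl

/-- The minimal vectors with prescribed inner products. -/
def setC (C : List (List ℤ × ℤ)) : Set (GolayPt → ℤ) :=
  {w : GolayPt → ℤ | w ∈ leechLattice ∧ sqNorm w = 32 ∧ condsQ C w}

/-- The predicate of a tree. -/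
def Rp (p : ℕ → Bool) (x : GolayPt → ℤ) : Prop := ∃ l, x = vecN l ∧ p l = true

/-- A tree gives a finite set in one orbit. -/
theorem tree_finset {K : Subgroup Co0} {gens : List (ℕ → ℕ)} {p : ℕ → Bool}
    (H : ∀ f ∈ gens, GenOK K f)
    {root : List ℤ} (hrl : root.length = 24) (hr : vecOf root ∈ leechLattice) (hn : normL root = 32) {fuel c : ℕ}
    (h : runN p gens fuel c [encL root] (BST.leaf.ins (encL root)) = true) (hp : p (encL root) = true) :
    ∃ F : Finset (GolayPt → ℤ), F.card = fuel + 1 ∧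
      ∀ x ∈ F, SameIn K (vecOf root) x ∧ sqNorm x = 32 ∧ Rp p x := by
  classical
  have hrn : sqNorm (vecOf root) = 32 := by rw [sqNorm_vecOf, hn]
  have hrv : vecN (encL root) = vecOf root := by
    apply vecN_encL hrl
    intro i hi
    have := coord_bound32 hrn (pt i)
    simpa only [vecOf, idx_pt hi] using this
  have hrb : encL root < 32 ^ 24 := by
    have := encL_lt root
    rwa [hrl] at this
  obtain ⟨O, h1, h2, h3, h4, h5⟩ := runN_sound H (vecOf root) fuel c [encL root] _ h (by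
    intro l hl
    rw [List.mem_singleton] at hl
    subst hl
    rw [hrv]
    exact ⟨SameIn.refl hr, hrn, hrb⟩)
  have hroot' : encL root ∉ O := by
    intro hmem
    have h6 := h4 _ hmem
    rw [BST.has_ins] at h6
    simp at h6
  have hnd : ((encL root :: O).map vecN).Nodup := by
    refine List.Nodup.map_on ?_ (List.nodup_cons.2 ⟨hroot', h3⟩)
    intro a ha b hb e
    have hbd : ∀ z ∈ encL root :: O, z < 32 ^ 24 := by
      intro z hz
      rcases List.mem_cons.1 hz with rfl | hz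
      · exact hrb
      · exact (h2 z hz).2.2
    exact vecN_inj (hbd a ha) (hbd b hb) e
  refine ⟨((encL root :: O).map vecN).toFinset, ?_, ?_⟩
  · rw [List.toFinset_card_of_nodup hnd]
    simp [h1]
  · intro x hx
    obtain ⟨l, hl, rfl⟩ := List.mem_map.1 (List.mem_toFinset.1 hx)
    rcases List.mem_cons.1 hl with rfl | hl
    · rw [hrv]
      exact ⟨SameIn.refl hr, hrn, encL root, hrv.symm, hp⟩
    · obtain ⟨h6, h7, -⟩ := h2 l hl
      exact ⟨h6, h7, l, rfl, h5 l hl⟩

theorem setC_of_same {K : Subgroup Co0} {C : List (List ℤ × ℤ)} (hK : FixesC K C) {root : List ℤ}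
    (hroot : ∀ bt ∈ C, dotLL bt.1 root = bt.2) {x : GolayPt → ℤ} (hs : SameIn K (vecOf root) x) (hn : sqNorm x = 32) :
    x ∈ setC C := by
  refine ⟨hs.right_mem, hn, ?_⟩
  intro bt hbt
  obtain ⟨hb, hle⟩ := hK bt hbt
  have h8 := hs.dot_eq hle
  have h9 : dotInt (vecOf bt.1) x = dotInt (vecOf bt.1) (vecOf root) := h8
  rw [h9, dotInt_vecOf, hroot bt hbt]

/-- A set of known size containing a tree: all elements are in the orbit of the root. -/
theorem orbit_setN {K : Subgroup Co0} {gens : List (ℕ → ℕ)} {p : ℕ → Bool}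
    (H : ∀ f ∈ gens, GenOK K f)
    {root : List ℤ} (hrl : root.length = 24) (hr : vecOf root ∈ leechLattice) (hn : normL root = 32) {fuel c : ℕ}
    (h : runN p gens fuel c [encL root] (BST.leaf.ins (encL root)) = true) (hp : p (encL root) = true)
    {C : List (List ℤ × ℤ)} (hK : FixesC K C) (hroot : ∀ bt ∈ C, dotLL bt.1 root = bt.2)
    (hcard : (setC C).ncard = fuel + 1) :
    ∀ x ∈ setC C, SameIn K (vecOf root) x ∧ Rp p x := by
  classical
  obtain ⟨F, hF, hF2⟩ := tree_finset H hrl hr hn h hp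
  have hfin : (setC C).Finite := Set.finite_of_ncard_pos (by omega)
  have hsub : (F : Set (GolayPt → ℤ)) ⊆ setC C := by
    intro x hx
    obtain ⟨h1, h2, -⟩ := hF2 x hx
    exact setC_of_same hK hroot h1 h2
  have heq := Set.eq_of_subset_of_ncard_le hsub (by rw [Set.ncard_coe_finset, hF, hcard]) hfin
  intro x hx
  rw [← heq] at hx
  obtain ⟨h1, -, h3⟩ := hF2 x hx
  exact ⟨h1, h3⟩

/-- A part of a partition into orbits. -/
structure PartD (K : Subgroup Co0) (S : Set (GolayPt → ℤ)) (d : (GolayPt → ℤ) → ℤ) where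
  /-- The root. -/
  r : GolayPt → ℤ
  /-- The value. -/
  c : ℤ
  /-- The size. -/
  n : ℕ
  /-- The tree. -/
  ok : ∃ F : Finset (GolayPt → ℤ), F.card = n ∧ ∀ x ∈ F, x ∈ S ∧ d x = c ∧ SameIn K r x

theorem parts_aux {K : Subgroup Co0} {S : Set (GolayPt → ℤ)} {d : (GolayPt → ℤ) → ℤ} :
    ∀ L : List (PartD K S d), (L.map PartD.c).Nodup →
      ∃ A : Finset (GolayPt → ℤ), (∀ x ∈ A, x ∈ S ∧ ∃ q ∈ L, d x = q.c ∧ SameIn K q.r x) ∧
        A.card = (L.map PartD.n).sum ∧ ∀ q ∈ L, (A.filter fun x => d x = q.c).card = q.n := by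
  classical
  intro L
  induction L with
  | nil =>
    intro _
    exact ⟨∅, by simp, by simp, by simp⟩
  | cons q L ih =>
    intro hnd
    simp only [List.map_cons, List.nodup_cons, List.mem_map, not_exists, not_and] at hnd
    obtain ⟨A, hA1, hA2, hA3⟩ := ih hnd.2
    obtain ⟨F, hF1, hF2⟩ := q.ok
    have hdisj : Disjoint F A := by
      rw [Finset.disjoint_left]
      intro x hx hxA
      obtain ⟨q', hq', e, -⟩ := (hA1 x hxA).2
      exact hnd.1 q' hq' (by rw [← e, (hF2 x hx).2.1])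
    refine ⟨F ∪ A, ?_, ?_, ?_⟩
    · intro x hx
      rcases Finset.mem_union.1 hx with hx | hx
      · obtain ⟨h1, h2, h3⟩ := hF2 x hx
        exact ⟨h1, q, by simp, h2, h3⟩
      · obtain ⟨h1, q', hq', h2, h3⟩ := hA1 x hx
        exact ⟨h1, q', List.mem_cons_of_mem _ hq', h2, h3⟩
    · rw [Finset.card_union_of_disjoint hdisj, hF1, hA2]
      simp
    · intro q' hq'
      rw [Finset.filter_union]
      rcases List.mem_cons.1 hq' with rfl | hq'
      · have e1 : (F.filter fun x => d x = q'.c) = F := by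
          apply Finset.filter_true_of_mem
          intro x hx
          exact (hF2 x hx).2.1
        have e2 : (A.filter fun x => d x = q'.c) = ∅ := by
          apply Finset.filter_false_of_mem
          intro x hx e
          obtain ⟨q'', hq'', e3, -⟩ := (hA1 x hx).2
          exact hnd.1 q'' hq'' (by rw [← e3, e])
        rw [e1, e2, Finset.union_empty, hF1]
      · have e1 : (F.filter fun x => d x = q'.c) = ∅ := by
          apply Finset.filter_false_of_mem
          intro x hx e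
          exact hnd.1 q' hq' (by rw [← e, (hF2 x hx).2.1])
        rw [e1, Finset.empty_union]
        exact hA3 q' hq'

/-- The parts fill the set. -/
theorem parts_cover {K : Subgroup Co0} {S : Set (GolayPt → ℤ)} {d : (GolayPt → ℤ) → ℤ}
    (L : List (PartD K S d)) (hnd : (L.map PartD.c).Nodup) (hsum : (L.map PartD.n).sum = S.ncard) (hfin : S.Finite)
    (q : PartD K S d) (hq : q ∈ L) :
    (∀ x ∈ S, d x = q.c → SameIn K q.r x) ∧ {x | x ∈ S ∧ d x = q.c}.ncard = q.n := by
  classical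
  obtain ⟨A, hA1, hA2, hA3⟩ := parts_aux L hnd
  have hsub : (A : Set (GolayPt → ℤ)) ⊆ S := fun x hx => (hA1 x hx).1
  have heq := Set.eq_of_subset_of_ncard_le hsub (by rw [Set.ncard_coe_finset, hA2, hsum]) hfin
  constructor
  · intro x hx hd
    rw [← heq] at hx
    obtain ⟨q', hq', e, h3⟩ := (hA1 x hx).2
    have e2 : q' = q := List.inj_on_of_nodup_map hnd hq' hq (by rw [← e, hd])
    rw [← e2]
    exact h3
  · rw [← hA3 q hq, ← Set.ncard_coe_finset]
    congr 1
    ext x
    simp only [Set.mem_ofPred_eq, Finset.coe_filter, Finset.mem_coe]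
    have hx : x ∈ S ↔ x ∈ A := by
      rw [← heq]
      exact Finset.mem_coe
    rw [hx]

/-- Every element lies in a part. -/
theorem parts_exists {K : Subgroup Co0} {S : Set (GolayPt → ℤ)} {d : (GolayPt → ℤ) → ℤ}
    (L : List (PartD K S d)) (hnd : (L.map PartD.c).Nodup) (hsum : (L.map PartD.n).sum = S.ncard) (hfin : S.Finite)
    {x : GolayPt → ℤ} (hx : x ∈ S) : ∃ q ∈ L, d x = q.c := by
  classical
  obtain ⟨A, hA1, hA2, -⟩ := parts_aux L hnd
  have hsub : (A : Set (GolayPt → ℤ)) ⊆ S := fun x hx => (hA1 x hx).1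
  have heq := Set.eq_of_subset_of_ncard_le hsub (by rw [Set.ncard_coe_finset, hA2, hsum]) hfin
  rw [← heq] at hx
  obtain ⟨q, hq, e, -⟩ := (hA1 x hx).2
  exact ⟨q, hq, e⟩

/-- A part from a tree. -/
def mkPart {K : Subgroup Co0} {gens : List (ℕ → ℕ)} {p : ℕ → Bool} (H : ∀ f ∈ gens, GenOK K f)
    {root : List ℤ} (hrl : root.length = 24) (hr : vecOf root ∈ leechLattice) (hn : normL root = 32) {fuel cert : ℕ}
    (h : runN p gens fuel cert [encL root] (BST.leaf.ins (encL root)) = true) (hp : p (encL root) = true)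
    {C : List (List ℤ × ℤ)} {b : List ℤ} {c0 : ℤ} (hK : FixesC K ((b, c0) :: C))
    (hroot : ∀ bt ∈ (b, c0) :: C, dotLL bt.1 root = bt.2) :
    PartD K (setC C) (dotInt (vecOf b)) where
  r := vecOf root
  c := c0
  n := fuel + 1
  ok := by
    obtain ⟨F, hF, hF2⟩ := tree_finset H hrl hr hn h hp
    refine ⟨F, hF, ?_⟩
    intro x hx
    obtain ⟨h1, h2, -⟩ := hF2 x hx
    have h3 := setC_of_same hK hroot h1 h2
    refine ⟨⟨h3.1, h3.2.1, fun bt hbt => h3.2.2 bt (List.mem_cons_of_mem _ hbt)⟩, ?_, h1⟩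
    exact h3.2.2 (b, c0) (by simp)

theorem mem_setC_cons {b : List ℤ} {c : ℤ} {C : List (List ℤ × ℤ)} {x : GolayPt → ℤ} :
    x ∈ setC ((b, c) :: C) ↔ x ∈ setC C ∧ dotInt (vecOf b) x = c := by
  simp only [setC, condsQ, List.mem_cons, forall_eq_or_imp, Set.mem_ofPred_eq]
  tauto

theorem setC_cons (b : List ℤ) (c : ℤ) (C : List (List ℤ × ℤ)) :
    setC ((b, c) :: C) = {x | x ∈ setC C ∧ dotInt (vecOf b) x = c} := by
  ext x
  exact mem_setC_cons

end Cfsg.Agent.Lib.Sporadic.LeechTree
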