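import Mathlib
import Cfsg.Agent.Lib.Sporadic.LeechCo3
import Cfsg.Agent.Lib.Sporadic.LeechParts
import Cfsg.Agent.S1578

/-!
# The stabiliser of a vector of norm 48 is transitive on 11178 minimal vectors
-/

set_option autoImplicit false

namespace Cfsg.Agent.Lib.Sporadic.LeechCo3

open Cfsg Cfsg.Agent.Lib.Sporadic.GolayCore Cfsg.Agent.Lib.Sporadic.LeechBasic
  Cfsg.Agent.Lib.Sporadic.LeechNorm Cfsg.Agent.Lib.Sporadic.LeechFacts
  Cfsg.Agent.Lib.Sporadic.LeechAut Cfsg.Agent.Lib.Sporadic.LeechMat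
  Cfsg.Agent.Lib.Sporadic.LeechOrb Cfsg.Agent.Lib.Sporadic.LeechShape
  Cfsg.Agent.Lib.Sporadic.LeechKey Cfsg.Agent.Lib.Sporadic.LeechMin
  Cfsg.Agent.Lib.Sporadic.LeechA0 Cfsg.Agent.Lib.Sporadic.LeechEnum
  Cfsg.Agent.Lib.Sporadic.LeechTree
  Cfsg.Agent.Lib.Sporadic.M24Chain Cfsg.Agent.Lib.Sporadic.M24Tbl

def P11178 (y : ℕ → ℕ) : Bool :=
  Nat.beq (2 * y 1 + y 0 + y 2 + y 4 + y 5 + y 6 + y 10 + y 11) (24 + y 23)

theorem scan11178 : cntP P11178 = 11178 := by decide +kernel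

theorem ncard_u1 : {w : GolayPt → ℤ | w ∈ leechLattice ∧ sqNorm w = 32 ∧
    dotInt (vecOf Cfsg.Agent.S1578.u1L) w = -16}.ncard = 11178 := by
  rw [ncard_of_P P11178 (fun w => dotInt (vecOf Cfsg.Agent.S1578.u1L) w = -16), countP_allMinF, scan11178]
  intro y
  rw [Cfsg.Agent.S1578.dot_u1]
  unfold P11178
  rw [Nat.beq_eq]
  omega

theorem sqNorm_U0 : sqNorm (U0 : GolayPt → ℤ) = 48 := by
  show sqNorm (vecOf u0L) = 48
  rw [sqNorm_vecOf]
  decide +kernel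

theorem sqNorm_u1 : sqNorm ((Cfsg.Agent.S1578.u1 : leechLattice) : GolayPt → ℤ) = 48 := by
  show sqNorm (vecOf Cfsg.Agent.S1578.u1L) = 48
  rw [sqNorm_vecOf]
  decide +kernel

theorem ncard_U0 : {w : GolayPt → ℤ | w ∈ leechLattice ∧ sqNorm w = 32 ∧ dotInt (vecOf u0L) w = -16}.ncard = 11178 := by
  obtain ⟨g, hg⟩ := Cfsg.Agent.Lib.Sporadic.LeechOrbits.co0_transitive_48 U0 Cfsg.Agent.S1578.u1 sqNorm_U0 sqNorm_u1
  rw [← ncard_u1]
  apply ncard_transport g 32 (fun w => dotInt (vecOf u0L) w = -16) (fun w => dotInt (vecOf Cfsg.Agent.S1578.u1L) w = -16)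
  intro w
  have h := co0_dotInt g U0 w
  rw [hg] at h
  have e1 : dotInt (vecOf Cfsg.Agent.S1578.u1L) ((g • w : leechLattice) : GolayPt → ℤ) = dotInt (vecOf u0L) (w : GolayPt → ℤ) := h
  show _ ↔ dotInt (vecOf Cfsg.Agent.S1578.u1L) ((g • w : leechLattice) : GolayPt → ℤ) = -16
  rw [e1]

theorem setC_X : setC [(u0L, -16)] = {w : GolayPt → ℤ | w ∈ leechLattice ∧ sqNorm w = 32 ∧ dotInt (vecOf u0L) w = -16} := by
  ext w
  simp [setC, condsQ]

theorem ncard_setC_X : (setC [(u0L, -16)]).ncard = 11178 := by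
  rw [setC_X, ncard_U0]

theorem x0L_len : x0L.length = 24 := by decide +kernel

theorem u0L_len : u0L.length = 24 := by decide +kernel

theorem fixes_U0 : FixesC K3 [(u0L, -16)] := by
  intro bt hbt
  simp only [List.mem_singleton] at hbt
  subst hbt
  exact ⟨inLattice_sound u0L_ok, le_rfl⟩

theorem orbit_U0 : ∀ x ∈ setC [(u0L, -16)], SameIn K3 (vecOf x0L) x ∧ Rp (fun _ => true) x :=
  orbit_setN c_genok x0L_len (inLattice_sound x0L_ok) (by decide +kernel) run_X rfl fixes_U0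
    (by
      intro bt hbt
      simp only [List.mem_singleton] at hbt
      subst hbt
      decide +kernel)
    ncard_setC_X

theorem trans_U0 (y : GolayPt → ℤ) (hy : y ∈ leechLattice) (hn : sqNorm y = 32)
    (hd : dotInt (vecOf u0L) y = -16) : SameIn K3 (vecOf x0L) y := by
  refine (orbit_U0 y ⟨hy, hn, ?_⟩).1
  intro bt hbt
  simp only [List.mem_singleton] at hbt
  subst hbt
  exact hd

/-- The set in the statement. -/
theorem ncard_X (u : leechLattice) (hu : sqNorm (u : GolayPt → ℤ) = 48) :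
    {x : leechLattice | sqNorm (x : GolayPt → ℤ) = 32 ∧ dotInt (u : GolayPt → ℤ) (x : GolayPt → ℤ) = -16}.ncard = 11178 := by
  obtain ⟨g, hg⟩ := Cfsg.Agent.Lib.Sporadic.LeechOrbits.co0_transitive_48 u U0 hu sqNorm_U0
  rw [ncard_sub (fun x => sqNorm x = 32 ∧ dotInt (u : GolayPt → ℤ) x = -16), ← ncard_U0]
  apply ncard_transport g 32 (fun x => dotInt (u : GolayPt → ℤ) x = -16) (fun x => dotInt (vecOf u0L) x = -16)
  intro w
  have h := co0_dotInt g u w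
  rw [hg] at h
  show _ ↔ dotInt (U0 : GolayPt → ℤ) _ = -16
  rw [h]

theorem trans_X (u x x' : leechLattice) (hu : sqNorm (u : GolayPt → ℤ) = 48)
    (hx : sqNorm (x : GolayPt → ℤ) = 32 ∧ dotInt (u : GolayPt → ℤ) (x : GolayPt → ℤ) = -16)
    (hx' : sqNorm (x' : GolayPt → ℤ) = 32 ∧ dotInt (u : GolayPt → ℤ) (x' : GolayPt → ℤ) = -16) :
    ∃ g : Co0, g • u = u ∧ g • x = x' := by
  obtain ⟨g, hg⟩ := Cfsg.Agent.Lib.Sporadic.LeechOrbits.co0_transitive_48 u U0 hu sqNorm_U0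
  have key : ∀ z : leechLattice, sqNorm (z : GolayPt → ℤ) = 32 ∧ dotInt (u : GolayPt → ℤ) (z : GolayPt → ℤ) = -16 →
      SameIn K3 (vecOf x0L) ((g • z : leechLattice) : GolayPt → ℤ) := by
    rintro z ⟨h1, h2⟩
    apply trans_U0 _ (g • z).2
    · rw [co0_sqNorm]
      exact h1
    · have h := co0_dotInt g u z
      rw [hg] at h
      show dotInt (U0 : GolayPt → ℤ) _ = -16
      rw [h, h2]
  obtain ⟨h, hh, e⟩ := ((key x hx).symm.trans (key x' hx')).exists_smul' (g • x) (g • x') rfl rfl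
  refine ⟨g⁻¹ * h * g, ?_, ?_⟩
  · have h1 : h • U0 = U0 := hh
    rw [mul_smul, mul_smul, hg, h1, ← hg, inv_smul_smul]
  · rw [mul_smul, mul_smul, e, inv_smul_smul]

end Cfsg.Agent.Lib.Sporadic.LeechCo3
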