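import Cfsg.Agent.Lib.Compute.LeechCount

/-!
# Counting lattice vectors with restricted coordinates

A variant of `LeechCount`: the coordinates are moreover required to satisfy a predicate.
-/

set_option autoImplicit false

namespace Cfsg.Agent.Lib.Sporadic.LeechCountP

open Cfsg Cfsg.Agent.Lib.Compute.Golay Cfsg.Agent.Lib.Sporadic.LeechBasic
open Cfsg.Agent.Lib.Compute.LeechCount

variable (Q : ℤ → Bool)

/-- The allowed values of a coordinate. -/
def VP (t b : Bool) : Finset ℤ := (V t b).filter fun v => Q v = true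

/-- The generating function of a coordinate. -/
def GP (t b : Bool) : ℕ := ∑ v ∈ VP Q t b, base ^ e v

/-- The allowed values by a word. -/
def boxP (t : Bool) (w : GolayPt → ZMod 2) (i : GolayPt) : Finset ℤ := VP Q t (decide (w i ≠ 0))

/-- The restricted vectors. -/
def FP (t : Bool) (w : GolayPt → ZMod 2) (N : ℕ) : Finset (GolayPt → ℤ) :=
  (F t w N).filter fun x => ∀ i, Q (x i) = true

theorem FP_eq (t : Bool) (w : GolayPt → ZMod 2) (N : ℕ) :
    FP Q t w N = (Fintype.piFinset (boxP Q t w)).filter fun x => sg x = N ∧ ta x % 8 = sres t := by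
  ext x
  simp only [FP, F, Finset.mem_filter, Fintype.mem_piFinset, boxP, VP, box]
  constructor
  · rintro ⟨⟨h1, h2⟩, h3⟩
    exact ⟨fun i => ⟨h1 i, h3 i⟩, h2⟩
  · rintro ⟨h1, h2⟩
    exact ⟨⟨fun i => (h1 i).1, h2⟩, fun i => (h1 i).2⟩

theorem boxP_card_lt (t : Bool) (w : GolayPt → ZMod 2) :
    (Fintype.piFinset (boxP Q t w)).card < base := by
  rw [Fintype.card_piFinset]
  have h : ∏ i, (boxP Q t w i).card ≤ 5 ^ (Finset.univ : Finset GolayPt).card :=
    Finset.prod_le_pow_card _ _ _ fun i _ =>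
      (Finset.card_filter_le _ _).trans (V_card_le _ _)
  rw [Finset.card_univ, card_pts] at h
  refine lt_of_le_of_lt h ?_
  unfold base
  norm_num

theorem sum_boxP (t : Bool) (w : GolayPt → ZMod 2) :
    ∑ x ∈ Fintype.piFinset (boxP Q t w), base ^ (∑ i, e (x i)) =
      GP Q t true ^ (support₂ w).card * GP Q t false ^ (24 - (support₂ w).card) := by
  rw [sum_piFinset_pow]
  have h : ∀ i, ∑ v ∈ boxP Q t w i, base ^ e v = if w i ≠ 0 then GP Q t true else GP Q t false := by
    intro i
    by_cases hi : w i ≠ 0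
    · simp only [boxP, hi, ne_eq, not_false_eq_true, decide_true, if_true, GP]
    · simp only [boxP, hi, ne_eq, not_false_eq_true, decide_false, if_false, GP]
  simp_rw [h]
  rw [Finset.prod_ite, Finset.prod_const, Finset.prod_const]
  congr 2
  have h1 : (Finset.univ.filter fun i => w i ≠ 0).card +
      (Finset.univ.filter fun i => ¬ w i ≠ 0).card = 24 := by
    rw [Finset.card_filter_add_card_filter_not, Finset.card_univ, card_pts]
  have h2 : support₂ w = Finset.univ.filter fun i => w i ≠ 0 := rfl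
  rw [h2]
  omega

/-- The number of restricted vectors with parity `t`, a word of weight `W` and norm `N`. -/
def cntP (t : Bool) (W N : ℕ) : ℕ :=
  sumT (GP Q t true ^ W * GP Q t false ^ (24 - W)) (K * N) (sres t) K

theorem card_FP (t : Bool) (w : GolayPt → ZMod 2) (N : ℕ) :
    (FP Q t w N).card = cntP Q t (support₂ w).card N := by
  classical
  have hmaps : ∀ x ∈ FP Q t w N, ta x ∈ Finset.range K := fun x _ => Finset.mem_range.2 (ta_lt x)
  rw [Finset.card_eq_sum_card_fiberwise hmaps, cntP, sumT_eq, ← sum_boxP]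
  refine Finset.sum_congr rfl fun r hr => ?_
  have hrK := Finset.mem_range.1 hr
  split_ifs with hs
  · rw [← card_filter_eq_digit _ _ _ _ (boxP_card_lt Q t w), FP_eq]
    refine congrArg Finset.card (Finset.ext fun x => ?_)
    simp only [Finset.mem_filter, sum_e]
    have hx := ta_lt x
    constructor
    · rintro ⟨⟨hb, h1, -⟩, h3⟩
      exact ⟨hb, by rw [h1, h3]⟩
    · rintro ⟨hb, h⟩
      obtain ⟨h1, h3⟩ := mul_add_inj hx hrK h
      exact ⟨⟨hb, h1, by rw [h3]; exact hs⟩, h3⟩
  · rw [Finset.card_eq_zero, Finset.filter_eq_empty_iff, FP_eq]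
    intro x hx h3
    have := (Finset.mem_filter.1 hx).2.2
    rw [h3] at this
    exact hs this

/-- The restricted vectors of norm `N`, as a finite set. -/
def XFP (N : ℕ) : Finset (GolayPt → ℤ) :=
  CM.biUnion fun m => FP Q false (maskWord m) N ∪ FP Q true (maskWord m) N

theorem XFP_eq (N : ℕ) : XFP Q N = (XF N).filter fun x => ∀ i, Q (x i) = true := by
  ext x
  simp only [XFP, XF, FP, Finset.mem_biUnion, Finset.mem_union, Finset.mem_filter]
  constructor
  · rintro ⟨m, hm, ⟨h1, h2⟩ | ⟨h1, h2⟩⟩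
    · exact ⟨⟨m, hm, Or.inl h1⟩, h2⟩
    · exact ⟨⟨m, hm, Or.inr h1⟩, h2⟩
  · rintro ⟨⟨m, hm, h1 | h1⟩, h2⟩
    · exact ⟨m, hm, Or.inl ⟨h1, h2⟩⟩
    · exact ⟨m, hm, Or.inr ⟨h1, h2⟩⟩

theorem card_XFP (N : ℕ) :
    (XFP Q N).card = ∑ m ∈ CM, (cntP Q false (pop m) N + cntP Q true (pop m) N) := by
  classical
  unfold XFP
  rw [Finset.card_biUnion]
  · refine Finset.sum_congr rfl fun m _ => ?_
    rw [Finset.card_union_of_disjoint, card_FP, card_FP, card_support_maskWord]
    rw [Finset.disjoint_left]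
    intro x h1 h2
    have h3 := (F_spec (Finset.mem_filter.1 h1).1).2.1 none
    have h4 := (F_spec (Finset.mem_filter.1 h2).1).2.1 none
    rw [h3] at h4
    simp [ofB] at h4
  · intro m hm m' hm' hne
    rw [Function.onFun, Finset.disjoint_left]
    intro x h1 h2
    rw [Finset.mem_union] at h1 h2
    have h3 : wd x = maskWord m := by
      rcases h1 with h | h
      · exact (F_spec (Finset.mem_filter.1 h).1).1
      · exact (F_spec (Finset.mem_filter.1 h).1).1
    have h4 : wd x = maskWord m' := by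
      rcases h2 with h | h
      · exact (F_spec (Finset.mem_filter.1 h).1).1
      · exact (F_spec (Finset.mem_filter.1 h).1).1
    have hlt := codeMasks_lt m (List.mem_toFinset.1 (Finset.mem_coe.1 hm))
    have hlt' := codeMasks_lt m' (List.mem_toFinset.1 (Finset.mem_coe.1 hm'))
    exact hne (maskWord_injOn hlt hlt' (h3.symm.trans h4))

/-- The count of the restricted vectors of norm `N`. -/
def totalP (N : ℕ) : ℕ :=
  1 * (cntP Q false 0 N + cntP Q true 0 N) + 759 * (cntP Q false 8 N + cntP Q true 8 N) +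
    2576 * (cntP Q false 12 N + cntP Q true 12 N) + 759 * (cntP Q false 16 N + cntP Q true 16 N) +
    1 * (cntP Q false 24 N + cntP Q true 24 N)

theorem card_XFP_eq (N : ℕ) : (XFP Q N).card = totalP Q N := by
  rw [card_XFP, ← Finset.sum_fiberwise_of_maps_to pop_mem_Ws]
  have h : ∀ W, ∑ m ∈ CM.filter (fun m => pop m = W), (cntP Q false (pop m) N + cntP Q true (pop m) N) =
      (weightMasks W).length * (cntP Q false W N + cntP Q true W N) := by
    intro W
    rw [Finset.sum_congr rfl (g := fun _ => cntP Q false W N + cntP Q true W N), Finset.sum_const,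
      card_filter_CM, smul_eq_mul]
    intro m hm
    rw [(Finset.mem_filter.1 hm).2]
  simp_rw [h]
  unfold Ws
  rw [Finset.sum_insert (by decide), Finset.sum_insert (by decide), Finset.sum_insert (by decide),
    Finset.sum_insert (by decide), Finset.sum_singleton, length_weightMasks_0, length_weightMasks_8,
    length_weightMasks_12, length_weightMasks_16, length_weightMasks_24, totalP]
  ring

/-- The number of restricted lattice vectors of norm `N`, `N ≤ 64`. -/
theorem ncard_normP {N : ℕ} (hN : N ≤ 64) :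
    {x : GolayPt → ℤ | x ∈ leechLattice ∧ sqNorm x = (N : ℤ) ∧ ∀ i, Q (x i) = true}.ncard = totalP Q N := by
  have h : {x : GolayPt → ℤ | x ∈ leechLattice ∧ sqNorm x = (N : ℤ) ∧ ∀ i, Q (x i) = true} =
      (XFP Q N : Set (GolayPt → ℤ)) := by
    ext x
    rw [XFP_eq, Finset.coe_filter, Set.mem_setOf_eq, Set.mem_setOf_eq, ← Finset.mem_coe, ← set_eq_XF hN,
      Set.mem_setOf_eq, and_assoc]
  rw [h, Set.ncard_coe_finset, card_XFP_eq]

/-- Only `0, ±2`. -/
def Q02 (v : ℤ) : Bool := v = 0 ∨ v = 2 ∨ v = -2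

/-- Only `0, ±2, ±4`. -/
def Q024 (v : ℤ) : Bool := v = 0 ∨ v = 2 ∨ v = -2 ∨ v = 4 ∨ v = -4

/-- Only `±1, ±3`. -/
def Q13 (v : ℤ) : Bool := v = 1 ∨ v = -1 ∨ v = 3 ∨ v = -3

/-- Only `±1, ±5`. -/
def Q15 (v : ℤ) : Bool := v = 1 ∨ v = -1 ∨ v = 5 ∨ v = -5

theorem total_Q02 : totalP Q02 48 = 5275648 := by decide +kernel
theorem total_Q024 : totalP Q024 48 = 5275648 + 3108864 := by decide +kernel
theorem total_Q13 : totalP Q13 48 = 8290304 := by decide +kernel
theorem total_Q15 : totalP Q15 48 = 98304 := by decide +kernel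

/-- Coordinates of bounded norm. -/
theorem sq_le_norm (x : GolayPt → ℤ) (i : GolayPt) : x i ^ 2 ≤ sqNorm x :=
  Finset.single_le_sum (f := fun i => x i ^ 2) (fun _ _ => sq_nonneg _) (Finset.mem_univ i)

/-- Partial sums of squares minus a lower bound. -/
theorem sum_le_norm (x : GolayPt → ℤ) (c : ℤ) (hc : ∀ i, c ≤ x i ^ 2) (S : Finset GolayPt) :
    ∑ i ∈ S, (x i ^ 2 - c) ≤ sqNorm x - 24 * c := by
  have h1 : ∑ i ∈ S, (x i ^ 2 - c) ≤ ∑ i, (x i ^ 2 - c) :=
    Finset.sum_le_sum_of_subset_of_nonneg (Finset.subset_univ S) (fun i _ _ => by linarith [hc i])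
  have h2 : ∑ i, (x i ^ 2 - c) = sqNorm x - 24 * c := by
    rw [Finset.sum_sub_distrib, Finset.sum_const, Finset.card_univ, card_pts]
    simp [sqNorm]
  linarith

theorem abs_cases_even {v : ℤ} (h1 : v % 2 = 0) (h2 : v ^ 2 ≤ 48) :
    v = 0 ∨ v = 2 ∨ v = -2 ∨ v = 4 ∨ v = -4 ∨ v = 6 ∨ v = -6 := by
  have h3 : v ≤ 6 := by nlinarith
  have h4 : -6 ≤ v := by nlinarith
  omega

theorem abs_cases_odd {v : ℤ} (h1 : v % 2 = 1) (h2 : v ^ 2 ≤ 48) :
    v = 1 ∨ v = -1 ∨ v = 3 ∨ v = -3 ∨ v = 5 ∨ v = -5 := by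
  have h3 : v ≤ 6 := by nlinarith
  have h4 : -6 ≤ v := by nlinarith
  omega

theorem one_le_sq_of_odd {v : ℤ} (h1 : v % 2 = 1) : 1 ≤ v ^ 2 := by
  have : v ≠ 0 := by
    rintro rfl
    simp at h1
  have := Int.one_le_abs this
  nlinarith [sq_abs v, abs_nonneg v]

/-- The fourth family. -/
theorem fam5 : {x : GolayPt → ℤ | x ∈ leechLattice ∧ sqNorm x = 48 ∧ ∃ i, |x i| = 5}.ncard = 98304 := by
  have h := ncard_normP Q15 (N := 48) (by norm_num)
  rw [total_Q15] at h
  rw [← h]
  congr 1
  ext x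
  simp only [Set.mem_setOf_eq]
  constructor
  · rintro ⟨hx, hn, i, hi⟩
    refine ⟨hx, by exact_mod_cast hn, fun j => ?_⟩
    obtain ⟨m, hm, hp, -, -⟩ := (mem_leechLattice_iff x).1 hx
    have hi2 : x i = 5 ∨ x i = -5 := by
      rcases abs_cases (x i) with ⟨h1, -⟩ | ⟨h1, -⟩ <;> omega
    have hm1 : m = 1 := by
      have := hp i
      rcases hi2 with e | e <;> rw [e] at this <;> omega
    subst hm1
    have hj := abs_cases_odd (hp j) (by rw [← hn]; exact sq_le_norm x j)
    have hne : i ≠ j → ¬ (x j = 3 ∨ x j = -3) := by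
      intro hij h3
      have h4 := sum_le_norm x 1 (fun l => one_le_sq_of_odd (hp l)) {i, j}
      rw [Finset.sum_pair hij, hn] at h4
      rcases hi2 with e | e <;> rcases h3 with e' | e' <;> rw [e, e'] at h4 <;> norm_num at h4
    by_cases hij : i = j
    · subst hij
      rcases hi2 with e | e <;> rw [e] <;> decide
    · rcases hj with e | e | e | e | e | e
      · rw [e]; decide
      · rw [e]; decide
      · exact absurd (Or.inl e) (hne hij)
      · exact absurd (Or.inr e) (hne hij)
      · rw [e]; decide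
      · rw [e]; decide
  · rintro ⟨hx, hn, hQ⟩
    refine ⟨hx, by exact_mod_cast hn, ?_⟩
    by_contra hcon
    push Not at hcon
    have hall : ∀ i, x i ^ 2 = 1 := by
      intro i
      have h1 := hQ i
      have h2 := hcon i
      simp only [Q15, decide_eq_true_eq] at h1
      rcases h1 with e | e | e | e
      · rw [e]; norm_num
      · rw [e]; norm_num
      · rw [e] at h2; norm_num at h2
      · rw [e] at h2; norm_num at h2
    have h3 : sqNorm x = 24 := by
      unfold sqNorm
      simp only [hall]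
      rw [Finset.sum_const, Finset.card_univ, card_pts]
      norm_num
    rw [h3] at hn
    norm_num at hn

/-- The first family. -/
theorem fam2 : {x : GolayPt → ℤ | x ∈ leechLattice ∧ sqNorm x = 48 ∧ ∀ i, x i = 0 ∨ x i = 2 ∨ x i = -2}.ncard = 5275648 := by
  have h := ncard_normP Q02 (N := 48) (by norm_num)
  rw [total_Q02] at h
  rw [← h]
  congr 1
  ext x
  simp only [Set.mem_setOf_eq, Q02, decide_eq_true_eq]
  norm_num

/-- The second family. -/
theorem fam3 : {x : GolayPt → ℤ | x ∈ leechLattice ∧ sqNorm x = 48 ∧ ∃ i j k, i ≠ j ∧ j ≠ k ∧ i ≠ k ∧ |x i| = 3 ∧ |x j| = 3 ∧ |x k| = 3}.ncard = 8290304 := by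
  have h := ncard_normP Q13 (N := 48) (by norm_num)
  rw [total_Q13] at h
  rw [← h]
  congr 1
  ext x
  simp only [Set.mem_setOf_eq]
  constructor
  · rintro ⟨hx, hn, i, j, k, hij, hjk, hik, hi, hj, hk⟩
    refine ⟨hx, by exact_mod_cast hn, fun l => ?_⟩
    obtain ⟨m, hm, hp, -, -⟩ := (mem_leechLattice_iff x).1 hx
    have hi2 : x i = 3 ∨ x i = -3 := by
      rcases abs_cases (x i) with ⟨h1, -⟩ | ⟨h1, -⟩ <;> omega
    have hj2 : x j = 3 ∨ x j = -3 := by
      rcases abs_cases (x j) with ⟨h1, -⟩ | ⟨h1, -⟩ <;> omega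
    have hk2 : x k = 3 ∨ x k = -3 := by
      rcases abs_cases (x k) with ⟨h1, -⟩ | ⟨h1, -⟩ <;> omega
    have hm1 : m = 1 := by
      have := hp i
      rcases hi2 with e | e <;> rw [e] at this <;> omega
    subst hm1
    have hl := abs_cases_odd (hp l) (by rw [← hn]; exact sq_le_norm x l)
    have hsq : ∀ v : ℤ, v = 3 ∨ v = -3 → v ^ 2 = 9 := by
      rintro v (rfl | rfl) <;> norm_num
    have hne : ¬ (x l = 5 ∨ x l = -5) := by
      intro h5
      have hli : l ≠ i := by
        rintro rfl
        rcases h5 with e | e <;> rcases hi2 with e' | e' <;> rw [e] at e' <;> norm_num at e'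
      have hlj : l ≠ j := by
        rintro rfl
        rcases h5 with e | e <;> rcases hj2 with e' | e' <;> rw [e] at e' <;> norm_num at e'
      have hlk : l ≠ k := by
        rintro rfl
        rcases h5 with e | e <;> rcases hk2 with e' | e' <;> rw [e] at e' <;> norm_num at e'
      have h4 := sum_le_norm x 1 (fun l => one_le_sq_of_odd (hp l)) {l, i, j, k}
      rw [Finset.sum_insert (by simp [hli, hlj, hlk]), Finset.sum_insert (by simp [hij, hik]), Finset.sum_pair hjk, hn, hsq _ hi2, hsq _ hj2, hsq _ hk2] at h4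
      rcases h5 with e | e <;> rw [e] at h4 <;> norm_num at h4
    rcases hl with e | e | e | e | e | e
    · rw [e]; decide
    · rw [e]; decide
    · rw [e]; decide
    · rw [e]; decide
    · exact absurd (Or.inl e) hne
    · exact absurd (Or.inr e) hne
  · rintro ⟨hx, hn, hQ⟩
    refine ⟨hx, by exact_mod_cast hn, ?_⟩
    set S := Finset.univ.filter fun i => |x i| = 3 with hS
    have hpt : ∀ i, x i ^ 2 = 1 + 8 * (if |x i| = 3 then 1 else 0) := by
      intro i
      have h1 := hQ i
      simp only [Q13, decide_eq_true_eq] at h1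
      rcases h1 with e | e | e | e <;> rw [e] <;> norm_num
    have h3 : sqNorm x = 24 + 8 * (S.card : ℤ) := by
      unfold sqNorm
      simp only [hpt]
      rw [Finset.sum_add_distrib, Finset.sum_const, Finset.card_univ, card_pts, ← Finset.mul_sum, hS,
        Finset.card_filter]
      push_cast
      norm_num
    have h4 : S.card = 3 := by
      rw [hn] at h3
      omega
    obtain ⟨i, j, k, hij, hik, hjk, hS3⟩ := Finset.card_eq_three.1 h4
    have hmem : ∀ l, l ∈ S → |x l| = 3 := fun l hl => (Finset.mem_filter.1 hl).2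
    exact ⟨i, j, k, hij, hjk, hik, hmem i (by rw [hS3]; simp), hmem j (by rw [hS3]; simp),
      hmem k (by rw [hS3]; simp)⟩

/-- The third family. -/
theorem fam4 : {x : GolayPt → ℤ | x ∈ leechLattice ∧ sqNorm x = 48 ∧ ∃ i, |x i| = 4}.ncard = 3108864 := by
  have h := ncard_normP Q024 (N := 48) (by norm_num)
  have h' := ncard_normP Q02 (N := 48) (by norm_num)
  rw [total_Q024] at h
  rw [total_Q02] at h'
  have hsub : {x : GolayPt → ℤ | x ∈ leechLattice ∧ sqNorm x = ((48 : ℕ) : ℤ) ∧ ∀ i, Q02 (x i) = true} ⊆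
      {x : GolayPt → ℤ | x ∈ leechLattice ∧ sqNorm x = ((48 : ℕ) : ℤ) ∧ ∀ i, Q024 (x i) = true} := by
    rintro x ⟨h1, h2, h3⟩
    refine ⟨h1, h2, fun i => ?_⟩
    have h4 := h3 i
    simp only [Q02, Q024, decide_eq_true_eq] at h4 ⊢
    tauto
  have hfin : {x : GolayPt → ℤ | x ∈ leechLattice ∧ sqNorm x = ((48 : ℕ) : ℤ) ∧ ∀ i, Q024 (x i) = true}.Finite :=
    Set.finite_of_ncard_pos (by rw [h]; norm_num)
  have h3 := Set.ncard_sdiff hsub (hfin.subset hsub)
  rw [h, h'] at h3
  have h4 : {x : GolayPt → ℤ | x ∈ leechLattice ∧ sqNorm x = 48 ∧ ∃ i, |x i| = 4} =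
      {x : GolayPt → ℤ | x ∈ leechLattice ∧ sqNorm x = ((48 : ℕ) : ℤ) ∧ ∀ i, Q024 (x i) = true} \
      {x : GolayPt → ℤ | x ∈ leechLattice ∧ sqNorm x = ((48 : ℕ) : ℤ) ∧ ∀ i, Q02 (x i) = true} := by
    ext x
    simp only [Set.mem_setOf_eq, Set.mem_diff, not_and, not_forall]
    constructor
    · rintro ⟨hx, hn, i, hi⟩
      obtain ⟨m, hm, hp, -, -⟩ := (mem_leechLattice_iff x).1 hx
      have hi2 : x i = 4 ∨ x i = -4 := by
        rcases abs_cases (x i) with ⟨h1, -⟩ | ⟨h1, -⟩ <;> omega
      have hm0 : m = 0 := by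
        have := hp i
        rcases hi2 with e | e <;> rw [e] at this <;> omega
      subst hm0
      refine ⟨⟨hx, by exact_mod_cast hn, fun l => ?_⟩, fun _ _ => ⟨i, ?_⟩⟩
      · have hl := abs_cases_even (hp l) (by rw [← hn]; exact sq_le_norm x l)
        have hne : ¬ (x l = 6 ∨ x l = -6) := by
          intro h6
          have hli : i ≠ l := by
            rintro rfl
            rcases h6 with e | e <;> rcases hi2 with e' | e' <;> rw [e] at e' <;> norm_num at e'
          have h5 := sum_le_norm x 0 (fun l => sq_nonneg _) {i, l}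
          rw [Finset.sum_pair hli, hn] at h5
          rcases h6 with e | e <;> rcases hi2 with e' | e' <;> rw [e, e'] at h5 <;> norm_num at h5
        rcases hl with e | e | e | e | e | e | e
        · rw [e]; decide
        · rw [e]; decide
        · rw [e]; decide
        · rw [e]; decide
        · rw [e]; decide
        · exact absurd (Or.inl e) hne
        · exact absurd (Or.inr e) hne
      · rcases hi2 with e | e <;> rw [e] <;> decide
    · rintro ⟨⟨hx, hn, hQ⟩, h2⟩
      obtain ⟨i, hi⟩ := h2 hx hn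
      refine ⟨hx, by exact_mod_cast hn, i, ?_⟩
      have h5 := hQ i
      simp only [Q024, decide_eq_true_eq] at h5
      rcases h5 with e | e | e | e | e
      · rw [e] at hi; exact absurd (by decide) hi
      · rw [e] at hi; exact absurd (by decide) hi
      · rw [e] at hi; exact absurd (by decide) hi
      · rw [e]; norm_num
      · rw [e]; norm_num
  rw [h4, h3]

end Cfsg.Agent.Lib.Sporadic.LeechCountP
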