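import Mathlib
import Cfsg.Agent.Lib.Sporadic.LeechHS

/-!
# The runs for the hundred points
-/

set_option autoImplicit false

namespace Cfsg.Agent.Lib.Sporadic.LeechHS

open Cfsg Cfsg.Agent.Lib.Sporadic.GolayCore Cfsg.Agent.Lib.Sporadic.LeechBasic
  Cfsg.Agent.Lib.Sporadic.LeechNorm Cfsg.Agent.Lib.Sporadic.LeechFacts
  Cfsg.Agent.Lib.Sporadic.LeechAut Cfsg.Agent.Lib.Sporadic.LeechMat
  Cfsg.Agent.Lib.Sporadic.LeechOrb Cfsg.Agent.Lib.Sporadic.LeechShape
  Cfsg.Agent.Lib.Sporadic.LeechKey Cfsg.Agent.Lib.Sporadic.LeechMin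
  Cfsg.Agent.Lib.Sporadic.LeechA0 Cfsg.Agent.Lib.Sporadic.LeechEnum
  Cfsg.Agent.Lib.Sporadic.LeechTree
  Cfsg.Agent.Lib.Sporadic.M24Chain Cfsg.Agent.Lib.Sporadic.M24Tbl

open Cfsg.Agent.Lib.Sporadic.LeechCo3

theorem run_Y : runN pY hgens 99 certY [encL y00L] (BST.leaf.ins (encL y00L)) = true := by decide +kernel
theorem run_A : runN (fun _ => true) hgens 99 certA [encL raL] (BST.leaf.ins (encL raL)) = true := by decide +kernel
theorem run_B : runN (fun _ => true) hgens 351 certB [encL rbL] (BST.leaf.ins (encL rbL)) = true := by decide +kernel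
theorem run_22 : runN (fun _ => true) h1gens 21 cert22 [encL r22L] (BST.leaf.ins (encL r22L)) = true := by decide +kernel
theorem run_77 : runN (fun _ => true) h1gens 76 cert77 [encL r77L] (BST.leaf.ins (encL r77L)) = true := by decide +kernel

end Cfsg.Agent.Lib.Sporadic.LeechHS
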