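import Mathlib
import Cfsg.Agent.Lib.Sporadic.LeechHSr1

/-!
# Two vectors of norm 48 with inner product -32 and the hundred minimal vectors
-/

set_option autoImplicit false

namespace Cfsg.Agent.Lib.Sporadic.LeechHS

open Cfsg Cfsg.Agent.Lib.Sporadic.GolayCore Cfsg.Agent.Lib.Sporadic.LeechBasic
  Cfsg.Agent.Lib.Sporadic.LeechNorm Cfsg.Agent.Lib.Sporadic.LeechFacts
  Cfsg.Agent.Lib.Sporadic.LeechAut Cfsg.Agent.Lib.Sporadic.LeechMat
  Cfsg.Agent.Lib.Sporadic.LeechOrb Cfsg.Agent.Lib.Sporadic.LeechShape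
  Cfsg.Agent.Lib.Sporadic.LeechKey Cfsg.Agent.Lib.Sporadic.LeechMin
  Cfsg.Agent.Lib.Sporadic.LeechA0 Cfsg.Agent.Lib.Sporadic.LeechEnum
  Cfsg.Agent.Lib.Sporadic.LeechTree
  Cfsg.Agent.Lib.Sporadic.M24Chain Cfsg.Agent.Lib.Sporadic.M24Tbl
open Cfsg.Agent.Lib.Sporadic.LeechCo3

/-- The third standard vector. -/
def X0 : leechLattice := ⟨vecOf x0L, inLattice_sound x0L_ok⟩

theorem W0_eq : W0 = -(X0 + U0) := by
  apply Subtype.ext
  funext p
  show vecOf w0L p = -(vecOf x0L p + vecOf u0L p)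
  revert p
  decide +kernel

theorem sqNorm_W0 : sqNorm (W0 : GolayPt → ℤ) = 48 := by
  show sqNorm (vecOf w0L) = 48
  rw [sqNorm_vecOf]
  decide +kernel

theorem sqNorm_X0 : sqNorm (X0 : GolayPt → ℤ) = 32 := by
  show sqNorm (vecOf x0L) = 32
  rw [sqNorm_vecOf]
  decide +kernel

theorem dot_U0_X0 : dotInt (U0 : GolayPt → ℤ) (X0 : GolayPt → ℤ) = -16 := by
  show dotInt (vecOf u0L) (vecOf x0L) = -16
  rw [dotInt_vecOf]
  decide +kernel

/-- A frame: every pair is conjugate to the standard pair. -/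
theorem exists_frame (v w : leechLattice) (hv : sqNorm (v : GolayPt → ℤ) = 48)
    (hw : sqNorm (w : GolayPt → ℤ) = 48) (hvw : dotInt (v : GolayPt → ℤ) (w : GolayPt → ℤ) = -32) :
    ∃ g : Co0, g • v = U0 ∧ g • w = W0 := by
  obtain ⟨g, hg⟩ := Cfsg.Agent.Lib.Sporadic.LeechOrbits.co0_transitive_48 v U0 hv sqNorm_U0
  have h1 : sqNorm ((g • w : leechLattice) : GolayPt → ℤ) = 48 := (co0_sqNorm g w).trans hw
  have h2 : dotInt (U0 : GolayPt → ℤ) ((g • w : leechLattice) : GolayPt → ℤ) = -32 := by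
    rw [← hg, co0_dotInt]
    exact hvw
  set w1 : leechLattice := g • w with hw1
  let x1 : leechLattice := -(U0 + w1)
  have hcoe : (x1 : GolayPt → ℤ) = -((U0 : GolayPt → ℤ) + (w1 : GolayPt → ℤ)) := rfl
  have hx1 : sqNorm (x1 : GolayPt → ℤ) = 32 ∧ dotInt (U0 : GolayPt → ℤ) (x1 : GolayPt → ℤ) = -16 := by
    rw [hcoe, sqNorm_neg, sqNorm_add, dotInt_neg_right, dotInt_add_right, dotInt_self, h1, h2, sqNorm_U0]
    norm_num
  obtain ⟨h, hh1, hh2⟩ := trans_X U0 x1 X0 sqNorm_U0 hx1 ⟨sqNorm_X0, dot_U0_X0⟩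
  refine ⟨h * g, ?_, ?_⟩
  · rw [mul_smul, hg, hh1]
  · rw [mul_smul, ← hw1]
    have e : -(U0 + h • w1) = X0 := by
      have := hh2
      show -(U0 + h • w1) = X0
      rw [← this]
      show _ = h • (-(U0 + w1))
      rw [co0_map_neg, co0_map_add, hh1]
    rw [W0_eq, ← e]
    abel

theorem frame_fix {g h : Co0} {v w : leechLattice} (hv : g • v = U0) (hw : g • w = W0) (hh : h ∈ KH) :
    (g⁻¹ * h * g) • v = v ∧ (g⁻¹ * h * g) • w = w := by
  obtain ⟨h1, h2⟩ := Subgroup.mem_inf.1 hh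
  have h1' : h • U0 = U0 := h1
  have h2' : h • W0 = W0 := h2
  constructor
  · rw [mul_smul, mul_smul, hv, h1', ← hv, inv_smul_smul]
  · rw [mul_smul, mul_smul, hw, h2', ← hw, inv_smul_smul]

theorem KH_le_U : KH ≤ MulAction.stabilizer Co0 U0 := inf_le_left
theorem KH_le_W : KH ≤ MulAction.stabilizer Co0 W0 := inf_le_right

theorem fixes_UW (c : ℤ) (d : ℤ) : FixesC KH [(w0L, c), (u0L, d)] := by
  intro bt hbt
  simp only [List.mem_cons, List.not_mem_nil, or_false] at hbt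
  rcases hbt with rfl | rfl
  · exact ⟨inLattice_sound w0L_ok, KH_le_W⟩
  · exact ⟨inLattice_sound u0L_ok, KH_le_U⟩

theorem fixes_Y : FixesC KH condsY := fixes_UW _ _

theorem mem_condsQ_Y (z : GolayPt → ℤ) :
    condsQ condsY z ↔ dotInt (U0 : GolayPt → ℤ) z = 24 ∧ dotInt (W0 : GolayPt → ℤ) z = -24 := by
  simp only [condsQ, condsY, List.mem_cons, List.not_mem_nil, or_false, forall_eq_or_imp, forall_eq]
  exact and_comm

/-- The 552 summands. -/
theorem ncard_552 : (setC [(u0L, 24)]).ncard = 552 := by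
  have h := Cfsg.Agent.S1578.result U0 sqNorm_U0
  rw [ncard_sub (fun x => sqNorm x = 32 ∧ sqNorm ((U0 : GolayPt → ℤ) - x) = 32)] at h
  rw [← h]
  congr 1
  ext w
  simp only [setC, condsQ, List.mem_singleton, forall_eq, Set.mem_ofPred_eq]
  have e : sqNorm ((U0 : GolayPt → ℤ) - w) = 48 + sqNorm w - 2 * dotInt (U0 : GolayPt → ℤ) w := by
    rw [sub_eq_add_neg, sqNorm_add, sqNorm_neg, dotInt_neg_right, sqNorm_U0]
    ring
  have e2 : dotInt (vecOf u0L) w = dotInt (U0 : GolayPt → ℤ) w := rfl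
  rw [e, e2]
  constructor
  · rintro ⟨h1, h2, h3⟩
    exact ⟨h1, h2, by rw [h2, h3]; norm_num⟩
  · rintro ⟨h1, h2, h3⟩
    exact ⟨h1, h2, by rw [h2] at h3; omega⟩

theorem hroot2 {b b' r : List ℤ} {c c' : ℤ} (h1 : dotLL b r = c) (h2 : dotLL b' r = c') :
    ∀ bt ∈ [(b, c), (b', c')], dotLL bt.1 r = bt.2 := by
  intro bt hbt
  simp only [List.mem_cons, List.not_mem_nil, or_false] at hbt
  rcases hbt with rfl | rfl
  · exact h1
  · exact h2

/-- The part of the hundred points. -/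
def part100 : PartD KH (setC [(u0L, 24)]) (dotInt (vecOf w0L)) :=
  mkPart (c0 := -24) h_genok (by decide +kernel) (inLattice_sound y00L_ok) (by decide +kernel) run_Y (by decide +kernel)
    (fixes_UW _ _) (hroot2 (by decide +kernel) (by decide +kernel))

def partA : PartD KH (setC [(u0L, 24)]) (dotInt (vecOf w0L)) :=
  mkPart (c0 := -8) h_genok (by decide +kernel) (inLattice_sound raL_ok) (by decide +kernel) run_A rfl
    (fixes_UW _ _) (hroot2 (by decide +kernel) (by decide +kernel))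

def partB : PartD KH (setC [(u0L, 24)]) (dotInt (vecOf w0L)) :=
  mkPart (c0 := -16) h_genok (by decide +kernel) (inLattice_sound rbL_ok) (by decide +kernel) run_B rfl
    (fixes_UW _ _) (hroot2 (by decide +kernel) (by decide +kernel))

theorem ncard_setC_Y : (setC condsY).ncard = 100 := by
  rw [condsY, setC_cons]
  exact (parts_cover [part100, partA, partB] (by decide +kernel) (by rw [ncard_552]; rfl)
    (Set.finite_of_ncard_pos (by rw [ncard_552]; norm_num)) part100 (by simp)).2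

theorem orbit_Y : ∀ x ∈ setC condsY, SameIn KH (vecOf y00L) x ∧ Rp pY x :=
  orbit_setN h_genok (by decide +kernel) (inLattice_sound y00L_ok) (by decide +kernel) run_Y (by decide +kernel) fixes_Y
    (hroot2 (by decide +kernel) (by decide +kernel)) ncard_setC_Y

theorem trans_Y0 : ∀ x, x ∈ leechLattice → sqNorm x = 32 → condsQ condsY x → SameIn KH (vecOf y00L) x :=
  fun x h1 h2 h3 => (orbit_Y x ⟨h1, h2, h3⟩).1

/-- The hundred points. -/
theorem ncard_Y (v w : leechLattice) (hv : sqNorm (v : GolayPt → ℤ) = 48)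
    (hw : sqNorm (w : GolayPt → ℤ) = 48) (hvw : dotInt (v : GolayPt → ℤ) (w : GolayPt → ℤ) = -32) :
    {x : leechLattice | sqNorm (x : GolayPt → ℤ) = 32 ∧ dotInt (v : GolayPt → ℤ) (x : GolayPt → ℤ) = 24 ∧
      dotInt (w : GolayPt → ℤ) (x : GolayPt → ℤ) = -24}.ncard = 100 := by
  obtain ⟨g, hg1, hg2⟩ := exists_frame v w hv hw hvw
  rw [ncard_sub (fun x => sqNorm x = 32 ∧ dotInt (v : GolayPt → ℤ) x = 24 ∧ dotInt (w : GolayPt → ℤ) x = -24)]
  rw [← ncard_setC_Y]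
  apply ncard_transport g 32 (fun x => dotInt (v : GolayPt → ℤ) x = 24 ∧ dotInt (w : GolayPt → ℤ) x = -24) (condsQ condsY)
  intro z
  rw [mem_condsQ_Y, ← hg1, ← hg2, co0_dotInt, co0_dotInt]

/-- The points in the standard frame. -/
theorem mem_Y_frame {g : Co0} {v w : leechLattice} (hv : g • v = U0) (hw : g • w = W0) (z : leechLattice) :
    (dotInt (v : GolayPt → ℤ) (z : GolayPt → ℤ) = 24 ∧ dotInt (w : GolayPt → ℤ) (z : GolayPt → ℤ) = -24) ↔
      condsQ condsY ((g • z : leechLattice) : GolayPt → ℤ) := by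
  rw [mem_condsQ_Y, ← hv, ← hw, co0_dotInt, co0_dotInt]

/-- Transitivity on the hundred points. -/
theorem trans_Y (v w x x' : leechLattice) (hv : sqNorm (v : GolayPt → ℤ) = 48)
    (hw : sqNorm (w : GolayPt → ℤ) = 48) (hvw : dotInt (v : GolayPt → ℤ) (w : GolayPt → ℤ) = -32)
    (hx : sqNorm (x : GolayPt → ℤ) = 32 ∧ dotInt (v : GolayPt → ℤ) (x : GolayPt → ℤ) = 24 ∧
      dotInt (w : GolayPt → ℤ) (x : GolayPt → ℤ) = -24)
    (hx' : sqNorm (x' : GolayPt → ℤ) = 32 ∧ dotInt (v : GolayPt → ℤ) (x' : GolayPt → ℤ) = 24 ∧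
      dotInt (w : GolayPt → ℤ) (x' : GolayPt → ℤ) = -24) :
    ∃ g : Co0, g • v = v ∧ g • w = w ∧ g • x = x' := by
  obtain ⟨g, hg1, hg2⟩ := exists_frame v w hv hw hvw
  obtain ⟨k, ⟨hk1, hk2⟩, hk3⟩ := trans_conj (P := fun z => sqNorm (z : GolayPt → ℤ) = 32 ∧ dotInt (v : GolayPt → ℤ) (z : GolayPt → ℤ) = 24 ∧
      dotInt (w : GolayPt → ℤ) (z : GolayPt → ℤ) = -24)
    (Q := fun z => SameIn KH (vecOf y00L) (z : GolayPt → ℤ))
    (fix := fun k => k • v = v ∧ k • w = w) (fix' := fun h => h ∈ KH) g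
    (fun h hh => frame_fix hg1 hg2 hh)
    (fun z hz => trans_Y0 _ (g • z).2 ((co0_sqNorm g z).trans hz.1) ((mem_Y_frame hg1 hg2 z).1 hz.2))
    (fun a b ha hb => by
      obtain ⟨h, hh, e⟩ := exists_of_orbit ha hb
      exact ⟨h, hh, e⟩) x x' hx hx'
  exact ⟨k, hk1, hk2, hk3⟩

end Cfsg.Agent.Lib.Sporadic.LeechHS
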