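import Mathlib
import Cfsg.Agent.Lib.Sporadic.LeechHSb
import Cfsg.Agent.Lib.Sporadic.LeechHSr

/-!
# The rank five action of the stabiliser of a vector of norm 48 on 11178 minimal vectors
-/

set_option autoImplicit false

namespace Cfsg.Agent.Lib.Sporadic.LeechHS

open Cfsg Cfsg.Agent.Lib.Sporadic.GolayCore Cfsg.Agent.Lib.Sporadic.LeechBasic
  Cfsg.Agent.Lib.Sporadic.LeechNorm Cfsg.Agent.Lib.Sporadic.LeechFacts
  Cfsg.Agent.Lib.Sporadic.LeechAut Cfsg.Agent.Lib.Sporadic.LeechMat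
  Cfsg.Agent.Lib.Sporadic.LeechOrb Cfsg.Agent.Lib.Sporadic.LeechShape
  Cfsg.Agent.Lib.Sporadic.LeechKey Cfsg.Agent.Lib.Sporadic.LeechMin
  Cfsg.Agent.Lib.Sporadic.LeechA0 Cfsg.Agent.Lib.Sporadic.LeechEnum
  Cfsg.Agent.Lib.Sporadic.LeechTree
  Cfsg.Agent.Lib.Sporadic.M24Chain Cfsg.Agent.Lib.Sporadic.M24Tbl
open Cfsg.Agent.Lib.Sporadic.LeechCo3

/-- A frame for a vector of norm 48 and a minimal vector. -/
theorem exists_frameX (u x : leechLattice) (hu : sqNorm (u : GolayPt → ℤ) = 48)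
    (hx : sqNorm (x : GolayPt → ℤ) = 32 ∧ dotInt (u : GolayPt → ℤ) (x : GolayPt → ℤ) = -16) :
    ∃ g : Co0, g • u = U0 ∧ g • x = X0 := by
  obtain ⟨g, hg⟩ := Cfsg.Agent.Lib.Sporadic.LeechOrbits.co0_transitive_48 u U0 hu sqNorm_U0
  obtain ⟨h, hh1, hh2⟩ := trans_X U0 (g • x) X0 sqNorm_U0
    ⟨(co0_sqNorm g x).trans hx.1, by rw [← hg, co0_dotInt]; exact hx.2⟩ ⟨sqNorm_X0, dot_U0_X0⟩
  exact ⟨h * g, by rw [mul_smul, hg, hh1], by rw [mul_smul, hh2]⟩

theorem KH_fix_X0 {h : Co0} (hh : h ∈ KH) : h • U0 = U0 ∧ h • X0 = X0 := by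
  obtain ⟨h1, h2⟩ := Subgroup.mem_inf.1 hh
  have h1' : h • U0 = U0 := h1
  have h2' : h • W0 = W0 := h2
  have e : X0 = -(W0 + U0) := by
    rw [W0_eq]
    abel
  refine ⟨h1', ?_⟩
  rw [e, co0_map_neg, co0_map_add, h1', h2']

/-- The set with inner product `c`. -/
def SetC (u x : leechLattice) (c : ℤ) : Set leechLattice :=
  {y | sqNorm (y : GolayPt → ℤ) = 32 ∧ dotInt (u : GolayPt → ℤ) (y : GolayPt → ℤ) = -16 ∧
    dotInt (x : GolayPt → ℤ) (y : GolayPt → ℤ) = c}

theorem mem_frameC {g : Co0} {u x : leechLattice} (hu : g • u = U0) (hx : g • x = X0) (c : ℤ) (z : leechLattice) :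
    (dotInt (u : GolayPt → ℤ) (z : GolayPt → ℤ) = -16 ∧ dotInt (x : GolayPt → ℤ) (z : GolayPt → ℤ) = c) ↔
      condsQ [(x0L, c), (u0L, -16)] ((g • z : leechLattice) : GolayPt → ℤ) := by
  have h1 : condsQ [(x0L, c), (u0L, -16)] ((g • z : leechLattice) : GolayPt → ℤ) ↔
      dotInt (X0 : GolayPt → ℤ) ((g • z : leechLattice) : GolayPt → ℤ) = c ∧
        dotInt (U0 : GolayPt → ℤ) ((g • z : leechLattice) : GolayPt → ℤ) = -16 := by
    simp only [condsQ, List.mem_cons, List.not_mem_nil, or_false, forall_eq_or_imp, forall_eq]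
    exact Iff.rfl
  rw [h1, ← hu, ← hx, co0_dotInt, co0_dotInt, and_comm]

theorem fixes_X (c : ℤ) : FixesC KH ((x0L, c) :: [(u0L, -16)]) := by
  intro bt hbt
  simp only [List.mem_cons, List.not_mem_nil, or_false] at hbt
  rcases hbt with rfl | rfl
  · refine ⟨inLattice_sound x0L_ok, ?_⟩
    intro h hh
    exact (KH_fix_X0 hh).2
  · exact ⟨inLattice_sound u0L_ok, KH_le_U⟩

theorem ncard_SetC {g : Co0} {u x : leechLattice} (hu : g • u = U0) (hx : g • x = X0) (c : ℤ) :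
    (SetC u x c).ncard = (setC [(x0L, c), (u0L, -16)]).ncard := by
  unfold SetC
  rw [ncard_sub (fun y => sqNorm y = 32 ∧ dotInt (u : GolayPt → ℤ) y = -16 ∧ dotInt (x : GolayPt → ℤ) y = c)]
  apply ncard_transport g 32 (fun y => dotInt (u : GolayPt → ℤ) y = -16 ∧ dotInt (x : GolayPt → ℤ) y = c) _
  intro z
  exact mem_frameC hu hx c z

theorem orbit_SetC {g : Co0} {u x : leechLattice} (hu : g • u = U0) (hx : g • x = X0)
    {r : List ℤ} (hr : vecOf r ∈ leechLattice) (c : ℤ)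
    (H : ∀ z, z ∈ leechLattice → sqNorm z = 32 → condsQ [(x0L, c), (u0L, -16)] z → SameIn KH (vecOf r) z)
    (hn : sqNorm (vecOf r) = 32) (hd : condsQ [(x0L, c), (u0L, -16)] (vecOf r)) :
    g⁻¹ • (⟨vecOf r, hr⟩ : leechLattice) ∈ SetC u x c ∧
      MulAction.orbit ↥(MulAction.stabilizer Co0 u ⊓ MulAction.stabilizer Co0 x)
        (g⁻¹ • (⟨vecOf r, hr⟩ : leechLattice)) = SetC u x c := by
  set R : leechLattice := ⟨vecOf r, hr⟩ with hR
  have hy : g⁻¹ • R ∈ SetC u x c := by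
    have h1 := (mem_frameC hu hx c (g⁻¹ • R)).2 (by
      rw [smul_inv_smul]
      exact hd)
    refine ⟨?_, h1.1, h1.2⟩
    rw [co0_sqNorm]
    exact hn
  refine ⟨hy, ?_⟩
  apply orbit_eq_set hy
  · rintro k hk z ⟨h1, h2, h3⟩
    obtain ⟨hk1, hk2⟩ := Subgroup.mem_inf.1 hk
    have hk1' : k • u = u := hk1
    have hk2' : k • x = x := hk2
    refine ⟨?_, ?_, ?_⟩
    · rw [co0_sqNorm]
      exact h1
    · rw [← hk1', co0_dotInt]
      exact h2
    · rw [← hk2', co0_dotInt]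
      exact h3
  · rintro z ⟨h1, h2, h3⟩
    have h4 : SameIn KH (vecOf r) ((g • z : leechLattice) : GolayPt → ℤ) :=
      H _ (g • z).2 ((co0_sqNorm g z).trans h1) ((mem_frameC hu hx c z).1 ⟨h2, h3⟩)
    obtain ⟨h, hh, e⟩ := h4.exists_smul' R (g • z) rfl rfl
    obtain ⟨hh1, hh2⟩ := KH_fix_X0 hh
    refine ⟨g⁻¹ * h * g, ?_, ?_⟩
    · refine Subgroup.mem_inf.2 ⟨?_, ?_⟩
      · show (g⁻¹ * h * g) • u = u
        rw [mul_smul, mul_smul, hu, hh1, ← hu, inv_smul_smul]
      · show (g⁻¹ * h * g) • x = x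
        rw [mul_smul, mul_smul, hx, hh2, ← hx, inv_smul_smul]
    · rw [mul_smul, mul_smul, smul_inv_smul, e, inv_smul_smul]

theorem rmem_cond {r : List ℤ} {c : ℤ} (h1 : dotLL x0L r = c) (h2 : dotLL u0L r = -16) :
    condsQ [(x0L, c), (u0L, -16)] (vecOf r) := by
  intro bt hbt
  simp only [List.mem_cons, List.not_mem_nil, or_false] at hbt
  rcases hbt with rfl | rfl
  · rw [dotInt_vecOf]
    exact h1
  · rw [dotInt_vecOf]
    exact h2

/-- The point itself as a part. -/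
def partX : PartD KH (setC [(u0L, -16)]) (dotInt (vecOf x0L)) :=
  mkPart (fuel := 0) (cert := 0) (c0 := 32) (p := fun _ => true) h_genok (by decide +kernel) (inLattice_sound x0L_ok) (by decide +kernel) rfl rfl
    (fixes_X _) (hroot2 (by decide +kernel) (by decide +kernel))

def partM8 : PartD KH (setC [(u0L, -16)]) (dotInt (vecOf x0L)) :=
  mkPart (c0 := -8) h_genok (by decide +kernel) (inLattice_sound rm8L_ok) (by decide +kernel) run_m8 rfl
    (fixes_X _) (hroot2 (by decide +kernel) (by decide +kernel))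

def partP16 : PartD KH (setC [(u0L, -16)]) (dotInt (vecOf x0L)) :=
  mkPart (c0 := 16) h_genok (by decide +kernel) (inLattice_sound rp16L_ok) (by decide +kernel) run_p16 rfl
    (fixes_X _) (hroot2 (by decide +kernel) (by decide +kernel))

def partZ : PartD KH (setC [(u0L, -16)]) (dotInt (vecOf x0L)) :=
  mkPart (c0 := 0) h_genok (by decide +kernel) (inLattice_sound rzL_ok) (by decide +kernel) run_z rfl
    (fixes_X _) (hroot2 (by decide +kernel) (by decide +kernel))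

def partP8 : PartD KH (setC [(u0L, -16)]) (dotInt (vecOf x0L)) :=
  mkPart (c0 := 8) h_genok (by decide +kernel) (inLattice_sound rp8L_ok) (by decide +kernel) run_p8 rfl
    (fixes_X _) (hroot2 (by decide +kernel) (by decide +kernel))

theorem cover_X (q : PartD KH (setC [(u0L, -16)]) (dotInt (vecOf x0L))) (hq : q ∈ [partX, partM8, partP16, partZ, partP8]) :
    (∀ x ∈ setC [(u0L, -16)], dotInt (vecOf x0L) x = q.c → SameIn KH q.r x) ∧
      {x | x ∈ setC [(u0L, -16)] ∧ dotInt (vecOf x0L) x = q.c}.ncard = q.n :=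
  parts_cover [partX, partM8, partP16, partZ, partP8] (by decide +kernel) (by rw [ncard_setC_X]; rfl)
    (Set.finite_of_ncard_pos (by rw [ncard_setC_X]; norm_num)) q hq

theorem orbit_part {c : ℤ} {r : List ℤ} {q : PartD KH (setC [(u0L, -16)]) (dotInt (vecOf x0L))}
    (hq : q ∈ [partX, partM8, partP16, partZ, partP8]) (h1 : q.r = vecOf r) (h2 : q.c = c) :
    ∀ z, z ∈ leechLattice → sqNorm z = 32 → condsQ [(x0L, c), (u0L, -16)] z → SameIn KH (vecOf r) z := by
  intro z hz1 hz2 hz3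
  have hm := mem_setC_cons.1 (show z ∈ setC ((x0L, c) :: [(u0L, -16)]) from ⟨hz1, hz2, hz3⟩)
  have := (cover_X q hq).1 z hm.1 (by rw [hm.2, h2])
  rwa [h1] at this

theorem ncard_part {c : ℤ} {n : ℕ} {q : PartD KH (setC [(u0L, -16)]) (dotInt (vecOf x0L))}
    (hq : q ∈ [partX, partM8, partP16, partZ, partP8]) (h2 : q.c = c) (h3 : q.n = n) :
    (setC [(x0L, c), (u0L, -16)]).ncard = n := by
  rw [setC_cons, ← h2, ← h3]
  exact (cover_X q hq).2

theorem rank5 (u x : leechLattice) (hu : sqNorm (u : GolayPt → ℤ) = 48)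
    (hx : x ∈ {x : leechLattice | sqNorm (x : GolayPt → ℤ) = 32 ∧ dotInt (u : GolayPt → ℤ) (x : GolayPt → ℤ) = -16}) :
    ∃ y₁ ∈ {x : leechLattice | sqNorm (x : GolayPt → ℤ) = 32 ∧ dotInt (u : GolayPt → ℤ) (x : GolayPt → ℤ) = -16},
    ∃ y₂ ∈ {x : leechLattice | sqNorm (x : GolayPt → ℤ) = 32 ∧ dotInt (u : GolayPt → ℤ) (x : GolayPt → ℤ) = -16},
    ∃ y₃ ∈ {x : leechLattice | sqNorm (x : GolayPt → ℤ) = 32 ∧ dotInt (u : GolayPt → ℤ) (x : GolayPt → ℤ) = -16},
    ∃ y₄ ∈ {x : leechLattice | sqNorm (x : GolayPt → ℤ) = 32 ∧ dotInt (u : GolayPt → ℤ) (x : GolayPt → ℤ) = -16},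
      (MulAction.orbit ↥(MulAction.stabilizer Co0 u ⊓ MulAction.stabilizer Co0 x) y₁).ncard = 352 ∧
      (MulAction.orbit ↥(MulAction.stabilizer Co0 u ⊓ MulAction.stabilizer Co0 x) y₂).ncard = 1100 ∧
      (MulAction.orbit ↥(MulAction.stabilizer Co0 u ⊓ MulAction.stabilizer Co0 x) y₃).ncard = 4125 ∧
      (MulAction.orbit ↥(MulAction.stabilizer Co0 u ⊓ MulAction.stabilizer Co0 x) y₄).ncard = 5600 ∧
      {x : leechLattice | sqNorm (x : GolayPt → ℤ) = 32 ∧ dotInt (u : GolayPt → ℤ) (x : GolayPt → ℤ) = -16} =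
        {x} ∪ MulAction.orbit ↥(MulAction.stabilizer Co0 u ⊓ MulAction.stabilizer Co0 x) y₁ ∪
          MulAction.orbit ↥(MulAction.stabilizer Co0 u ⊓ MulAction.stabilizer Co0 x) y₂ ∪
          MulAction.orbit ↥(MulAction.stabilizer Co0 u ⊓ MulAction.stabilizer Co0 x) y₃ ∪
          MulAction.orbit ↥(MulAction.stabilizer Co0 u ⊓ MulAction.stabilizer Co0 x) y₄ := by
  obtain ⟨g, hg1, hg2⟩ := exists_frameX u x hu hx
  have hS : ∀ y c, y ∈ SetC u x c → sqNorm (y : GolayPt → ℤ) = 32 ∧ dotInt (u : GolayPt → ℤ) (y : GolayPt → ℤ) = -16 :=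
    fun y c hy => ⟨hy.1, hy.2.1⟩
  obtain ⟨ha1, ha2⟩ := orbit_SetC hg1 hg2 (inLattice_sound rm8L_ok) (-8)
    (orbit_part (q := partM8) (by simp) rfl rfl)
    (by rw [sqNorm_vecOf]; decide +kernel) (rmem_cond (by decide +kernel) (by decide +kernel))
  obtain ⟨hb1, hb2⟩ := orbit_SetC hg1 hg2 (inLattice_sound rp16L_ok) 16
    (orbit_part (q := partP16) (by simp) rfl rfl)
    (by rw [sqNorm_vecOf]; decide +kernel) (rmem_cond (by decide +kernel) (by decide +kernel))
  obtain ⟨hc1, hc2⟩ := orbit_SetC hg1 hg2 (inLattice_sound rzL_ok) 0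
    (orbit_part (q := partZ) (by simp) rfl rfl)
    (by rw [sqNorm_vecOf]; decide +kernel) (rmem_cond (by decide +kernel) (by decide +kernel))
  obtain ⟨hd1, hd2⟩ := orbit_SetC hg1 hg2 (inLattice_sound rp8L_ok) 8
    (orbit_part (q := partP8) (by simp) rfl rfl)
    (by rw [sqNorm_vecOf]; decide +kernel) (rmem_cond (by decide +kernel) (by decide +kernel))
  have ca : (SetC u x (-8)).ncard = 352 := by
    rw [ncard_SetC hg1 hg2]
    exact ncard_part (q := partM8) (by simp) rfl rfl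
  have cb : (SetC u x 16).ncard = 1100 := by
    rw [ncard_SetC hg1 hg2]
    exact ncard_part (q := partP16) (by simp) rfl rfl
  have cc : (SetC u x 0).ncard = 4125 := by
    rw [ncard_SetC hg1 hg2]
    exact ncard_part (q := partZ) (by simp) rfl rfl
  have cd : (SetC u x 8).ncard = 5600 := by
    rw [ncard_SetC hg1 hg2]
    exact ncard_part (q := partP8) (by simp) rfl rfl
  refine ⟨_, hS _ _ ha1, _, hS _ _ hb1, _, hS _ _ hc1, _, hS _ _ hd1, ?_, ?_, ?_, ?_, ?_⟩
  · rw [ha2, ca]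
  · rw [hb2, cb]
  · rw [hc2, cc]
  · rw [hd2, cd]
  rw [ha2, hb2, hc2, hd2]
  have hfin : {x : leechLattice | sqNorm (x : GolayPt → ℤ) = 32 ∧ dotInt (u : GolayPt → ℤ) (x : GolayPt → ℤ) = -16}.Finite :=
    Set.finite_of_ncard_pos (by rw [ncard_X u hu]; norm_num)
  have hsub : ∀ c, SetC u x c ⊆ {x : leechLattice | sqNorm (x : GolayPt → ℤ) = 32 ∧ dotInt (u : GolayPt → ℤ) (x : GolayPt → ℤ) = -16} :=
    fun c y hy => hS y c hy
  have hxx : dotInt (x : GolayPt → ℤ) (x : GolayPt → ℤ) = 32 := by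
    rw [dotInt_self]
    exact hx.1
  have hd0 : Disjoint ({x} : Set leechLattice) (SetC u x (-8)) := by
    rw [Set.disjoint_left]
    rintro y rfl hy
    have := hy.2.2
    omega
  have hd0' : Disjoint ({x} ∪ SetC u x (-8) : Set leechLattice) (SetC u x 16) := by
    rw [Set.disjoint_left]
    rintro y (rfl | hy) hy'
    · have := hy'.2.2
      omega
    · have h1 := hy.2.2
      have h2 := hy'.2.2
      omega
  have hd1' : Disjoint ({x} ∪ SetC u x (-8) ∪ SetC u x 16 : Set leechLattice) (SetC u x 0) := by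
    rw [Set.disjoint_left]
    rintro y ((rfl | hy) | hy) hy'
    · have := hy'.2.2
      omega
    · have h1 := hy.2.2
      have h2 := hy'.2.2
      omega
    · have h1 := hy.2.2
      have h2 := hy'.2.2
      omega
  have hd2' : Disjoint ({x} ∪ SetC u x (-8) ∪ SetC u x 16 ∪ SetC u x 0 : Set leechLattice) (SetC u x 8) := by
    rw [Set.disjoint_left]
    rintro y (((rfl | hy) | hy) | hy) hy'
    · have := hy'.2.2
      omega
    · have h1 := hy.2.2
      have h2 := hy'.2.2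
      omega
    · have h1 := hy.2.2
      have h2 := hy'.2.2
      omega
    · have h1 := hy.2.2
      have h2 := hy'.2.2
      omega
  symm
  apply Set.eq_of_subset_of_ncard_le
  · rintro y ((((rfl | hy) | hy) | hy) | hy)
    · exact hx
    · exact hsub _ hy
    · exact hsub _ hy
    · exact hsub _ hy
    · exact hsub _ hy
  · rw [ncard_X u hu, Set.ncard_union_eq hd2' ?_ (hfin.subset (hsub _)), Set.ncard_union_eq hd1' ?_ (hfin.subset (hsub _)),
      Set.ncard_union_eq hd0' ?_ (hfin.subset (hsub _)), Set.ncard_union_eq hd0 (Set.finite_singleton x) (hfin.subset (hsub _)),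
      ca, cb, cc, cd, Set.ncard_singleton]
    · exact ((Set.finite_singleton x).union (hfin.subset (hsub _)))
    · exact (((Set.finite_singleton x).union (hfin.subset (hsub _))).union (hfin.subset (hsub _)))
    · exact ((((Set.finite_singleton x).union (hfin.subset (hsub _))).union (hfin.subset (hsub _))).union (hfin.subset (hsub _)))
  · exact hfin

end Cfsg.Agent.Lib.Sporadic.LeechHS
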