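import Mathlib

/-!
# Quotient of a centralizer by `A ⊔ Z` from a surjection of a big subgroup

`X` finite, `A` of order 5, `Z = Z(X)` of order 2, `C = C_X(A)` of order at most `10 m`,
`φ : D ↠ J` from a subgroup `D ≤ C`, `|J| = m`, with `A Z ≤ D` and `A Z` in the kernel of `φ`.
Then `D = C`, the kernel is `A Z`, so `C / A Z ≅ J`.
-/

set_option autoImplicit false

namespace Cfsg.Agent.Lib.Sporadic.LeechJ2Glue

theorem quot_equiv_aux {X J : Type*} [Group X] [Finite X] [Group J] [Finite J]
    (W C : Subgroup X) (hWC : W ≤ C) (h10 : 10 ≤ Nat.card W)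
    (hup : Nat.card C ≤ 10 * Nat.card J)
    (D : Subgroup ↥C)
    (φ : D →* J) (hφ : Function.Surjective φ)
    (hmem : ∀ x : C, (x : X) ∈ W → x ∈ D)
    (hker : ∀ x : D, (((x : C)) : X) ∈ W → φ x = 1) :
    ∃ (hn : (W.subgroupOf C).Normal), Nonempty (J ≃* ↥C ⧸ W.subgroupOf C) := by
  classical
  set N : Subgroup C := W.subgroupOf C with hN
  have hcardN : Nat.card N = Nat.card W :=
    Nat.card_congr (Subgroup.subgroupOfEquivOfLe hWC).toEquiv
  have hND : N ≤ D := by
    intro x hx
    exact hmem x (by simpa [hN, Subgroup.mem_subgroupOf] using hx)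
  set N' : Subgroup D := N.subgroupOf D with hN'
  have hcardN' : Nat.card N' = Nat.card W := by
    rw [← hcardN]
    exact Nat.card_congr (Subgroup.subgroupOfEquivOfLe hND).toEquiv
  have hN'K : N' ≤ φ.ker := by
    intro x hx
    rw [MonoidHom.mem_ker]
    apply hker
    have : (x : C) ∈ N := by simpa [hN', Subgroup.mem_subgroupOf] using hx
    simpa [hN, Subgroup.mem_subgroupOf] using this
  -- counting
  have hcardD : Nat.card D = Nat.card J * Nat.card φ.ker := by
    have h1 := Subgroup.card_eq_card_quotient_mul_card_subgroup φ.ker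
    rw [h1, Nat.card_congr (QuotientGroup.quotientKerEquivOfSurjective φ hφ).toEquiv]
  have hKge : Nat.card W ≤ Nat.card φ.ker := by
    rw [← hcardN']
    exact Subgroup.card_le_of_le hN'K
  have hJpos : 0 < Nat.card J := Nat.card_pos
  have hDC : Nat.card D ≤ Nat.card C := Subgroup.card_le_card_group D
  have hchain : 10 * Nat.card J ≤ Nat.card D := by
    rw [hcardD, mul_comm]
    exact Nat.mul_le_mul_left _ (h10.trans hKge)
  have hDeq : Nat.card D = Nat.card C := le_antisymm hDC (hup.trans hchain)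
  have hDtop : D = ⊤ := Subgroup.eq_top_of_card_eq D hDeq
  have hKle : Nat.card φ.ker ≤ Nat.card W := by
    by_contra hlt
    rw [not_le] at hlt
    have h11 : Nat.card J * (Nat.card W + 1) ≤ Nat.card D := by
      rw [hcardD]; exact Nat.mul_le_mul_left _ hlt
    have h12 : Nat.card J * 11 ≤ Nat.card J * (Nat.card W + 1) :=
      Nat.mul_le_mul_left _ (by omega)
    nlinarith
  have hN'eq : N' = φ.ker := by
    apply Subgroup.eq_of_le_of_card_ge hN'K
    rw [hcardN']; exact hKle
  -- the map on `C`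
  have hmemD : ∀ x : C, x ∈ D := fun x => by rw [hDtop]; trivial
  let ψ : C →* J :=
    { toFun := fun x => φ ⟨x, hmemD x⟩
      map_one' := by
        have : (⟨1, hmemD 1⟩ : D) = 1 := rfl
        rw [this, map_one]
      map_mul' := fun x y => by
        have : (⟨x * y, hmemD (x * y)⟩ : D) = ⟨x, hmemD x⟩ * ⟨y, hmemD y⟩ := rfl
        rw [this, map_mul] }
  have hψ : Function.Surjective ψ := by
    intro j
    obtain ⟨d, hd⟩ := hφ j
    exact ⟨d, hd⟩
  have hNker : N = ψ.ker := by
    ext x
    rw [MonoidHom.mem_ker]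
    constructor
    · intro hx
      have : (⟨x, hmemD x⟩ : D) ∈ N' := by
        simpa [hN', Subgroup.mem_subgroupOf] using hx
      rw [hN'eq, MonoidHom.mem_ker] at this
      exact this
    · intro hx
      have : (⟨x, hmemD x⟩ : D) ∈ φ.ker := by
        rw [MonoidHom.mem_ker]; exact hx
      rw [← hN'eq] at this
      simpa [hN', Subgroup.mem_subgroupOf] using this
  have hn : N.Normal := by rw [hNker]; infer_instance
  refine ⟨hn, ⟨?_⟩⟩
  exact (QuotientGroup.quotientKerEquivOfSurjective ψ hψ).symm.trans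
    (QuotientGroup.quotientMulEquivOfEq hNker).symm

theorem exists_quot_equiv {X J : Type*} [Group X] [Finite X] [Group J] [Finite J]
    (A : Subgroup X) (hA : Nat.card A = 5)
    (hZ : Nat.card (Subgroup.center X) = 2)
    (hup : Nat.card (Subgroup.centralizer (A : Set X)) ≤ 10 * Nat.card J)
    (D : Subgroup ↥(Subgroup.centralizer (A : Set X)))
    (φ : D →* J) (hφ : Function.Surjective φ)
    (hmem : ∀ x : Subgroup.centralizer (A : Set X), (x : X) ∈ A ⊔ Subgroup.center X → x ∈ D)
    (hker : ∀ x : D, (((x : Subgroup.centralizer (A : Set X))) : X) ∈ A ⊔ Subgroup.center X → φ x = 1) :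
    ∃ (hn : ((A ⊔ Subgroup.center X).subgroupOf (Subgroup.centralizer (A : Set X))).Normal),
      Nonempty (J ≃* ↥(Subgroup.centralizer (A : Set X)) ⧸
        (A ⊔ Subgroup.center X).subgroupOf (Subgroup.centralizer (A : Set X))) := by
  classical
  -- `A` is commutative
  haveI : Fact (Nat.Prime (Nat.card A)) := ⟨by rw [hA]; norm_num⟩
  haveI : IsCyclic A := isCyclic_of_prime_card rfl
  have hcomm : ∀ a b : A, a * b = b * a := fun a b => by
    obtain ⟨g, hg⟩ := IsCyclic.exists_generator (α := A)
    obtain ⟨i, rfl⟩ := Subgroup.mem_zpowers_iff.1 (hg a)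
    obtain ⟨j, rfl⟩ := Subgroup.mem_zpowers_iff.1 (hg b)
    exact (Commute.zpow_zpow_self g i j)
  have hAC : A ≤ Subgroup.centralizer (A : Set X) := by
    intro a ha
    rw [Subgroup.mem_centralizer_iff]
    intro b hb
    have := hcomm ⟨b, hb⟩ ⟨a, ha⟩
    exact congrArg Subtype.val this
  have hZC : Subgroup.center X ≤ Subgroup.centralizer (A : Set X) := by
    intro z hz
    rw [Subgroup.mem_centralizer_iff]
    intro b _
    exact (Subgroup.mem_center_iff.1 hz b)
  have hWC : A ⊔ Subgroup.center X ≤ Subgroup.centralizer (A : Set X) := sup_le hAC hZC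
  -- `10` divides the order of `W`
  have hWpos : 0 < Nat.card ↥(A ⊔ Subgroup.center X) := Nat.card_pos
  have h5 : 5 ∣ Nat.card ↥(A ⊔ Subgroup.center X) := by
    rw [← hA]; exact Subgroup.card_dvd_of_le le_sup_left
  have h2 : 2 ∣ Nat.card ↥(A ⊔ Subgroup.center X) := by
    rw [← hZ]; exact Subgroup.card_dvd_of_le le_sup_right
  have h10 : 10 ≤ Nat.card ↥(A ⊔ Subgroup.center X) := by
    have : 10 ∣ Nat.card ↥(A ⊔ Subgroup.center X) := by
      have := Nat.Coprime.mul_dvd_of_dvd_of_dvd (by norm_num : Nat.Coprime 5 2) h5 h2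
      simpa using this
    exact Nat.le_of_dvd hWpos this
  exact quot_equiv_aux _ _ hWC h10 hup D φ hφ hmem hker

end Cfsg.Agent.Lib.Sporadic.LeechJ2Glue
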