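import Mathlib
import Cfsg.Prelude.Def_Local
import Cfsg.Prelude.Def_Transfer
import Cfsg.Prelude.Def_Classical
import Cfsg.Prelude.Def_Spor_Conway
import Cfsg.Agent.Lib.Sporadic.J2.Group
import Cfsg.Agent.Lib.Sporadic.LeechJ2Glue

/-!
# Assembling the `J₂` section of `Co₀` (statement shape of `S5403`)
-/

set_option autoImplicit false

namespace Cfsg.Agent.Lib.Sporadic.LeechJ2Assemble

open Cfsg Cfsg.Agent.Lib.Sporadic.J2.Group Cfsg.Agent.Lib.Sporadic.LeechJ2Glue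

/-- The `J₂` property proved by `LeechJ2Side.j315_side`. -/
def Side : Prop :=
  ¬ IsMulCommutative ↥J315 ∧ ∃ z : ↥J315, orderOf z = 2 ∧ ∃ (Q : Subgroup (Subgroup.centralizer ({z} : Set ↥J315))) (_ : Q.Normal), Cfsg.generalizedFittingSubgroup (Subgroup.centralizer ({z} : Set ↥J315)) = Q ∧ Cfsg.IsExtraspecial 2 Q ∧ Nat.card Q = 2 ^ 5 ∧ Nonempty ((Subgroup.centralizer ({z} : Set ↥J315)) ⧸ Q ≃* Cfsg.Omega (ZMod 2) (Cfsg.quadFormMinus 1 (ZMod 2) 1 1)) ∧ ∃ g : ↥J315, (∃ hq : g * z * g⁻¹ ∈ Subgroup.centralizer ({z} : Set ↥J315), (⟨g * z * g⁻¹, hq⟩ : Subgroup.centralizer ({z} : Set ↥J315)) ∈ Q) ∧ g * z * g⁻¹ ≠ z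

theorem assemble [Finite ↥Cfsg.Co0] (hside : Side)
    (A : Subgroup ↥Cfsg.Co0) (hA : Nat.card A = 5)
    (hZ : Nat.card (Subgroup.center ↥Cfsg.Co0) = 2)
    (hup : Nat.card (Subgroup.centralizer (A : Set ↥Cfsg.Co0)) ≤ 6048000)
    (D : Subgroup ↥(Subgroup.centralizer (A : Set ↥Cfsg.Co0)))
    (φ : D →* ↥J315) (hφ : Function.Surjective φ)
    (hmem : ∀ x : Subgroup.centralizer (A : Set ↥Cfsg.Co0), (x : ↥Cfsg.Co0) ∈ A ⊔ Subgroup.center ↥Cfsg.Co0 → x ∈ D)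
    (hker : ∀ x : D, (((x : Subgroup.centralizer (A : Set ↥Cfsg.Co0))) : ↥Cfsg.Co0) ∈ A ⊔ Subgroup.center ↥Cfsg.Co0 → φ x = 1) :
    ∃ A : Subgroup ↥Cfsg.Co0, Nat.card A = 5 ∧ ∃ (hn : ((A ⊔ Subgroup.center ↥Cfsg.Co0).subgroupOf (Subgroup.centralizer (A : Set ↥Cfsg.Co0))).Normal), ∃ (S : Type) (_ : Group S) (_ : Finite S), Nonempty (S ≃* ↥(Subgroup.centralizer (A : Set ↥Cfsg.Co0)) ⧸ (A ⊔ Subgroup.center ↥Cfsg.Co0).subgroupOf (Subgroup.centralizer (A : Set ↥Cfsg.Co0))) ∧ IsSimpleGroup S ∧ ¬ IsMulCommutative S ∧ ∃ z : S, orderOf z = 2 ∧ ∃ (Q : Subgroup (Subgroup.centralizer ({z} : Set S))) (_ : Q.Normal), Cfsg.generalizedFittingSubgroup (Subgroup.centralizer ({z} : Set S)) = Q ∧ Cfsg.IsExtraspecial 2 Q ∧ Nat.card Q = 2 ^ 5 ∧ Nonempty ((Subgroup.centralizer ({z} : Set S)) ⧸ Q ≃* Cfsg.Omega (ZMod 2) (Cfsg.quadFormMinus 1 (ZMod 2) 1 1)) ∧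 ∃ g : S, (∃ hq : g * z * g⁻¹ ∈ Subgroup.centralizer ({z} : Set S), (⟨g * z * g⁻¹, hq⟩ : Subgroup.centralizer ({z} : Set S)) ∈ Q) ∧ g * z * g⁻¹ ≠ z := by
  have hup' : Nat.card (Subgroup.centralizer (A : Set ↥Cfsg.Co0)) ≤ 10 * Nat.card ↥J315 := by
    rw [card_J315]; omega
  obtain ⟨hn, he⟩ := exists_quot_equiv A hA hZ hup' D φ hφ hmem hker
  exact ⟨A, hA, hn, ↥J315, inferInstance, inferInstance, he, simple_J315, hside⟩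

end Cfsg.Agent.Lib.Sporadic.LeechJ2Assemble
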