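import Mathlib
import Cfsg.Agent.Lib.Sporadic.J2.CentThm
import Cfsg.Agent.Lib.HallJanko.Omega
import Cfsg.Agent.Lib.Components.FStar2
import Cfsg.Agent.Lib.Components.LocalFStar

/-!
# The Hall-Janko hypothesis for the permutation group on the 315 lines

The centralizer of the reflection `z0` has generalized Fitting subgroup `Q` extraspecial of order 32, with
quotient `Ω⁻₄(2)`, and `z0` is not weakly closed in `Q`.
-/

set_option autoImplicit false
set_option maxRecDepth 100000

namespace Cfsg.Agent.Lib.Sporadic.LeechJ2Side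

open Subgroup Cfsg Cfsg.Agent.Lib.Sporadic.J2.Group
open Cfsg.Agent.Lib.Compute.PermCert Cfsg.Agent.Lib.Sporadic.J2.CentThm
open Cfsg.Agent.Lib.Sporadic.J2.CentData Cfsg.Agent.Lib.Sporadic.J2.ChainCheck Cfsg.Agent.Lib.Sporadic.J2.Data3
open Cfsg.Agent.Lib.Compute.J3.CentSmall (CC card_CC p1 p2 T t_comm table_facts qP qP_mem qP_mul qP_one qP_inj qP_bl
  qP_apply qP_valid exists_psi closure_eq_alt bl_surj range_of_label' qE bl)

/-- A recognition of the generalized Fitting subgroup. -/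
theorem fstar_eq_ker_aux {X Y : Type*} [Group X] [Finite X] [Group Y] (φ : X →* Y)
    (hφ : Function.Surjective φ) (hY : ∀ W : Subgroup Y, W.Normal → IsPGroup 2 W → W = ⊥)
    (hQ : IsPGroup 2 φ.ker) (hC : IsPGroup 2 (centralizer (φ.ker : Set X))) :
    generalizedFittingSubgroup X = φ.ker := by
  haveI : Fact (Nat.Prime 2) := ⟨Nat.prime_two⟩
  have key : ∀ P : Subgroup X, P.Normal → IsPGroup 2 P → P ≤ φ.ker := by
    intro P hP h2
    have h1 : P.map φ = ⊥ := hY _ (hP.map φ hφ) (h2.map φ)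
    rwa [Subgroup.map_eq_bot_iff] at h1
  have hCk : centralizer (φ.ker : Set X) ≤ φ.ker := key _ normal_centralizer hC
  have hKp : φ.ker ≤ Cfsg.pCore 2 X := Cfsg.Agent.Lib.Basic.PCore.le_pCore inferInstance hQ
  have hKF : φ.ker ≤ fittingSubgroup X := hKp.trans (Cfsg.Agent.Lib.Basic.PCore.pCore_le_fittingSubgroup 2)
  have hF2 : IsPGroup 2 (fittingSubgroup X) := by
    apply Cfsg.Agent.Lib.Components.LocalFStar.isPGroup_of_forall_coprime 2
    intro x hx hc
    have h1 : x ∈ centralizer (φ.ker : Set X) := by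
      rw [mem_centralizer_iff]
      intro u hu
      exact (Cfsg.Agent.Lib.Components.LocalFStar.commute_of_mem_generalizedFitting 2
        (Cfsg.Agent.Lib.Components.FStar.fitting_le_generalizedFitting hx) hc (hKp hu)).symm
    exact Cfsg.Agent.Lib.Components.LocalFStar.eq_one_of_mem_of_isPGroup 2 hC h1 hc
  have hF : fittingSubgroup X ≤ φ.ker := key _ (Cfsg.Agent.Lib.Basic.PCore.fittingSubgroup_normal _) hF2
  apply le_antisymm
  · exact Cfsg.Agent.Lib.Components.FStar2.generalizedFitting_le_of_centralizer_le _ hF hCk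
  · exact hKF.trans Cfsg.Agent.Lib.Components.FStar.fitting_le_generalizedFitting

/-- `A₅` has no normal 2-subgroups. -/
theorem alt5_no_two (W : Subgroup (alternatingGroup (Fin 5))) (hW : W.Normal) (h2 : IsPGroup 2 W) : W = ⊥ := by
  haveI : Fact (Nat.Prime 2) := ⟨Nat.prime_two⟩
  have hs : IsSimpleGroup (alternatingGroup (Fin 5)) := alternatingGroup.isSimpleGroup_five
  rcases hs.eq_bot_or_eq_top_of_normal W hW with h | h
  · exact h
  · exfalso
    obtain ⟨k, hk⟩ := h2.exists_card_eq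
    have h3 : Nat.card W = 60 := by
      rw [h, Subgroup.card_top, Cfsg.Agent.Lib.Compute.J3.CentSmall.card_alt]
    rw [h3] at hk
    have h4 : 3 ∣ 2 ^ k := by rw [← hk]; norm_num
    have h5 := Nat.Prime.dvd_of_dvd_pow Nat.prime_three h4
    omega

theorem qP_apply' (i : ℕ) (hi : i < 32) (a : Fin 80) : (qP i a : ℕ) = get 7 127 (qE i).f a :=
  qP_apply ⟨i, hi⟩ a

/-- The abstract core: recognition of `F*` from the table of the normal subgroup. -/
theorem core {X : Type*} [Group X] [Finite X] (φ : X →* alternatingGroup (Fin 5)) (hφ : Function.Surjective φ)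
    (f : Fin 32 → X) (hf : ∀ i, φ (f i) = 1) (hmul : ∀ i j, f i * f j = f (T i j)) (hone : f 0 = 1)
    (hinj : Function.Injective f) (hcard : Nat.card X = 1920) (c₁ : X) (j₀ : Fin 32)
    (h1 : c₁ * f j₀ ≠ f j₀ * c₁) (h2 : c₁ * f j₀ ≠ f 1 * f j₀ * c₁) :
    generalizedFittingSubgroup X = φ.ker ∧ Cfsg.IsExtraspecial 2 φ.ker ∧ Nat.card φ.ker = 32 := by
  classical
  haveI : Fact (Nat.Prime 2) := ⟨Nat.prime_two⟩
  have hkcard : Nat.card φ.ker = 32 := by
    have h3 := Subgroup.card_mul_index φ.ker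
    have h4 : φ.ker.index = 60 := by
      rw [Subgroup.index_ker, MonoidHom.range_eq_top.mpr hφ, Subgroup.card_top,
        Cfsg.Agent.Lib.Compute.J3.CentSmall.card_alt]
    rw [h4, hcard] at h3
    omega
  let g : Fin 32 → φ.ker := fun i => ⟨f i, hf i⟩
  have hgmul : ∀ i j, g i * g j = g (T i j) := fun i j => Subtype.ext (hmul i j)
  have hgone : g 0 = 1 := Subtype.ext hone
  have hginj : Function.Injective g := fun i j h => hinj (congrArg Subtype.val h)
  have hgbij : Function.Bijective g := hginj.bijective_of_nat_card_le (by rw [hkcard]; simp)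
  obtain ⟨hE, -⟩ := table_facts g hgmul hgone hgbij
  have hQ2 : IsPGroup 2 φ.ker := IsPGroup.of_card (n := 5) (by rw [hkcard]; norm_num)
  have hsimple : IsSimpleGroup (alternatingGroup (Fin 5)) := alternatingGroup.isSimpleGroup_five
  have hcent : centralizer (φ.ker : Set X) ≤ φ.ker := by
    have hn : (centralizer (φ.ker : Set X)).Normal := normal_centralizer
    rcases hsimple.eq_bot_or_eq_top_of_normal _ (hn.map φ hφ) with h | h
    · rwa [Subgroup.map_eq_bot_iff] at h
    · exfalso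
      have hm : φ c₁ ∈ (centralizer (φ.ker : Set X)).map φ := by rw [h]; trivial
      obtain ⟨c, hc, hcc⟩ := hm
      have hq : c⁻¹ * c₁ ∈ φ.ker := by
        rw [MonoidHom.mem_ker, map_mul, map_inv, hcc, inv_mul_cancel]
      obtain ⟨k, hk⟩ := hgbij.2 ⟨c⁻¹ * c₁, hq⟩
      have hk2 : f k = c⁻¹ * c₁ := congrArg Subtype.val hk
      have hc₁ : c₁ = c * f k := by rw [hk2]; group
      have hcomm : ∀ x ∈ φ.ker, c * x = x * c := by
        intro x hx
        exact (mem_centralizer_iff.mp hc x hx).symm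
      have hmemk : f k * f j₀ * (f k)⁻¹ ∈ φ.ker := by
        rw [MonoidHom.mem_ker, map_mul, map_mul, map_inv, hf k, hf j₀]
        simp
      have hconj : c₁ * f j₀ * c₁⁻¹ = f k * f j₀ * (f k)⁻¹ := by
        rw [hc₁]
        have : c * f k * f j₀ * (c * f k)⁻¹ = c * (f k * f j₀ * (f k)⁻¹) * c⁻¹ := by group
        rw [this, hcomm _ hmemk]
        group
      rcases t_comm k j₀ with h5 | h5
      · apply h1
        have h6 : f k * f j₀ = f j₀ * f k := by rw [hmul, hmul, h5]
        have h7 : c₁ * f j₀ * c₁⁻¹ = f j₀ := by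
          rw [hconj, h6]
          group
        calc c₁ * f j₀ = c₁ * f j₀ * c₁⁻¹ * c₁ := by group
          _ = f j₀ * c₁ := by rw [h7]
      · apply h2
        have h6 : f k * f j₀ = f 1 * (f j₀ * f k) := by rw [hmul, hmul, hmul, h5]
        have h7 : c₁ * f j₀ * c₁⁻¹ = f 1 * f j₀ := by
          rw [hconj, h6]
          group
        calc c₁ * f j₀ = c₁ * f j₀ * c₁⁻¹ * c₁ := by group
          _ = f 1 * f j₀ * c₁ := by rw [h7]
  have hC2 : IsPGroup 2 (centralizer (φ.ker : Set X)) := hQ2.to_le hcent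
  exact ⟨fstar_eq_ker_aux φ hφ (fun W hW h => alt5_no_two W hW h) hQ2 hC2, hE, hkcard⟩

/-- The centralizer of the reflection. -/
abbrev C0 : Subgroup ↥J315 := Subgroup.centralizer ({z0} : Set ↥J315)

/-- The labels give an isomorphism of the centralizer with the group of degree 80. -/
theorem exists_theta : ∃ θ : ↥C0 →* Equiv.Perm (Fin 80), θ.range = CC ∧ Function.Injective θ ∧
    ∀ (c : C0) (i : Fin 315) (y : Fin 80), lab i = some y →
      lab ((c.1 : Equiv.Perm (Fin 315)) i) = some (θ c y) := by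
  have hZ := card_cent_le
  let X1 : J315 := ⟨permOf 9 511 315 x1E, mem_of_sift valid_x1 sift_x1⟩
  let X2 : J315 := ⟨permOf 9 511 315 x2E, mem_of_sift valid_x2 sift_x2⟩
  have hX1 : X1 ∈ Subgroup.centralizer ({z0} : Set J315) := by
    rw [Subgroup.mem_centralizer_singleton_iff]
    apply Subtype.ext
    exact comm_of_chk valid_x1 valid_z comm_x1
  have hX2 : X2 ∈ Subgroup.centralizer ({z0} : Set J315) := by
    rw [Subgroup.mem_centralizer_singleton_iff]
    apply Subtype.ext
    exact comm_of_chk valid_x2 valid_z comm_x2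
  have hle : Subgroup.closure {X1, X2} ≤ Subgroup.centralizer ({z0} : Set J315) := by
    rw [Subgroup.closure_le]
    rintro _ (rfl | h)
    · exact hX1
    · rw [Set.mem_singleton_iff] at h
      rw [h]
      exact hX2
  obtain ⟨ψ, hψ, hs⟩ := range_of_label' J315.subtype lab lab_surj {X1, X2} {p1, p2}
    (by
      rintro a (rfl | h)
      · exact ⟨_, Or.inl rfl, fun i y hy => lab_spec valid_x1 Cfsg.Agent.Lib.Compute.J3.CentSmall.valid_e1 lab_x1 i y hy⟩
      · rw [Set.mem_singleton_iff] at h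
        subst h
        exact ⟨_, Or.inr rfl, fun i y hy => lab_spec valid_x2 Cfsg.Agent.Lib.Compute.J3.CentSmall.valid_e2 lab_x2 i y hy⟩)
    (by
      rintro p (rfl | h)
      · exact ⟨X1, Or.inl rfl, fun i y hy => lab_spec valid_x1 Cfsg.Agent.Lib.Compute.J3.CentSmall.valid_e1 lab_x1 i y hy⟩
      · rw [Set.mem_singleton_iff] at h
        subst h
        exact ⟨X2, Or.inr rfl, fun i y hy => lab_spec valid_x2 Cfsg.Agent.Lib.Compute.J3.CentSmall.valid_e2 lab_x2 i y hy⟩)
  have hcardE : 1920 ≤ Nat.card (Subgroup.closure {X1, X2} : Subgroup J315) := by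
    have h1 : Nat.card ψ.range ≤ Nat.card (Subgroup.closure {X1, X2} : Subgroup J315) :=
      Nat.card_le_card_of_surjective ψ.rangeRestrict ψ.rangeRestrict_surjective
    rw [hψ, card_CC] at h1
    exact h1
  have hEZ : (Subgroup.closure {X1, X2} : Subgroup J315) = Subgroup.centralizer ({z0} : Set J315) :=
    Subgroup.eq_of_le_of_card_ge hle (hZ.trans hcardE)
  have hψinj : Function.Injective ψ := by
    have hbij := ψ.rangeRestrict_surjective.bijective_of_nat_card_le (by
      rw [hψ, card_CC, hEZ]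
      exact hZ)
    exact fun a b hab => hbij.1 (Subtype.ext hab)
  let e : ↥C0 ≃* ↥(Subgroup.closure {X1, X2} : Subgroup J315) := MulEquiv.subgroupCongr hEZ.symm
  refine ⟨ψ.comp e.toMonoidHom, ?_, ?_, ?_⟩
  · refine Eq.trans ?_ hψ
    ext x
    constructor
    · rintro ⟨a, rfl⟩
      exact ⟨e a, rfl⟩
    · rintro ⟨a, rfl⟩
      exact ⟨e.symm a, by simp⟩
  · intro a b hab
    exact e.injective (hψinj hab)
  · intro c i y hy
    exact hs (e c) i y hy

/-! ### The explicit conjugate in the normal subgroup -/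

/-- The index of a conjugate of the seed inside `Q`. -/
theorem k_lt : 312 < lv0.trans.length := by decide +kernel

/-- The coset representative. -/
def u0 : Elt := (lv0.trans[312]'k_lt).u

theorem u0_facts : validB 9 511 315 u0 = true ∧ permOf 9 511 315 u0 ∈ J315 :=
  trans_facts (List.getElem_mem k_lt)

/-- The values of the conjugate commute with the seed. -/
theorem comm_u0 : allB (fun b => Nat.beq (cv u0 (get 9 511 zE.f b)) (get 9 511 zE.f (cv u0 b))) 315 = true := by
  decide +kernel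

/-- The conjugate acts on the labels as an element of the normal subgroup. -/
theorem lab_u0 : allB (fun i => !(Nat.blt (labN i) 80) ||
    (Nat.beq (labN (cv u0 i)) (get 7 127 (qE 3).f (labN i)) && Nat.blt (labN (cv u0 i)) 80)) 315 = true := by
  decide +kernel

theorem ne_u0 : cv u0 0 ≠ get 9 511 zE.f 0 := by decide +kernel

theorem z_sq : allB (fun i => Nat.beq (get 9 511 zE.f (get 9 511 zE.f i)) i) 315 = true := by decide +kernel

theorem z_ne : get 9 511 zE.f 0 ≠ 0 := by decide +kernel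

theorem orderOf_z0 : orderOf z0 = 2 := by
  haveI : Fact (Nat.Prime 2) := ⟨Nat.prime_two⟩
  apply orderOf_eq_prime
  · apply Subtype.ext
    ext i
    have h1 := (allB_iff _ _).mp z_sq i i.2
    rw [Nat.beq_eq] at h1
    show (((permOf 9 511 315 zE) ^ 2 : Equiv.Perm (Fin 315)) i : ℕ) = i
    rw [pow_two, Equiv.Perm.mul_apply, permOf_apply valid_z, permOf_apply valid_z]
    exact h1
  · intro h
    have h1 : permOf 9 511 315 zE = 1 := congrArg Subtype.val h
    have h2 := permOf_apply valid_z ⟨0, by norm_num⟩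
    rw [h1] at h2
    exact z_ne h2.symm

theorem not_comm_J315 : ¬ IsMulCommutative ↥J315 := by
  intro h
  have h1 : Subgroup.centralizer ({z0} : Set J315) = ⊤ := by
    rw [eq_top_iff]
    intro x _
    rw [Subgroup.mem_centralizer_singleton_iff]
    exact h.is_comm.comm x z0
  have h2 := card_cent_le
  rw [h1, Subgroup.card_top, card_J315] at h2
  omega

/-- The Hall-Janko hypothesis. -/
theorem j315_side : ¬ IsMulCommutative ↥J315 ∧ ∃ z : ↥J315, orderOf z = 2 ∧ ∃ (Q : Subgroup (Subgroup.centralizer ({z} : Set ↥J315))) (_ : Q.Normal), Cfsg.generalizedFittingSubgroup (Subgroup.centralizer ({z} : Set ↥J315)) = Q ∧ Cfsg.IsExtraspecial 2 Q ∧ Nat.card Q = 2 ^ 5 ∧ Nonempty ((Subgroup.centralizer ({z} : Set ↥J315)) ⧸ Q ≃* Cfsg.Omega (ZMod 2) (Cfsg.quadFormMinus 1 (ZMod 2) 1 1)) ∧ ∃ g : ↥J315, (∃ hq : g * z * g⁻¹ ∈ Subgroup.centralizer ({z} : Set ↥J315), (⟨g * z * g⁻¹, hq⟩ : Subgroup.centralizer ({z} : Set ↥J315)) ∈ Q) ∧ g * z * g⁻¹ ≠ z := by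
  classical
  refine ⟨not_comm_J315, z0, orderOf_z0, ?_⟩
  obtain ⟨θ, hθr, hθi, hθs⟩ := exists_theta
  -- the isomorphism with `CC`
  have hmemθ : ∀ c : C0, θ c ∈ CC := fun c => by rw [← hθr]; exact ⟨c, rfl⟩
  let ρ : C0 →* CC := θ.codRestrict CC hmemθ
  have hρ : Function.Bijective ρ := by
    constructor
    · intro a b hab
      exact hθi (congrArg Subtype.val hab)
    · rintro ⟨x, hx⟩
      rw [← hθr] at hx
      obtain ⟨c, rfl⟩ := hx
      exact ⟨c, rfl⟩
  let e : C0 ≃* CC := MulEquiv.ofBijective ρ hρ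
  have he : ∀ c, ((e c : CC) : Equiv.Perm (Fin 80)) = θ c := fun c => rfl
  have hcardC : Nat.card C0 = 1920 := by
    rw [Nat.card_congr e.toEquiv, card_CC]
  -- the map to `A₅`
  obtain ⟨ψ, hr, hs⟩ := exists_psi
  have hrange : ∀ x : CC, ψ x ∈ alternatingGroup (Fin 5) := fun x => by
    rw [← closure_eq_alt, ← hr]
    exact ⟨x, rfl⟩
  let ψ' : CC →* alternatingGroup (Fin 5) := ψ.codRestrict _ hrange
  have hψ' : Function.Surjective ψ' := by
    rintro ⟨y, hy⟩
    rw [← closure_eq_alt, ← hr] at hy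
    obtain ⟨x, rfl⟩ := hy
    exact ⟨x, rfl⟩
  let φ : C0 →* alternatingGroup (Fin 5) := ψ'.comp e.toMonoidHom
  have hφ : Function.Surjective φ := hψ'.comp e.surjective
  have hψq : ∀ i : Fin 32, ψ' ⟨qP i, qP_mem i⟩ = 1 := by
    intro i
    apply Subtype.ext
    show ψ ⟨qP i, qP_mem i⟩ = 1
    ext y
    obtain ⟨a, rfl⟩ := bl_surj y
    have h1 := hs ⟨qP i, qP_mem i⟩ a
    rw [← h1]
    exact congrArg _ (qP_bl i a)
  let f : Fin 32 → C0 := fun i => e.symm ⟨qP i, qP_mem i⟩
  have hef : ∀ i, e (f i) = ⟨qP i, qP_mem i⟩ := fun i => e.apply_symm_apply _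
  have hf : ∀ i, φ (f i) = 1 := by
    intro i
    show ψ' (e (f i)) = 1
    rw [hef, hψq]
  have hmul : ∀ i j, f i * f j = f (T i j) := by
    intro i j
    apply e.injective
    rw [map_mul, hef, hef, hef]
    exact Subtype.ext (qP_mul i j)
  have hone : f 0 = 1 := by
    apply e.injective
    rw [hef, map_one]
    exact Subtype.ext qP_one
  have hinj : Function.Injective f := by
    intro i j h
    have h1 := congrArg e h
    rw [hef, hef] at h1
    exact qP_inj (congrArg Subtype.val h1)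
  let c₁ : C0 := e.symm ⟨p1, Subgroup.subset_closure (Or.inl rfl)⟩
  have hec : e c₁ = ⟨p1, Subgroup.subset_closure (Or.inl rfl)⟩ := e.apply_symm_apply _
  have hw1 : c₁ * f 31 ≠ f 31 * c₁ := by
    intro h
    have h1 := congrArg (fun x => ((e x : CC) : Equiv.Perm (Fin 80))) h
    simp only [map_mul, hec, hef] at h1
    have h2 : (p1 * qP 31 : Equiv.Perm (Fin 80)) = qP 31 * p1 := h1
    have h3 := congrArg (fun p : Equiv.Perm (Fin 80) => ((p ⟨79, by norm_num⟩ : Fin 80) : ℕ)) h2
    simp only [Equiv.Perm.mul_apply] at h3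
    rw [permOf_apply Cfsg.Agent.Lib.Compute.J3.CentSmall.valid_e1, qP_apply' 31 (by norm_num), qP_apply' 31 (by norm_num),
      permOf_apply Cfsg.Agent.Lib.Compute.J3.CentSmall.valid_e1] at h3
    revert h3
    decide +kernel
  have hw2 : c₁ * f 31 ≠ f 1 * f 31 * c₁ := by
    intro h
    have h1 := congrArg (fun x => ((e x : CC) : Equiv.Perm (Fin 80))) h
    simp only [map_mul, hec, hef] at h1
    have h2 : (p1 * qP 31 : Equiv.Perm (Fin 80)) = qP 1 * qP 31 * p1 := h1
    have h3 := congrArg (fun p : Equiv.Perm (Fin 80) => ((p ⟨79, by norm_num⟩ : Fin 80) : ℕ)) h2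
    simp only [Equiv.Perm.mul_apply] at h3
    rw [permOf_apply Cfsg.Agent.Lib.Compute.J3.CentSmall.valid_e1, qP_apply' 31 (by norm_num), qP_apply' 1 (by norm_num),
      qP_apply' 31 (by norm_num), permOf_apply Cfsg.Agent.Lib.Compute.J3.CentSmall.valid_e1] at h3
    revert h3
    decide +kernel
  obtain ⟨hF, hE, hcardQ⟩ := core φ hφ f hf hmul hone hinj hcardC c₁ 31 hw1 hw2
  refine ⟨φ.ker, inferInstance, hF, hE, by rw [hcardQ]; norm_num, ?_, ?_⟩
  · obtain ⟨eo⟩ := Cfsg.Agent.Lib.HallJanko.omega_equiv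
    exact ⟨(QuotientGroup.quotientKerEquivOfSurjective φ hφ).trans eo.symm⟩
  · -- the conjugate
    let U : J315 := ⟨permOf 9 511 315 u0, u0_facts.2⟩
    let W : J315 := ⟨permOf 9 511 315 wE, mem_of_sift valid_w sift_w⟩
    let g : J315 := U * W⁻¹
    have hval : ∀ b : Fin 315, (((g * z0 * g⁻¹ : J315) : Equiv.Perm (Fin 315)) b : ℕ) = cv u0 b :=
      fun b => conj_val u0_facts.1 b
    have hq : g * z0 * g⁻¹ ∈ Subgroup.centralizer ({z0} : Set ↥J315) := by
      rw [Subgroup.mem_centralizer_singleton_iff]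
      apply Subtype.ext
      ext b
      have h1 := (allB_iff _ _).mp comm_u0 b b.2
      rw [Nat.beq_eq] at h1
      show (((g * z0 * g⁻¹ : J315) : Equiv.Perm (Fin 315)) (permOf 9 511 315 zE b) : ℕ) =
        (permOf 9 511 315 zE (((g * z0 * g⁻¹ : J315) : Equiv.Perm (Fin 315)) b) : ℕ)
      rw [hval, permOf_apply valid_z, permOf_apply valid_z, hval]
      exact h1
    have hθq : θ ⟨g * z0 * g⁻¹, hq⟩ = qP 3 := by
      ext y
      obtain ⟨i, hi⟩ := lab_surj y
      have h1 := hθs ⟨g * z0 * g⁻¹, hq⟩ i y hi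
      have h2 : labN i < 80 ∧ labN i = y := by
        unfold lab at hi
        split_ifs at hi with h1
        exact ⟨h1, congrArg Fin.val (Option.some.inj hi)⟩
      have h3 := (allB_iff _ _).mp lab_u0 i i.2
      have h4 : Nat.blt (labN i) 80 = true := by
        rw [Nat.blt_eq]
        exact h2.1
      rw [h4] at h3
      simp only [Bool.not_true, Bool.false_or, Bool.and_eq_true, Nat.beq_eq, Nat.blt_eq] at h3
      rw [h2.2] at h3
      have h5 : (((g * z0 * g⁻¹ : J315) : Equiv.Perm (Fin 315)) i : ℕ) = cv u0 i := hval i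
      have h6 : lab (((g * z0 * g⁻¹ : J315) : Equiv.Perm (Fin 315)) i) =
          some (⟨labN (cv u0 i), h3.2⟩ : Fin 80) := by
        unfold lab
        rw [h5, dif_pos h3.2]
      rw [show (((⟨g * z0 * g⁻¹, hq⟩ : C0)).1 : Equiv.Perm (Fin 315)) = ((g * z0 * g⁻¹ : J315) : Equiv.Perm (Fin 315))
        from rfl, h6] at h1
      have h7 := Option.some.inj h1
      rw [← h7, qP_apply' 3 (by norm_num)]
      exact h3.1
    refine ⟨g, ⟨hq, ?_⟩, ?_⟩
    · rw [MonoidHom.mem_ker]
      show ψ' (e ⟨g * z0 * g⁻¹, hq⟩) = 1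
      have h1 : e ⟨g * z0 * g⁻¹, hq⟩ = ⟨qP 3, qP_mem 3⟩ := Subtype.ext hθq
      rw [h1]
      exact hψq 3
    · intro h
      have h1 := hval ⟨0, by norm_num⟩
      rw [h] at h1
      have h2 := permOf_apply valid_z (⟨0, by norm_num⟩ : Fin 315)
      exact ne_u0 (h1.symm.trans h2)

end Cfsg.Agent.Lib.Sporadic.LeechJ2Side
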