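import Mathlib
import Cfsg.Agent.Lib.Sporadic.LeechMcT

/-!
# The runs of the action on 2025 vectors
-/

set_option autoImplicit false

namespace Cfsg.Agent.Lib.Sporadic.LeechMcT

open Cfsg Cfsg.Agent.Lib.Sporadic.GolayCore Cfsg.Agent.Lib.Sporadic.LeechBasic
  Cfsg.Agent.Lib.Sporadic.LeechNorm Cfsg.Agent.Lib.Sporadic.LeechFacts
  Cfsg.Agent.Lib.Sporadic.LeechAut Cfsg.Agent.Lib.Sporadic.LeechMat
  Cfsg.Agent.Lib.Sporadic.LeechOrb Cfsg.Agent.Lib.Sporadic.LeechShape
  Cfsg.Agent.Lib.Sporadic.LeechKey Cfsg.Agent.Lib.Sporadic.LeechMin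
  Cfsg.Agent.Lib.Sporadic.LeechA0 Cfsg.Agent.Lib.Sporadic.LeechEnum
  Cfsg.Agent.Lib.Sporadic.LeechTree
  Cfsg.Agent.Lib.Sporadic.M24Chain Cfsg.Agent.Lib.Sporadic.M24Tbl


theorem run_Z0 : runN (fun _ => true) mgens 2024 certZ0 [encL z0L] (BST.leaf.ins (encL z0L)) = true := by decide +kernel

theorem run_pm8 : runN (fun _ => true) mgens 2024 certpm8 [encL rpm8L] (BST.leaf.ins (encL rpm8L)) = true := by decide +kernel

theorem run_pm16 : runN (fun _ => true) mgens 274 certpm16 [encL rpm16L] (BST.leaf.ins (encL rpm16L)) = true := by decide +kernel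

theorem run_pp8 : runN (fun _ => true) mgens 274 certpp8 [encL rpp8L] (BST.leaf.ins (encL rpp8L)) = true := by decide +kernel

theorem run_z0 : runN (fun _ => true) zgens 329 certz0 [encL rz0L] (BST.leaf.ins (encL rz0L)) = true := by decide +kernel

theorem run_z16 : runN (fun _ => true) zgens 461 certz16 [encL rz16L] (BST.leaf.ins (encL rz16L)) = true := by decide +kernel

theorem run_z8 : runN (fun _ => true) zgens 1231 certz8 [encL rz8L] (BST.leaf.ins (encL rz8L)) = true := by decide +kernel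

end Cfsg.Agent.Lib.Sporadic.LeechMcT
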