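import Mathlib
import Cfsg.Agent.Lib.Sporadic.LeechMcTr
import Cfsg.Agent.Lib.Sporadic.LeechMcL
import Cfsg.Agent.S1573

/-!
# The rank four action of the stabiliser of two minimal vectors on 2025 vectors
-/

set_option autoImplicit false

namespace Cfsg.Agent.Lib.Sporadic.LeechMcT

open Cfsg Cfsg.Agent.Lib.Sporadic.GolayCore Cfsg.Agent.Lib.Sporadic.LeechBasic
  Cfsg.Agent.Lib.Sporadic.LeechNorm Cfsg.Agent.Lib.Sporadic.LeechFacts
  Cfsg.Agent.Lib.Sporadic.LeechAut Cfsg.Agent.Lib.Sporadic.LeechMat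
  Cfsg.Agent.Lib.Sporadic.LeechOrb Cfsg.Agent.Lib.Sporadic.LeechShape
  Cfsg.Agent.Lib.Sporadic.LeechKey Cfsg.Agent.Lib.Sporadic.LeechMin
  Cfsg.Agent.Lib.Sporadic.LeechA0 Cfsg.Agent.Lib.Sporadic.LeechEnum
  Cfsg.Agent.Lib.Sporadic.LeechTree
  Cfsg.Agent.Lib.Sporadic.M24Chain Cfsg.Agent.Lib.Sporadic.M24Tbl

theorem sqNorm_V0 : sqNorm (V0 : GolayPt → ℤ) = 32 := by
  show sqNorm (vecOf v0L) = 32
  rw [sqNorm_vecOf]
  decide +kernel

theorem sqNorm_W1 : sqNorm (W1 : GolayPt → ℤ) = 32 := by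
  show sqNorm (vecOf w1L) = 32
  rw [sqNorm_vecOf]
  decide +kernel

theorem dot_V0_W1 : dotInt (V0 : GolayPt → ℤ) (W1 : GolayPt → ℤ) = -8 := by
  show dotInt (vecOf v0L) (vecOf w1L) = -8
  rw [dotInt_vecOf]
  decide +kernel

theorem exists_frameM (v w : leechLattice) (hv : sqNorm (v : GolayPt → ℤ) = 32) (hw : sqNorm (w : GolayPt → ℤ) = 32)
    (hvw : dotInt (v : GolayPt → ℤ) (w : GolayPt → ℤ) = -8) : ∃ g : Co0, g • v = V0 ∧ g • w = W1 := by
  obtain ⟨g1, h1, h2⟩ := Cfsg.Agent.Lib.Sporadic.LeechMcL.exists_std_pair v w hv hw hvw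
  obtain ⟨g2, h3, h4⟩ := Cfsg.Agent.Lib.Sporadic.LeechMcL.exists_std_pair V0 W1 sqNorm_V0 sqNorm_W1 dot_V0_W1
  refine ⟨g2⁻¹ * g1, ?_, ?_⟩
  · rw [mul_smul, h1, ← h3, inv_smul_smul]
  · rw [mul_smul, h2, ← h4, inv_smul_smul]

theorem fixes_VW (c d : ℤ) : FixesC KM [(v0L, c), (w1L, d)] := by
  intro bt hbt
  simp only [List.mem_cons, List.not_mem_nil, or_false] at hbt
  rcases hbt with rfl | rfl
  · exact ⟨inLattice_sound v0L_ok, inf_le_left⟩
  · exact ⟨inLattice_sound w1L_ok, inf_le_right⟩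

theorem fixes_Z : FixesC KM condsZ := fixes_VW _ _

theorem mem_condsQ_Z (z : GolayPt → ℤ) :
    condsQ condsZ z ↔ dotInt (V0 : GolayPt → ℤ) z = 0 ∧ dotInt (W1 : GolayPt → ℤ) z = 16 := by
  simp only [condsQ, condsZ, List.mem_cons, List.not_mem_nil, or_false, forall_eq_or_imp, forall_eq]
  exact Iff.rfl

theorem hroot2 {b b' r : List ℤ} {c c' : ℤ} (h1 : dotLL b r = c) (h2 : dotLL b' r = c') :
    ∀ bt ∈ [(b, c), (b', c')], dotLL bt.1 r = bt.2 := by
  intro bt hbt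
  simp only [List.mem_cons, List.not_mem_nil, or_false] at hbt
  rcases hbt with rfl | rfl
  · exact h1
  · exact h2

theorem hroot3 {b b' b'' r : List ℤ} {c c' c'' : ℤ} (h1 : dotLL b r = c) (h2 : dotLL b' r = c') (h3 : dotLL b'' r = c'') :
    ∀ bt ∈ [(b, c), (b', c'), (b'', c'')], dotLL bt.1 r = bt.2 := by
  intro bt hbt
  simp only [List.mem_cons, List.not_mem_nil, or_false] at hbt
  rcases hbt with rfl | rfl | rfl
  · exact h1
  · exact h2
  · exact h3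

/-- The 4600 vectors. -/
theorem ncard_4600 : (setC [(w1L, 16)]).ncard = 4600 := by
  have h := (Cfsg.Agent.S1573.result (-vecOf w1L) (neg_mem (inLattice_sound w1L_ok)) (by
    rw [sqNorm_neg, sqNorm_vecOf]
    decide +kernel)).1
  rw [← h]
  congr 1
  ext w
  simp only [setC, condsQ, List.mem_singleton, forall_eq, Set.mem_ofPred_eq]
  have e : dotInt (-vecOf w1L) w = -dotInt (vecOf w1L) w := by
    rw [dotInt_comm, dotInt_neg_right, dotInt_comm]
  rw [e]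
  constructor
  · rintro ⟨h1, h2, h3⟩
    exact ⟨h1, h2, by omega⟩
  · rintro ⟨h1, h2, h3⟩
    exact ⟨h1, h2, by omega⟩

def partZ : PartD KM (setC [(w1L, 16)]) (dotInt (vecOf v0L)) :=
  mkPart (c0 := 0) m_genok (by decide +kernel) (inLattice_sound z0L_ok) (by decide +kernel) run_Z0 rfl
    (fixes_VW _ _) (hroot2 (by decide +kernel) (by decide +kernel))

def partM8 : PartD KM (setC [(w1L, 16)]) (dotInt (vecOf v0L)) :=
  mkPart (c0 := -8) m_genok (by decide +kernel) (inLattice_sound rpm8L_ok) (by decide +kernel) run_pm8 rfl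
    (fixes_VW _ _) (hroot2 (by decide +kernel) (by decide +kernel))

def partM16 : PartD KM (setC [(w1L, 16)]) (dotInt (vecOf v0L)) :=
  mkPart (c0 := -16) m_genok (by decide +kernel) (inLattice_sound rpm16L_ok) (by decide +kernel) run_pm16 rfl
    (fixes_VW _ _) (hroot2 (by decide +kernel) (by decide +kernel))

def partP8 : PartD KM (setC [(w1L, 16)]) (dotInt (vecOf v0L)) :=
  mkPart (c0 := 8) m_genok (by decide +kernel) (inLattice_sound rpp8L_ok) (by decide +kernel) run_pp8 rfl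
    (fixes_VW _ _) (hroot2 (by decide +kernel) (by decide +kernel))

theorem cover_Z (q : PartD KM (setC [(w1L, 16)]) (dotInt (vecOf v0L))) (hq : q ∈ [partZ, partM8, partM16, partP8]) :
    (∀ x ∈ setC [(w1L, 16)], dotInt (vecOf v0L) x = q.c → SameIn KM q.r x) ∧
      {x | x ∈ setC [(w1L, 16)] ∧ dotInt (vecOf v0L) x = q.c}.ncard = q.n :=
  parts_cover [partZ, partM8, partM16, partP8] (by decide +kernel) (by rw [ncard_4600]; rfl)
    (Set.finite_of_ncard_pos (by rw [ncard_4600]; norm_num)) q hq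

theorem ncard_setC_Z : (setC condsZ).ncard = 2025 := by
  rw [condsZ, setC_cons]
  exact (cover_Z partZ (by simp)).2

theorem trans_Z0 : ∀ x, x ∈ leechLattice → sqNorm x = 32 → condsQ condsZ x → SameIn KM (vecOf z0L) x := by
  intro x h1 h2 h3
  have hm := mem_setC_cons.1 (show x ∈ setC ((v0L, 0) :: [(w1L, 16)]) from ⟨h1, h2, h3⟩)
  exact (cover_Z partZ (by simp)).1 x hm.1 hm.2

theorem ncard_Z (v w : leechLattice) (hv : sqNorm (v : GolayPt → ℤ) = 32) (hw : sqNorm (w : GolayPt → ℤ) = 32)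
    (hvw : dotInt (v : GolayPt → ℤ) (w : GolayPt → ℤ) = -8) :
    {x : leechLattice | sqNorm (x : GolayPt → ℤ) = 32 ∧ dotInt (v : GolayPt → ℤ) (x : GolayPt → ℤ) = 0 ∧
      dotInt (w : GolayPt → ℤ) (x : GolayPt → ℤ) = 16}.ncard = 2025 := by
  obtain ⟨g, hg1, hg2⟩ := exists_frameM v w hv hw hvw
  rw [ncard_sub (fun x => sqNorm x = 32 ∧ dotInt (v : GolayPt → ℤ) x = 0 ∧ dotInt (w : GolayPt → ℤ) x = 16)]
  rw [← ncard_setC_Z]
  apply ncard_transport g 32 (fun x => dotInt (v : GolayPt → ℤ) x = 0 ∧ dotInt (w : GolayPt → ℤ) x = 16) (condsQ condsZ)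
  intro z
  rw [mem_condsQ_Z, ← hg1, ← hg2, co0_dotInt, co0_dotInt]

theorem mem_Z_frame {g : Co0} {v w : leechLattice} (hv : g • v = V0) (hw : g • w = W1) (z : leechLattice) :
    (dotInt (v : GolayPt → ℤ) (z : GolayPt → ℤ) = 0 ∧ dotInt (w : GolayPt → ℤ) (z : GolayPt → ℤ) = 16) ↔
      condsQ condsZ ((g • z : leechLattice) : GolayPt → ℤ) := by
  rw [mem_condsQ_Z, ← hv, ← hw, co0_dotInt, co0_dotInt]

theorem frame_fixM {g h : Co0} {v w : leechLattice} (hv : g • v = V0) (hw : g • w = W1) (hh : h ∈ KM) :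
    (g⁻¹ * h * g) • v = v ∧ (g⁻¹ * h * g) • w = w := by
  obtain ⟨h1, h2⟩ := Subgroup.mem_inf.1 hh
  have h1' : h • V0 = V0 := h1
  have h2' : h • W1 = W1 := h2
  constructor
  · rw [mul_smul, mul_smul, hv, h1', ← hv, inv_smul_smul]
  · rw [mul_smul, mul_smul, hw, h2', ← hw, inv_smul_smul]

theorem trans_Z (v w x x' : leechLattice) (hv : sqNorm (v : GolayPt → ℤ) = 32) (hw : sqNorm (w : GolayPt → ℤ) = 32)
    (hvw : dotInt (v : GolayPt → ℤ) (w : GolayPt → ℤ) = -8)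
    (hx : sqNorm (x : GolayPt → ℤ) = 32 ∧ dotInt (v : GolayPt → ℤ) (x : GolayPt → ℤ) = 0 ∧
      dotInt (w : GolayPt → ℤ) (x : GolayPt → ℤ) = 16)
    (hx' : sqNorm (x' : GolayPt → ℤ) = 32 ∧ dotInt (v : GolayPt → ℤ) (x' : GolayPt → ℤ) = 0 ∧
      dotInt (w : GolayPt → ℤ) (x' : GolayPt → ℤ) = 16) :
    ∃ g : Co0, g • v = v ∧ g • w = w ∧ g • x = x' := by
  obtain ⟨g, hg1, hg2⟩ := exists_frameM v w hv hw hvw
  obtain ⟨k, ⟨hk1, hk2⟩, hk3⟩ := trans_conj (P := fun z => sqNorm (z : GolayPt → ℤ) = 32 ∧ dotInt (v : GolayPt → ℤ) (z : GolayPt → ℤ) = 0 ∧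
      dotInt (w : GolayPt → ℤ) (z : GolayPt → ℤ) = 16)
    (Q := fun z => SameIn KM (vecOf z0L) (z : GolayPt → ℤ))
    (fix := fun k => k • v = v ∧ k • w = w) (fix' := fun h => h ∈ KM) g
    (fun h hh => frame_fixM hg1 hg2 hh)
    (fun z hz => trans_Z0 _ (g • z).2 ((co0_sqNorm g z).trans hz.1) ((mem_Z_frame hg1 hg2 z).1 hz.2))
    (fun a b ha hb => by
      obtain ⟨h, hh, e⟩ := exists_of_orbit ha hb
      exact ⟨h, hh, e⟩) x x' hx hx'
  exact ⟨k, hk1, hk2, hk3⟩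

theorem exists_frameZ (v w x : leechLattice) (hv : sqNorm (v : GolayPt → ℤ) = 32) (hw : sqNorm (w : GolayPt → ℤ) = 32)
    (hvw : dotInt (v : GolayPt → ℤ) (w : GolayPt → ℤ) = -8)
    (hx : sqNorm (x : GolayPt → ℤ) = 32 ∧ dotInt (v : GolayPt → ℤ) (x : GolayPt → ℤ) = 0 ∧
      dotInt (w : GolayPt → ℤ) (x : GolayPt → ℤ) = 16) :
    ∃ g : Co0, g • v = V0 ∧ g • w = W1 ∧ g • x = Z0 := by
  obtain ⟨g, hg1, hg2⟩ := exists_frameM v w hv hw hvw
  have h1 : SameIn KM (vecOf z0L) ((g • x : leechLattice) : GolayPt → ℤ) :=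
    trans_Z0 _ (g • x).2 ((co0_sqNorm g x).trans hx.1) ((mem_Z_frame hg1 hg2 x).1 hx.2)
  obtain ⟨h, hh, e⟩ := h1.symm.exists_smul' (g • x) Z0 rfl rfl
  obtain ⟨hh1, hh2⟩ := Subgroup.mem_inf.1 hh
  have hh1' : h • V0 = V0 := hh1
  have hh2' : h • W1 = W1 := hh2
  refine ⟨h * g, ?_, ?_, ?_⟩
  · rw [mul_smul, hg1, hh1']
  · rw [mul_smul, hg2, hh2']
  · rw [mul_smul, e]

/-- The set with inner product `c`. -/
def SetZ (v w x : leechLattice) (c : ℤ) : Set leechLattice :=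
  {y | sqNorm (y : GolayPt → ℤ) = 32 ∧ dotInt (v : GolayPt → ℤ) (y : GolayPt → ℤ) = 0 ∧
    dotInt (w : GolayPt → ℤ) (y : GolayPt → ℤ) = 16 ∧ dotInt (x : GolayPt → ℤ) (y : GolayPt → ℤ) = c}

theorem mem_frameZ {g : Co0} {v w x : leechLattice} (hv : g • v = V0) (hw : g • w = W1) (hx : g • x = Z0)
    (c : ℤ) (z : leechLattice) :
    (dotInt (v : GolayPt → ℤ) (z : GolayPt → ℤ) = 0 ∧ dotInt (w : GolayPt → ℤ) (z : GolayPt → ℤ) = 16 ∧
      dotInt (x : GolayPt → ℤ) (z : GolayPt → ℤ) = c) ↔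
      condsQ ((z0L, c) :: condsZ) ((g • z : leechLattice) : GolayPt → ℤ) := by
  have h1 : condsQ ((z0L, c) :: condsZ) ((g • z : leechLattice) : GolayPt → ℤ) ↔
      dotInt (Z0 : GolayPt → ℤ) ((g • z : leechLattice) : GolayPt → ℤ) = c ∧
        condsQ condsZ ((g • z : leechLattice) : GolayPt → ℤ) := by
    simp only [condsQ, List.mem_cons, forall_eq_or_imp]
    exact Iff.rfl
  rw [h1, ← mem_Z_frame hv hw z, ← hx, co0_dotInt]
  tauto

theorem ncard_SetZ {g : Co0} {v w x : leechLattice} (hv : g • v = V0) (hw : g • w = W1) (hx : g • x = Z0) (c : ℤ) :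
    (SetZ v w x c).ncard = (setC ((z0L, c) :: condsZ)).ncard := by
  unfold SetZ
  rw [ncard_sub (fun y => sqNorm y = 32 ∧ dotInt (v : GolayPt → ℤ) y = 0 ∧ dotInt (w : GolayPt → ℤ) y = 16 ∧
    dotInt (x : GolayPt → ℤ) y = c)]
  apply ncard_transport g 32 (fun y => dotInt (v : GolayPt → ℤ) y = 0 ∧ dotInt (w : GolayPt → ℤ) y = 16 ∧
    dotInt (x : GolayPt → ℤ) y = c) _
  intro z
  exact mem_frameZ hv hw hx c z

theorem fixes_Z1 (c : ℤ) : FixesC KZ0 ((z0L, c) :: condsZ) := by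
  intro bt hbt
  rcases List.mem_cons.1 hbt with rfl | hbt
  · exact ⟨inLattice_sound z0L_ok, inf_le_right⟩
  · obtain ⟨hb, hle⟩ := fixes_Z bt hbt
    exact ⟨hb, inf_le_left.trans hle⟩

theorem orbit_SetZ {g : Co0} {v w x : leechLattice} (hv : g • v = V0) (hw : g • w = W1) (hx : g • x = Z0)
    {r : List ℤ} (hr : vecOf r ∈ leechLattice) (c : ℤ)
    (H : ∀ z, z ∈ leechLattice → sqNorm z = 32 → condsQ ((z0L, c) :: condsZ) z → SameIn KZ0 (vecOf r) z)
    (hn : sqNorm (vecOf r) = 32) (hd : condsQ ((z0L, c) :: condsZ) (vecOf r)) :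
    g⁻¹ • (⟨vecOf r, hr⟩ : leechLattice) ∈ SetZ v w x c ∧
      MulAction.orbit ↥(MulAction.stabilizer Co0 v ⊓ MulAction.stabilizer Co0 w ⊓ MulAction.stabilizer Co0 x)
        (g⁻¹ • (⟨vecOf r, hr⟩ : leechLattice)) = SetZ v w x c := by
  set R : leechLattice := ⟨vecOf r, hr⟩ with hR
  have hy : g⁻¹ • R ∈ SetZ v w x c := by
    have h1 := (mem_frameZ hv hw hx c (g⁻¹ • R)).2 (by
      rw [smul_inv_smul]
      exact hd)
    refine ⟨?_, h1.1, h1.2.1, h1.2.2⟩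
    rw [co0_sqNorm]
    exact hn
  refine ⟨hy, ?_⟩
  apply orbit_eq_set hy
  · rintro k hk z ⟨h1, h2, h3, h4⟩
    obtain ⟨hk0, hk3⟩ := Subgroup.mem_inf.1 hk
    obtain ⟨hk1, hk2⟩ := Subgroup.mem_inf.1 hk0
    have hk1' : k • v = v := hk1
    have hk2' : k • w = w := hk2
    have hk3' : k • x = x := hk3
    refine ⟨?_, ?_, ?_, ?_⟩
    · rw [co0_sqNorm]
      exact h1
    · rw [← hk1', co0_dotInt]
      exact h2
    · rw [← hk2', co0_dotInt]
      exact h3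
    · rw [← hk3', co0_dotInt]
      exact h4
  · rintro z ⟨h1, h2, h3, h4⟩
    have h5 : SameIn KZ0 (vecOf r) ((g • z : leechLattice) : GolayPt → ℤ) :=
      H _ (g • z).2 ((co0_sqNorm g z).trans h1) ((mem_frameZ hv hw hx c z).1 ⟨h2, h3, h4⟩)
    obtain ⟨h, hh, e⟩ := h5.exists_smul' R (g • z) rfl rfl
    obtain ⟨hh0, hh3⟩ := Subgroup.mem_inf.1 hh
    obtain ⟨hh1, hh2⟩ := Subgroup.mem_inf.1 hh0
    have hh1' : h • V0 = V0 := hh1
    have hh2' : h • W1 = W1 := hh2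
    have hh3' : h • Z0 = Z0 := hh3
    refine ⟨g⁻¹ * h * g, ?_, ?_⟩
    · refine Subgroup.mem_inf.2 ⟨Subgroup.mem_inf.2 ⟨?_, ?_⟩, ?_⟩
      · show (g⁻¹ * h * g) • v = v
        rw [mul_smul, mul_smul, hv, hh1', ← hv, inv_smul_smul]
      · show (g⁻¹ * h * g) • w = w
        rw [mul_smul, mul_smul, hw, hh2', ← hw, inv_smul_smul]
      · show (g⁻¹ * h * g) • x = x
        rw [mul_smul, mul_smul, hx, hh3', ← hx, inv_smul_smul]
    · rw [mul_smul, mul_smul, smul_inv_smul, e, inv_smul_smul]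

def part1 : PartD KZ0 (setC condsZ) (dotInt (vecOf z0L)) :=
  mkPart (fuel := 0) (cert := 0) (c0 := 32) (p := fun _ => true) z_genok (by decide +kernel) (inLattice_sound z0L_ok) (by decide +kernel) rfl rfl
    (fixes_Z1 _) (hroot3 (by decide +kernel) (by decide +kernel) (by decide +kernel))

def part330 : PartD KZ0 (setC condsZ) (dotInt (vecOf z0L)) :=
  mkPart (c0 := 0) z_genok (by decide +kernel) (inLattice_sound rz0L_ok) (by decide +kernel) run_z0 rfl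
    (fixes_Z1 _) (hroot3 (by decide +kernel) (by decide +kernel) (by decide +kernel))

def part462 : PartD KZ0 (setC condsZ) (dotInt (vecOf z0L)) :=
  mkPart (c0 := 16) z_genok (by decide +kernel) (inLattice_sound rz16L_ok) (by decide +kernel) run_z16 rfl
    (fixes_Z1 _) (hroot3 (by decide +kernel) (by decide +kernel) (by decide +kernel))

def part1232 : PartD KZ0 (setC condsZ) (dotInt (vecOf z0L)) :=
  mkPart (c0 := 8) z_genok (by decide +kernel) (inLattice_sound rz8L_ok) (by decide +kernel) run_z8 rfl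
    (fixes_Z1 _) (hroot3 (by decide +kernel) (by decide +kernel) (by decide +kernel))

theorem cover_R (q : PartD KZ0 (setC condsZ) (dotInt (vecOf z0L))) (hq : q ∈ [part1, part330, part462, part1232]) :
    (∀ x ∈ setC condsZ, dotInt (vecOf z0L) x = q.c → SameIn KZ0 q.r x) ∧
      {x | x ∈ setC condsZ ∧ dotInt (vecOf z0L) x = q.c}.ncard = q.n :=
  parts_cover [part1, part330, part462, part1232] (by decide +kernel) (by rw [ncard_setC_Z]; rfl)
    (Set.finite_of_ncard_pos (by rw [ncard_setC_Z]; norm_num)) q hq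

theorem orbit_partR {c : ℤ} {r : List ℤ} {q : PartD KZ0 (setC condsZ) (dotInt (vecOf z0L))}
    (hq : q ∈ [part1, part330, part462, part1232]) (h1 : q.r = vecOf r) (h2 : q.c = c) :
    ∀ z, z ∈ leechLattice → sqNorm z = 32 → condsQ ((z0L, c) :: condsZ) z → SameIn KZ0 (vecOf r) z := by
  intro z hz1 hz2 hz3
  have hm := mem_setC_cons.1 (show z ∈ setC ((z0L, c) :: condsZ) from ⟨hz1, hz2, hz3⟩)
  have := (cover_R q hq).1 z hm.1 (by rw [hm.2, h2])
  rwa [h1] at this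

theorem ncard_partR {c : ℤ} {n : ℕ} {q : PartD KZ0 (setC condsZ) (dotInt (vecOf z0L))}
    (hq : q ∈ [part1, part330, part462, part1232]) (h2 : q.c = c) (h3 : q.n = n) :
    (setC ((z0L, c) :: condsZ)).ncard = n := by
  rw [setC_cons, ← h2, ← h3]
  exact (cover_R q hq).2

theorem rmem_condR {r : List ℤ} {c : ℤ} (h1 : dotLL z0L r = c) (h2 : dotLL v0L r = 0) (h3 : dotLL w1L r = 16) :
    condsQ ((z0L, c) :: condsZ) (vecOf r) := by
  intro bt hbt
  simp only [condsZ, List.mem_cons, List.not_mem_nil, or_false] at hbt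
  rcases hbt with rfl | rfl | rfl
  · rw [dotInt_vecOf]
    exact h1
  · rw [dotInt_vecOf]
    exact h2
  · rw [dotInt_vecOf]
    exact h3

theorem rank4 (v w : leechLattice) (hv : sqNorm (v : GolayPt → ℤ) = 32) (hw : sqNorm (w : GolayPt → ℤ) = 32)
    (hvw : dotInt (v : GolayPt → ℤ) (w : GolayPt → ℤ) = -8) :
    ∀ x ∈ {x : leechLattice | sqNorm (x : GolayPt → ℤ) = 32 ∧ dotInt (v : GolayPt → ℤ) (x : GolayPt → ℤ) = 0 ∧
      dotInt (w : GolayPt → ℤ) (x : GolayPt → ℤ) = 16},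
    ∃ y₁ ∈ {x : leechLattice | sqNorm (x : GolayPt → ℤ) = 32 ∧ dotInt (v : GolayPt → ℤ) (x : GolayPt → ℤ) = 0 ∧
      dotInt (w : GolayPt → ℤ) (x : GolayPt → ℤ) = 16},
    ∃ y₂ ∈ {x : leechLattice | sqNorm (x : GolayPt → ℤ) = 32 ∧ dotInt (v : GolayPt → ℤ) (x : GolayPt → ℤ) = 0 ∧
      dotInt (w : GolayPt → ℤ) (x : GolayPt → ℤ) = 16},
    ∃ y₃ ∈ {x : leechLattice | sqNorm (x : GolayPt → ℤ) = 32 ∧ dotInt (v : GolayPt → ℤ) (x : GolayPt → ℤ) = 0 ∧
      dotInt (w : GolayPt → ℤ) (x : GolayPt → ℤ) = 16},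
      (MulAction.orbit ↥(MulAction.stabilizer Co0 v ⊓ MulAction.stabilizer Co0 w ⊓ MulAction.stabilizer Co0 x) y₁).ncard = 330 ∧
      (MulAction.orbit ↥(MulAction.stabilizer Co0 v ⊓ MulAction.stabilizer Co0 w ⊓ MulAction.stabilizer Co0 x) y₂).ncard = 462 ∧
      (MulAction.orbit ↥(MulAction.stabilizer Co0 v ⊓ MulAction.stabilizer Co0 w ⊓ MulAction.stabilizer Co0 x) y₃).ncard = 1232 := by
  intro x hx
  obtain ⟨g, hg1, hg2, hg3⟩ := exists_frameZ v w x hv hw hvw hx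
  have hS : ∀ y c, y ∈ SetZ v w x c → sqNorm (y : GolayPt → ℤ) = 32 ∧ dotInt (v : GolayPt → ℤ) (y : GolayPt → ℤ) = 0 ∧
      dotInt (w : GolayPt → ℤ) (y : GolayPt → ℤ) = 16 :=
    fun y c hy => ⟨hy.1, hy.2.1, hy.2.2.1⟩
  obtain ⟨ha1, ha2⟩ := orbit_SetZ hg1 hg2 hg3 (inLattice_sound rz0L_ok) 0 (orbit_partR (q := part330) (by simp) rfl rfl)
    (by rw [sqNorm_vecOf]; decide +kernel) (rmem_condR (by decide +kernel) (by decide +kernel) (by decide +kernel))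
  obtain ⟨hb1, hb2⟩ := orbit_SetZ hg1 hg2 hg3 (inLattice_sound rz16L_ok) 16 (orbit_partR (q := part462) (by simp) rfl rfl)
    (by rw [sqNorm_vecOf]; decide +kernel) (rmem_condR (by decide +kernel) (by decide +kernel) (by decide +kernel))
  obtain ⟨hc1, hc2⟩ := orbit_SetZ hg1 hg2 hg3 (inLattice_sound rz8L_ok) 8 (orbit_partR (q := part1232) (by simp) rfl rfl)
    (by rw [sqNorm_vecOf]; decide +kernel) (rmem_condR (by decide +kernel) (by decide +kernel) (by decide +kernel))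
  refine ⟨_, hS _ _ ha1, _, hS _ _ hb1, _, hS _ _ hc1, ?_, ?_, ?_⟩
  · rw [ha2, ncard_SetZ hg1 hg2 hg3]
    exact ncard_partR (q := part330) (by simp) rfl rfl
  · rw [hb2, ncard_SetZ hg1 hg2 hg3]
    exact ncard_partR (q := part462) (by simp) rfl rfl
  · rw [hc2, ncard_SetZ hg1 hg2 hg3]
    exact ncard_partR (q := part1232) (by simp) rfl rfl

end Cfsg.Agent.Lib.Sporadic.LeechMcT
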