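import Mathlib
import Cfsg.Agent.Lib.Sporadic.LeechSevenData
import Cfsg.Agent.Lib.Sporadic.LeechA0
import Cfsg.Agent.Lib.Sporadic.MonsterPlus

/-!
# An element of order seven in the automorphism group of the lattice: fixed classes
-/

set_option autoImplicit false

namespace Cfsg.Agent.Lib.Sporadic.LeechSeven

open Subgroup Cfsg Cfsg.Agent.Lib.Sporadic.GolayCore
  Cfsg.Agent.Lib.Sporadic.LeechNorm Cfsg.Agent.Lib.Sporadic.LeechFacts
  Cfsg.Agent.Lib.Sporadic.LeechAut Cfsg.Agent.Lib.Sporadic.LeechClasses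
  Cfsg.Agent.Lib.Sporadic.LeechAct Cfsg.Agent.Lib.Sporadic.LeechMod2
  Cfsg.Agent.Lib.Sporadic.LeechLocal Cfsg.Agent.Lib.Sporadic.LeechOrbits
  Cfsg.Agent.Lib.Sporadic.LeechMat Cfsg.Agent.Lib.Sporadic.LeechKey
  Cfsg.Agent.Lib.Sporadic.LeechMonomial
  Cfsg.Agent.Lib.Sporadic.MonsterModel

open Cfsg.Agent.Lib.Sporadic.M24N7 (s7 s7_mem s7L toL_s7 s7_pow7)

local notation "toLL" => Cfsg.Agent.Lib.Compute.M24.toL

/-! ### Actions on lists -/

theorem toL_getD (σ : Equiv.Perm GolayPt) (j : GolayPt) : (toLL σ).getD (idx j) 0 = idx (σ j) := by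
  have h := idx_lt j
  have hlen : (toLL σ).length = 24 := by simp [Cfsg.Agent.Lib.Compute.M24.toL]
  rw [List.getD_eq_getElem _ _ (by rw [hlen]; exact h)]
  simp only [Cfsg.Agent.Lib.Compute.M24.toL, List.getElem_map, List.getElem_range]
  have e1 : ∀ p : GolayPt, Cfsg.Agent.Lib.Compute.Golay.idxPt (idx p) = p := by decide
  have e2 : ∀ p : GolayPt, Cfsg.Agent.Lib.Compute.Golay.ptIdx p = idx p := by decide
  rw [e1, e2]

theorem acts_of_toL {σ : Equiv.Perm GolayPt} (hσ : σ ∈ M24) {Ti : List ℕ}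
    (hTi : (List.range 24).all (fun i => Ti.getD ((toLL σ).getD i 0) 0 == i) = true) :
    Acts (permCo0 σ hσ) (permL Ti) := by
  intro l hl
  show permV σ (vecOf l) = _
  funext p
  simp only [permV, vecOf, permL]
  rw [show (rangeL fun j => l.getD (Ti.getD j 0) 0).getD (idx p) 0 = vecOf (rangeL fun j => l.getD (Ti.getD j 0) 0) p from rfl,
    vecOf_rangeL]
  set j := σ.symm p with hj
  have h3 : σ j = p := by simp [hj]
  have h1 := List.all_eq_true.1 hTi _ (List.mem_range.2 (idx_lt j))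
  rw [beq_iff_eq, toL_getD, h3] at h1
  rw [h1]

/-- The element `c0`. -/
noncomputable def c0 : Co0 := permCo0 s7 s7_mem

theorem acts_c0 : Acts c0 (permL s7Li) :=
  acts_of_toL s7_mem (by rw [toL_s7]; decide +kernel)

theorem u8_eq (i : GolayPt) : (u8 i : V) = vecOf (unitL (idx i)) := by
  funext p
  rw [coe_u8]
  unfold unitL
  rw [vecOf_rangeL]
  by_cases h : p = i
  · subst h
    simp
  · rw [Pi.single_eq_of_ne h, if_neg (fun h' => h (idx_injective h'))]

theorem unitL_mem (i : GolayPt) : vecOf (unitL (idx i)) ∈ leechLattice := by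
  rw [← u8_eq]
  exact (u8 i).2

theorem ext_of_acts {g h : Co0} {f f' : List ℤ → List ℤ} (hg : Acts g f) (hh : Acts h f')
    (chk : ∀ i ∈ List.range 24, f (unitL i) = f' (unitL i)) : g = h := by
  apply co0_ext_u8
  intro i
  have e : u8 i = ⟨vecOf (unitL (idx i)), unitL_mem i⟩ := Subtype.ext (u8_eq i)
  rw [e]
  apply Subtype.ext
  rw [hg _ (unitL_mem i), hh _ (unitL_mem i), chk _ (List.mem_range.2 (idx_lt i))]

theorem acts_one : Acts (1 : Co0) (fun l => l) := by
  intro l hl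
  simp

theorem monom_c0 : Monom c0 s7 := monom_perm ⟨s7, s7_mem⟩

theorem c0_pow_eq (k : ℕ) : c0 ^ k = permCo0 (s7 ^ k) (pow_mem s7_mem k) := by
  induction k with
  | zero =>
    apply co0_ext_u8
    intro i
    apply Subtype.ext
    rw [pow_zero, one_smul, coe_permCo0_smul]
    funext p
    simp only [permV, pow_zero]
    rfl
  | succ k ih =>
    rw [pow_succ, ih]
    have := permCo0_mul ⟨s7 ^ k, pow_mem s7_mem k⟩ ⟨s7, s7_mem⟩
    exact this.symm.trans (by congr 1; exact (pow_succ s7 k).symm)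

theorem c0_pow7 : c0 ^ 7 = 1 := by
  rw [c0_pow_eq]
  apply co0_ext_u8
  intro i
  apply Subtype.ext
  rw [one_smul, coe_permCo0_smul]
  funext p
  simp only [permV, s7_pow7]
  rfl

/-! ### The pairing -/

/-- The pairing on lattice vectors. -/
noncomputable def prL (w : leechLattice) : leechLattice →+ ZMod 2 where
  toFun v := ((dotInt (v : V) (w : V) / 8 : ℤ) : ZMod 2)
  map_zero' := by simp [dotInt]
  map_add' := by
    intro a b
    obtain ⟨x, hx⟩ := eight_dvd_dot a.2 w.2
    obtain ⟨y, hy⟩ := eight_dvd_dot b.2 w.2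
    have e : (((a + b : leechLattice) : V)) = (a : V) + (b : V) := rfl
    rw [e, dotInt_add_left, hx, hy, ← mul_add, Int.mul_ediv_cancel_left _ (by norm_num),
      Int.mul_ediv_cancel_left _ (by norm_num), Int.mul_ediv_cancel_left _ (by norm_num)]
    push_cast
    rfl

/-- The pairing on classes. -/
noncomputable def pr (w : leechLattice) : Q →+ ZMod 2 :=
  QuotientAddGroup.lift _ (prL w) (by
    intro x hx
    rw [AddSubgroup.mem_addSubgroupOf, mem_twoL] at hx
    obtain ⟨z, hz, e⟩ := hx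
    rw [AddMonoidHom.mem_ker]
    show ((dotInt (x : V) (w : V) / 8 : ℤ) : ZMod 2) = 0
    obtain ⟨y, hy⟩ := eight_dvd_dot hz w.2
    have e1 : (x : V) = z + z := by rw [e, two_nsmul]
    rw [e1, dotInt_add_left, hy, ← mul_add, Int.mul_ediv_cancel_left _ (by norm_num)]
    have : (y + y : ℤ) = 2 * y := by ring
    rw [this]
    push_cast
    have h2 : (2 : ZMod 2) = 0 := rfl
    rw [h2, zero_mul])

theorem pr_cl (w v : leechLattice) : pr w (cl v) = ((dotInt (v : V) (w : V) / 8 : ℤ) : ZMod 2) := rfl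

theorem dotInt_vecOf (a b : List ℤ) : dotInt (vecOf a) (vecOf b) = dotL a b :=
  sum_golayPt (fun i => a.getD i 0 * b.getD i 0)

theorem pr_vec {a b : List ℤ} (ha : vecOf a ∈ leechLattice) (hb : vecOf b ∈ leechLattice) :
    pr ⟨vecOf b, hb⟩ (cl ⟨vecOf a, ha⟩) = ((dotL a b / 8 : ℤ) : ZMod 2) := by
  rw [pr_cl]
  show ((dotInt (vecOf a) (vecOf b) / 8 : ℤ) : ZMod 2) = _
  rw [dotInt_vecOf]

theorem cl_of_congL {a b : List ℤ} (ha : vecOf a ∈ leechLattice) (hb : vecOf b ∈ leechLattice)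
    (h : congL a b = true) : cl ⟨vecOf a, ha⟩ = cl ⟨vecOf b, hb⟩ := by
  simp only [congL, Bool.and_eq_true, List.all_eq_true, List.mem_range, decide_eq_true_eq] at h
  rw [cl_eq_iff]
  refine ⟨_, inLattice_sound h.2, ?_⟩
  funext p
  simp only [Pi.sub_apply, Pi.smul_apply]
  rw [vecOf_rangeL]
  have h1 := h.1 _ (idx_lt p)
  simp only [vecOf, nsmul_eq_mul]
  push_cast
  omega

theorem cl_neg' (v : leechLattice) : cl (-v) = cl v := by
  rw [cl_eq_iff]
  refine ⟨-(v : V), (leechLattice.neg_mem v.2), ?_⟩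
  funext p
  simp only [AddSubgroup.coe_neg, Pi.sub_apply, Pi.neg_apply, Pi.smul_apply, nsmul_eq_mul]
  push_cast
  ring

/-! ### The functionals -/

noncomputable def gv (i : Fin 18) : leechLattice := ⟨vecOf (gF.getD i []), inLattice_sound (gF_ok i)⟩

noncomputable def tv (i : Fin 18) : leechLattice := ⟨vecOf (tF.getD i []), inLattice_sound (tF_ok i)⟩

noncomputable def RLv (i : Fin 64) : leechLattice := ⟨vecOf (RL.getD i []), inLattice_sound (RL_ok i)⟩

noncomputable def O1v (i : Fin 7) : leechLattice := ⟨vecOf (O1L.getD i []), inLattice_sound (O1L_ok i)⟩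

noncomputable def O2v (i : Fin 7) : leechLattice := ⟨vecOf (O2L.getD i []), inLattice_sound (O2L_ok i)⟩

theorem c0_gv (i : Fin 18) : c0 • gv i = ⟨vecOf (permL s7Li (gF.getD i [])), acts_c0.mem (inLattice_sound (gF_ok i))⟩ :=
  acts_c0.smul _ _

/-- The map whose kernel contains the fixed classes. -/
noncomputable def Fn : Q →+ (Fin 18 → ZMod 2) :=
  AddMonoidHom.mk' (fun x i => pr (gv i) x - pr (c0 • gv i) x) (by
    intro x y
    funext i
    simp only [map_add, Pi.add_apply]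
    abel)

theorem cast_mod2 (x : ℤ) : ((x % 2 : ℤ) : ZMod 2) = (x : ZMod 2) := by
  have := ZMod.intCast_mod x 2
  simpa using this

theorem Fn_apply {a : List ℤ} (ha : vecOf a ∈ leechLattice) (i : Fin 18) :
    Fn (cl ⟨vecOf a, ha⟩) i = ((fVal i a : ℤ) : ZMod 2) := by
  show pr (gv i) _ - pr (c0 • gv i) _ = _
  rw [c0_gv, gv, pr_vec, pr_vec, fVal, cast_mod2]
  push_cast
  rfl

theorem Fn_tv (i j : Fin 18) : Fn (cl (tv j)) i = if i = j then 1 else 0 := by
  rw [tv, Fn_apply, tF_dual]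
  split_ifs <;> simp

theorem Fn_surj : Function.Surjective Fn := by
  intro a
  refine ⟨∑ j, (a j).val • cl (tv j), ?_⟩
  funext i
  rw [map_sum, Finset.sum_apply]
  simp only [map_nsmul, Pi.smul_apply, Fn_tv, nsmul_eq_mul]
  rw [Finset.sum_eq_single i]
  · simp
  · intro b _ hb
    simp [Ne.symm hb]
  · simp

theorem card_ker_Fn : Nat.card Fn.ker = 64 := by
  have h1 := AddSubgroup.card_mul_index Fn.ker
  rw [AddSubgroup.index_ker, AddMonoidHom.range_eq_top.2 Fn_surj, AddSubgroup.card_top, card_Q] at h1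
  have h2 : Nat.card (Fin 18 → ZMod 2) = 2 ^ 18 := by
    rw [Nat.card_eq_fintype_card]
    simp [ZMod.card]
  rw [h2] at h1
  have h3 : (2 : ℕ) ^ 24 = 64 * 2 ^ 18 := by norm_num
  rw [h3] at h1
  exact Nat.eq_of_mul_eq_mul_right (by positivity) h1

theorem RLv_mem (i : Fin 64) : cl (RLv i) ∈ Fn.ker := by
  rw [AddMonoidHom.mem_ker]
  funext j
  rw [RLv, Fn_apply, RL_ker]
  simp

theorem keyL_congr {a b : List ℤ} (ha : vecOf a ∈ leechLattice) (hb : vecOf b ∈ leechLattice)
    (h : cl ⟨vecOf a, ha⟩ = cl ⟨vecOf b, hb⟩) (hs : ∀ s ∈ O1L.take 3 ++ O2L.take 3, vecOf s ∈ leechLattice) :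
    keyL a = keyL b := by
  unfold keyL
  apply List.map_congr_left
  intro s hsm
  have hsL := hs s hsm
  have h1 := cl_dot h ⟨vecOf s, hsL⟩
  have e1 : dotInt (vecOf a) (vecOf s) = dotL a s := dotInt_vecOf a s
  have e2 : dotInt (vecOf b) (vecOf s) = dotL b s := dotInt_vecOf b s
  have h2 := eight_dvd_dot ha hsL
  have h3 := eight_dvd_dot hb hsL
  simp only at h1
  rw [e1, e2] at h1
  rw [e1] at h2
  rw [e2] at h3
  omega

theorem sep_ok : ∀ s ∈ O1L.take 3 ++ O2L.take 3, inLattice s = true := by decide +kernel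

theorem RLv_inj {i j : Fin 64} (h : cl (RLv i) = cl (RLv j)) : i = j := by
  have h1 := keyL_congr _ _ h (fun s hs => inLattice_sound (sep_ok s hs))
  have hlen : (RL.map keyL).length = 64 := by rw [List.length_map, RL_length]
  have hi : i.val < RL.length := by rw [RL_length]; exact i.2
  have hj : j.val < RL.length := by rw [RL_length]; exact j.2
  rw [List.getD_eq_getElem _ _ hi, List.getD_eq_getElem _ _ hj] at h1
  have h2 : (RL.map keyL)[i.val]'(by rw [hlen]; exact i.2) = (RL.map keyL)[j.val]'(by rw [hlen]; exact j.2) := by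
    simpa using h1
  exact Fin.ext ((RL_keys.getElem_inj_iff).1 h2)

theorem fix_mem_ker (v : leechLattice) (hv : cl (c0 • v) = cl v) : cl v ∈ Fn.ker := by
  rw [AddMonoidHom.mem_ker]
  funext i
  show pr (gv i) _ - pr (c0 • gv i) _ = 0
  rw [pr_cl, pr_cl]
  have h1 := cl_dot hv (c0 • gv i)
  rw [Cfsg.Agent.Lib.Sporadic.LeechA0.co0_dotInt] at h1
  obtain ⟨x, hx⟩ := eight_dvd_dot v.2 (gv i).2
  obtain ⟨y, hy⟩ := eight_dvd_dot v.2 (c0 • gv i).2
  rw [hx, hy] at h1 ⊢
  rw [Int.mul_ediv_cancel_left _ (by norm_num), Int.mul_ediv_cancel_left _ (by norm_num)]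
  rw [← Int.cast_sub, ZMod.intCast_zmod_eq_zero_iff_dvd]
  push_cast
  omega

/-- The classes fixed by `c0`. -/
theorem fix_cases (v : leechLattice) (hv : cl (c0 • v) = cl v) : ∃ i, cl v = cl (RLv i) := by
  let f : Fin 64 → Fn.ker := fun i => ⟨cl (RLv i), RLv_mem i⟩
  have hf : Function.Injective f := fun i j h => RLv_inj (congrArg Subtype.val h)
  have hb := (Function.Injective.bijective_of_nat_card_le hf (by
    rw [card_ker_Fn, Nat.card_eq_fintype_card]; simp))
  obtain ⟨i, hi⟩ := hb.2 ⟨cl v, fix_mem_ker v hv⟩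
  exact ⟨i, (congrArg Subtype.val hi).symm⟩

theorem RLv_fix (i : Fin 64) : cl (c0 • RLv i) = cl (RLv i) := by
  rw [RLv, acts_c0.smul (inLattice_sound (RL_ok i)) (acts_c0.mem (inLattice_sound (RL_ok i)))]
  exact cl_of_congL _ _ (RL_fix i)

/-! ### The classes of type four -/

theorem RL_O1 : ∀ i : Fin 64, 50 ≤ i.val → i.val < 57 → RL.getD i [] = O1L.getD (i.val - 50) [] := by decide +kernel

theorem RL_O2 : ∀ i : Fin 64, 57 ≤ i.val → RL.getD i [] = O2L.getD (i.val - 57) [] := by decide +kernel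

theorem t4_cases (v : leechLattice) (hv : cl (c0 • v) = cl v) (hn : sqNorm (v : V) = 64) :
    (∃ i, cl v = cl (O1v i)) ∨ (∃ i, cl v = cl (O2v i)) := by
  obtain ⟨i, hi⟩ := fix_cases v hv
  have hnorm : sqNorm (RLv i : V) = normL (RL.getD i []) := sqNorm_vecOf _
  by_cases h50 : i.val < 50
  · exfalso
    have h1 := RL_low i h50
    rw [← hnorm] at h1
    have hne : v ≠ RLv i := by
      rintro rfl
      omega
    rcases short_cong v (RLv i) hne (by omega) (by omega) hi with h2 | h2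
    · rw [h2] at hn
      simp only [NegMemClass.coe_neg, sqNorm_neg] at hn
      omega
    · omega
  · by_cases h57 : i.val < 57
    · left
      have e := RL_O1 i (by omega) h57
      refine ⟨⟨i.val - 50, by omega⟩, ?_⟩
      rw [hi]
      congr 1
      apply Subtype.ext
      show vecOf (RL.getD i []) = vecOf (O1L.getD (i.val - 50) [])
      rw [e]
    · right
      have e := RL_O2 i (by omega)
      refine ⟨⟨i.val - 57, by omega⟩, ?_⟩
      rw [hi]
      congr 1
      apply Subtype.ext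
      show vecOf (RL.getD i []) = vecOf (O2L.getD (i.val - 57) [])
      rw [e]

end Cfsg.Agent.Lib.Sporadic.LeechSeven
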