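import Mathlib
import Cfsg.Agent.Lib.Sporadic.LeechTree2
import Cfsg.Agent.Lib.Sporadic.SimpleAct

/-!
# Simplicity of subgroups of the automorphism group of the lattice from their actions on minimal vectors
-/

set_option autoImplicit false

namespace Cfsg.Agent.Lib.Sporadic.LeechSimple

open Cfsg Cfsg.Agent.Lib.Sporadic.GolayCore Cfsg.Agent.Lib.Sporadic.LeechBasic
  Cfsg.Agent.Lib.Sporadic.LeechNorm Cfsg.Agent.Lib.Sporadic.LeechFacts
  Cfsg.Agent.Lib.Sporadic.LeechAut Cfsg.Agent.Lib.Sporadic.LeechMat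
  Cfsg.Agent.Lib.Sporadic.LeechA0 Cfsg.Agent.Lib.Sporadic.LeechTree
open MulAction Cfsg.Agent.Lib.Sporadic.SimpleAct

/-- The action of a subgroup on an invariant set. -/
def subAct (A : Subgroup Co0) (S : Set leechLattice) (hS : ∀ k ∈ A, ∀ z ∈ S, k • z ∈ S) :
    SubMulAction A leechLattice where
  carrier := S
  smul_mem' := fun k z hz => hS k.1 k.2 z hz

/-- The stabiliser in the action on an invariant set. -/
def stabEquiv (A : Subgroup Co0) (S : Set leechLattice) (hS : ∀ k ∈ A, ∀ z ∈ S, k • z ∈ S) (a : leechLattice)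
    (ha : a ∈ S) :
    stabilizer A (⟨a, ha⟩ : subAct A S hS) ≃* ↥(A ⊓ stabilizer Co0 a) where
  toFun g := ⟨g.1.1, Subgroup.mem_inf.2 ⟨g.1.2, congrArg Subtype.val g.2⟩⟩
  invFun g := ⟨⟨g.1, (Subgroup.mem_inf.1 g.2).1⟩, Subtype.ext (Subgroup.mem_inf.1 g.2).2⟩
  left_inv g := rfl
  right_inv g := rfl
  map_mul' g g' := rfl

abbrev VS := GolayPt → ℤ

/-- Simplicity from an action on minimal vectors with subdegrees separated by the inner product
with the base point. -/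
theorem simple_of_dots (A : Subgroup Co0) [Finite A] (S : Set leechLattice) (hS : ∀ k ∈ A, ∀ z ∈ S, k • z ∈ S)
    (hfin : S.Finite) (a : leechLattice) (ha : a ∈ S) (hnorm : sqNorm (a : VS) = 32)
    (htrans : ∀ z ∈ S, ∃ k ∈ A, k • a = z)
    (D : List (ℤ × ℕ)) (hD32 : ∀ q ∈ D, q.1 ≠ 32) (hnd : (D.map Prod.fst).Nodup)
    (hcard : ∀ q ∈ D, {y : leechLattice | y ∈ S ∧ dotInt (a : VS) (y : VS) = q.1}.ncard = q.2)
    (hcov : ∀ y ∈ S, y ≠ a → ∃ q ∈ D, dotInt (a : VS) (y : VS) = q.1)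
    (htr : ∀ q ∈ D, ∀ y ∈ S, ∀ y' ∈ S, dotInt (a : VS) (y : VS) = q.1 → dotInt (a : VS) (y' : VS) = q.1 →
      ∃ h ∈ A, h • a = a ∧ h • y = y')
    (hnum : ∀ s ∈ subSums (D.map Prod.snd), (s + 1) ∣ S.ncard → s = 0 ∨ s + 1 = S.ncard)
    (hH : IsSimpleGroup ↥(A ⊓ stabilizer Co0 a)) (hmoved : ∃ q ∈ D, 2 ≤ q.2)
    (hreg : ∀ (N : Type) [Group N] [Finite N], Nat.card N = S.ncard →
      (∀ C : Subgroup N, C.Characteristic → C = ⊥ ∨ C = ⊤) → False) :
    IsSimpleGroup ↥A := by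
  classical
  set Om := subAct A S hS with hOm
  have hcOm : Nat.card Om = S.ncard := Nat.card_coe_set_eq S
  haveI : Finite Om := hfin.to_subtype
  let a' : Om := ⟨a, ha⟩
  haveI : IsPretransitive A Om := by
    refine ⟨?_⟩
    have h0 : ∀ y : Om, ∃ g : A, g • a' = y := by
      rintro ⟨y, hy⟩
      obtain ⟨k, hk, e⟩ := htrans y hy
      exact ⟨⟨k, hk⟩, Subtype.ext e⟩
    intro x y
    obtain ⟨g, rfl⟩ := h0 x
    obtain ⟨g', rfl⟩ := h0 y
    exact ⟨g' * g⁻¹, by rw [mul_smul, inv_smul_smul]⟩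
  let P : ℤ → Set Om := fun c => {y | dotInt (a : VS) ((y : leechLattice) : VS) = c}
  let L : List (Set Om × ℕ) := D.map fun q => (P q.1, q.2)
  have hmemL : ∀ O ∈ L, ∃ q ∈ D, O = (P q.1, q.2) := by
    intro O hO
    obtain ⟨q, hq, e⟩ := List.mem_map.1 hO
    exact ⟨q, hq, e.symm⟩
  have Dt : OrbitData A a' L := by
    refine ⟨?_, ?_, ?_, ?_, ?_⟩
    · simp only [L, List.map_map]
      have h1 := hnd
      rw [List.nodup_iff_pairwise_ne, List.pairwise_map] at h1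
      rw [List.pairwise_map]
      refine h1.imp ?_
      intro q q' hne
      rw [Set.disjoint_left]
      intro y hy hy'
      exact hne (hy.symm.trans hy')
    · intro O hO
      obtain ⟨q, hq, rfl⟩ := hmemL O hO
      show (P q.1).ncard = q.2
      rw [← hcard q hq, ← Set.ncard_image_of_injective _ (Subtype.val_injective (p := fun x => x ∈ Om))]
      congr 1
      ext y
      constructor
      · rintro ⟨z, hz, rfl⟩
        exact ⟨z.2, hz⟩
      · rintro ⟨h1, h2⟩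
        exact ⟨⟨y, h1⟩, h2, rfl⟩
    · intro O hO h
      obtain ⟨q, hq, rfl⟩ := hmemL O hO
      have h1 : dotInt (a : VS) (a : VS) = q.1 := h
      rw [dotInt_self, hnorm] at h1
      exact hD32 q hq h1.symm
    · intro y
      by_cases h : (y : leechLattice) = a
      · exact Or.inl (Subtype.ext h)
      · right
        obtain ⟨q, hq, e⟩ := hcov y y.2 h
        exact ⟨_, List.mem_map.2 ⟨q, hq, rfl⟩, e⟩
    · intro O hO y hy y' hy'
      obtain ⟨q, hq, rfl⟩ := hmemL O hO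
      obtain ⟨h, hh, e1, e2⟩ := htr q hq y y.2 y' y'.2 hy hy'
      exact ⟨⟨h, hh⟩, Subtype.ext e1, Subtype.ext e2⟩
  have hsnd : L.map Prod.snd = D.map Prod.snd := by
    simp only [L, List.map_map]
    rfl
  refine isSimple_of_orbitData Dt ?_ ?_ ?_ ?_
  · rw [hsnd, hcOm]
    exact hnum
  · exact (stabEquiv A S hS a ha).isSimpleGroup
  · obtain ⟨q, hq, h2⟩ := hmoved
    exact ⟨_, List.mem_map.2 ⟨q, hq, rfl⟩, h2⟩
  · intro N _ hc _ _ hC
    haveI : Finite N := inferInstance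
    exact hreg N (by rw [hc, hcOm]) hC

end Cfsg.Agent.Lib.Sporadic.LeechSimple
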