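import Cfsg.Agent.Lib.Sporadic.M24Classes

/-!
# Master tables of orbits, and certificates of orbits over them
-/

namespace Cfsg.Agent.Lib.Sporadic.M24Cert

open Cfsg Cfsg.Agent.Lib.Sporadic.GolayCore Cfsg.Agent.Lib.Sporadic.M24Tbl
open Cfsg.Agent.Lib.Sporadic.M24Orbit Cfsg.Agent.Lib.Sporadic.M24Fast
open Cfsg.Agent.Lib.Sporadic.M24Classes
open scoped Pointwise

/-! ### Bounded search trees -/

/-- The keys of the tree lie in the interval, in search order. -/
def ctBd : ℕ → ℕ → CT → Bool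
  | _, _, .nil => true
  | lo, hi, .node l k _ r => Nat.ble lo k && Nat.blt k hi && ctBd lo k l && ctBd (k + 1) hi r

/-- The number of nodes of the tree satisfying a predicate. -/
def ctCount (P : ℕ → List ℕ → Bool) : CT → ℕ
  | .nil => 0
  | .node l k v r => ctCount P l + cond (P k v) 1 0 + ctCount P r

/-- The keys satisfying a predicate. -/
def ctKeys (P : ℕ → List ℕ → Bool) : CT → Finset ℕ
  | .nil => ∅
  | .node l k v r => ctKeys P l ∪ (if P k v then {k} else ∅) ∪ ctKeys P r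

theorem ctBd_node {lo hi k : ℕ} {l r : CT} {w : List ℕ}
    (h : ctBd lo hi (.node l k w r) = true) :
    lo ≤ k ∧ k < hi ∧ ctBd lo k l = true ∧ ctBd (k + 1) hi r = true := by
  simp only [ctBd, Bool.and_eq_true] at h
  obtain ⟨⟨⟨h1, h2⟩, h3⟩, h4⟩ := h
  refine ⟨Nat.le_of_ble_eq_true h1, ?_, h3, h4⟩
  exact Nat.le_of_ble_eq_true h2

theorem ctKeys_bd (P : ℕ → List ℕ → Bool) {t : CT} {lo hi : ℕ} (h : ctBd lo hi t = true) {m : ℕ}
    (hm : m ∈ ctKeys P t) : lo ≤ m ∧ m < hi := by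
  induction t generalizing lo hi with
  | nil => simp [ctKeys] at hm
  | node l k w r ihl ihr =>
    obtain ⟨h1, h2, h3, h4⟩ := ctBd_node h
    simp only [ctKeys, Finset.mem_union] at hm
    rcases hm with (hm | hm) | hm
    · have := ihl h3 hm
      omega
    · split_ifs at hm
      · rw [Finset.mem_singleton.1 hm]
        exact ⟨h1, h2⟩
      · simp at hm
    · have := ihr h4 hm
      omega

theorem find_bd {t : CT} {lo hi m : ℕ} {v : List ℕ} (h : ctBd lo hi t = true)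
    (hf : t.find m = some v) : lo ≤ m ∧ m < hi := by
  induction t generalizing lo hi with
  | nil => simp [CT.find] at hf
  | node l k w r ihl ihr =>
    obtain ⟨h1, h2, h3, h4⟩ := ctBd_node h
    simp only [CT.find] at hf
    split_ifs at hf with h5 h6
    · have := ihl h3 hf
      omega
    · have := ihr h4 hf
      omega
    · omega

theorem mem_ctKeys (P : ℕ → List ℕ → Bool) {t : CT} {lo hi : ℕ} (h : ctBd lo hi t = true) {m : ℕ} :
    m ∈ ctKeys P t ↔ ∃ v, t.find m = some v ∧ P m v = true := by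
  induction t generalizing lo hi with
  | nil => simp [ctKeys, CT.find]
  | node l k w r ihl ihr =>
    obtain ⟨h1, h2, h3, h4⟩ := ctBd_node h
    simp only [ctKeys, Finset.mem_union, CT.find]
    constructor
    · rintro ((hm | hm) | hm)
      · have := ctKeys_bd P h3 hm
        rw [if_pos this.2]
        exact (ihl h3).1 hm
      · split_ifs at hm with hP
        · rw [Finset.mem_singleton.1 hm]
          refine ⟨w, ?_, hP⟩
          simp
        · simp at hm
      · have := ctKeys_bd P h4 hm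
        rw [if_neg (by omega), if_pos (by omega)]
        exact (ihr h4).1 hm
    · rintro ⟨v, hf, hP⟩
      split_ifs at hf with h5 h6
      · exact Or.inl (Or.inl ((ihl h3).2 ⟨v, hf, hP⟩))
      · exact Or.inr ((ihr h4).2 ⟨v, hf, hP⟩)
      · have hk : m = k := by omega
        have hv : w = v := by simpa using hf
        refine Or.inl (Or.inr ?_)
        rw [hk, hv, if_pos (by rw [← hk]; exact hP)]
        simp

theorem card_ctKeys (P : ℕ → List ℕ → Bool) {t : CT} {lo hi : ℕ} (h : ctBd lo hi t = true) :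
    (ctKeys P t).card = ctCount P t := by
  induction t generalizing lo hi with
  | nil => simp [ctKeys, ctCount]
  | node l k w r ihl ihr =>
    obtain ⟨h1, h2, h3, h4⟩ := ctBd_node h
    simp only [ctKeys, ctCount]
    rw [Finset.card_union_of_disjoint, Finset.card_union_of_disjoint, ihl h3, ihr h4]
    · congr 2
      cases hP : P k w <;> simp
    · rw [Finset.disjoint_left]
      intro a ha hb
      have := ctKeys_bd P h3 ha
      split_ifs at hb
      · rw [Finset.mem_singleton.1 hb] at this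
        omega
      · simp at hb
    · rw [Finset.disjoint_left]
      intro a ha hb
      have := ctKeys_bd P h4 hb
      rcases Finset.mem_union.1 ha with ha | ha
      · have := ctKeys_bd P h3 ha
        omega
      · split_ifs at ha
        · rw [Finset.mem_singleton.1 ha] at this
          omega
        · simp at ha

/-! ### Master tables -/

section master

variable {X : Type*}

/-- A table listing, once each, the elements of a set. -/
structure Master (Ω : Set X) (obj : ℕ → X) (tree : CT) : Prop where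
  bd : ∃ N, ctBd 0 N tree = true
  surj : ∀ x ∈ Ω, ∃ m v, tree.find m = some v ∧ obj m = x
  mem : ∀ m v, tree.find m = some v → obj m ∈ Ω
  inj : ∀ m v m' v', tree.find m = some v → tree.find m' = some v' → obj m = obj m' → m = m'

theorem Master.ncard_filter {Ω : Set X} {obj : ℕ → X} {tree : CT} (M : Master Ω obj tree)
    (Q : X → Prop) (P : ℕ → List ℕ → Bool)
    (h : ∀ m v, tree.find m = some v → (Q (obj m) ↔ P m v = true)) :
    {x | x ∈ Ω ∧ Q x}.ncard = ctCount P tree := by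
  obtain ⟨N, hN⟩ := M.bd
  have h1 : {x | x ∈ Ω ∧ Q x} = obj '' (ctKeys P tree : Set ℕ) := by
    ext x
    constructor
    · rintro ⟨hx, hQ⟩
      obtain ⟨m, v, hf, rfl⟩ := M.surj x hx
      exact ⟨m, Finset.mem_coe.2 ((mem_ctKeys P hN).2 ⟨v, hf, (h m v hf).1 hQ⟩), rfl⟩
    · rintro ⟨m, hm, rfl⟩
      obtain ⟨v, hf, hP⟩ := (mem_ctKeys P hN).1 (Finset.mem_coe.1 hm)
      exact ⟨M.mem m v hf, (h m v hf).2 hP⟩
  rw [h1, Set.InjOn.ncard_image, Set.ncard_coe_finset, card_ctKeys P hN]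
  intro a ha b hb hab
  obtain ⟨v, hf, -⟩ := (mem_ctKeys P hN).1 (Finset.mem_coe.1 ha)
  obtain ⟨v', hf', -⟩ := (mem_ctKeys P hN).1 (Finset.mem_coe.1 hb)
  exact M.inj a v b v' hf hf' hab

/-- A table is a master table when the count is right. -/
theorem Master.of_count {Ω : Set X} {obj : ℕ → X} {tree : CT} {N : ℕ} (hN : ctBd 0 N tree = true)
    (hfin : Ω.Finite)
    (hmem : ∀ m v, tree.find m = some v → obj m ∈ Ω)
    (hinj : ∀ m v m' v', tree.find m = some v → tree.find m' = some v' → obj m = obj m' → m = m')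
    (hc : Ω.ncard = ctCount (fun _ _ => true) tree) : Master Ω obj tree := by
  refine ⟨⟨N, hN⟩, ?_, hmem, hinj⟩
  have h1 : obj '' (ctKeys (fun _ _ => true) tree : Set ℕ) ⊆ Ω := by
    rintro _ ⟨m, hm, rfl⟩
    obtain ⟨v, hf, -⟩ := (mem_ctKeys _ hN).1 (Finset.mem_coe.1 hm)
    exact hmem m v hf
  have h2 : (obj '' (ctKeys (fun _ _ => true) tree : Set ℕ)).ncard = Ω.ncard := by
    rw [hc, Set.InjOn.ncard_image, Set.ncard_coe_finset, card_ctKeys _ hN]
    intro a ha b hb hab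
    obtain ⟨v, hf, -⟩ := (mem_ctKeys _ hN).1 (Finset.mem_coe.1 ha)
    obtain ⟨v', hf', -⟩ := (mem_ctKeys _ hN).1 (Finset.mem_coe.1 hb)
    exact hinj a v b v' hf hf' hab
  have h3 := Set.eq_of_subset_of_ncard_le h1 h2.ge hfin
  intro x hx
  rw [← h3] at hx
  obtain ⟨m, hm, rfl⟩ := hx
  obtain ⟨v, hf, -⟩ := (mem_ctKeys _ hN).1 (Finset.mem_coe.1 hm)
  exact ⟨m, v, hf, rfl⟩

end master

/-! ### Certificates -/

/-- The class stored in a certificate tree. -/
def clsOf (tr : CT) (m : ℕ) : ℕ :=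
  match tr.find m with
  | some (c :: _) => c
  | _ => 0

/-- Representatives of classes. -/
def repOf : List (ℕ × ℕ × List ℕ) → ℕ → Option (ℕ × List ℕ)
  | [], _ => none
  | (c, r) :: l, x => cond (Nat.beq c x) (some r) (repOf l x)

theorem repOf_mem {reps : List (ℕ × ℕ × List ℕ)} {c : ℕ} {r : ℕ × List ℕ}
    (h : repOf reps c = some r) : (c, r) ∈ reps := by
  induction reps with
  | nil => simp [repOf] at h
  | cons p l ih =>
    obtain ⟨c', r'⟩ := p
    simp only [repOf] at h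
    cases hc : Nat.beq c' c with
    | true =>
      rw [hc] at h
      have h1 := Nat.eq_of_beq_eq_true hc
      have h2 : r' = r := by simpa using h
      rw [h1, h2]
      exact List.mem_cons_self
    | false =>
      rw [hc] at h
      exact List.mem_cons_of_mem _ (ih h)

/-- Check of one node of the master table against a tree of classes and words. -/
def certNode (tbs : List ℕ) (tr : CT) (reps : List (ℕ × ℕ × List ℕ)) (clv : ℕ → List ℕ → ℕ)
    (sem : (ℕ → ℕ) → ℕ → List ℕ → ℕ → List ℕ → Bool) (m : ℕ) (v : List ℕ) : Bool :=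
  match tr.find m with
  | some (c :: w) =>
    match repOf reps c with
    | some (r, vr) =>
      Nat.beq (clv m v) c && w.all (fun i => Nat.blt i tbs.length) && sem (wordF tbs w) r vr m v
    | none => false
  | _ => false

theorem certNode_spec {tbs : List ℕ} {tr : CT} {reps : List (ℕ × ℕ × List ℕ)} {clv : ℕ → List ℕ → ℕ}
    {sem : (ℕ → ℕ) → ℕ → List ℕ → ℕ → List ℕ → Bool} {m : ℕ} {v : List ℕ}
    (h : certNode tbs tr reps clv sem m v = true) :
    ∃ c w r vr, tr.find m = some (c :: w) ∧ repOf reps c = some (r, vr) ∧ clv m v = c ∧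
      (∀ i ∈ w, i < tbs.length) ∧ sem (wordF tbs w) r vr m v = true := by
  unfold certNode at h
  split at h
  · rename_i c w hc
    split at h
    · rename_i r vr hr
      simp only [Bool.and_eq_true, List.all_eq_true] at h
      refine ⟨c, w, r, vr, hc, hr, Nat.eq_of_beq_eq_true h.1.1, ?_, h.2⟩
      intro i hi
      exact Nat.le_of_ble_eq_true (h.1.2 i hi)
    · simp at h
  · simp at h

theorem clsOf_eq {tr : CT} {m c : ℕ} {w : List ℕ} (h : tr.find m = some (c :: w)) :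
    clsOf tr m = c := by
  unfold clsOf
  rw [h]

section cert

variable {X : Type*} [MulAction (Equiv.Perm GolayPt) X]

/-- A master table and a sound test for moving its entries. -/
structure Sys (Ω : Set X) (obj : ℕ → X) (tree : CT)
    (sem : (ℕ → ℕ) → ℕ → List ℕ → ℕ → List ℕ → Bool) : Prop where
  master : Master Ω obj tree
  inv : ∀ g ∈ M24, ∀ x ∈ Ω, g • x ∈ Ω
  sound : ∀ (g : Equiv.Perm GolayPt) (f : ℕ → ℕ) (r m : ℕ) (vr v : List ℕ), g ∈ M24 →
    (∀ a, ofMask (f a) = g • ofMask a) → tree.find r = some vr → tree.find m = some v →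
    sem f r vr m v = true → g • obj r = obj m

/-- Data of a certificate. -/
structure Cert (Ω : Set X) (obj : ℕ → X) (tree : CT)
    (sem : (ℕ → ℕ) → ℕ → List ℕ → ℕ → List ℕ → Bool) {Y : Type*} [MulAction (Equiv.Perm GolayPt) Y]
    (O0 : Y) (cl : X → ℕ) (clv : ℕ → List ℕ → ℕ) (H : Subgroup (Equiv.Perm GolayPt))
    (tbs : List ℕ) (tr : CT) (reps : List (ℕ × ℕ × List ℕ)) : Prop where
  sys : Sys Ω obj tree sem
  hcl : ∀ m v, tree.find m = some v → cl (obj m) = clv m v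
  hinv : ∀ g ∈ M24, g • O0 = O0 → ∀ x ∈ Ω, cl (g • x) = cl x
  hH : ∀ g ∈ H, g ∈ M24 ∧ g • O0 = O0
  hgens : ∀ t ∈ tbs, Moves H (fap t)
  hreps : ∀ p ∈ reps, tree.find p.2.1 = some p.2.2
  cert : ctAll (certNode tbs tr reps clv sem) tree = true

variable {Ω : Set X} {obj : ℕ → X} {tree : CT}
  {sem : (ℕ → ℕ) → ℕ → List ℕ → ℕ → List ℕ → Bool} {Y : Type*} [MulAction (Equiv.Perm GolayPt) Y]
  {O0 : Y} {cl : X → ℕ} {clv : ℕ → List ℕ → ℕ} {H : Subgroup (Equiv.Perm GolayPt)}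
  {tbs : List ℕ} {tr : CT} {reps : List (ℕ × ℕ × List ℕ)}

/-- Each element of the table is moved from the representative of its class. -/
theorem Cert.moved (C : Cert Ω obj tree sem O0 cl clv H tbs tr reps) {m : ℕ} {v : List ℕ}
    (hf : tree.find m = some v) :
    ∃ c w r vr, tr.find m = some (c :: w) ∧ repOf reps c = some (r, vr) ∧ cl (obj m) = c ∧
      ∃ g ∈ H, g • obj r = obj m := by
  obtain ⟨c, w, r, vr, h1, h2, h3, h4, h5⟩ := certNode_spec (ctAll_of_find C.cert hf)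
  refine ⟨c, w, r, vr, h1, h2, by rw [C.hcl m v hf, h3], ?_⟩
  obtain ⟨g, hg, hg'⟩ := moves_wordF C.hgens w h4
  refine ⟨g, hg, C.sys.sound g _ r m vr v (C.hH g hg).1 hg' ?_ hf h5⟩
  exact C.hreps (c, r, vr) (repOf_mem h2)

/-- The structure `Classes` from a certificate. -/
theorem Cert.classes (C : Cert Ω obj tree sem O0 cl clv H tbs tr reps) : Classes Ω O0 cl where
  hΩ := C.sys.inv
  hinv := C.hinv
  hconj := by
    intro x hx y hy hc
    obtain ⟨m, v, hf, rfl⟩ := C.sys.master.surj x hx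
    obtain ⟨m', v', hf', rfl⟩ := C.sys.master.surj y hy
    obtain ⟨c, w, r, vr, -, h2, h3, g, hg, h4⟩ := C.moved hf
    obtain ⟨c', w', r', vr', -, h2', h3', g', hg', h4'⟩ := C.moved hf'
    have hcc : c = c' := by rw [← h3, ← h3', hc]
    subst hcc
    have hr : r = r' := by
      rw [h2] at h2'
      simpa using congrArg (fun p => (p.map Prod.fst)) h2'
    subst hr
    obtain ⟨h5, h6⟩ := C.hH g hg
    obtain ⟨h5', h6'⟩ := C.hH g' hg'
    refine ⟨g' * g⁻¹, M24.mul_mem h5' (M24.inv_mem h5), ?_, ?_⟩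
    · rw [mul_smul, inv_smul_eq_iff.2 h6.symm, h6']
    · rw [mul_smul, ← h4, inv_smul_smul, h4']

/-- The class of an element of the set is one of the listed values. -/
theorem Cert.val_mem (C : Cert Ω obj tree sem O0 cl clv H tbs tr reps) {x : X} (hx : x ∈ Ω) :
    cl x ∈ reps.map Prod.fst := by
  obtain ⟨m, v, hf, rfl⟩ := C.sys.master.surj x hx
  obtain ⟨c, w, r, vr, -, h2, h3, -⟩ := C.moved hf
  rw [h3]
  exact List.mem_map.2 ⟨_, repOf_mem h2, rfl⟩

/-- The number of elements of a class. -/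
theorem Cert.count (C : Cert Ω obj tree sem O0 cl clv H tbs tr reps) (c : ℕ) :
    {y | y ∈ Ω ∧ cl y = c}.ncard = ctCount (fun m _ => Nat.beq (clsOf tr m) c) tree := by
  apply C.sys.master.ncard_filter
  intro m v hf
  obtain ⟨c', w, r, vr, h1, h2, h3, -⟩ := C.moved hf
  rw [h3, clsOf_eq h1]
  constructor
  · rintro rfl
    exact Nat.beq_refl _
  · exact Nat.eq_of_beq_eq_true

/-- The class of a representative. -/
theorem Cert.cl_obj (C : Cert Ω obj tree sem O0 cl clv H tbs tr reps) {m : ℕ} {v : List ℕ}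
    (hf : tree.find m = some v) : cl (obj m) = clv m v := C.hcl m v hf

theorem Cert.obj_mem (C : Cert Ω obj tree sem O0 cl clv H tbs tr reps) {m : ℕ} {v : List ℕ}
    (hf : tree.find m = some v) : obj m ∈ Ω := C.sys.master.mem m v hf

theorem Cert.cl_rep (C : Cert Ω obj tree sem O0 cl clv H tbs tr reps) {c r : ℕ} {vr : List ℕ}
    (hp : (c, r, vr) ∈ reps) (hcv : ∀ p ∈ reps, clv p.2.1 p.2.2 = p.1) : cl (obj r) = c := by
  rw [C.hcl r vr (C.hreps _ hp)]
  exact hcv _ hp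

theorem Cert.rep_mem (C : Cert Ω obj tree sem O0 cl clv H tbs tr reps) {c r : ℕ} {vr : List ℕ}
    (hp : (c, r, vr) ∈ reps) : obj r ∈ Ω := C.sys.master.mem r vr (C.hreps _ hp)

/-- Three orbits from a certificate. -/
theorem Cert.three (C : Cert Ω obj tree sem O0 cl clv H tbs tr reps)
    {k : Equiv.Perm GolayPt} (hk : k ∈ M24) {c₁ c₂ c₃ r₁ r₂ r₃ : ℕ} {v₁ v₂ v₃ : List ℕ}
    (hr : reps = [(c₁, r₁, v₁), (c₂, r₂, v₂), (c₃, r₃, v₃)])
    (hcv : ∀ p ∈ reps, clv p.2.1 p.2.2 = p.1) {n₁ n₂ n₃ : ℕ}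
    (h₁ : ctCount (fun m _ => Nat.beq (clsOf tr m) c₁) tree = n₁)
    (h₂ : ctCount (fun m _ => Nat.beq (clsOf tr m) c₂) tree = n₂)
    (h₃ : ctCount (fun m _ => Nat.beq (clsOf tr m) c₃) tree = n₃) :
    ∃ X₁ ∈ Ω, ∃ X₂ ∈ Ω, ∃ X₃ ∈ Ω,
      (MulAction.orbit (MulAction.stabilizer M24 (k • O0)) X₁).ncard = n₁ ∧
      (MulAction.orbit (MulAction.stabilizer M24 (k • O0)) X₂).ncard = n₂ ∧
      (MulAction.orbit (MulAction.stabilizer M24 (k • O0)) X₃).ncard = n₃ ∧
      Ω = MulAction.orbit (MulAction.stabilizer M24 (k • O0)) X₁ ∪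
        MulAction.orbit (MulAction.stabilizer M24 (k • O0)) X₂ ∪
        MulAction.orbit (MulAction.stabilizer M24 (k • O0)) X₃ := by
  have m₁ : (c₁, r₁, v₁) ∈ reps := by simp [hr]
  have m₂ : (c₂, r₂, v₂) ∈ reps := by simp [hr]
  have m₃ : (c₃, r₃, v₃) ∈ reps := by simp [hr]
  have e₁ := C.cl_rep m₁ hcv
  have e₂ := C.cl_rep m₂ hcv
  have e₃ := C.cl_rep m₃ hcv
  refine C.classes.three hk (C.rep_mem m₁) (C.rep_mem m₂) (C.rep_mem m₃) ?_ ?_ ?_ ?_
  · intro y hy
    have := C.val_mem hy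
    rw [hr] at this
    simpa [e₁, e₂, e₃] using this
  · rw [e₁, C.count, h₁]
  · rw [e₂, C.count, h₂]
  · rw [e₃, C.count, h₃]

/-- Four orbits from a certificate. -/
theorem Cert.four (C : Cert Ω obj tree sem O0 cl clv H tbs tr reps)
    {k : Equiv.Perm GolayPt} (hk : k ∈ M24) {c₁ c₂ c₃ c₄ r₁ r₂ r₃ r₄ : ℕ} {v₁ v₂ v₃ v₄ : List ℕ}
    (hr : reps = [(c₁, r₁, v₁), (c₂, r₂, v₂), (c₃, r₃, v₃), (c₄, r₄, v₄)])
    (hcv : ∀ p ∈ reps, clv p.2.1 p.2.2 = p.1) {n₁ n₂ n₃ n₄ : ℕ}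
    (h₁ : ctCount (fun m _ => Nat.beq (clsOf tr m) c₁) tree = n₁)
    (h₂ : ctCount (fun m _ => Nat.beq (clsOf tr m) c₂) tree = n₂)
    (h₃ : ctCount (fun m _ => Nat.beq (clsOf tr m) c₃) tree = n₃)
    (h₄ : ctCount (fun m _ => Nat.beq (clsOf tr m) c₄) tree = n₄) :
    ∃ X₁ ∈ Ω, ∃ X₂ ∈ Ω, ∃ X₃ ∈ Ω, ∃ X₄ ∈ Ω,
      (MulAction.orbit (MulAction.stabilizer M24 (k • O0)) X₁).ncard = n₁ ∧
      (MulAction.orbit (MulAction.stabilizer M24 (k • O0)) X₂).ncard = n₂ ∧
      (MulAction.orbit (MulAction.stabilizer M24 (k • O0)) X₃).ncard = n₃ ∧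
      (MulAction.orbit (MulAction.stabilizer M24 (k • O0)) X₄).ncard = n₄ ∧
      Ω = MulAction.orbit (MulAction.stabilizer M24 (k • O0)) X₁ ∪
        MulAction.orbit (MulAction.stabilizer M24 (k • O0)) X₂ ∪
        MulAction.orbit (MulAction.stabilizer M24 (k • O0)) X₃ ∪
        MulAction.orbit (MulAction.stabilizer M24 (k • O0)) X₄ := by
  have m₁ : (c₁, r₁, v₁) ∈ reps := by simp [hr]
  have m₂ : (c₂, r₂, v₂) ∈ reps := by simp [hr]
  have m₃ : (c₃, r₃, v₃) ∈ reps := by simp [hr]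
  have m₄ : (c₄, r₄, v₄) ∈ reps := by simp [hr]
  have e₁ := C.cl_rep m₁ hcv
  have e₂ := C.cl_rep m₂ hcv
  have e₃ := C.cl_rep m₃ hcv
  have e₄ := C.cl_rep m₄ hcv
  refine C.classes.four hk (C.rep_mem m₁) (C.rep_mem m₂) (C.rep_mem m₃) (C.rep_mem m₄) ?_ ?_ ?_ ?_ ?_
  · intro y hy
    have := C.val_mem hy
    rw [hr] at this
    simpa [e₁, e₂, e₃, e₄] using this
  · rw [e₁, C.count, h₁]
  · rw [e₂, C.count, h₂]
  · rw [e₃, C.count, h₃]
  · rw [e₄, C.count, h₄]

/-- The singleton class of a representative. -/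
theorem Cert.uniq (C : Cert Ω obj tree sem O0 cl clv H tbs tr reps) {c r : ℕ} {vr : List ℕ}
    (hp : (c, r, vr) ∈ reps) (hcv : ∀ p ∈ reps, clv p.2.1 p.2.2 = p.1)
    (h : ctCount (fun m _ => Nat.beq (clsOf tr m) c) tree = 1) :
    ∀ y ∈ Ω, cl y = c → y = obj r := by
  have e := C.cl_rep hp hcv
  have := singleton_class (Ω := Ω) (cl := cl) (C.rep_mem hp) (by rw [e, C.count, h])
  rwa [e] at this

/-- The object, with three other orbits, from a certificate. -/
theorem Cert.one_three (C : Cert Ω obj tree sem O0 cl clv H tbs tr reps)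
    {k : Equiv.Perm GolayPt} (hk : k ∈ M24) {c₀ c₁ c₂ c₃ r₀ r₁ r₂ r₃ : ℕ} {v₀ v₁ v₂ v₃ : List ℕ}
    (hr : reps = [(c₀, r₀, v₀), (c₁, r₁, v₁), (c₂, r₂, v₂), (c₃, r₃, v₃)])
    (hcv : ∀ p ∈ reps, clv p.2.1 p.2.2 = p.1) {n₁ n₂ n₃ : ℕ}
    (h₀ : ctCount (fun m _ => Nat.beq (clsOf tr m) c₀) tree = 1)
    (h₁ : ctCount (fun m _ => Nat.beq (clsOf tr m) c₁) tree = n₁)
    (h₂ : ctCount (fun m _ => Nat.beq (clsOf tr m) c₂) tree = n₂)
    (h₃ : ctCount (fun m _ => Nat.beq (clsOf tr m) c₃) tree = n₃) :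
    ∃ X₁ ∈ Ω, ∃ X₂ ∈ Ω, ∃ X₃ ∈ Ω,
      (MulAction.orbit (MulAction.stabilizer M24 (k • O0)) X₁).ncard = n₁ ∧
      (MulAction.orbit (MulAction.stabilizer M24 (k • O0)) X₂).ncard = n₂ ∧
      (MulAction.orbit (MulAction.stabilizer M24 (k • O0)) X₃).ncard = n₃ ∧
      Ω = {k • obj r₀} ∪ MulAction.orbit (MulAction.stabilizer M24 (k • O0)) X₁ ∪
        MulAction.orbit (MulAction.stabilizer M24 (k • O0)) X₂ ∪
        MulAction.orbit (MulAction.stabilizer M24 (k • O0)) X₃ := by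
  have m₀ : (c₀, r₀, v₀) ∈ reps := by simp [hr]
  have m₁ : (c₁, r₁, v₁) ∈ reps := by simp [hr]
  have m₂ : (c₂, r₂, v₂) ∈ reps := by simp [hr]
  have m₃ : (c₃, r₃, v₃) ∈ reps := by simp [hr]
  have e₀ := C.cl_rep m₀ hcv
  have e₁ := C.cl_rep m₁ hcv
  have e₂ := C.cl_rep m₂ hcv
  have e₃ := C.cl_rep m₃ hcv
  refine C.classes.one_three hk (C.rep_mem m₀) (C.rep_mem m₁) (C.rep_mem m₂) (C.rep_mem m₃) ?_ ?_ ?_ ?_ ?_
  · intro y hy
    have := C.val_mem hy
    rw [hr] at this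
    simpa [e₀, e₁, e₂, e₃] using this
  · intro y hy he
    rw [e₀] at he
    exact C.uniq m₀ hcv h₀ y hy he
  · rw [e₁, C.count, h₁]
  · rw [e₂, C.count, h₂]
  · rw [e₃, C.count, h₃]

/-- The object, with four other orbits, from a certificate. -/
theorem Cert.one_four (C : Cert Ω obj tree sem O0 cl clv H tbs tr reps)
    {k : Equiv.Perm GolayPt} (hk : k ∈ M24) {c₀ c₁ c₂ c₃ c₄ r₀ r₁ r₂ r₃ r₄ : ℕ}
    {v₀ v₁ v₂ v₃ v₄ : List ℕ}
    (hr : reps = [(c₀, r₀, v₀), (c₁, r₁, v₁), (c₂, r₂, v₂), (c₃, r₃, v₃), (c₄, r₄, v₄)])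
    (hcv : ∀ p ∈ reps, clv p.2.1 p.2.2 = p.1) {n₁ n₂ n₃ n₄ : ℕ}
    (h₀ : ctCount (fun m _ => Nat.beq (clsOf tr m) c₀) tree = 1)
    (h₁ : ctCount (fun m _ => Nat.beq (clsOf tr m) c₁) tree = n₁)
    (h₂ : ctCount (fun m _ => Nat.beq (clsOf tr m) c₂) tree = n₂)
    (h₃ : ctCount (fun m _ => Nat.beq (clsOf tr m) c₃) tree = n₃)
    (h₄ : ctCount (fun m _ => Nat.beq (clsOf tr m) c₄) tree = n₄) :
    ∃ X₁ ∈ Ω, ∃ X₂ ∈ Ω, ∃ X₃ ∈ Ω, ∃ X₄ ∈ Ω,
      (MulAction.orbit (MulAction.stabilizer M24 (k • O0)) X₁).ncard = n₁ ∧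
      (MulAction.orbit (MulAction.stabilizer M24 (k • O0)) X₂).ncard = n₂ ∧
      (MulAction.orbit (MulAction.stabilizer M24 (k • O0)) X₃).ncard = n₃ ∧
      (MulAction.orbit (MulAction.stabilizer M24 (k • O0)) X₄).ncard = n₄ ∧
      Ω = {k • obj r₀} ∪ MulAction.orbit (MulAction.stabilizer M24 (k • O0)) X₁ ∪
        MulAction.orbit (MulAction.stabilizer M24 (k • O0)) X₂ ∪
        MulAction.orbit (MulAction.stabilizer M24 (k • O0)) X₃ ∪
        MulAction.orbit (MulAction.stabilizer M24 (k • O0)) X₄ := by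
  have m₀ : (c₀, r₀, v₀) ∈ reps := by simp [hr]
  have m₁ : (c₁, r₁, v₁) ∈ reps := by simp [hr]
  have m₂ : (c₂, r₂, v₂) ∈ reps := by simp [hr]
  have m₃ : (c₃, r₃, v₃) ∈ reps := by simp [hr]
  have m₄ : (c₄, r₄, v₄) ∈ reps := by simp [hr]
  have e₀ := C.cl_rep m₀ hcv
  have e₁ := C.cl_rep m₁ hcv
  have e₂ := C.cl_rep m₂ hcv
  have e₃ := C.cl_rep m₃ hcv
  have e₄ := C.cl_rep m₄ hcv
  have hU : Ω = {k • obj r₀} ∪ MulAction.orbit (MulAction.stabilizer M24 (k • O0)) (k • obj r₁) ∪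
        MulAction.orbit (MulAction.stabilizer M24 (k • O0)) (k • obj r₂) ∪
        MulAction.orbit (MulAction.stabilizer M24 (k • O0)) (k • obj r₃) ∪
        MulAction.orbit (MulAction.stabilizer M24 (k • O0)) (k • obj r₄) := by
    apply Set.Subset.antisymm
    · intro y hy
      have hy' := C.sys.inv _ (M24.inv_mem hk) y hy
      have hv := C.val_mem hy'
      rw [hr] at hv
      have hv' : cl (k⁻¹ • y) = c₀ ∨ cl (k⁻¹ • y) = c₁ ∨ cl (k⁻¹ • y) = c₂ ∨ cl (k⁻¹ • y) = c₃ ∨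
          cl (k⁻¹ • y) = c₄ := by
        simpa using hv
      rcases hv' with e' | e' | e' | e' | e'
      · refine Or.inl (Or.inl (Or.inl (Or.inl ?_)))
        have := C.uniq m₀ hcv h₀ _ hy' e'
        rw [← this, smul_inv_smul]
        rfl
      · exact Or.inl (Or.inl (Or.inl (Or.inr (C.classes.mem_orbit hk (C.rep_mem m₁) hy (by rw [e', e₁])))))
      · exact Or.inl (Or.inl (Or.inr (C.classes.mem_orbit hk (C.rep_mem m₂) hy (by rw [e', e₂]))))
      · exact Or.inl (Or.inr (C.classes.mem_orbit hk (C.rep_mem m₃) hy (by rw [e', e₃])))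
      · exact Or.inr (C.classes.mem_orbit hk (C.rep_mem m₄) hy (by rw [e', e₄]))
    · rintro y ((((hy | hy) | hy) | hy) | hy)
      · rw [Set.mem_singleton_iff.1 hy]
        exact C.sys.inv k hk _ (C.rep_mem m₀)
      · exact C.classes.orbit_subset hk (C.rep_mem m₁) hy
      · exact C.classes.orbit_subset hk (C.rep_mem m₂) hy
      · exact C.classes.orbit_subset hk (C.rep_mem m₃) hy
      · exact C.classes.orbit_subset hk (C.rep_mem m₄) hy
  refine ⟨k • obj r₁, C.sys.inv k hk _ (C.rep_mem m₁), k • obj r₂, C.sys.inv k hk _ (C.rep_mem m₂),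
    k • obj r₃, C.sys.inv k hk _ (C.rep_mem m₃), k • obj r₄, C.sys.inv k hk _ (C.rep_mem m₄),
    C.classes.ncard_orbit hk (C.rep_mem m₁) ?_, C.classes.ncard_orbit hk (C.rep_mem m₂) ?_,
    C.classes.ncard_orbit hk (C.rep_mem m₃) ?_, C.classes.ncard_orbit hk (C.rep_mem m₄) ?_, hU⟩
  · rw [e₁, C.count, h₁]
  · rw [e₂, C.count, h₂]
  · rw [e₃, C.count, h₃]
  · rw [e₄, C.count, h₄]

/-- Change of the base object of a certificate. -/
theorem Cert.congr (C : Cert Ω obj tree sem O0 cl clv H tbs tr reps) {Y' : Type*}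
    [MulAction (Equiv.Perm GolayPt) Y'] {O1 : Y'}
    (he : ∀ g : Equiv.Perm GolayPt, g ∈ M24 → (g • O0 = O0 ↔ g • O1 = O1)) :
    Cert Ω obj tree sem O1 cl clv H tbs tr reps where
  sys := C.sys
  hcl := C.hcl
  hinv := fun g hg h0 x hx => C.hinv g hg ((he g hg).2 h0) x hx
  hH := fun g hg => ⟨(C.hH g hg).1, (he g (C.hH g hg).1).1 (C.hH g hg).2⟩
  hgens := C.hgens
  hreps := C.hreps
  cert := C.cert

end cert

end Cfsg.Agent.Lib.Sporadic.M24Cert
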