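import Cfsg.Agent.Lib.Sporadic.M24Sextet
import Cfsg.Agent.Lib.Sporadic.M24Fast

/-!
# Orbits of stabilisers described by classes; stabilisers of families of masks
-/

namespace Cfsg.Agent.Lib.Sporadic.M24Classes

open Cfsg Cfsg.Agent.Lib.Sporadic.GolayCore Cfsg.Agent.Lib.Sporadic.M24Tbl
open Cfsg.Agent.Lib.Sporadic.M24Chain Cfsg.Agent.Lib.Sporadic.M24Basic
open Cfsg.Agent.Lib.Sporadic.M24Act Cfsg.Agent.Lib.Sporadic.M24Lists
open Cfsg.Agent.Lib.Sporadic.M24Orbit Cfsg.Agent.Lib.Sporadic.M24Count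
open Cfsg.Agent.Lib.Sporadic.M24Sextet Cfsg.Agent.Lib.Sporadic.M24Fast
open Cfsg.Agent.Lib.Sporadic.M24OctadStab
open scoped Pointwise

section generic

variable {X Y : Type*} [MulAction (Equiv.Perm GolayPt) X] [MulAction (Equiv.Perm GolayPt) Y]

/-- The orbit of the stabiliser of a translate of a standard object is the translate of a class. -/
theorem orbit_eq_class (Ω : Set X) (hΩ : ∀ g ∈ M24, ∀ x ∈ Ω, g • x ∈ Ω) {O0 : Y} (cl : X → ℕ)
    (hinv : ∀ g ∈ M24, g • O0 = O0 → ∀ x ∈ Ω, cl (g • x) = cl x)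
    (hconj : ∀ x ∈ Ω, ∀ y ∈ Ω, cl x = cl y → ∃ g ∈ M24, g • O0 = O0 ∧ g • x = y)
    {k : Equiv.Perm GolayPt} (hk : k ∈ M24) {x : X} (hx : x ∈ Ω) :
    MulAction.orbit (MulAction.stabilizer M24 (k • O0)) (k • x) =
      (fun y => k • y) '' {y | y ∈ Ω ∧ cl y = cl x} := by
  ext z
  constructor
  · rintro ⟨⟨⟨g, hg⟩, hgs⟩, rfl⟩
    have hgs' : g • k • O0 = k • O0 := hgs
    have h0 : (k⁻¹ * g * k) • O0 = O0 := by
      rw [mul_smul, mul_smul, hgs', inv_smul_smul]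
    have hm : k⁻¹ * g * k ∈ M24 := M24.mul_mem (M24.mul_mem (M24.inv_mem hk) hg) hk
    refine ⟨(k⁻¹ * g * k) • x, ⟨hΩ _ hm x hx, hinv _ hm h0 x hx⟩, ?_⟩
    show k • (k⁻¹ * g * k) • x = g • k • x
    rw [mul_smul, mul_smul, smul_inv_smul]
  · rintro ⟨y, ⟨hy, hc⟩, rfl⟩
    obtain ⟨g, hg, h0, h1⟩ := hconj x hx y hy hc.symm
    have hm : k * g * k⁻¹ ∈ M24 := M24.mul_mem (M24.mul_mem hk hg) (M24.inv_mem hk)
    refine ⟨⟨⟨k * g * k⁻¹, hm⟩, MulAction.mem_stabilizer_iff.2 ?_⟩, ?_⟩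
    · show (k * g * k⁻¹) • k • O0 = k • O0
      rw [mul_smul, mul_smul, inv_smul_smul, h0]
    · show (k * g * k⁻¹) • k • x = k • y
      rw [mul_smul, mul_smul, inv_smul_smul, h1]

theorem ncard_translate (k : Equiv.Perm GolayPt) (A : Set X) :
    ((fun y => k • y) '' A).ncard = A.ncard :=
  Set.ncard_image_of_injective _ (MulAction.injective k)

/-- Membership in the translate of a class. -/
theorem mem_translate_class (Ω : Set X) (hΩ : ∀ g ∈ M24, ∀ x ∈ Ω, g • x ∈ Ω) (cl : X → ℕ)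
    {k : Equiv.Perm GolayPt} (hk : k ∈ M24) {y : X} (hy : y ∈ Ω) :
    y ∈ (fun z => k • z) '' {z | z ∈ Ω ∧ cl z = cl (k⁻¹ • y)} :=
  ⟨k⁻¹ • y, ⟨hΩ _ (M24.inv_mem hk) y hy, rfl⟩, smul_inv_smul k y⟩

/-- Data of an action with orbits given by the values of a class function. -/
structure Classes (Ω : Set X) (O0 : Y) (cl : X → ℕ) : Prop where
  hΩ : ∀ g ∈ M24, ∀ x ∈ Ω, g • x ∈ Ω
  hinv : ∀ g ∈ M24, g • O0 = O0 → ∀ x ∈ Ω, cl (g • x) = cl x
  hconj : ∀ x ∈ Ω, ∀ y ∈ Ω, cl x = cl y → ∃ g ∈ M24, g • O0 = O0 ∧ g • x = y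

theorem Classes.orbit_eq {Ω : Set X} {O0 : Y} {cl : X → ℕ} (h : Classes Ω O0 cl)
    {k : Equiv.Perm GolayPt} (hk : k ∈ M24) {x : X} (hx : x ∈ Ω) :
    MulAction.orbit (MulAction.stabilizer M24 (k • O0)) (k • x) =
      (fun y => k • y) '' {y | y ∈ Ω ∧ cl y = cl x} :=
  orbit_eq_class Ω h.hΩ cl h.hinv h.hconj hk hx

theorem Classes.ncard_orbit {Ω : Set X} {O0 : Y} {cl : X → ℕ} (h : Classes Ω O0 cl)
    {k : Equiv.Perm GolayPt} (hk : k ∈ M24) {x : X} (hx : x ∈ Ω) {n : ℕ}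
    (hn : {y | y ∈ Ω ∧ cl y = cl x}.ncard = n) :
    (MulAction.orbit (MulAction.stabilizer M24 (k • O0)) (k • x)).ncard = n := by
  rw [h.orbit_eq hk hx, ncard_translate, hn]

theorem Classes.mem_orbit {Ω : Set X} {O0 : Y} {cl : X → ℕ} (h : Classes Ω O0 cl)
    {k : Equiv.Perm GolayPt} (hk : k ∈ M24) {x y : X} (hx : x ∈ Ω) (hy : y ∈ Ω)
    (hc : cl (k⁻¹ • y) = cl x) :
    y ∈ MulAction.orbit (MulAction.stabilizer M24 (k • O0)) (k • x) := by
  rw [h.orbit_eq hk hx]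
  exact ⟨k⁻¹ • y, ⟨h.hΩ _ (M24.inv_mem hk) y hy, hc⟩, smul_inv_smul k y⟩

theorem Classes.orbit_subset {Ω : Set X} {O0 : Y} {cl : X → ℕ} (h : Classes Ω O0 cl)
    {k : Equiv.Perm GolayPt} (hk : k ∈ M24) {x : X} (hx : x ∈ Ω) :
    MulAction.orbit (MulAction.stabilizer M24 (k • O0)) (k • x) ⊆ Ω := by
  rw [h.orbit_eq hk hx]
  rintro _ ⟨y, hy, rfl⟩
  exact h.hΩ k hk y hy.1

/-- Three orbits. -/
theorem Classes.three {Ω : Set X} {O0 : Y} {cl : X → ℕ} (h : Classes Ω O0 cl)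
    {k : Equiv.Perm GolayPt} (hk : k ∈ M24) {a b c : X} (ha : a ∈ Ω) (hb : b ∈ Ω) (hc : c ∈ Ω)
    (hvals : ∀ y ∈ Ω, cl y = cl a ∨ cl y = cl b ∨ cl y = cl c) {n₁ n₂ n₃ : ℕ}
    (h₁ : {y | y ∈ Ω ∧ cl y = cl a}.ncard = n₁) (h₂ : {y | y ∈ Ω ∧ cl y = cl b}.ncard = n₂)
    (h₃ : {y | y ∈ Ω ∧ cl y = cl c}.ncard = n₃) :
    ∃ X₁ ∈ Ω, ∃ X₂ ∈ Ω, ∃ X₃ ∈ Ω,
      (MulAction.orbit (MulAction.stabilizer M24 (k • O0)) X₁).ncard = n₁ ∧
      (MulAction.orbit (MulAction.stabilizer M24 (k • O0)) X₂).ncard = n₂ ∧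
      (MulAction.orbit (MulAction.stabilizer M24 (k • O0)) X₃).ncard = n₃ ∧
      Ω = MulAction.orbit (MulAction.stabilizer M24 (k • O0)) X₁ ∪
        MulAction.orbit (MulAction.stabilizer M24 (k • O0)) X₂ ∪
        MulAction.orbit (MulAction.stabilizer M24 (k • O0)) X₃ := by
  refine ⟨k • a, h.hΩ k hk a ha, k • b, h.hΩ k hk b hb, k • c, h.hΩ k hk c hc,
    h.ncard_orbit hk ha h₁, h.ncard_orbit hk hb h₂, h.ncard_orbit hk hc h₃, ?_⟩
  apply Set.Subset.antisymm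
  · intro y hy
    rcases hvals _ (h.hΩ _ (M24.inv_mem hk) y hy) with e | e | e
    · exact Or.inl (Or.inl (h.mem_orbit hk ha hy e))
    · exact Or.inl (Or.inr (h.mem_orbit hk hb hy e))
    · exact Or.inr (h.mem_orbit hk hc hy e)
  · rintro y ((hy | hy) | hy)
    · exact h.orbit_subset hk ha hy
    · exact h.orbit_subset hk hb hy
    · exact h.orbit_subset hk hc hy

/-- Four orbits. -/
theorem Classes.four {Ω : Set X} {O0 : Y} {cl : X → ℕ} (h : Classes Ω O0 cl)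
    {k : Equiv.Perm GolayPt} (hk : k ∈ M24) {a b c d : X} (ha : a ∈ Ω) (hb : b ∈ Ω) (hc : c ∈ Ω)
    (hd : d ∈ Ω)
    (hvals : ∀ y ∈ Ω, cl y = cl a ∨ cl y = cl b ∨ cl y = cl c ∨ cl y = cl d) {n₁ n₂ n₃ n₄ : ℕ}
    (h₁ : {y | y ∈ Ω ∧ cl y = cl a}.ncard = n₁) (h₂ : {y | y ∈ Ω ∧ cl y = cl b}.ncard = n₂)
    (h₃ : {y | y ∈ Ω ∧ cl y = cl c}.ncard = n₃) (h₄ : {y | y ∈ Ω ∧ cl y = cl d}.ncard = n₄) :
    ∃ X₁ ∈ Ω, ∃ X₂ ∈ Ω, ∃ X₃ ∈ Ω, ∃ X₄ ∈ Ω,
      (MulAction.orbit (MulAction.stabilizer M24 (k • O0)) X₁).ncard = n₁ ∧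
      (MulAction.orbit (MulAction.stabilizer M24 (k • O0)) X₂).ncard = n₂ ∧
      (MulAction.orbit (MulAction.stabilizer M24 (k • O0)) X₃).ncard = n₃ ∧
      (MulAction.orbit (MulAction.stabilizer M24 (k • O0)) X₄).ncard = n₄ ∧
      Ω = MulAction.orbit (MulAction.stabilizer M24 (k • O0)) X₁ ∪
        MulAction.orbit (MulAction.stabilizer M24 (k • O0)) X₂ ∪
        MulAction.orbit (MulAction.stabilizer M24 (k • O0)) X₃ ∪
        MulAction.orbit (MulAction.stabilizer M24 (k • O0)) X₄ := by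
  refine ⟨k • a, h.hΩ k hk a ha, k • b, h.hΩ k hk b hb, k • c, h.hΩ k hk c hc, k • d, h.hΩ k hk d hd,
    h.ncard_orbit hk ha h₁, h.ncard_orbit hk hb h₂, h.ncard_orbit hk hc h₃, h.ncard_orbit hk hd h₄, ?_⟩
  apply Set.Subset.antisymm
  · intro y hy
    rcases hvals _ (h.hΩ _ (M24.inv_mem hk) y hy) with e | e | e | e
    · exact Or.inl (Or.inl (Or.inl (h.mem_orbit hk ha hy e)))
    · exact Or.inl (Or.inl (Or.inr (h.mem_orbit hk hb hy e)))
    · exact Or.inl (Or.inr (h.mem_orbit hk hc hy e))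
    · exact Or.inr (h.mem_orbit hk hd hy e)
  · rintro y (((hy | hy) | hy) | hy)
    · exact h.orbit_subset hk ha hy
    · exact h.orbit_subset hk hb hy
    · exact h.orbit_subset hk hc hy
    · exact h.orbit_subset hk hd hy

/-- The orbits of the stabiliser of a translate, with a singleton class for the object itself:
three further orbits. -/
theorem Classes.one_three {Ω : Set X} {O0 : Y} {cl : X → ℕ} (h : Classes Ω O0 cl)
    {k : Equiv.Perm GolayPt} (hk : k ∈ M24) {e a b c : X} (he : e ∈ Ω) (ha : a ∈ Ω) (hb : b ∈ Ω)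
    (hc : c ∈ Ω) (hvals : ∀ y ∈ Ω, cl y = cl e ∨ cl y = cl a ∨ cl y = cl b ∨ cl y = cl c)
    (hs : ∀ y ∈ Ω, cl y = cl e → y = e) {n₁ n₂ n₃ : ℕ}
    (h₁ : {y | y ∈ Ω ∧ cl y = cl a}.ncard = n₁) (h₂ : {y | y ∈ Ω ∧ cl y = cl b}.ncard = n₂)
    (h₃ : {y | y ∈ Ω ∧ cl y = cl c}.ncard = n₃) :
    ∃ X₁ ∈ Ω, ∃ X₂ ∈ Ω, ∃ X₃ ∈ Ω,
      (MulAction.orbit (MulAction.stabilizer M24 (k • O0)) X₁).ncard = n₁ ∧
      (MulAction.orbit (MulAction.stabilizer M24 (k • O0)) X₂).ncard = n₂ ∧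
      (MulAction.orbit (MulAction.stabilizer M24 (k • O0)) X₃).ncard = n₃ ∧
      Ω = {k • e} ∪ MulAction.orbit (MulAction.stabilizer M24 (k • O0)) X₁ ∪
        MulAction.orbit (MulAction.stabilizer M24 (k • O0)) X₂ ∪
        MulAction.orbit (MulAction.stabilizer M24 (k • O0)) X₃ := by
  refine ⟨k • a, h.hΩ k hk a ha, k • b, h.hΩ k hk b hb, k • c, h.hΩ k hk c hc,
    h.ncard_orbit hk ha h₁, h.ncard_orbit hk hb h₂, h.ncard_orbit hk hc h₃, ?_⟩
  apply Set.Subset.antisymm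
  · intro y hy
    have hy' := h.hΩ _ (M24.inv_mem hk) y hy
    rcases hvals _ hy' with e' | e' | e' | e'
    · refine Or.inl (Or.inl (Or.inl ?_))
      have := hs _ hy' e'
      rw [← this, smul_inv_smul]
      rfl
    · exact Or.inl (Or.inl (Or.inr (h.mem_orbit hk ha hy e')))
    · exact Or.inl (Or.inr (h.mem_orbit hk hb hy e'))
    · exact Or.inr (h.mem_orbit hk hc hy e')
  · rintro y (((hy | hy) | hy) | hy)
    · rw [Set.mem_singleton_iff.1 hy]
      exact h.hΩ k hk e he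
    · exact h.orbit_subset hk ha hy
    · exact h.orbit_subset hk hb hy
    · exact h.orbit_subset hk hc hy

/-- Maximality from classes. -/
theorem Classes.isCoatom {Ω : Set X} {O0 : X} {cl : X → ℕ} (h : Classes Ω O0 cl) {r : ℕ}
    (vals : Fin r → ℕ) (toFin : ℕ → Fin r) (h1 : ∀ c, toFin (vals c) = c)
    (h2 : ∀ y ∈ Ω, vals (toFin (cl y)) = cl y) (c0 : Fin r) (hc0 : cl O0 = vals c0)
    (hs : ∀ y ∈ Ω, cl y = vals c0 → y = O0) {y₀ : X} (hy₀ : y₀ ∈ Ω) (hy₀' : y₀ ≠ O0)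
    (sz : Fin r → ℕ) (n : ℕ) (hn : Ω.ncard = n)
    (hsz : ∀ c, {y | y ∈ Ω ∧ cl y = vals c}.ncard = sz c)
    (hO : MulAction.orbit M24 O0 = Ω)
    (hnum : ∀ S : Finset (Fin r), c0 ∈ S → (∑ c ∈ S, sz c) ∣ n → S = {c0} ∨ S = Finset.univ) :
    IsCoatom (MulAction.stabilizer M24 O0) := by
  refine OrbitCoatom.isCoatom_stabilizer_of_classes O0 Ω hO hy₀ hy₀' (fun y => toFin (cl y)) sz n hn c0
    (by show toFin (cl O0) = c0; rw [hc0, h1]) ?_ ?_ ?_ hnum
  · intro c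
    rw [← hsz c]
    congr 1
    ext y
    constructor
    · rintro ⟨hy, hc⟩
      refine ⟨hy, ?_⟩
      rw [← h2 y hy]
      exact congrArg vals hc
    · rintro ⟨hy, hc⟩
      refine ⟨hy, ?_⟩
      show toFin (cl y) = c
      rw [hc, h1]
  · intro y hy z hz hc
    have hc' : cl y = cl z := by
      rw [← h2 y hy, ← h2 z hz]
      exact congrArg vals hc
    obtain ⟨g, hg, h3, h4⟩ := h.hconj y hy z hz hc'
    exact ⟨⟨g, hg⟩, MulAction.mem_stabilizer_iff.2 h3, h4⟩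
  · intro y hy hc
    apply hs y hy
    rw [← h2 y hy]
    have hc1 : toFin (cl y) = toFin (cl O0) := hc
    rw [hc1, hc0, h1]

end generic

/-- Change of the base object. -/
theorem Classes.congr {X Y Y' : Type*} [MulAction (Equiv.Perm GolayPt) X]
    [MulAction (Equiv.Perm GolayPt) Y] [MulAction (Equiv.Perm GolayPt) Y']
    {Ω : Set X} {O0 : Y} {O1 : Y'} {cl : X → ℕ} (h : Classes Ω O0 cl)
    (he : ∀ g : Equiv.Perm GolayPt, g ∈ M24 → (g • O0 = O0 ↔ g • O1 = O1)) : Classes Ω O1 cl where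
  hΩ := h.hΩ
  hinv := fun g hg h0 x hx => h.hinv g hg ((he g hg).2 h0) x hx
  hconj := fun x hx y hy hc => by
    obtain ⟨g, hg, h0, h1⟩ := h.hconj x hx y hy hc
    exact ⟨g, hg, (he g hg).1 h0, h1⟩

/-! ### Stabilisers of families of masks -/

/-- The stabiliser in `M24` of a family of masks. -/
def stabF (L : List ℕ) : Subgroup (Equiv.Perm GolayPt) :=
  M24 ⊓ MulAction.stabilizer (Equiv.Perm GolayPt) (famOf L)

theorem stabF_le (L : List ℕ) : stabF L ≤ M24 := inf_le_left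

/-- Generator check for `stabF`. -/
def genOKF (L : List ℕ) (T : List ℕ) : Bool :=
  goodT T && L.all fun m => decide (applyT T m ∈ L)

theorem moves_of_genOKF {L T : List ℕ} (h : genOKF L T = true) : Moves (stabF L) (applyT T) := by
  simp only [genOKF, Bool.and_eq_true, List.all_eq_true, decide_eq_true_eq] at h
  refine ⟨gPerm T h.1, ⟨gPerm_mem h.1, ?_⟩, fun m => ofMask_applyT _ m⟩
  show gPerm T h.1 • famOf L = famOf L
  apply Finset.eq_of_subset_of_card_le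
  · intro s hs
    obtain ⟨t, ht, rfl⟩ := Finset.mem_smul_finset.1 hs
    obtain ⟨m, hm, rfl⟩ := mem_famOf.1 ht
    refine mem_famOf.2 ⟨_, h.2 m hm, ?_⟩
    exact ofMask_applyT _ m
  · rw [Finset.card_smul_finset]

/-- Check of generators with their compiled tables. -/
def gensFOK (L : List ℕ) : List (List ℕ) → List ℕ → Bool
  | [], [] => true
  | T :: Ts, t :: ts => genOKF L T && tbOK T t && gensFOK L Ts ts
  | _, _ => false

theorem moves_of_gensFOK {L : List ℕ} {gens : List (List ℕ)} {tbs : List ℕ}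
    (h : gensFOK L gens tbs = true) : ∀ t ∈ tbs, Moves (stabF L) (fap t) := by
  induction gens generalizing tbs with
  | nil =>
    cases tbs with
    | nil => simp
    | cons t ts => simp [gensFOK] at h
  | cons T Ts ih =>
    cases tbs with
    | nil => simp [gensFOK] at h
    | cons t ts =>
      simp only [gensFOK, Bool.and_eq_true] at h
      intro u hu
      rcases List.mem_cons.1 hu with rfl | hu
      · exact moves_fap h.1.2 (moves_of_genOKF h.1.1)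
      · exact ih h.2 u hu

/-! ### Invariants of pairs of families -/

/-- A numerical invariant of two families of subsets. -/
def clF (A B : Finset (Finset GolayPt)) : ℕ := ∑ a ∈ A, ∑ b ∈ B, 5 ^ (a ∩ b).card

/-- A numerical invariant of a family of subsets and a subset. -/
def clO (A : Finset (Finset GolayPt)) (x : Finset GolayPt) : ℕ := ∑ a ∈ A, 5 ^ (x ∩ a).card

theorem clF_smul (g : Equiv.Perm GolayPt) (A B : Finset (Finset GolayPt)) :
    clF (g • A) (g • B) = clF A B := by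
  unfold clF
  rw [show g • A = A.image (g • ·) from rfl, show g • B = B.image (g • ·) from rfl]
  rw [Finset.sum_image (fun a _ b _ h => MulAction.injective g h)]
  apply Finset.sum_congr rfl
  intro a _
  rw [Finset.sum_image (fun a _ b _ h => MulAction.injective g h)]
  apply Finset.sum_congr rfl
  intro b _
  rw [inter_smul_card]

theorem clO_smul (g : Equiv.Perm GolayPt) (A : Finset (Finset GolayPt)) (x : Finset GolayPt) :
    clO (g • A) (g • x) = clO A x := by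
  unfold clO
  rw [show g • A = A.image (g • ·) from rfl]
  rw [Finset.sum_image (fun a _ b _ h => MulAction.injective g h)]
  apply Finset.sum_congr rfl
  intro a _
  rw [inter_smul_card]

theorem clF_invariant {O0 : Finset (Finset GolayPt)} {g : Equiv.Perm GolayPt} (h : g • O0 = O0)
    (x : Finset (Finset GolayPt)) : clF O0 (g • x) = clF O0 x := by
  conv_lhs => rw [← h]
  exact clF_smul g O0 x

theorem clO_invariant {O0 : Finset (Finset GolayPt)} {g : Equiv.Perm GolayPt} (h : g • O0 = O0)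
    (x : Finset GolayPt) : clO O0 (g • x) = clO O0 x := by
  conv_lhs => rw [← h]
  exact clO_smul g O0 x

theorem sum_famOf {L : List ℕ} (f : Finset GolayPt → ℕ) (hL : L.Nodup) (hL' : ∀ a ∈ L, a < 2 ^ 24) :
    ∑ a ∈ famOf L, f a = (L.map fun a => f (ofMask a)).sum := by
  unfold famOf
  rw [List.sum_toFinset f (hL.map_on fun a ha b hb h => (ofMask_inj (hL' a ha) (hL' b hb)).1 h),
    List.map_map]
  rfl

theorem clRow_eq (a : ℕ) (L : List ℕ) : clRow a L = (L.map fun b => 5 ^ (ofMask a ∩ ofMask b).card).sum := by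
  induction L with
  | nil => rfl
  | cons b L ih =>
    simp only [clRow, List.map_cons, List.sum_cons, ih]
    show 5 ^ fpop (a &&& b) + _ = _
    rw [fpop_eq, ← card_ofMask, ofMask_and]

theorem clO_famOf {L : List ℕ} (h : L.Nodup) (h' : ∀ a ∈ L, a < 2 ^ 24) (m : ℕ) :
    clO (famOf L) (ofMask m) = clRow m L := by
  unfold clO
  rw [sum_famOf _ h h', clRow_eq]

theorem clLL_eq (L1 L2 : List ℕ) : clLL L1 L2 = (L1.map fun a => clRow a L2).sum := by
  induction L1 with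
  | nil => rfl
  | cons a L ih =>
    simp only [clLL, List.map_cons, List.sum_cons, ih]
    rfl

theorem clF_famOf {L1 L2 : List ℕ} (h1 : L1.Nodup) (h2 : L2.Nodup) (h1' : ∀ a ∈ L1, a < 2 ^ 24)
    (h2' : ∀ a ∈ L2, a < 2 ^ 24) : clF (famOf L1) (famOf L2) = clLL L1 L2 := by
  unfold clF
  rw [sum_famOf _ h1 h1', clLL_eq]
  congr 1
  apply List.map_congr_left
  intro a _
  rw [sum_famOf _ h2 h2', clRow_eq]

theorem singleton_class {X : Type*} {Ω : Set X} {cl : X → ℕ}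
    {e : X} (he : e ∈ Ω) (hn : {y | y ∈ Ω ∧ cl y = cl e}.ncard = 1) :
    ∀ y ∈ Ω, cl y = cl e → y = e := by
  obtain ⟨a, ha⟩ := Set.ncard_eq_one.1 hn
  intro y hy hc
  have h1 : y ∈ {y | y ∈ Ω ∧ cl y = cl e} := ⟨hy, hc⟩
  have h2 : e ∈ {y | y ∈ Ω ∧ cl y = cl e} := ⟨he, rfl⟩
  rw [ha] at h1 h2
  rw [Set.mem_singleton_iff.1 h1, Set.mem_singleton_iff.1 h2]

end Cfsg.Agent.Lib.Sporadic.M24Classes
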