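import Cfsg.Agent.Lib.Sporadic.M24Sextet
import Cfsg.Agent.Lib.Sporadic.M24Dodecad

/-!
# Cosets of the code: leaders of weight at most 4
-/

namespace Cfsg.Agent.Lib.Sporadic.M24Coset

open Cfsg Cfsg.Agent.Lib.Sporadic.GolayCore Cfsg.Agent.Lib.Sporadic.M24Sextet
open Cfsg.Agent.Lib.Sporadic.M24Act Cfsg.Agent.Lib.Sporadic.M24Tbl
open scoped Pointwise

theorem hammingNorm_eq (v : GolayPt → ZMod 2) : hammingNorm v = popc (maskOfWord v) := by
  unfold maskOfWord
  rw [← card_eq_popc]
  rfl

theorem hammingNorm_eq_card (v : GolayPt → ZMod 2) : hammingNorm v = (support₂ v).card := rfl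

theorem code_small {x : GolayPt → ZMod 2} (hx : x ∈ golayCode) (h : hammingNorm x < 8) : x = 0 := by
  rw [hammingNorm_eq] at h
  have h1 := codeList_weights _ (maskOfWord_mem_codeList hx)
  rcases h1 with h1 | h1
  · rw [← wordOf_maskOfWord x, h1, wordOf_zero]
  · omega

theorem norm_add (a b : GolayPt → ZMod 2) : hammingNorm (a + b) + 2 * (support₂ a ∩ support₂ b).card =
    hammingNorm a + hammingNorm b := by
  rw [hammingNorm_eq, hammingNorm_eq, hammingNorm_eq, maskOfWord_add, card_eq_popc, toMask_inter]
  exact popc_xor_add _ _

theorem sub_eq_add' (a b : GolayPt → ZMod 2) : a - b = a + b := by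
  funext p
  have : ∀ x y : ZMod 2, x - y = x + y := by decide
  exact this _ _

/-- Every word is congruent modulo the code to a word of weight at most 4. -/
theorem exists_low (w : GolayPt → ZMod 2) : ∃ v, hammingNorm v ≤ 4 ∧ w - v ∈ golayCode := by
  induction h : hammingNorm w using Nat.strong_induction_on generalizing w with
  | _ n ih =>
    by_cases hn : n ≤ 4
    · exact ⟨w, by omega, by simp⟩
    · have hc : 5 ≤ (support₂ w).card := by
        rw [← hammingNorm_eq_card, h]
        omega
      obtain ⟨s, hs, hs5⟩ := Finset.exists_subset_card_eq hc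
      obtain ⟨o, ho, hso⟩ := exists_octad_of_five hs5
      obtain ⟨x, hx, hxo⟩ := ho.1
      have hx8 : hammingNorm x = 8 := by
        rw [hammingNorm_eq_card, hxo]
        exact ho.2
      have h1 := norm_add w x
      have h2 : 5 ≤ (support₂ w ∩ support₂ x).card := by
        rw [hxo, ← hs5]
        exact Finset.card_le_card (Finset.subset_inter hs hso)
      have h3 : hammingNorm (w + x) < n := by omega
      obtain ⟨v, hv, hv'⟩ := ih _ h3 (w + x) rfl
      refine ⟨v, hv, ?_⟩
      have h4 : w - v = (w + x - v) - x := by abel
      rw [h4]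
      exact golayCode.sub_mem hv' hx

/-- The word of a subset. -/
noncomputable def ind (s : Finset GolayPt) : GolayPt → ZMod 2 := wordOf (toMask s)

theorem ind_apply (s : Finset GolayPt) (p : GolayPt) : ind s p = if p ∈ s then 1 else 0 := by
  simp only [ind, wordOf, testBit_toMask]
  simp

theorem support_ind (s : Finset GolayPt) : support₂ (ind s) = s := by
  unfold ind
  rw [support_wordOf, ofMask_toMask]

theorem ind_support (v : GolayPt → ZMod 2) : ind (support₂ v) = v := wordOf_maskOfWord v

theorem norm_ind (s : Finset GolayPt) : hammingNorm (ind s) = s.card := by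
  rw [hammingNorm_eq_card, support_ind]

theorem ind_union {t u : Finset GolayPt} (h : Disjoint t u) : ind (t ∪ u) = ind t + ind u := by
  funext p
  simp only [Pi.add_apply, ind_apply, Finset.mem_union]
  by_cases h1 : p ∈ t
  · have h2 : p ∉ u := Finset.disjoint_left.1 h h1
    simp [h1, h2]
  · by_cases h2 : p ∈ u <;> simp [h1, h2]

theorem ind_mem_code {o : Finset GolayPt} (ho : o ∈ supports (golayCode : Set (GolayPt → ZMod 2))) :
    ind o ∈ golayCode := by
  obtain ⟨x, hx, rfl⟩ := ho
  rwa [ind_support]

/-- Coset leaders. -/
theorem coset_leaders (w : GolayPt → ZMod 2) :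
    ({v : GolayPt → ZMod 2 | hammingNorm v ≤ 4 ∧ w - v ∈ golayCode}.ncard = 1 ∧
      ∃ v : GolayPt → ZMod 2, hammingNorm v ≤ 3 ∧ w - v ∈ golayCode) ∨
    ({v : GolayPt → ZMod 2 | hammingNorm v ≤ 4 ∧ w - v ∈ golayCode}.ncard = 6 ∧
      ∀ v : GolayPt → ZMod 2, w - v ∈ golayCode → hammingNorm v ≤ 4 → hammingNorm v = 4) := by
  by_cases hex : ∃ v : GolayPt → ZMod 2, hammingNorm v ≤ 3 ∧ w - v ∈ golayCode
  · left
    refine ⟨?_, hex⟩
    obtain ⟨v0, hv0, hv0'⟩ := hex
    have : {v : GolayPt → ZMod 2 | hammingNorm v ≤ 4 ∧ w - v ∈ golayCode} = {v0} := by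
      ext v
      constructor
      · rintro ⟨h1, h2⟩
        have h3 : v0 + v ∈ golayCode := by
          have h4 : v0 + v = (w - v0) + (w - v) := by
            rw [sub_eq_add', sub_eq_add']
            funext p
            have : ∀ a b c : ZMod 2, b + c = a + b + (a + c) := by decide
            exact this _ _ _
          rw [h4]
          exact golayCode.add_mem hv0' h2
        have h5 := norm_add v0 v
        have h6 := code_small h3 (by omega)
        have h7 : v = v0 := by
          funext p
          have h8 := congrFun h6 p
          simp only [Pi.add_apply, Pi.zero_apply] at h8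
          have : ∀ a b : ZMod 2, a + b = 0 → b = a := by decide
          exact this _ _ h8
        exact h7
      · rintro rfl
        exact ⟨by omega, hv0'⟩
    rw [this, Set.ncard_singleton]
  · right
    push Not at hex
    have hall : ∀ v : GolayPt → ZMod 2, w - v ∈ golayCode → hammingNorm v ≤ 4 → hammingNorm v = 4 := by
      intro v hv hv4
      by_contra hne
      exact hex v (by omega) hv
    refine ⟨?_, hall⟩
    obtain ⟨v0, hv0, hv0'⟩ := exists_low w
    have hv04 := hall v0 hv0' hv0
    set t := support₂ v0 with ht
    have ht4 : t.card = 4 := by rw [← hammingNorm_eq_card]; exact hv04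
    have hindt : ind t = v0 := ind_support v0
    have hS := sextetOf_mem ht4
    have hA : {v : GolayPt → ZMod 2 | hammingNorm v ≤ 4 ∧ w - v ∈ golayCode} =
        ind '' (sextetOf t : Set (Finset GolayPt)) := by
      ext v
      constructor
      · rintro ⟨h1, h2⟩
        have hv4 := hall v h2 h1
        have hu4 : (support₂ v).card = 4 := by rw [← hammingNorm_eq_card]; exact hv4
        refine ⟨support₂ v, ?_, ind_support v⟩
        have h3 : v0 + v ∈ golayCode := by
          have h4 : v0 + v = (w - v0) + (w - v) := by
            rw [sub_eq_add', sub_eq_add']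
            funext p
            have : ∀ a b c : ZMod 2, b + c = a + b + (a + c) := by decide
            exact this _ _ _
          rw [h4]
          exact golayCode.add_mem hv0' h2
        have h5 := norm_add v0 v
        rw [← ht] at h5
        by_cases hzero : v0 + v = 0
        · have h7 : v = v0 := by
            funext p
            have h8 := congrFun hzero p
            simp only [Pi.add_apply, Pi.zero_apply] at h8
            have : ∀ a b : ZMod 2, a + b = 0 → b = a := by decide
            exact this _ _ h8
          rw [h7]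
          exact mem_sextetOf ht4
        · have h6 : 8 ≤ hammingNorm (v0 + v) := by
            by_contra hlt
            exact hzero (code_small h3 (by omega))
          have h7 : (t ∩ support₂ v).card = 0 := by omega
          have hdis : Disjoint t (support₂ v) := by
            rwa [Finset.card_eq_zero, ← Finset.disjoint_iff_inter_eq_empty] at h7
          have h8 : ind (t ∪ support₂ v) = v0 + v := by
            rw [ind_union hdis, hindt, ind_support]
          have h9 : t ∪ support₂ v ∈ octads := by
            refine ⟨⟨v0 + v, h3, ?_⟩, ?_⟩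
            · rw [← h8, support_ind]
            · rw [Finset.card_union_of_disjoint hdis, ht4, hu4]
          rw [sextetOf_eq_of_union ht4 hu4 h9]
          exact mem_sextetOf hu4
      · rintro ⟨u, hu, rfl⟩
        have hu' : u ∈ sextetOf t := hu
        have hu4 := hS.2.1 u hu'
        refine ⟨by rw [norm_ind, hu4], ?_⟩
        by_cases hne : t = u
        · rw [← hne, hindt]
          exact hv0'
        · have h1 := hS.2.2 t (mem_sextetOf ht4) u hu' hne
          have hdis := sextets_disjoint hS (mem_sextetOf ht4) hu' hne
          have h2 := ind_mem_code h1.1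
          rw [ind_union hdis, hindt] at h2
          have h3 : w - ind u = (w - v0) + (v0 + ind u) := by
            rw [sub_eq_add', sub_eq_add']
            funext p
            have : ∀ a b c : ZMod 2, a + c = a + b + (b + c) := by decide
            exact this _ _ _
          rw [h3]
          exact golayCode.add_mem hv0' h2
    rw [hA, Set.InjOn.ncard_image, Set.ncard_coe_finset, hS.1]
    intro a _ b _ hab
    have := congrArg support₂ hab
    rwa [support_ind, support_ind] at this

/-! ### Irreducibility of the code modulo the all-ones word -/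

theorem ind_smul (g : Equiv.Perm GolayPt) (s : Finset GolayPt) :
    ind (g • s) = fun p => ind s (g.symm p) := by
  funext p
  rw [ind_apply, ind_apply]
  exact if_congr (Cfsg.Agent.Lib.Sporadic.M24Basic.mem_smul_iff_inv g s p) rfl rfl

theorem one_eq_ind_univ : (fun _ : GolayPt => (1 : ZMod 2)) = ind Finset.univ := by
  funext p
  rw [ind_apply]
  simp

theorem all_mem_code : (fun _ : GolayPt => (1 : ZMod 2)) ∈ golayCode := by
  have h := wordOf_allMask_mem
  rwa [wordOf_eq_one] at h

/-- A subspace of the code stable under `M24` containing an octad contains the code. -/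
theorem code_le_of_octad {W : Submodule (ZMod 2) (GolayPt → ZMod 2)}
    (hW : ∀ σ ∈ M24, ∀ w ∈ W, (fun p => w (σ.symm p)) ∈ W) {o : Finset GolayPt} (ho : o ∈ octads)
    (h : ind o ∈ W) : golayCode ≤ W := by
  have hall : ∀ o' ∈ octads, ind o' ∈ W := by
    intro o' ho'
    obtain ⟨g, hg, rfl⟩ := exists_smul_octad ho ho'
    rw [ind_smul]
    exact hW g hg _ h
  intro c hc
  induction hn : hammingNorm c using Nat.strong_induction_on generalizing c with
  | _ n ih =>
    by_cases hzero : c = 0
    · rw [hzero]
      exact W.zero_mem
    · have h8 : 8 ≤ n := by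
        by_contra hlt
        exact hzero (code_small hc (by omega))
      have hcard : 5 ≤ (support₂ c).card := by
        rw [← hammingNorm_eq_card, hn]
        omega
      obtain ⟨s, hs, hs5⟩ := Finset.exists_subset_card_eq hcard
      obtain ⟨o', ho', hso⟩ := exists_octad_of_five hs5
      obtain ⟨x, hx, hxo⟩ := ho'.1
      have hx8 : hammingNorm x = 8 := by
        rw [hammingNorm_eq_card, hxo]
        exact ho'.2
      have h1 := norm_add c x
      have h2 : 5 ≤ (support₂ c ∩ support₂ x).card := by
        rw [hxo, ← hs5]
        exact Finset.card_le_card (Finset.subset_inter hs hso)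
      have h3 := ih (hammingNorm (c + x)) (by omega) (golayCode.add_mem hc hx) rfl
      have hxW : x ∈ W := by
        have := hall o' ho'
        rwa [← hxo, ind_support] at this
      have h4 : c = (c + x) - x := by abel
      rw [h4]
      exact W.sub_mem h3 hxW

theorem card_compl_sdiff {a b : Finset GolayPt} :
    (a \ b).card + (a ∩ b).card = a.card := Finset.card_sdiff_add_card_inter a b

/-- The code modulo the all-ones word is irreducible. -/
theorem code_irreducible :
    (fun _ : GolayPt => (1 : ZMod 2)) ∈ golayCode ∧
    ∀ W : Submodule (ZMod 2) (GolayPt → ZMod 2), (fun _ => (1 : ZMod 2)) ∈ W → W ≤ golayCode →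
      (∀ σ ∈ M24, ∀ w ∈ W, (fun p => w (σ.symm p)) ∈ W) →
      W = Submodule.span (ZMod 2) {fun _ => (1 : ZMod 2)} ∨ W = golayCode := by
  refine ⟨all_mem_code, fun W h1 hle hinv => ?_⟩
  by_cases hspan : W = Submodule.span (ZMod 2) {fun _ => (1 : ZMod 2)}
  · exact Or.inl hspan
  · right
    apply le_antisymm hle
    have hsp : Submodule.span (ZMod 2) {fun _ => (1 : ZMod 2)} ≤ W :=
      (Submodule.span_singleton_le_iff_mem _ _).2 h1
    obtain ⟨w, hwW, hwnot⟩ : ∃ w ∈ W, w ∉ Submodule.span (ZMod 2) {fun _ => (1 : ZMod 2)} := by
      by_contra hcon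
      push Not at hcon
      exact hspan (le_antisymm hcon hsp)
    have hw0 : w ≠ 0 := fun h => hwnot (h ▸ Submodule.zero_mem _)
    have hw1 : w ≠ fun _ => 1 := fun h => hwnot (h ▸ Submodule.mem_span_singleton_self _)
    have hwC := hle hwW
    have hm := maskOfWord_mem_codeList hwC
    -- the possible weights
    have hweights : ∀ m ∈ codeList, m = 0 ∨ popc m = 8 ∨ popc m = 12 ∨ popc m = 16 ∨ m = allMask := by
      have h : codeAll (fun m => decide (m = 0) || decide (popc m = 8) || decide (popc m = 12) ||
        decide (popc m = 16) || decide (m = allMask)) = true := by decide +kernel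
      intro m hm
      simpa [or_assoc] using (codeAll_iff _).1 h m hm
    have hne0 : maskOfWord w ≠ 0 := by
      intro h
      apply hw0
      rw [← wordOf_maskOfWord w, h, wordOf_zero]
    have hneA : maskOfWord w ≠ allMask := by
      intro h
      apply hw1
      rw [← wordOf_maskOfWord w, h, wordOf_eq_one]
      rfl
    have hnorm : hammingNorm w = 8 ∨ hammingNorm w = 12 ∨ hammingNorm w = 16 := by
      rw [hammingNorm_eq]
      rcases hweights _ hm with h | h | h | h | h
      · exact absurd h hne0
      · exact Or.inl h
      · exact Or.inr (Or.inl h)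
      · exact Or.inr (Or.inr h)
      · exact absurd h hneA
    -- an octad or a dodecad in `W`
    have hoct : ∃ o ∈ octads, ind o ∈ W := by
      have hoct_of_dod : ∀ d ∈ dodecads, ind d ∈ W → ∃ o ∈ octads, ind o ∈ W := by
        intro d hd hdW
        -- another dodecad meeting `d` in 8 points
        obtain ⟨g, hg, rfl⟩ := Cfsg.Agent.Lib.Sporadic.M24Dodecad.exists_smul_dod0 hd
        have hA : ofMask 28637 ∈ dodecads :=
          Cfsg.Agent.Lib.Sporadic.M24Dodecad.isDodecad_ofMask (by decide +kernel)
        have hA' := smul_mem_dodecads hg hA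
        obtain ⟨h', hh', hh'e⟩ := Cfsg.Agent.Lib.Sporadic.M24Dodecad.exists_smul_dodecad hd hA'
        have h2 : ind (g • ofMask 28637) ∈ W := by
          rw [← hh'e, ind_smul]
          exact hinv h' hh' _ hdW
        have hx := W.add_mem hdW h2
        have hxC := hle hx
        have h3 := norm_add (ind (g • ofMask Cfsg.Agent.Lib.Sporadic.M24Dodecad.dod0))
          (ind (g • ofMask 28637))
        rw [support_ind, support_ind, ← Finset.smul_finset_inter, Finset.card_smul_finset, norm_ind,
          norm_ind, hd.2, hA'.2, ← ofMask_and, show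
            (ofMask (Cfsg.Agent.Lib.Sporadic.M24Dodecad.dod0 &&& 28637)).card = 8 by decide +kernel] at h3
        refine ⟨support₂ _, ⟨⟨_, hxC, rfl⟩, ?_⟩, by rwa [ind_support]⟩
        rw [← hammingNorm_eq_card]
        omega
      rcases hnorm with h8 | h12 | h16
      · refine ⟨support₂ w, ⟨⟨w, hwC, rfl⟩, ?_⟩, by rwa [ind_support]⟩
        rw [← hammingNorm_eq_card, h8]
      · exact hoct_of_dod (support₂ w) ⟨⟨w, hwC, rfl⟩, by rw [← hammingNorm_eq_card, h12]⟩
          (by rwa [ind_support])
      · have hx : w + (fun _ => 1) ∈ W := W.add_mem hwW h1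
        have hxC := hle hx
        have h2 := norm_add w (fun _ => 1)
        have h3 : hammingNorm (fun _ : GolayPt => (1 : ZMod 2)) = 24 := by decide +kernel
        have h4 : support₂ (fun _ : GolayPt => (1 : ZMod 2)) = Finset.univ := by decide +kernel
        rw [h4, Finset.inter_univ, ← hammingNorm_eq_card, h16, h3] at h2
        refine ⟨support₂ (w + (fun _ => 1)), ⟨⟨_, hxC, rfl⟩, ?_⟩, by rwa [ind_support]⟩
        rw [← hammingNorm_eq_card]
        omega
    obtain ⟨o, ho, hoW⟩ := hoct
    exact code_le_of_octad hinv ho hoW

end Cfsg.Agent.Lib.Sporadic.M24Coset
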