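import Cfsg.Agent.Lib.Sporadic.M24DodCert

/-!
# Flags in dodecads: transport, and the action of the point stabiliser of a dodecad
-/

namespace Cfsg.Agent.Lib.Sporadic.M24DodFlag

open Cfsg Cfsg.Agent.Lib.Sporadic.GolayCore Cfsg.Agent.Lib.Sporadic.M24Tbl
open Cfsg.Agent.Lib.Sporadic.M24Chain Cfsg.Agent.Lib.Sporadic.M24Basic
open Cfsg.Agent.Lib.Sporadic.M24Act Cfsg.Agent.Lib.Sporadic.M24Lists
open Cfsg.Agent.Lib.Sporadic.M24Orbit Cfsg.Agent.Lib.Sporadic.M24Count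
open Cfsg.Agent.Lib.Sporadic.M24Flag Cfsg.Agent.Lib.Sporadic.M24Dodecad
open Cfsg.Agent.Lib.Sporadic.M24DodCert
open scoped Pointwise

def a0 : ℕ := 4
def a1 : ℕ := 5
def a2 : ℕ := 10

/-- The points outside `dod0`. -/
def outerL : List ℕ := [4, 5, 10, 11, 13, 16, 17, 18, 19, 20, 21, 22]

def tbl0 : List (List ℕ) := [
  [0,1,2,3,4,5,6,7,8,9,10,11,12,13,14,15,16,17,18,19,20,21,22,23],
  [3,8,6,1,5,13,2,14,7,12,22,21,15,20,0,9,4,10,16,19,18,11,17,23],
  [12,9,2,15,10,21,0,7,8,3,13,17,14,16,6,1,4,11,20,22,19,5,18,23],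
  [12,14,1,6,11,10,15,9,3,7,13,4,8,17,2,0,19,22,16,18,20,5,21,23],
  [8,14,6,12,13,5,15,9,7,2,11,18,1,22,0,3,20,21,17,10,19,4,16,23],
  [3,6,1,9,16,21,2,15,7,0,10,11,12,17,14,8,19,20,5,4,13,18,22,23],
  [3,9,0,12,17,11,6,15,8,7,18,21,2,22,14,1,20,10,4,5,16,19,13,23],
  [14,15,7,6,18,5,0,9,1,8,11,19,3,16,2,12,4,20,10,21,22,17,13,23],
  [0,8,6,15,19,22,12,14,9,3,13,11,7,16,2,1,18,17,20,21,10,5,4,23],
  [6,8,14,3,20,19,0,12,1,9,10,17,7,13,2,15,22,11,18,5,4,21,16,23],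
  [15,12,14,8,21,22,6,3,1,2,19,18,9,20,7,0,10,11,5,17,4,13,16,23],
  [12,9,14,15,22,5,3,0,7,8,20,19,6,4,1,2,13,18,16,10,17,11,21,23]]
def tbl1 : List (List ℕ) := [
  [0,1,2,3,4,5,6,7,8,9,10,11,12,13,14,15,16,17,18,19,20,21,22,23],
  [14,15,7,3,4,10,12,8,6,0,17,5,2,13,1,9,18,19,20,11,21,22,16,23],
  [14,9,0,3,4,11,8,1,7,6,13,17,15,5,12,2,20,10,21,19,18,22,16,23],
  [7,8,3,14,4,13,1,2,6,0,17,21,15,18,9,12,10,5,16,20,19,22,11,23],
  [3,14,9,15,4,16,6,1,12,7,13,11,0,17,2,8,19,22,10,21,5,20,18,23],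
  [6,9,3,2,4,17,8,12,1,15,5,20,14,16,7,0,11,10,21,22,19,18,13,23],
  [1,6,14,7,4,18,0,15,2,9,21,10,12,19,8,3,13,17,22,16,20,11,5,23],
  [14,0,9,8,4,19,3,12,15,6,18,17,7,20,1,2,5,22,21,11,13,10,16,23],
  [15,9,2,0,4,20,8,7,12,14,16,11,6,13,1,3,17,10,21,18,22,19,5,23],
  [9,8,1,7,4,21,15,3,2,14,19,16,6,18,12,0,13,10,5,17,22,11,20,23],
  [7,6,1,9,4,22,12,3,14,2,19,18,8,16,15,0,10,13,17,5,21,11,20,23]]
def tbl2 : List (List ℕ) := [
  [0,1,2,3,4,5,6,7,8,9,10,11,12,13,14,15,16,17,18,19,20,21,22,23],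
  [15,8,3,12,4,5,14,0,7,9,11,21,6,22,2,1,13,10,16,18,17,20,19,23],
  [15,0,9,3,4,5,2,1,7,12,13,17,14,11,6,8,22,19,21,10,16,20,18,23],
  [0,15,9,6,4,5,14,7,1,12,16,20,2,11,3,8,18,19,10,21,13,17,22,23],
  [15,7,2,14,4,5,9,8,0,12,17,13,3,21,6,1,22,20,11,18,16,19,10,23],
  [7,8,9,14,4,5,6,0,1,2,18,21,12,17,3,15,16,13,10,20,19,11,22,23],
  [1,7,6,3,4,5,14,8,15,2,19,13,9,10,12,0,20,11,22,17,21,18,16,23],
  [0,8,14,6,4,5,9,1,7,3,20,16,2,11,12,15,13,21,10,19,18,22,17,23],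
  [1,15,12,14,4,5,2,7,8,3,21,20,6,13,9,0,10,18,19,17,22,16,11,23],
  [1,15,9,12,4,5,3,8,0,6,22,10,2,21,14,7,19,18,20,11,13,17,16,23]]
def tbl3 : List (List ℕ) := [
  [0,1,2,3,4,5,6,7,8,9,10,11,12,13,14,15,16,17,18,19,20,21,22,23],
  [0,1,12,6,5,4,3,15,8,14,13,18,2,10,9,7,16,17,11,22,20,21,19,23],
  [0,1,12,14,10,13,2,8,3,9,17,21,15,5,7,6,19,20,22,18,4,11,16,23],
  [0,1,7,9,11,18,14,12,8,6,19,5,15,22,3,2,17,16,4,13,21,20,10,23],
  [0,1,9,2,13,20,3,7,14,6,17,22,8,5,15,12,21,10,19,16,4,18,11,23],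
  [0,1,12,8,16,18,14,7,9,15,22,17,6,19,2,3,5,11,4,20,21,13,10,23],
  [0,1,15,8,17,4,3,12,6,2,10,16,14,13,7,9,18,5,11,21,20,22,19,23],
  [0,1,6,14,18,16,8,3,9,2,19,4,12,22,15,7,5,11,17,10,21,13,20,23],
  [0,1,15,12,19,21,8,7,2,14,11,10,9,18,3,6,13,22,20,5,16,4,17,23],
  [0,1,8,6,20,10,12,2,9,7,4,22,14,17,3,15,21,13,19,18,5,11,16,23],
  [0,1,14,8,21,22,2,3,12,6,11,20,7,18,9,15,10,19,13,17,16,5,4,23],
  [0,1,6,2,22,19,12,9,8,15,11,13,3,18,7,14,20,21,10,4,16,17,5,23]]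

def gensC : List (List ℕ) := [
  [9,6,7,3,4,10,0,8,15,12,19,13,1,5,2,14,18,17,22,11,16,20,21,23],
  [9,0,2,8,17,4,15,1,12,14,13,5,7,16,3,6,19,21,22,10,18,20,11,23],
  [7,12,3,0,16,19,2,14,9,1,5,4,15,22,8,6,13,17,20,21,11,18,10,23],
  [7,8,1,15,13,5,2,3,9,6,18,10,12,19,0,14,16,4,21,20,17,22,11,23],
  [14,12,9,7,4,19,3,0,2,1,18,17,8,21,6,15,13,16,20,10,5,11,22,23],
  [1,6,7,14,4,17,3,12,9,2,21,13,15,20,8,0,10,18,22,5,19,11,16,23]]

theorem gensC_ok : gensC.all (genOK [dod0, 2 ^ 23]) = true := by decide +kernel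

set_option maxRecDepth 100000 in
def treeC : CT :=
  (.node (.node (.node (.node (.node (.node (.node (.node (.node (.node (.node .nil 8419127 [] .nil)
  8442831 [] .nil) 8449646 [3,5,4] (.node (.node .nil 8452849 [1,0,3] .nil) 8460281 [5,0,5,1] .nil))
  8470215 [4,1,1] (.node (.node (.node .nil 8481979 [] .nil) 8493631 [4,5] .nil) 8497054 [0,4,5,1,0]
  (.node .nil 8510684 [2,0,4] .nil))) 8511869 [4,0,5] (.node (.node (.node (.node .nil 8517090
  [2,1,3] .nil) 8531954 [1,0,0] .nil) 8534893 [5,0,4,2] (.node .nil 8551822 [3,0,4] .nil)) 8560533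
  [5,2,0,0] (.node (.node (.node .nil 8566443 [1,0,0] .nil) 8572393 [5,2,0] .nil) 8575350 [3,5,3]
  (.node .nil 8578263 [1,0] .nil)))) 8587743 [5,5,4,0] (.node (.node (.node (.node (.node .nil
  8598654 [5,4,5,0] .nil) 8605500 [3,3,2,0] .nil) 8608675 [3,3,2,0] (.node .nil 8614557 [1] .nil))
  8629543 [0,4,2,4,0] (.node (.node (.node .nil 8632760 [5,5,4,0] .nil) 8635130 [1,1,0,3] .nil)
  8640101 [5,2] (.node .nil 8645572 [2,0,5] .nil))) 8670075 [0,3,1] (.node (.node (.node (.node .nil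
  8675300 [5,1,1] .nil) 8681178 [0,4,5] .nil) 8701629 [4,1,2,0] (.node .nil 8712067 [0,5,2,3] .nil))
  8715036 [0,4,5,0] (.node (.node (.node .nil 8727477 [2,4,4] .nil) 8732458 [0,3,2] .nil) 8737015
  [3,5,2] (.node .nil 8744278 [4,1,1] .nil))))) 8747465 [3,1,3] (.node (.node (.node (.node (.node
  (.node .nil 8752973 [1,0,0,2] .nil) 8756178 [5,1,0,1] .nil) 8758899 [1,4,3,3] (.node .nil 8762092
  [2,5,1,3] .nil)) 8767918 [3,0,3,0] (.node (.node (.node .nil 8772913 [0,3,1] .nil) 8778767 [0,3,2]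
  .nil) 8786878 [0,1] (.node .nil 8793631 [3,0,0,1,0] .nil))) 8803677 [4,0,0] (.node (.node (.node
  (.node .nil 8808700 [4,4,4] .nil) 8813667 [2,1,4] .nil) 8817383 [1,0,4] (.node .nil 8822392 [0,1]
  .nil)) 8823769 [3,0,5,0] (.node (.node (.node .nil 8828742 [3,4,4] .nil) 8837275 [5,5,0] .nil)
  8840506 [4,2,5,4] (.node .nil 8843685 [1,4,4] .nil)))) 8854701 [3,0,3,0] (.node (.node (.node
  (.node (.node .nil 8861075 [4,1,2] .nil) 8867537 [0,0,5] .nil) 8870478 [2,5] (.node .nil 8876912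
  [3,5,2] .nil)) 8881652 [5,4,0,4] (.node (.node (.node .nil 8884587 [0,4,2,5] .nil) 8891594
  [0,2,5,1] .nil) 8894549 [5,0,3,5] (.node .nil 8897303 [0,0,5] .nil))) 8902536 [5,2,1,0] (.node
  (.node (.node (.node .nil 8907305 [2,0,5,0] .nil) 8916911 [4,3,3] .nil) 8936915 [0,0] (.node .nil
  8942829 [2,0,3,0] .nil)) 8951542 [0] (.node (.node (.node .nil 8956759 [0,0,0] .nil) 8961992
  [4,2,0] .nil) 8973748 [2,0,3,0] (.node .nil 8976683 [0,4,2,0] .nil)))))) 8994077 [1,0,3,0,0] (.node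
  (.node (.node (.node (.node (.node (.node .nil 8996447 [2,5,4] .nil) 9006945 [0,4,3,3] .nil)
  9014650 [1,5,2,3,0] (.node (.node .nil 9017829 [5,2,3] .nil) 9023707 [3,1] .nil)) 9030553 [4,5,0]
  (.node (.node (.node .nil 9035526 [4,3,3,0] .nil) 9036455 [5,2,3,0] .nil) 9041464 [4,0,5] (.node
  .nil 9058487 [3,1,0,2] .nil))) 9061365 [0,1,0] (.node (.node (.node (.node .nil 9066346 [0,1,0,0]
  .nil) 9071307 [1,1,3] .nil) 9076308 [2,3,2,0] (.node .nil 9083983 [2,5,3] .nil)) 9085422 [4,3,2]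
  (.node (.node (.node .nil 9090417 [0,1,0,0] .nil) 9096755 [1,4,5,0] .nil) 9099948 [5,3,3] (.node
  .nil 9103117 [5,3,2] .nil)))) 9106322 [4,4,5] (.node (.node (.node (.node (.node .nil 9117338 [1,2]
  .nil) 9118523 [1] .nil) 9123748 [4,2,5,1] (.node .nil 9129190 [5,2,0] .nil)) 9132153 [0,2,2,5]
  (.node (.node (.node .nil 9135576 [1,4,0,5] .nil) 9138503 [5,2,3,0,0] .nil) 9144259 [1,3,1] (.node
  .nil 9147228 [0,0,5,0] .nil))) 9157218 [2,5,2] (.node (.node (.node (.node .nil 9168926 [3,0,1,5,0]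
  .nil) 9174145 [1,1,3] .nil) 9181917 [5,5] (.node .nil 9185148 [0] .nil)) 9188323 [3] (.node (.node
  (.node .nil 9198654 [4,2,0,3] .nil) 9200031 [3,1,0] .nil) 9213723 [4,0] (.node .nil 9218746
  [1,0,3,0] .nil))))) 9223717 [3,1,0,3] (.node (.node (.node (.node (.node (.node .nil 9225575
  [5,2,0,1] .nil) 9228792 [1,3,2] .nil) 9235545 [4,2,0,0] (.node .nil 9238726 [2,2,4,0] .nil))
  9246158 [2,5,4,0] (.node (.node (.node .nil 9250927 [0,1,2,2] .nil) 9256176 [] .nil) 9258930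
  [1,3,2] (.node .nil 9261869 [5,5,3,0] .nil))) 9268876 [5,1,5,0,1] (.node (.node (.node (.node .nil
  9271827 [3,1,0] .nil) 9276567 [5,1,3,5,1] .nil) 9282985 [3] (.node .nil 9285942 [4,5,2] .nil))
  9292404 [3,2,1,0] (.node (.node (.node .nil 9298762 [4,5,2] .nil) 9307387 [5,0,5] .nil) 9317829
  [0,5,2,0] (.node .nil 9320794 [0,1,2] .nil)))) 9328263 [0,5,2] (.node (.node (.node (.node (.node
  .nil 9333542 [4,5,2,2] .nil) 9341245 [4,5,4,1] .nil) 9346466 [2,5,3] (.node .nil 9352348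
  [0,3,3,2,0] .nil)) 9362241 [1,3,1,1] (.node (.node (.node .nil 9365216 [5,2,5,1] .nil) 9374696
  [5,3,3,0] .nil) 9380566 [5,0,4] (.node .nil 9385545 [5,3,2,0] .nil))) 9391371 [2,5,0] (.node (.node
  (.node (.node .nil 9394580 [5,5,0] .nil) 9397301 [4,5,2] .nil) 9400490 [5,5,3,0] (.node .nil
  9405998 [0,1,0,0,0] .nil)) 9409201 [5,4,5,4] (.node (.node (.node .nil 9416464 [0,5,2] .nil)
  9421005 [2,5,0] .nil) 9426002 [1,3,1] (.node .nil 9445214 [4,4] .nil))))))) 9446143 [5,0,0,0]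
  (.node (.node (.node (.node (.node (.node (.node (.node .nil 9460157 [4,5,1,0] .nil) 9482041
  [1,4,2,3] .nil) 9485222 [4,2,4] (.node (.node .nil 9491579 [5,3,1] .nil) 9497050 [4,4,1,0] .nil))
  9502021 [3,0,4,0] (.node (.node (.node .nil 9514476 [2,1,3,0] .nil) 9517427 [5,2,3,2] .nil) 9524910
  [5,3,4,1] (.node .nil 9530127 [3,0,5,1] .nil))) 9535376 [0,0,4,2] (.node (.node (.node (.node .nil
  9543051 [0,3,3] .nil) 9548981 [4,4,0,1] .nil) 9558888 [3,2] (.node .nil 9561801 [1,2,2] .nil))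
  9564758 [4,0,0,5] (.node (.node (.node .nil 9573863 [3,0,2,2] .nil) 9583833 [1,2,4,2,0] .nil)
  9586587 [0,5,0] (.node .nil 9596581 [3,2,3,0,0] .nil)))) 9599546 [2,1,3,4] (.node (.node (.node
  (.node (.node .nil 9604286 [4,5,5] .nil) 9613599 [2,2,5] .nil) 9620061 [5,5,0,0] (.node .nil
  9625282 [3,2,3,0] .nil)) 9626467 [4,1,3,4] (.node (.node (.node .nil 9637483 [1,2,3,2] .nil)
  9640692 [4,1,5,0] .nil) 9643861 [4,5,5,0] (.node .nil 9647050 [4,2,5] .nil))) 9657367 [3,1,4,1,0]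
  (.node (.node (.node (.node .nil 9658806 [3,0,5] .nil) 9663785 [1,0,0,0] .nil) 9667501 [2,4,0,0]
  (.node .nil 9672498 [5,2] .nil)) 9677459 [2,2,1,5,0] (.node (.node (.node .nil 9682444 [1,4,2]
  .nil) 9684302 [2,5,0,1] .nil) 9687505 [0,5] (.node .nil 9694320 [1,0,0] .nil))))) 9707187 [4,4,0]
  (.node (.node (.node (.node (.node (.node .nil 9713549 [3,0,0] .nil) 9718991 [0,2,0] .nil) 9725425
  [1,4,3,0] (.node .nil 9728366 [3,0] .nil)) 9734122 [2,3,0,2] (.node (.node (.node .nil 9737077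
  [0,4,1] .nil) 9744084 [2,1,3,4,0] .nil) 9747019 [2,2,4] (.node .nil 9754006 [5,1] .nil))) 9758775
  [4,5,1,0] (.node (.node (.node (.node .nil 9764008 [3,0,0] .nil) 9766207 [3,5,2,0] .nil) 9779358
  [3,0,5,1] (.node .nil 9782236 [5,3,5] .nil)) 9787203 [5,2,1] (.node (.node (.node .nil 9792226
  [2,5,1,0] .nil) 9799929 [3,1,3,1,0] .nil) 9804902 [5,2,1] (.node .nil 9806279 [2,4,1,0] .nil))))
  9811288 [3,1,2] (.node (.node (.node (.node (.node .nil 9817626 [1,2,3] .nil) 9820805 [1,3,4] .nil)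
  9824036 [0,4,1,5] (.node .nil 9841067 [0,1,1,0] .nil)) 9846068 [0,1,1,0] (.node (.node (.node .nil
  9848438 [5,1] .nil) 9851625 [0,1,1,0] .nil) 9858888 [2,2,4] (.node .nil 9866579 [5,5,0,0] .nil)))
  9869772 [0,1,1] (.node (.node (.node (.node .nil 9872493 [5,2,5,2] .nil) 9875698 [3,5,3,1] .nil)
  9882544 [2,4,2,2,0] (.node .nil 9888398 [3,1,2,0] .nil)) 9893393 [1,2,0,3] (.node (.node (.node
  .nil 9899910 [1,3,4] .nil) 9902873 [2,1,5,0] .nil) 9905848 [4,1,2] (.node .nil 9908775 [4,1,3,4]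
  .nil)))))) 9914725 [1,4,4,1,0] (.node (.node (.node (.node (.node (.node (.node .nil 9920603
  [5,3,5,0] .nil) 9925828 [4,2,5,0] .nil) 9946275 [1,3,3,5] (.node .nil 9949244 [3,3,3,2] .nil))
  9959682 [3,3,1,1,0] (.node (.node (.node .nil 9975226 [4,4,5,1] .nil) 9981688 [0,4,3,1] .nil)
  9984615 [0,2,2] (.node .nil 9988038 [3,0,0,0] .nil))) 9991001 [4,3,5,2] (.node (.node (.node (.node
  .nil 9995741 [1,2,0] .nil) 10005731 [4,3,3] .nil) 10008700 [0,0,0,0] (.node .nil 10011454 [2,5,1,1]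
  .nil)) 10016673 [1,1,2,1] (.node (.node (.node .nil 10032023 [4,0,1] .nil) 10038838 [0,0,0,0] .nil)
  10042025 [3,2] (.node .nil 10043883 [5,0,0,2] .nil)))) 10048884 [3,2,5,2] (.node (.node (.node
  (.node (.node .nil 10053845 [1,2,1,3] .nil) 10058826 [1,2,2] .nil) 10062542 [0,4,3] (.node .nil
  10067537 [2,5,4] .nil)) 10068976 [3,1] (.node (.node (.node .nil 10079277 [1,2,3,1] .nil) 10082482
  [5,3,4] .nil) 10085651 [0,5,4,1] (.node .nil 10088844 [3,3,1] .nil))) 10098237 [5,3,1] (.node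
  (.node (.node (.node .nil 10103708 [4,4,5] .nil) 10108675 [2,0,1,5] .nil) 10113246 [1,2,0,0] (.node
  .nil 10123744 [4,2,4,0] .nil)) 10129252 [0,1,1,2] (.node (.node (.node .nil 10135130 [2,2,5] .nil)
  10138309 [1,5,1,3] .nil) 10144135 [3,0,0,2] (.node .nil 10149144 [4,0,1,3] .nil))))) 10150073
  [1,3,2,5] (.node (.node (.node (.node (.node (.node .nil 10155046 [5,3,2] .nil) 10161585 [5,2]
  .nil) 10164526 [2,5,1] (.node .nil 10167439 [1,4,1] .nil)) 10177362 [4,1,0,4] (.node (.node (.node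
  .nil 10183276 [3,3,1] .nil) 10190967 [0,5] .nil) 10196200 [3,3,2] (.node .nil 10201417 [1,0,5,4]
  .nil))) 10208916 [2,3,5,3] (.node (.node (.node (.node .nil 10211851 [2,0,1] .nil) 10226166 [0,4,1]
  .nil) 10231145 [3,4,2,0] (.node .nil 10237015 [4,1,3,2] .nil)) 10243861 [1,2,0] (.node (.node
  (.node .nil 10247050 [3,4,2] .nil) 10249771 [1,1,2,1] .nil) 10252980 [1,5,2,2] (.node .nil 10260655
  [1,0,2,3] .nil)))) 10267918 [2,4,1,4,0] (.node (.node (.node (.node (.node .nil 10271121 [2,2,4,0]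
  .nil) 10273491 [1,2,4,0] .nil) 10278476 [3,4,2,0] (.node .nil 10290917 [5,4,2,5] .nil)) 10293882
  [4,5,1] (.node (.node (.node .nil 10304324 [3,1,3] .nil) 10310809 [3,1,1,3] .nil) 10316088 [3,1]
  (.node .nil 10324771 [3,0,3,0,0] .nil))) 10330653 [0,4,4] (.node (.node (.node (.node .nil 10335874
  [0,5,2,2] .nil) 10341824 [4,3,3,0,0] .nil) 10350689 [5,3,3,4] (.node .nil 10355535 [4,5,1,1] .nil))
  10360784 [5,3,0,5] (.node (.node (.node .nil 10365553 [0,1,1] .nil) 10372524 [5,3,3,1] .nil)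
  10375475 [4,4,4,0] (.node .nil 10382482 [1,2,0] .nil)))))))) 10385421 [3,0,0,2] (.node (.node
  (.node (.node (.node (.node (.node (.node (.node .nil 10391177 [5,5,4,2,0] .nil) 10394134 [0,1,1]
  .nil) 10400552 [1,4,4] (.node (.node .nil 10405994 [4,3,0,3] .nil) 10412372 [4,0,3,1] .nil))
  10423388 [1,2] (.node (.node (.node .nil 10426563 [0,0,5,3] .nil) 10429794 [5,3,2] .nil) 10444320
  [3,0,3,0] (.node .nil 10445697 [4,3,0,3,0] .nil))) 10453402 [4,0,1] (.node (.node (.node (.node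
  .nil 10458373 [3,1,2,2] .nil) 10463396 [2,5,1] .nil) 10501820 [1,5,3,3] (.node .nil 10503678
  [0,3,5,0] .nil)) 10516575 [4,4,1] (.node (.node (.node .nil 10522331 [2,2,3,0] .nil) 10528741
  [3,0,3,1] .nil) 10531706 [5,0,0] (.node .nil 10542247 [1,3,3,4] .nil)))) 10548633 [4,3,1] (.node
  (.node (.node (.node (.node .nil 10564015 [3,3,5,2] .nil) 10570477 [2,1,2,0] .nil) 10575474 [3,2,5]
  (.node .nil 10576851 [4,1] .nil)) 10581836 [2,0,5,1] (.node (.node (.node .nil 10589527 [5,1,3]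
  .nil) 10594550 [2,2,5,4] .nil) 10599529 [2,3,1,1,0] (.node .nil 10602283 [0,1,0,2] .nil))) 10605492
  [2,0,0] (.node (.node (.node (.node .nil 10612245 [2,0,4,0] .nil) 10615434 [4,1,1,0] .nil) 10624315
  [5,2,0,0] (.node .nil 10637127 [2,5,3,0] .nil)) 10640344 [4,4,4,1] (.node (.node (.node .nil
  10643065 [0,3,5,0] .nil) 10646246 [2,1,3,1] .nil) 10653949 [5,0] (.node .nil 10661212 [5,3,2,5]
  .nil))))) 10664387 [1,0,0,1] (.node (.node (.node (.node (.node (.node .nil 10671646 [4,0,0,0]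
  .nil) 10682144 [3,5,4] .nil) 10684087 [0,1,0,2] (.node .nil 10694537 [4,1,1,0] .nil)) 10697494
  [5,4,3,4] (.node (.node (.node .nil 10704075 [0,5,3] .nil) 10709354 [5,4,2,3] .nil) 10718065
  [1,3,5,0] (.node .nil 10723919 [1,1,0] .nil))) 10729168 [0,0,4] (.node (.node (.node (.node .nil
  10734994 [0,4,5,4] .nil) 10737933 [1,3,5] .nil) 10740908 [2,0,5,1] (.node .nil 10743859 [5,0,0]
  .nil)) 10753647 [3,5,1,1] (.node (.node (.node .nil 10759118 [1,1,4] .nil) 10764113 [4,4,1] .nil)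
  10775853 [4,3,3,1,0] (.node .nil 10779058 [2,1,2,1] .nil)))) 10784566 [0,2] (.node (.node (.node
  (.node (.node .nil 10787753 [2,4,3] .nil) 10793623 [3,4,0,0] .nil) 10799573 [1,5,3] (.node .nil
  10804554 [0,2] .nil)) 10805483 [4,1,2,2] (.node (.node (.node .nil 10810484 [3,0,1] .nil) 10816995
  [4,1,1,1] .nil) 10819964 [4,5] (.node .nil 10822877 [1,5,3,2] .nil))) 10838590 [0,0,5,5] (.node
  (.node (.node (.node .nil 10843809 [3,0,3,1] .nil) 10851514 [5,0,5,1] .nil) 10856731 [0,0,4,0]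
  (.node .nil 10861956 [0,0,4,3] .nil)) 10864326 [0,3,2,0] (.node (.node (.node .nil 10867289 [4,1,0]
  .nil) 10886358 [4,0,0,0] .nil) 10887543 [3,5,1] (.node .nil 10892776 [5,5,2,0] .nil)))))) 10899114
  [0,4,3,2,0] (.node (.node (.node (.node (.node (.node (.node .nil 10902069 [1,0,4] .nil) 10905492
  [1,5,3,1] .nil) 10908427 [2,1,1] (.node .nil 10913167 [5,5,2] .nil)) 10923185 [5,5,2,0] (.node
  (.node (.node .nil 10926126 [2,0,5,3] .nil) 10929004 [0,2,1] .nil) 10938962 [5,5,2,0,0] (.node .nil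
  10946394 [3,1,3,4] .nil))) 10949573 [3,5,2,1] (.node (.node (.node (.node .nil 10956388 [0,3,2]
  .nil) 10961337 [2,2,5,3,0] .nil) 10966310 [3,5,2,1] (.node .nil 10971271 [3,1,3,0] .nil)) 10976280
  [4,1,1] (.node (.node (.node .nil 10979996 [1,1,0,2] .nil) 10984963 [3,0,3,3] .nil) 10986402
  [2,1,1] (.node .nil 11000032 [0,4,2,5] .nil)))) 11003201 [0,3,2,0] (.node (.node (.node (.node
  (.node .nil 11020793 [3,1,4,4,0] .nil) 11025766 [0,4,2,0] .nil) 11031227 [5,1,2,0] (.node .nil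
  11038490 [0,0,0] .nil)) 11041669 [3,4,1,3] (.node (.node (.node .nil 11049374 [4,5,0,0] .nil)
  11052095 [4,3,1] .nil) 11062242 [0,4,2] (.node .nil 11068124 [1,5,2] .nil))) 11073091 [2,2] (.node
  (.node (.node (.node .nil 11079636 [5,4,3,5] .nil) 11082571 [1,2,1] .nil) 11085546 [4,3,3,1] (.node
  .nil 11088501 [3,3,5,2] .nil)) 11094327 [0,0,0,2] (.node (.node (.node .nil 11099560 [3,4,1,4]
  .nil) 11105430 [4,1] .nil) 11114125 [4,4,3,2] (.node .nil 11119404 [3,1,3,0,0] .nil))))) 11126001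
  [2,0,0] (.node (.node (.node (.node (.node (.node .nil 11128942 [2,0] .nil) 11139408 [4,5,0,0]
  .nil) 11143806 [0,0,0,1] (.node .nil 11149025 [5,1,1,1,0] .nil)) 11160733 [2,5,3,0] (.node (.node
  (.node .nil 11167139 [1,1,2] .nil) 11170108 [2,5,2,0] .nil) 11175864 [2,5,3,3] (.node .nil 11178791
  [3,3,0] .nil))) 11185798 [1,0,5,1] (.node (.node (.node (.node .nil 11188761 [5,5,4,1] .nil)
  11190619 [0,0,0,1] .nil) 11195844 [3,2,2,4] (.node .nil 11200613 [5,4,3,0] .nil)) 11208045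
  [3,2,5,1,0] (.node (.node (.node .nil 11211250 [1,5,5,4,0] .nil) 11218003 [1,1] .nil) 11221196
  [1,1,0] (.node .nil 11223950 [1,1] .nil)))) 11228945 [1,1] (.node (.node (.node (.node (.node .nil
  11233968 [1,1,0] .nil) 11241643 [2,5,3,1] .nil) 11246644 [5,2,0] (.node .nil 11248021 [0,0,0,1,0]
  .nil)) 11253002 [5,0,3,0] (.node (.node (.node .nil 11259464 [2,4,5,4] .nil) 11277749 [1,2,5,1]
  .nil) 11287691 [2,2,0] (.node .nil 11290569 [0,0,3,0] .nil))) 11293526 [4] (.node (.node (.node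
  (.node .nil 11303528 [2,1,1,1,0] .nil) 11308268 [5,0,5,3] .nil) 11311219 [0,1,3] (.node .nil
  11314642 [1,3,3,2] .nil)) 11317581 [2,2,0] (.node (.node (.node .nil 11323919 [2,3,3] .nil)
  11329168 [5,0,5,0] .nil) 11330353 [4,4,4,0,1] (.node .nil 11341369 [1,3,2] .nil))))))) 11344550
  [2,2,0,3] (.node (.node (.node (.node (.node (.node (.node (.node .nil 11347719 [0,0,3,0] .nil)
  11350936 [3,4,1,2] .nil) 11356378 [2,0,4,2] (.node (.node .nil 11361349 [5,1,4] .nil) 11362788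
  [2,2,0,0] .nil)) 11376480 [3,0,3,2] (.node (.node (.node .nil 11381441 [5,3,2,3,0] .nil) 11388188
  [2,5,4,0] .nil) 11391363 [5,1,4] (.node .nil 11398178 [2,2,0] .nil))) 11406227 [3,1,4,0] (.node
  (.node (.node (.node .nil 11411212 [2,3,3,0] .nil) 11412141 [4,2,1,3,0] .nil) 11417138 [0,1,0]
  (.node .nil 11423088 [0,1] .nil)) 11428942 [2,0,1,4,0] (.node (.node (.node .nil 11432145 [4] .nil)
  11437653 [5,5,2] .nil) 11440842 [1,0,5] (.node .nil 11452598 [0,1,0] .nil)))) 11457577 [3,3,0,0]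
  (.node (.node (.node (.node (.node .nil 11463048 [3,0,4,5] .nil) 11472927 [4,1,0,0] .nil) 11483425
  [5,5,3] (.node .nil 11485795 [0,0,0,2,1] .nil)) 11503942 [5,5,3] (.node (.node (.node .nil 11509880
  [1,1,0,0] .nil) 11530756 [3,3,1,2] .nil) 11546007 [0,5,4,0] (.node .nil 11556565 [4,3,1,0] .nil)))
  11561844 [5,0,0,0] (.node (.node (.node (.node .nil 11569519 [5,2,2] .nil) 11574768 [5,4,1] .nil)
  11580622 [3,5,5] (.node .nil 11587468 [4,2,2,0] .nil)) 11590419 [5,4,3,1] (.node (.node (.node .nil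
  11593394 [2,5,2,4] .nil) 11596333 [5,4,2,0] .nil) 11602874 [5,4,2] (.node .nil 11607845 [5,2,2]
  .nil))))) 11613723 [3,5,5,0] (.node (.node (.node (.node (.node (.node .nil 11619673 [4,4] .nil)
  11622854 [0,2,3] .nil) 11625575 [3,3,2,1,0] (.node .nil 11628792 [1,3,5,4] .nil)) 11634300 [5,1,3]
  (.node (.node (.node .nil 11637475 [2,4,0] .nil) 11644738 [5,4,2,1] .nil) 11649183 [2,5,5] (.node
  .nil 11659681 [4,1,5] .nil))) 11672207 [1,1,0,1] (.node (.node (.node (.node .nil 11675438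
  [3,0,4,1] .nil) 11678641 [2,2,5,0] .nil) 11684083 [5,4,3,1] (.node .nil 11689068 [2,4,0,3] .nil))
  11690445 [2,2,5,0] (.node (.node (.node .nil 11695442 [5] .nil) 11699158 [5] .nil) 11704137
  [3,3,4,2] (.node .nil 11709160 [5,0,4,2,0] .nil)))) 11715893 [0,1,0,1] (.node (.node (.node (.node
  (.node .nil 11719082 [2,0,5,2] .nil) 11725835 [2,2,3,5,1] .nil) 11729044 [0,0,4,0,0] (.node .nil
  11736476 [0,5,0] .nil)) 11741245 [5,0,0] (.node (.node (.node .nil 11746466 [0,5,3,0] .nil)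
  11749344 [2,4,0,0] .nil) 11762241 [2,4,0,1] (.node .nil 11766981 [0,3,3,0] .nil))) 11769946
  [1,1,0,1] (.node (.node (.node (.node .nil 11776356 [5,4,2,0] .nil) 11782694 [1,5,0,2] .nil)
  11789080 [2,5,5,0] (.node .nil 11801051 [5,1,0] .nil)) 11807866 [5,1,1] (.node (.node (.node .nil
  11811045 [0,2,3,1] .nil) 11813799 [4,3,0,0] .nil) 11818808 [2,2,2,3] (.node .nil 11823769 [1,5,3]
  .nil)))))) 11828742 [2,1,1,5] (.node (.node (.node (.node (.node (.node (.node .nil 11836445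
  [2,2,3,0] .nil) 11837884 [4,3,1,2] .nil) 11842851 [5,1,1,3] (.node .nil 11849313 [3,0,3] .nil))
  11858880 [3,4,0] (.node (.node (.node .nil 11864663 [2,5,5] .nil) 11869896 [0,2,0] .nil) 11871081
  [3,1,3,2] (.node .nil 11881652 [0,2] .nil))) 11884587 [2,4,0] (.node (.node (.node (.node .nil
  11888010 [1,1,1,1] .nil) 11890965 [3,1,3,1] .nil) 11896721 [5,1,0] (.node .nil 11899662 [2,4]
  .nil)) 11909680 [4,5,1,0] (.node (.node (.node .nil 11911538 [5,0,0,1] .nil) 11921484 [1,3,5,5]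
  .nil) 11934562 [0,2,1] (.node .nil 11937475 [3,1,2,0] .nil)))) 11940444 [5,1,0,0] (.node (.node
  (.node (.node (.node .nil 11946270 [1,5,0] .nil) 11951489 [4,2,2,0] .nil) 11960891 [5,0,1,0,0]
  (.node .nil 11966116 [0,5,0,3] .nil)) 11971333 [3,1,3,3] (.node (.node (.node .nil 11977944
  [4,4,2,0,0] .nil) 11980871 [1,5] .nil) 11993326 [2,5,5,2] (.node .nil 11998321 [5,1] .nil)))
  12003792 [1,5] (.node (.node (.node (.node .nil 12011021 [5,2,1,0] .nil) 12014226 [5,4,0,4,0] .nil)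
  12029224 [2,4,0] (.node .nil 12035094 [5,1,0] .nil)) 12038281 [1,5] (.node (.node (.node .nil
  12060531 [2,0,3] .nil) 12063724 [3,3] .nil) 12070477 [0,4,2,3] (.node .nil 12073682 [3,3,5]
  .nil))))) 12080399 [4,3] (.node (.node (.node (.node (.node (.node .nil 12085422 [0,0,0,3] .nil)
  12090417 [0,0,0] .nil) 12094133 [0,4,2] (.node .nil 12099114 [4,3,0] .nil)) 12100491 [3,3,1,0]
  (.node (.node (.node .nil 12105492 [3,0,1,2] .nil) 12110934 [0,2,4,2,0] .nil) 12114121 [1,3,2,4]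
  (.node .nil 12117352 [5,1,2,2] .nil))) 12132702 [4,3,5,2] (.node (.node (.node (.node .nil 12137921
  [3,3,1,0] .nil) 12144259 [1,2,1] .nil) 12147228 [2,0,4,1] (.node .nil 12153634 [2,1,3,2] .nil))
  12158374 [1,1,1,0] (.node (.node (.node .nil 12161337 [5,0,0,2] .nil) 12168344 [1,2,1] .nil)
  12171271 [4,2,1,1] (.node .nil 12174149 [1,1,1,0] .nil)))) 12193226 [3,3,4,2] (.node (.node (.node
  (.node (.node .nil 12196181 [3,1,5,1,0] .nil) 12199156 [4,3,1] .nil) 12202091 [5,4,3,3] (.node .nil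
  12208937 [1,3,2,4] .nil)) 12214807 [4,2,4,4] (.node (.node (.node .nil 12220040 [1,1,1] .nil)
  12227731 [4,1,0,3,0] .nil) 12233010 [5,0,0,0] (.node .nil 12243568 [2,2,5,3] .nil))) 12255961
  [1,5,0,0] (.node (.node (.node (.node .nil 12260934 [0,5,3] .nil) 12272698 [0,5] .nil) 12275877
  [2,5,0,5] (.node .nil 12283140 [0,5,3] .nil)) 12295040 [3,3,4,1] (.node (.node (.node .nil 12297761
  [1,1,1] .nil) 12312770 [1,0,0,4] .nil) 12322462 [4,0] (.node .nil 12332960 [3,0] .nil)))))))))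
  12337277 [0,0,5,4] (.node (.node (.node (.node (.node (.node (.node (.node (.node (.node .nil
  12342498 [5,1,4,1] .nil) 12347715 [2,3,3] .nil) 12356440 [5,5] (.node (.node .nil 12362342 [3,0]
  .nil) 12376356 [0,2,2] .nil)) 12379269 [4,3] (.node (.node (.node .nil 12382234 [1,2,4,0,0] .nil)
  12388749 [5,3,5,5] .nil) 12393746 [0,2,0] (.node .nil 12394675 [5,0,0,1] .nil))) 12399660 [3]
  (.node (.node (.node (.node .nil 12412496 [2,4,5] .nil) 12420171 [5,0,0,2,1] .nil) 12423380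
  [2,0,1,3] (.node .nil 12436136 [3,3] .nil)) 12454951 [4,3,0] (.node (.node (.node .nil 12458168
  [2,4,3,0] .nil) 12461337 [4] .nil) 12464518 [1,0,5,0] (.node .nil 12470980 [3,3,0,0,0] .nil))))
  12485089 [4,3,0,0] (.node (.node (.node (.node (.node .nil 12500032 [2,3,3] .nil) 12502786
  [5,1,0,0,0] .nil) 12518196 [2,0,1] (.node .nil 12528138 [3,1,3] .nil)) 12538184 [0,1,4] (.node
  (.node (.node .nil 12568593 [5,5] .nil) 12598171 [0,5,5] .nil) 12610023 [3,5,4,0] (.node .nil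
  12615032 [1,0,3] .nil))) 12618748 [5,4] (.node (.node (.node (.node .nil 12623715 [0,3] .nil)
  12629597 [0,0,3,1] .nil) 12635423 [5,4,1,0] (.node .nil 12644542 [3,5,0] .nil)) 12656054
  [5,0,1,3,0] (.node (.node (.node .nil 12668874 [1,4,0,3,0] .nil) 12671829 [4,1,0,1] .nil) 12674804
  [0,4,5,1,0] (.node .nil 12677739 [3,2,0,0] .nil))))) 12682479 [0,3,0] (.node (.node (.node (.node
  (.node (.node .nil 12692945 [0,0,4,1] .nil) 12695886 [0,3,4,2] .nil) 12703379 [1,3] (.node .nil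
  12708658 [0,2,2,4,0] .nil)) 12723645 [4,0,4,0] (.node (.node (.node .nil 12739422 [3,5] .nil)
  12744641 [1,4,0] .nil) 12752346 [0,0,1] (.node .nil 12757115 [3,5,0] .nil))) 12762340 [2,0,0,2,1]
  (.node (.node (.node (.node .nil 12765094 [1,5,5] .nil) 12768057 [4,0,4] .nil) 12775064 [5,4,5]
  (.node .nil 12777991 [5,2,4,3] .nil)) 12785423 [2,3,5] (.node (.node (.node .nil 12790446
  [2,4,5,5,0] .nil) 12795441 [1,0] .nil) 12797299 [2,5,4,5] (.node .nil 12800492 [2,1,0] .nil))))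
  12807245 [2,0,1,5,0] (.node (.node (.node (.node (.node .nil 12810450 [0,0,1,1] .nil) 12815958
  [5,2,0,0,0] .nil) 12819145 [5,2,2,2] (.node .nil 12822376 [2,1,0] .nil)) 12830901 [3,3,3,3] (.node
  (.node (.node .nil 12835882 [0,1,4,4] .nil) 12837259 [2,1] .nil) 12842260 [1,0] (.node .nil
  12847063 [2,5,0,2] .nil))) 12857065 [5,5,5,3] (.node (.node (.node (.node .nil 12860022 [0,3,1,0]
  .nil) 12866987 [5,2,5,0] .nil) 12876949 [0,3,2,1,0] (.node .nil 12885646 [2,3,4] .nil)) 12886831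
  [1,0,2,0] (.node (.node (.node .nil 12892080 [5,5,5,0] .nil) 12897522 [0,4,5,2] .nil) 12900461
  [3,2,4,2] (.node .nil 12903884 [5,2,5] .nil)))))) 12906835 [4,1,3] (.node (.node (.node (.node
  (.node (.node (.node .nil 12917851 [0,4,5,1] .nil) 12919290 [1,3,0,0] .nil) 12924261 [2,0,5,4]
  (.node .nil 12930599 [1,3,4,2] .nil)) 12933816 [5,5,5,1] (.node (.node (.node .nil 12936985
  [4,0,5,1] .nil) 12940166 [2,4,1] .nil) 12947869 [1,3,0] (.node .nil 12954684 [0,3,1] .nil)))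
  12957859 [4,1,4] (.node (.node (.node (.node .nil 12960737 [4,1,4] .nil) 12975680 [1,3,0,0,0] .nil)
  12979566 [2,3,5,5] (.node .nil 12982769 [3,5,3] .nil)) 12988623 [1,5,1] (.node (.node (.node .nil
  12995469 [0,2,5,0] .nil) 13000466 [4,5,5,1,0] .nil) 13001395 [1,4,4,0] (.node .nil 13006380
  [1,1,2,0] .nil)))) 13014071 [1,0,4,1] (.node (.node (.node (.node (.node .nil 13019542 [0,5,5,0]
  .nil) 13024521 [1,1,3,3] .nil) 13026891 [4,5,2,4] (.node .nil 13030100 [5,0,1] .nil)) 13042301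
  [3,2,4,0,0] (.node (.node (.node .nil 13047522 [3,5,2,2] .nil) 13052739 [4,1,3,5] .nil) 13059230
  [2,5,0,2] (.node .nil 13069728 [3,5,4,1] .nil))) 13081380 [2,5] (.node (.node (.node (.node .nil
  13084293 [3,4,4] .nil) 13087258 [3,0,5,0] .nil) 13093208 [3,1,4] (.node .nil 13099110 [3,5,1,3]
  .nil)) 13111679 [2,3,5,4] (.node (.node (.node .nil 13118686 [3,5,0,2] .nil) 13129628 [5,5,3,5]
  .nil) 13134397 [5,5,5] (.node .nil 13139618 [4,2,0] .nil))))) 13147321 [0,0] (.node (.node (.node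
  (.node (.node (.node .nil 13153671 [4,2] .nil) 13160133 [5,2,4] .nil) 13163098 [0,4,0] (.node .nil
  13169508 [3,5,0,0] .nil)) 13175539 [4,5,0] (.node (.node (.node .nil 13180524 [4,3,3,0] .nil)
  13181901 [3,4,1] .nil) 13186898 [1,3] (.node .nil 13195407 [3,4,2,1] .nil))) 13198638 [0,3,0,0]
  (.node (.node (.node (.node .nil 13201841 [2] .nil) 13207349 [2,1,0,3] .nil) 13210538 [2] (.node
  .nil 13217291 [0,3,4,2,0] .nil)) 13220500 [0,1,2,0] (.node (.node (.node .nil 13222358 [0,5,1]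
  .nil) 13227337 [2,3,5,0] .nil) 13232360 [5,2,3,0] (.node .nil 13242201 [4,5,4,0] .nil)))) 13245382
  [3,3,4] (.node (.node (.node (.node (.node .nil 13248103 [2,2,1,0] .nil) 13251320 [1,0,3,1] .nil)
  13257146 [1,5,5,5,1] (.node .nil 13262117 [5,3,3] .nil)) 13267995 [0,0,1] (.node (.node (.node .nil
  13271711 [4,5,4] .nil) 13282209 [5,0,2,2] .nil) 13288572 [5,4,5,1] (.node .nil 13291747 [2,1,0,0]
  .nil))) 13299010 [5,2,4,0] (.node (.node (.node (.node .nil 13309141 [0,5,1] .nil) 13314420 [3,5,0]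
  .nil) 13321897 [1,3,1,0] (.node .nil 13324854 [4,0,4] .nil)) 13335304 [5,2,4,3] (.node (.node
  (.node .nil 13340044 [2,1,0,2] .nil) 13342995 [4,0,3,5] .nil) 13345970 [1] (.node .nil 13348909
  [4,3,2,0] .nil))))))) 13361745 [5,5,4] (.node (.node (.node (.node (.node (.node (.node (.node .nil
  13380915 [0] .nil) 13384108 [1,0,3,3] .nil) 13386478 [0,0,3,2] (.node (.node .nil 13391473
  [5,4,0,1] .nil) 13396944 [5,1,5,0] .nil)) 13404619 [5,1,5] (.node (.node (.node .nil 13409620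
  [0,1,3,2] .nil) 13410549 [5,0,1,1] .nil) 13415530 [0,0,3,2] (.node .nil 13422376 [0,3] .nil)))
  13428246 [0,0,3,1] (.node (.node (.node (.node .nil 13431433 [4,0,3,0] .nil) 13437726 [2,5,0,0,0]
  .nil) 13442945 [5,2,4] (.node .nil 13457762 [4,5,3] .nil)) 13460675 [0,5,2,1] (.node (.node (.node
  .nil 13463644 [0,1,2,3] .nil) 13469400 [3,4,1,1,0] .nil) 13472327 [2,5,0,0] (.node .nil 13484091
  [0,3,1,2] .nil)))) 13489316 [1,3,1,3] (.node (.node (.node (.node (.node .nil 13494533 [1,1,4,3]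
  .nil) 13504180 [5,2,0,1] .nil) 13507115 [5,4,3,0,0] (.node .nil 13510538 [2,5,0,3] .nil)) 13513493
  [3,5] (.node (.node (.node .nil 13518935 [0,1,3,1] .nil) 13524168 [4,4,2,3] .nil) 13525353
  [4,0,3,0] (.node .nil 13534066 [0,4,1,2] .nil))) 13544012 [1,1,3,0] (.node (.node (.node (.node
  .nil 13550993 [4,0,0] .nil) 13553934 [4,0,3] .nil) 13563952 [3,5] (.node .nil 13566375 [4,4,2,3,0]
  .nil)) 13571384 [1,3,1] (.node (.node (.node .nil 13576345 [0,1,2] .nil) 13581318 [2,5,0] .nil)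
  13584196 [2,1,0,1] (.node .nil 13601889 [2,5] .nil))))) 13611456 [2,5,0,0] (.node (.node (.node
  (.node (.node (.node .nil 13617794 [1,3,1,1] .nil) 13646895 [3,5,4,0] .nil) 13649773 [4,3,2,2]
  (.node .nil 13652978 [5,3,1,0] .nil)) 13659731 [0,0,1,3] (.node (.node (.node .nil 13662924
  [3,5,5,1] .nil) 13670615 [0,4] .nil) 13673846 [5,3,1,0] (.node .nil 13677033 [1,0,2] .nil)))
  13683371 [2,3,0,0] (.node (.node (.node (.node .nil 13688372 [1,3,3,0,2] .nil) 13689749 [4,1,3,0]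
  .nil) 13694730 [2,2,4,1] (.node .nil 13700765 [5,4,1,0] .nil)) 13707171 [1,2,2,0] (.node (.node
  (.node .nil 13710140 [2,4,1,1] .nil) 13715582 [3,0,1,4,0] .nil) 13720801 [0,3,0] (.node .nil
  13730651 [3,1,1] .nil)))) 13735876 [1,2,2,0] (.node (.node (.node (.node (.node .nil 13740645
  [4,2,4] .nil) 13747640 [4,3,1,1,1] .nil) 13750567 [3,2,0] (.node .nil 13757574 [2,3,1,1] .nil))
  13760537 [0,5,5] (.node (.node (.node .nil 13765431 [0,4] .nil) 13770664 [4,2,3,0] .nil) 13776534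
  [0,1,0,4] (.node .nil 13782484 [0,0,1,0] .nil))) 13785419 [3,2,3] (.node (.node (.node (.node .nil
  13788394 [4,3,2,2] .nil) 13791349 [1,0,2] .nil) 13797105 [0,3,5,1] (.node .nil 13800046 [5,3]
  .nil)) 13810512 [0,3,1,4,0] (.node (.node (.node .nil 13816973 [1,4] .nil) 13822252 [1,4,4,2] .nil)
  13832379 [0,5,1,0,0] (.node .nil 13839642 [3,0,4,0] .nil)))))) 13842821 [1,4,1,3] (.node (.node
  (.node (.node (.node (.node (.node .nil 13845191 [0,1,5] .nil) 13850200 [5,1,3,0,0] .nil) 13863394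
  [3,2,0] (.node .nil 13869276 [0,1,5,0] .nil)) 13874243 [0,0,2,1] (.node (.node (.node .nil 13881089
  [5,2,4,1] .nil) 13890208 [1,4,4,1] .nil) 13899004 [1,0,2,2] (.node .nil 13904221 [4,4,0,0,1]
  .nil))) 13909442 [3,5,5,1,0] (.node (.node (.node (.node .nil 13914655 [0,4,1,0] .nil) 13925153
  [3,2,4,2,0] .nil) 13929893 [1,2,3,0] (.node .nil 13932858 [5,4] .nil)) 13935771 [0,4,5] (.node
  (.node (.node .nil 13945670 [2,3,4,0] .nil) 13951608 [4,1,3,0] .nil) 13963120 [4,4,0] (.node .nil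
  13968974 [1,4,3] .nil)))) 13972177 [3,1,1] (.node (.node (.node (.node (.node .nil 13978003
  [5,5,0,1] .nil) 13982988 [0,3,3] .nil) 13983917 [3,2,0,0] (.node .nil 13988914 [1,3,0] .nil))
  13992630 [5,3,5] (.node (.node (.node .nil 13997609 [4,4,0,3] .nil) 14003080 [4,3,0,2,0] .nil)
  14009429 [1,3,0] (.node .nil 14012618 [0,2,4] .nil))) 14027482 [5,3,5,1] (.node (.node (.node
  (.node .nil 14032453 [2,3,4,0] .nil) 14033892 [3,2,0,3] .nil) 14044217 [3,5,3] (.node .nil 14047398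
  [2,3,1,2,0] .nil)) 14050567 [1,4,0] (.node (.node (.node .nil 14053784 [5,4,4,4] .nil) 14059292
  [5,3,5,2] .nil) 14062467 [3,4,3] (.node .nil 14069282 [2,1,4] .nil))))) 14079328 [1,5,5] (.node
  (.node (.node (.node (.node (.node .nil 14084289 [2,1,5] .nil) 14091721 [2,5,0,1] .nil) 14094678
  [3,0,5,3] (.node .nil 14104680 [3,2,0] .nil)) 14107434 [0,1,5] (.node (.node (.node .nil 14117396
  [2,1,5] .nil) 14125071 [0,0,1,4] .nil) 14130320 [4,4,0,0] (.node .nil 14131505 [3,0,5] .nil)))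
  14161611 [1,5,1,4] (.node (.node (.node (.node .nil 14166890 [0,2,2,0] .nil) 14173367 [0,3,0,1]
  .nil) 14183817 [3,2,3,2] (.node .nil 14186774 [1,2,4,2] .nil)) 14192530 [5,3,1,3,1] (.node (.node
  (.node .nil 14195469 [2,3,0] .nil) 14198444 [5,3,1,3] .nil) 14201395 [0,4,4,1] (.node .nil 14207345
  [2,3,0,0] .nil)))) 14213199 [0,0,2] (.node (.node (.node (.node (.node .nil 14218448 [0,0,2] .nil)
  14224711 [3,2,3,1] .nil) 14227928 [0,4,0] (.node .nil 14230649 [3,1,1,0] .nil)) 14233830 [5,3,4,2]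
  (.node (.node (.node .nil 14240676 [0,4,3] .nil) 14246554 [2,2,4,4] .nil) 14251525 [0,3,0,3] (.node
  .nil 14259230 [3,1,1,0] .nil))) 14269728 [0,3,0] (.node (.node (.node (.node .nil 14272098
  [5,3,4,1] .nil) 14289133 [5,3,0] .nil) 14294130 [4,5,4] (.node .nil 14295507 [0,4,0,0,0] .nil))
  14300492 [4,4,5,3] (.node (.node (.node .nil 14306830 [0,3,3,0,0] .nil) 14310033 [0,5,5,2] .nil)
  14313264 [5,3,1] (.node .nil 14320939 [2,1,1,2,0] .nil)))))))) 14324148 [4,5,4] (.node (.node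
  (.node (.node (.node (.node (.node (.node (.node .nil 14330901 [0,0,1] .nil) 14334090 [3,3,4] .nil)
  14336968 [5,3,0] (.node (.node .nil 14357345 [5,1,0,2,0] .nil) 14364352 [1,4,1] .nil)) 14369053
  [4,3,5,3] (.node (.node (.node .nil 14374274 [5,3,2,0,0] .nil) 14379043 [3,2] .nil) 14387768 [0,4]
  (.node .nil 14394118 [4,2,5] .nil))) 14407748 [1,4,1,0] (.node (.node (.node (.node .nil 14418873
  [1,2,4,0] .nil) 14423846 [2,3,0,2] .nil) 14428807 [3,4,2] (.node .nil 14433816 [5,1,5] .nil))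
  14435674 [1,3,3] (.node (.node (.node .nil 14438853 [3,2,2] .nil) 14445668 [3,0,0] .nil) 14457568
  [0,0,0,3,0] (.node .nil 14460737 [3,0,0,0] .nil)))) 14469276 [5,5,1,0,0] (.node (.node (.node
  (.node (.node .nil 14474243 [5,1,5] .nil) 14475682 [1,0,2,0] .nil) 14486698 [0,3] (.node .nil
  14489653 [3,2,1] .nil)) 14493076 [1,3] (.node (.node (.node .nil 14496011 [3,4,1] .nil) 14502473
  [3,2,2] .nil) 14516588 [2,3,0,1] (.node .nil 14526546 [0,0,2,0] .nil))) 14537488 [0,5,1,0] (.node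
  (.node (.node (.node .nil 14557246 [1,0,2] .nil) 14562465 [4,0,3] .nil) 14578242 [1,5,1,0] (.node
  .nil 14582982 [4,0,3] .nil)) 14585945 [3,1,1,1] (.node (.node (.node .nil 14598693 [5,1,4,4] .nil)
  14616083 [0,5,1] .nil) 14619276 [2,3,5,1] (.node .nil 14631152 [0,5,1,0] .nil))))) 14672904 [4,2,5]
  (.node (.node (.node (.node (.node (.node .nil 14687693 [2,0,0,2] .nil) 14693619 [1,2,5,3] .nil)
  14700465 [4,3,4] (.node .nil 14703406 [4,3,4] .nil)) 14706319 [2,3,4,1] (.node (.node (.node .nil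
  14724522 [5,5,1,4] .nil) 14727477 [2,1,2,2] .nil) 14729847 [5,4,0] (.node .nil 14735080 [2,4,2]
  .nil))) 14740297 [5,0,2] (.node (.node (.node (.node .nil 14750430 [4,3,5] .nil) 14760928 [0,3,4,2]
  .nil) 14767165 [0,4,1,3,0] (.node .nil 14772636 [5,4,4,2] .nil)) 14777603 [4,2,1] (.node (.node
  (.node .nil 14781319 [1,1,5,1] .nil) 14786328 [1,4,0,3,0] .nil) 14787257 [1,2,1,4] (.node .nil
  14792230 [2,1,3] .nil)))) 14798180 [2,0,0,2] (.node (.node (.node (.node (.node .nil 14804058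
  [0,5,4] .nil) 14807237 [4,2,1] .nil) 14812139 [1,5,5,0] (.node .nil 14817140 [3,0,2,1] .nil))
  14822101 [5,0,2] (.node (.node (.node .nil 14827082 [1,4,0,0] .nil) 14832023 [1,0,1] .nil) 14838838
  [0,3,5] (.node .nil 14842025 [2,1,4,1] .nil))) 14847533 [3,2,4,3] (.node (.node (.node (.node .nil
  14850738 [0,3,5] .nil) 14853907 [3,1,5,0] .nil) 14857100 [1,4,0,0] (.node .nil 14862542 [1,5,0,1]
  .nil)) 14867537 [4,2,3,2] (.node (.node (.node .nil 14868976 [1,0,1] .nil) 14879992 [3,2,4] .nil)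
  14882919 [2,2,2,5] (.node .nil 14886342 [2,5,5,4] .nil)))))) 14889305 [4,0,0,1,1] (.node (.node
  (.node (.node (.node (.node (.node .nil 14895643 [3,2,4] .nil) 14900868 [1,3,5] .nil) 14902053
  [5,0,3] (.node .nil 14909758 [1,4,4,4] .nil)) 14914977 [3,2,4,0] (.node (.node (.node .nil 14930754
  [3,2,4] .nil) 14944447 [5,5,5,2] .nil) 14955806 [4,1,3] (.node .nil 14962268 [4,4,2] .nil)))
  14965443 [3,3,0,2] (.node (.node (.node (.node .nil 14968674 [3,0,2] .nil) 14976377 [5,1,3,1] .nil)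
  14979558 [2,2,2] (.node .nil 14986311 [4,2,2] .nil)) 14989528 [4,0,5,4] (.node (.node (.node .nil
  14992282 [5,4,0,0] .nil) 14997253 [3,0,2] .nil) 15002276 [2,3,3,1,0] (.node .nil 15009708 [2,4,2]
  .nil)))) 15012659 [2,0,0,0] (.node (.node (.node (.node (.node .nil 15019666 [0,3,2,1] .nil)
  15022605 [1,1,4,0] .nil) 15024463 [4,1,4,0] (.node .nil 15029712 [4,0,0,1] .nil)) 15034481
  [5,4,0,0] (.node (.node (.node .nil 15043178 [0,3,4,1] .nil) 15049556 [4,1,0] .nil) 15060105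
  [2,3,4] (.node .nil 15063062 [2,3,3,5] .nil))) 15069480 [2,4,1] (.node (.node (.node (.node .nil
  15079065 [3,4,2,2,0] .nil) 15084344 [5,0,1] .nil) 15090917 [1,0,1,1] (.node .nil 15093882 [5,5,0,5]
  .nil)) 15104324 [4,4,2,1] (.node (.node (.node .nil 15110080 [4,0,0,3] .nil) 15118945 [5,2,5,3]
  .nil) 15124771 [2,1,1,1] (.node .nil 15130653 [5,0,1] .nil))))) 15135874 [2,2,1] (.node (.node
  (.node (.node (.node (.node .nil 15142165 [1,1,0,2] .nil) 15145354 [4,1,4,0,0] .nil) 15148075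
  [3,0,2] (.node .nil 15151284 [2,1,1] .nil)) 15164104 [3,5,1,0] (.node (.node (.node .nil 15171795
  [4,5,4,5] .nil) 15176780 [3,0,2,0] .nil) 15189552 [3,2,4,0] (.node .nil 15212055 [5,5,1,0] .nil)))
  15213494 [5,1,2,0] (.node (.node (.node (.node .nil 15218473 [1,2,5,0] .nil) 15223915 [4,2,3] .nil)
  15227124 [5,4,0] (.node .nil 15230293 [4,2] .nil)) 15233482 [5,0,2,0] (.node (.node (.node .nil
  15238990 [1,2,5,0] .nil) 15242193 [5,5,1] .nil) 15249008 [0,0] (.node .nil 15253933 [1,2,5]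
  .nil)))) 15258930 [2,4,2,0] (.node (.node (.node (.node (.node .nil 15263891 [2,3,2] .nil) 15268876
  [0,0,3] .nil) 15271323 [5,1,3,0] (.node .nil 15281317 [0,3,0,0] .nil)) 15284282 [4,5,0] (.node
  (.node (.node .nil 15287160 [3,2,1,1] .nil) 15297094 [2,3,1] .nil) 15304797 [4,1,0,1] (.node .nil
  15310018 [1,2,5,0,0] .nil))) 15311203 [2,4,0,5] (.node (.node (.node (.node .nil 15325729 [3,2,4,1]
  .nil) 15329152 [2,2] .nil) 15340718 [1,5,5,0] (.node .nil 15345935 [2,3,3,1] .nil)) 15351184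
  [5,0,2] (.node (.node (.node .nil 15353554 [4,5,5,5] .nil) 15356493 [3,3,4,0] .nil) 15374696
  [2,5,3,2] (.node .nil 15377609 [5,5,2,1] .nil))))))) 15380566 [5,4,4,0] (.node (.node (.node (.node
  (.node (.node (.node (.node .nil 15387412 [0,4,0,0] .nil) 15393322 [4,4,2,4] .nil) 15404834
  [4,5,3,0] (.node (.node .nil 15410716 [3,1,5] .nil) 15413891 [2,1] .nil)) 15419841 [0,4,0,3] (.node
  (.node (.node .nil 15430752 [2,1] .nil) 15434468 [0,1,4,0] .nil) 15451143 [1,5,0,4] (.node .nil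
  15454360 [3,1,5] .nil))) 15469413 [3,3,0,2] (.node (.node (.node (.node .nil 15475291 [5,5,5,0,0]
  .nil) 15480516 [3,4,4,1] .nil) 15486342 [2,2,3] (.node .nil 15489305 [3,2,2,1] .nil)) 15492280
  [5,1,2] (.node (.node (.node .nil 15495207 [3,3,0,1] .nil) 15500963 [2,1,2,5,0] .nil) 15503932
  [4,5,3,1,0] (.node .nil 15514370 [4,2,1,3] .nil)))) 15533174 [2,0,0] (.node (.node (.node (.node
  (.node .nil 15536361 [2,4,3,1] .nil) 15543624 [2,2] .nil) 15549077 [0,1,3,0] (.node .nil 15554058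
  [4,2,2,1,0] .nil)) 15567280 [4,5] (.node (.node (.node .nil 15573134 [4,2,1,0] .nil) 15578129 [4,1]
  .nil) 15598044 [5,5,1] (.node .nil 15603011 [4,4,2,0] .nil))) 15608034 [5,4,3,0] (.node (.node
  (.node (.node .nil 15618976 [2,1,1,2] .nil) 15625729 [0,2,5] .nil) 15633434 [4,0,0] (.node .nil
  15636613 [0,2,1,0,1] .nil)) 15639844 [2,2,1] (.node (.node (.node .nil 15669840 [3,1,4] .nil)
  15681580 [5,3,3,0] .nil) 15687954 [4,1,0] (.node .nil 15696649 [5,1,5,5] .nil))))) 15732454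
  [2,3,0,0,0] (.node (.node (.node (.node (.node (.node .nil 15735417 [1,2,1,1,1] .nil) 15738840
  [5,4,1,1] .nil) 15741767 [3,4] (.node .nil 15752346 [2,3,4,2] .nil)) 15753531 [3,0,1,0] (.node
  (.node (.node .nil 15758756 [4,3,4,1] .nil) 15772190 [4,4,1,0] .nil) 15777409 [2,3,4,1] (.node .nil
  15779267 [0,2,2,2] .nil))) 15782236 [1,0,2,1] (.node (.node (.node (.node .nil 15792226 [5,2,2,0]
  .nil) 15794677 [2,4,2,0,0] .nil) 15799658 [4,1,5,1,0] (.node .nil 15804619 [0,2,3,0] .nil))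
  15809620 [0,5,4] (.node (.node (.node .nil 15812374 [4,3,5] .nil) 15815561 [2,3,1,0] .nil) 15822376
  [5,2,2] (.node .nil 15830067 [5,4,1] .nil)))) 15833260 [4,3,4,0] (.node (.node (.node (.node (.node
  .nil 15836429 [0,2,4,3] .nil) 15839634 [2,3,1,0] .nil) 15846096 [4,5,0,1] (.node .nil 15860831
  [1,0,1,0] .nil)) 15871329 [3,5,4] (.node (.node (.node .nil 15876796 [5,0] .nil) 15881763 [5,3]
  .nil) 15887234 [4,1,1,4,0] (.node .nil 15894937 [5,3,0,1] .nil))) 15899910 [3,2,3,0] (.node (.node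
  (.node (.node .nil 15900839 [1,4,0,0,0] .nil) 15905848 [5] .nil) 15918660 [3,5,5] (.node .nil
  15928140 [1,5,0,1] .nil)) 15934066 [5,0] (.node (.node (.node .nil 15948080 [3,3,3] .nil) 15950993
  [3,5,5] .nil) 15953934 [2,5,0,4] (.node .nil 15959690 [1,4] .nil)))))) 15962645 [1,3,5,1] (.node
  (.node (.node (.node (.node (.node (.node .nil 15974505 [3,3,3] .nil) 15994635 [3,2,2,3] .nil)
  15997844 [4,4,1,3] (.node .nil 16000565 [3,0,1] .nil)) 16003754 [4,1,4,3] (.node (.node (.node .nil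
  16009704 [2,4,3] .nil) 16015574 [3,5,5,2] .nil) 16020553 [2,4,2,1,0] (.node .nil 16024269 [1,1,5]
  .nil))) 16029266 [5,4,1,2] (.node (.node (.node (.node .nil 16041006 [0,2,4,1] .nil) 16044209
  [0,4,1,0] .nil) 16051472 [4,4,1] (.node .nil 16061575 [3,5,1,4] .nil)) 16066854 [4,1,4] (.node
  (.node (.node .nil 16077412 [4,1,4,0] .nil) 16095553 [1,3,4,0] .nil) 16098528 [2,4,1] (.node .nil
  16114179 [4,3,4,4] .nil)))) 16123314 [3,4,3,0] (.node (.node (.node (.node (.node .nil 16126253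
  [1,1,5,0] .nil) 16133260 [1,4,0] .nil) 16136211 [3,4,0] (.node .nil 16139089 [5,4,2,5,4] .nil))
  16156788 [5,0,1,0] (.node (.node (.node .nil 16163146 [3,4,0] .nil) 16177672 [4,4,2,2] .nil)
  16190113 [2,4] (.node .nil 16201472 [1,4] .nil))) 16206914 [0,3,3] (.node (.node (.node (.node .nil
  16236932 [2,4] .nil) 16256316 [2,3,0,0] .nil) 16259491 [5,4,3] (.node .nil 16265373 [3,4] .nil))
  16277312 [2,1,0,2,0] (.node (.node (.node .nil 16278241 [2,3] .nil) 16285946 [0,4,1,3] .nil)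
  16290917 [0,3,0,2] (.node .nil 16296388 [4,2,4,1] .nil))))) 16303641 [5,3,1,2] (.node (.node (.node
  (.node (.node (.node .nil 16306822 [2,3] .nil) 16319023 [2,0] .nil) 16324272 [2,0] (.node .nil
  16329489 [2,3,1] .nil)) 16336076 [5,1,4,3] (.node (.node (.node .nil 16339027 [1,2,1,1] .nil)
  16364104 [2,4,5,2] .nil) 16369930 [3,4,2,1,0] (.node .nil 16375860 [2] .nil))) 16385925 [3,2,3,3]
  (.node (.node (.node (.node .nil 16388890 [4,0,3,1,0] .nil) 16398884 [5,3,0] .nil) 16400742 [3,3,0]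
  (.node .nil 16410712 [3,3,4] .nil)) 16419395 [2,1,4,4] (.node (.node (.node .nil 16436384 [5,3]
  .nil) 16445697 [5,3,0,0] .nil) 16451734 [0,4,0] (.node .nil 16456713 [1,4,1,0] .nil)))) 16458152
  [5,3,0,0] (.node (.node (.node (.node (.node .nil 16483664 [2,3,5] .nil) 16518353 [2,2,3] .nil)
  16521294 [2,3,0] (.node .nil 16527728 [3,0,1,0] .nil)) 16534066 [5,4] (.node (.node (.node .nil
  16540428 [5,2,2,4] .nil) 16548119 [4,5,5,5,0] .nil) 16553352 [3,2,2,0] (.node .nil 16558121 [2,3]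
  .nil))) 16581570 [1,1,5] (.node (.node (.node (.node .nil 16598305 [3,2,2,0] .nil) 16611456 [3,4,1]
  .nil) 16616964 [3,2,2] (.node .nil 16647784 [3,3,0] .nil)) 16662667 [3,4,3] (.node (.node (.node
  .nil 16667668 [4,0] .nil) 16687760 [3,4] .nil) 16719941 [1,5,1,0] (.node .nil 16748578 [3,3]
  .nil))))))))))

def repC (c : ℕ) : ℕ := if c = 4 then 9256176 else if c = 6 then 8481979 else if c = 8 then 8419127 else if c = 12 then 8442831 else 0

/-- A list of distinct points in a set with at least 5 elements extends to a 5-list in it. -/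
theorem ext_list_five {o : Finset GolayPt} (ho : 5 ≤ o.card) {L : List GolayPt} (nd : L.Nodup)
    (hL : ∀ p ∈ L, p ∈ o) (h5 : L.length ≤ 5) :
    ∃ R : List GolayPt, (L ++ R).Nodup ∧ (L ++ R).length = 5 ∧ ∀ p ∈ L ++ R, p ∈ o := by
  obtain ⟨B, hB1, hB2, hB3⟩ := Finset.exists_subsuperset_card_eq
    (s := L.toFinset) (t := o) (n := 5) (fun p hp => hL p (List.mem_toFinset.1 hp))
    (by rw [List.toFinset_card_of_nodup nd]; exact h5) ho
  refine ⟨(B \ L.toFinset).toList, ?_, ?_, ?_⟩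
  · rw [List.nodup_append]
    refine ⟨nd, Finset.nodup_toList _, ?_⟩
    intro a ha b hb hab
    subst hab
    have := Finset.mem_toList.1 hb
    exact (Finset.mem_sdiff.1 this).2 (List.mem_toFinset.2 ha)
  · rw [List.length_append, Finset.length_toList, Finset.card_sdiff_of_subset hB1, hB3,
      List.toFinset_card_of_nodup nd]
    omega
  · intro p hp
    rcases List.mem_append.1 hp with hp | hp
    · exact hL p hp
    · exact hB2 (Finset.mem_sdiff.1 (Finset.mem_toList.1 hp)).1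

/-- The first base points. -/
def E5 : List GolayPt := [pt 23, pt 0, pt 1, pt 2, pt 3]

theorem E5_nodup : E5.Nodup := by decide +kernel

theorem E5_fixed {t : Equiv.Perm GolayPt} (ht : t ∈ fixG [3, 2, 1, 0, 23]) : E5.map t = E5 := by
  have h := (mem_fixG.1 ht).2
  simp only [E5, List.map_cons, List.map_nil]
  rw [h 23 (by simp), h 0 (by simp), h 1 (by simp), h 2 (by simp), h 3 (by simp)]

theorem E5_sub (p : GolayPt) (hp : p ∈ E5) : p ∈ base5 := by
  revert p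
  decide +kernel

theorem base5_sub (p : GolayPt) (hp : p ∈ base5) : p ∈ E5 := by
  revert p
  decide +kernel

/-- A 5-list in a dodecad is moved to the standard position. -/
theorem exists_to_dod0 {d : Finset GolayPt} (hd : d ∈ dodecads) {R : List GolayPt} (nd : R.Nodup)
    (len : R.length = 5) (hR : ∀ p ∈ R, p ∈ d) :
    ∃ u ∈ M24, u • d = ofMask dod0 ∧ R.map u = E5 := by
  obtain ⟨v, hv, hvR⟩ := exists_map_lists nd E5_nodup (by rw [len]; rfl) (by omega)
  have hd' : v • d ∈ dodecads := smul_mem_dodecads hv hd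
  have hb : base5 ⊆ v • d := by
    intro p hp
    have h1 := base5_sub p hp
    rw [← hvR] at h1
    obtain ⟨q, hq, rfl⟩ := List.mem_map.1 h1
    exact (apply_mem_smul v d q).2 (hR q hq)
  obtain ⟨t, ht, htd⟩ := exists_fix5_dod hd' hb
  have htM := (mem_fixG.1 ht).1
  refine ⟨t⁻¹ * v, M24.mul_mem (M24.inv_mem htM) hv, ?_, ?_⟩
  · rw [mul_smul, ← htd, inv_smul_smul]
  · have h1 : R.map (t⁻¹ * v : Equiv.Perm GolayPt) = (R.map v).map (t⁻¹ : Equiv.Perm GolayPt) := by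
      rw [List.map_map]
      rfl
    rw [h1, hvR]
    have h2 := E5_fixed (t := t⁻¹) ((fixG _).inv_mem ht)
    exact h2

/-- Two lists of at most five distinct points inside two dodecads are matched by `M24`, moving one
dodecad to the other. -/
theorem exists_transport_dod {d d' : Finset GolayPt} (hd : d ∈ dodecads) (hd' : d' ∈ dodecads)
    {L L' : List GolayPt} (nd : L.Nodup) (nd' : L'.Nodup) (hlen : L.length = L'.length)
    (hL : ∀ p ∈ L, p ∈ d) (hL' : ∀ p ∈ L', p ∈ d') (h5 : L.length ≤ 5) :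
    ∃ g ∈ M24, g • d = d' ∧ L.map g = L' := by
  obtain ⟨R, hR1, hR2, hR3⟩ := ext_list_five (by rw [hd.2]; norm_num) nd hL h5
  obtain ⟨R', hR1', hR2', hR3'⟩ := ext_list_five (by rw [hd'.2]; norm_num) nd' hL' (by omega)
  obtain ⟨u, hu, h1, h2⟩ := exists_to_dod0 hd hR1 hR2 hR3
  obtain ⟨v, hv, h3, h4⟩ := exists_to_dod0 hd' hR1' hR2' hR3'
  refine ⟨v⁻¹ * u, M24.mul_mem (M24.inv_mem hv) hu, ?_, ?_⟩
  · rw [mul_smul, h1, ← h3, inv_smul_smul]
  · rw [← h4, List.map_append] at h2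
    rw [List.map_append] at h2
    have h5' := List.append_inj h2 (by simpa using hlen)
    have h6 : L.map (v⁻¹ * u : Equiv.Perm GolayPt) = (L.map u).map (v⁻¹ : Equiv.Perm GolayPt) := by
      rw [List.map_map]
      rfl
    rw [h6, h5'.1, List.map_map]
    simp

/-- Level check: tables in the stabiliser `stabL L` moving the point `b` over `orb`. -/
def lvlOK (L : List ℕ) (tabs : List (List ℕ)) (b : ℕ) (orb : List ℕ) : Bool :=
  tabs.all (genOK L) && orb.all fun q => tabs.any fun T => T.getD b 0 == q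

theorem exists_of_lvl {L : List ℕ} {tabs : List (List ℕ)} {b : ℕ} {orb : List ℕ} (hb : b < 24)
    (h : lvlOK L tabs b orb = true) {q : ℕ} (hq : q ∈ orb) :
    ∃ g ∈ stabL L, g (pt b) = pt q := by
  simp only [lvlOK, Bool.and_eq_true, List.all_eq_true, List.any_eq_true, beq_iff_eq] at h
  obtain ⟨T, hT, hTq⟩ := h.2 q hq
  have h1 := h.1 T hT
  have h2 := h1
  simp only [genOK, Bool.and_eq_true, List.all_eq_true, beq_iff_eq] at h2
  refine ⟨gPerm T h2.1, ⟨gPerm_mem h2.1, fun m hm => ?_⟩, ?_⟩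
  · have := ofMask_applyT (validTbl_of_goodT h2.1) m
    rw [h2.2 m hm] at this
    exact this.symm
  · rw [gPerm_pt h2.1 hb, hTq]

theorem lvl0 : lvlOK [dod0, 2 ^ 23] tbl0 a0 outerL = true := by decide +kernel
theorem lvl1 : lvlOK [dod0, 2 ^ 23, 2 ^ a0] tbl1 a1 (outerL.erase a0) = true := by decide +kernel
theorem lvl2 : lvlOK [dod0, 2 ^ 23, 2 ^ a0, 2 ^ a1] tbl2 a2 ((outerL.erase a0).erase a1) = true := by
  decide +kernel
theorem lvl3 : lvlOK [dod0, 2 ^ 23, 2 ^ 0, 2 ^ 1] tbl3 a0 outerL = true := by decide +kernel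

theorem mem_outer {x : GolayPt} (hx : x ∉ ofMask dod0) : idx x ∈ outerL := by
  rw [mem_ofMask] at hx
  have h : ∀ i ∈ List.range 24, dod0.testBit i = false → i ∈ outerL := by decide +kernel
  exact h _ (List.mem_range.2 (idx_lt x)) (by simpa using hx)

theorem outer_not_mem {i : ℕ} (hi : i ∈ outerL) : pt i ∉ ofMask dod0 := by
  revert i
  decide +kernel

theorem stabL_smul_dod {L : List ℕ} {g : Equiv.Perm GolayPt} (hg : g ∈ stabL L) (h : dod0 ∈ L) :
    g • ofMask dod0 = ofMask dod0 := hg.2 _ h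

theorem idx_ne_of_ne {x y : GolayPt} (h : x ≠ y) : idx x ≠ idx y := fun h1 => h (idx_injective h1)

/-- The stabiliser in the dodecad stabiliser of a point of the dodecad is 3-transitive outside. -/
theorem three_trans (x : Fin 3 ↪ GolayPt) (hx : ∀ i, x i ∉ ofMask dod0) :
    ∃ g, g ∈ stabL [dod0, 2 ^ 23] ∧ g (pt a0) = x 0 ∧ g (pt a1) = x 1 ∧ g (pt a2) = x 2 := by
  have hout : ∀ {g : Equiv.Perm GolayPt}, g • ofMask dod0 = ofMask dod0 → ∀ y, y ∉ ofMask dod0 →
      g y ∉ ofMask dod0 := by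
    intro g hg y hy h
    rw [← hg, apply_mem_smul] at h
    exact hy h
  have hout' : ∀ {g : Equiv.Perm GolayPt}, g • ofMask dod0 = ofMask dod0 → ∀ y, y ∉ ofMask dod0 →
      g⁻¹ y ∉ ofMask dod0 := by
    intro g hg y hy h
    have : g⁻¹ • ofMask dod0 = ofMask dod0 := by
      conv_lhs => rw [← hg]
      rw [inv_smul_smul]
    exact hout this y hy h
  obtain ⟨g0, hg0, h0⟩ := exists_of_lvl (by decide) lvl0 (mem_outer (hx 0))
  rw [pt_idx] at h0
  have hd0 : g0 • ofMask dod0 = ofMask dod0 := hg0.2 _ (by simp)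
  -- second point
  have hx1 : g0⁻¹ (x 1) ∉ ofMask dod0 := hout' hd0 _ (hx 1)
  have hne1 : g0⁻¹ (x 1) ≠ pt a0 := by
    intro h
    have h2 := congrArg g0 h
    simp at h2
    rw [h0] at h2
    exact absurd (x.injective h2) (by decide)
  have hm1 : idx (g0⁻¹ (x 1)) ∈ outerL.erase a0 := by
    rw [List.mem_erase_of_ne]
    · exact mem_outer hx1
    · intro h
      apply hne1
      apply idx_injective
      rw [h, idx_pt (by decide)]
  obtain ⟨g1, hg1, h1⟩ := exists_of_lvl (by decide) lvl1 hm1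
  rw [pt_idx] at h1
  have hd1 : g1 • ofMask dod0 = ofMask dod0 := hg1.2 _ (by simp)
  have hf1 : g1 (pt a0) = pt a0 := fix_of_stabL hg1 (by decide) (by simp)
  -- third point
  have hx2 : g1⁻¹ (g0⁻¹ (x 2)) ∉ ofMask dod0 := hout' hd1 _ (hout' hd0 _ (hx 2))
  have hne20 : g1⁻¹ (g0⁻¹ (x 2)) ≠ pt a0 := by
    intro h
    have h2 := congrArg g1 h
    simp at h2
    rw [hf1] at h2
    have h3 := congrArg g0 h2
    simp at h3
    rw [h0] at h3
    exact absurd (x.injective h3) (by decide)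
  have hne21 : g1⁻¹ (g0⁻¹ (x 2)) ≠ pt a1 := by
    intro h
    have h2 := congrArg g1 h
    simp at h2
    rw [h1] at h2
    have h3 := g0⁻¹.injective h2
    exact absurd (x.injective h3) (by decide)
  have hm2 : idx (g1⁻¹ (g0⁻¹ (x 2))) ∈ (outerL.erase a0).erase a1 := by
    rw [List.mem_erase_of_ne, List.mem_erase_of_ne]
    · exact mem_outer hx2
    · intro h
      apply hne20
      apply idx_injective
      rw [h, idx_pt (by decide)]
    · intro h
      apply hne21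
      apply idx_injective
      rw [h, idx_pt (by decide)]
  obtain ⟨g2, hg2, h2⟩ := exists_of_lvl (by decide) lvl2 hm2
  rw [pt_idx] at h2
  have hf20 : g2 (pt a0) = pt a0 := fix_of_stabL hg2 (by decide) (by simp)
  have hf21 : g2 (pt a1) = pt a1 := fix_of_stabL hg2 (by decide) (by simp)
  have inc : ∀ {g : Equiv.Perm GolayPt} {L : List ℕ}, g ∈ stabL (dod0 :: 2 ^ 23 :: L) →
      g ∈ stabL [dod0, 2 ^ 23] := by
    intro g L hg
    exact ⟨hg.1, fun m hm => hg.2 m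
      (List.cons_subset_cons _ (List.cons_subset_cons _ (List.nil_subset _)) hm)⟩
  refine ⟨g0 * g1 * g2, (stabL _).mul_mem ((stabL _).mul_mem hg0 (inc hg1)) (inc hg2), ?_, ?_, ?_⟩
  · show g0 (g1 (g2 (pt a0))) = _
    rw [hf20, hf1, h0]
  · show g0 (g1 (g2 (pt a1))) = _
    rw [hf21, h1]
    simp
  · show g0 (g1 (g2 (pt a2))) = _
    rw [h2]
    simp

theorem pt23_mem_dod0 : pt 23 ∈ ofMask dod0 := by decide +kernel

theorem ptL_mem_dod0 : pt 0 ∈ ofMask dod0 ∧ pt 1 ∈ ofMask dod0 := by decide +kernel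

/-- The stabiliser of a dodecad and a point on it is 3-transitive on the complementary dodecad. -/
theorem s0389 {d : Finset GolayPt} (hd : d ∈ dodecads) {p : GolayPt} (hp : p ∈ d)
    (x y : Fin 3 ↪ GolayPt) (hx : ∀ i, x i ∉ d) (hy : ∀ i, y i ∉ d) :
    ∃ g ∈ MulAction.stabilizer M24 d ⊓ MulAction.stabilizer M24 p,
      ∀ i, (g : Equiv.Perm GolayPt) (x i) = y i := by
  obtain ⟨u, hu, hud, hL⟩ := exists_transport_dod hd dod0_mem (L := [p]) (L' := [pt 23])
    (by simp) (by simp) rfl (by simpa using hp) (by simpa using pt23_mem_dod0) (by norm_num)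
  have hup : u p = pt 23 := by simpa using hL
  have hout : ∀ z, z ∉ d → u z ∉ ofMask dod0 := by
    intro z hz h
    rw [← hud, apply_mem_smul] at h
    exact hz h
  obtain ⟨gx, hgx, hx0, hx1, hx2⟩ := three_trans (x.trans u.toEmbedding) (fun i => hout _ (hx i))
  obtain ⟨gy, hgy, hy0, hy1, hy2⟩ := three_trans (y.trans u.toEmbedding) (fun i => hout _ (hy i))
  have hgg : gy * gx⁻¹ ∈ stabL [dod0, 2 ^ 23] := (stabL _).mul_mem hgy ((stabL _).inv_mem hgx)
  set g0 : Equiv.Perm GolayPt := gy * gx⁻¹ with hg0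
  have hmem : u⁻¹ * g0 * u ∈ M24 := M24.mul_mem (M24.mul_mem (M24.inv_mem hu) hgg.1) hu
  have hs : (u⁻¹ * g0 * u) • d = d := by
    rw [mul_smul, mul_smul, hud, hgg.2 _ (by simp), ← hud, inv_smul_smul]
  have hp' : (u⁻¹ * g0 * u) p = p := by
    show u⁻¹ (g0 (u p)) = p
    rw [hup, fix_of_stabL hgg (by norm_num) (by simp), ← hup]
    simp
  refine ⟨⟨u⁻¹ * g0 * u, hmem⟩, ⟨(mem_stabilizer_M24_finset _ _).2 hs,
    (mem_stabilizer_M24 _ _).2 hp'⟩, ?_⟩
  have hmap : ∀ i, g0 (u (x i)) = u (y i) := by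
    have e : ∀ a b, gx a = b → g0 b = gy a := by
      intro a b h
      rw [← h]
      show gy (gx⁻¹ (gx a)) = _
      simp
    intro i
    match i with
    | 0 => exact (e _ _ hx0).trans hy0
    | 1 => exact (e _ _ hx1).trans hy1
    | 2 => exact (e _ _ hx2).trans hy2
  intro i
  show u⁻¹ (g0 (u (x i))) = y i
  rw [hmap]
  simp

/-- Orbit-stabiliser along a chain. -/
theorem card_chain (A : Subgroup M24) (q : GolayPt) (O : Finset GolayPt)
    (h : ∀ r, r ∈ O ↔ ∃ a ∈ A, (a : Equiv.Perm GolayPt) q = r) :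
    Nat.card A = O.card * Nat.card ↥(A ⊓ MulAction.stabilizer M24 q) := by
  have h1 := Subgroup.index_mul_card (MulAction.stabilizer A q)
  rw [MulAction.index_stabilizer] at h1
  have h2 : MulAction.orbit A q = (O : Set GolayPt) := by
    ext r
    rw [Finset.mem_coe, h]
    constructor
    · rintro ⟨a, rfl⟩
      exact ⟨a.1, a.2, rfl⟩
    · rintro ⟨a, ha, rfl⟩
      exact ⟨⟨a, ha⟩, rfl⟩
  rw [h2, Set.ncard_coe_finset] at h1
  rw [← h1]
  congr 1
  refine Nat.card_congr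
    { toFun := fun g => ⟨g.1.1, Subgroup.mem_inf.2 ⟨g.1.2, MulAction.mem_stabilizer_iff.2 ?_⟩⟩
      invFun := fun g => ⟨⟨g.1, (Subgroup.mem_inf.1 g.2).1⟩, MulAction.mem_stabilizer_iff.2 ?_⟩
      left_inv := fun g => rfl
      right_inv := fun g => rfl }
  · exact MulAction.mem_stabilizer_iff.1 g.2
  · exact MulAction.mem_stabilizer_iff.1 (Subgroup.mem_inf.1 g.2).2

theorem mem_stab_iff_of_map {g : Equiv.Perm GolayPt} (hg : g ∈ M24) {d : Finset GolayPt}
    (h : g • d = d) : (⟨g, hg⟩ : M24) ∈ MulAction.stabilizer M24 d :=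
  (mem_stabilizer_M24_finset _ _).2 h

/-- The pointwise stabiliser of three points of a dodecad in its stabiliser (S1600). -/
theorem s1600 {d : Finset GolayPt} (hd : d ∈ dodecads) {p q r : GolayPt} (hp : p ∈ d) (hq : q ∈ d)
    (hr : r ∈ d) (hpq : p ≠ q) (hpr : p ≠ r) (hqr : q ≠ r) :
    Nat.card ↥(MulAction.stabilizer M24 d ⊓ MulAction.stabilizer M24 p ⊓ MulAction.stabilizer M24 q ⊓
      MulAction.stabilizer M24 r) = 72 ∧
    ∀ x ∉ d, ∀ y ∉ d, ∃ g ∈ (MulAction.stabilizer M24 d ⊓ MulAction.stabilizer M24 p ⊓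
      MulAction.stabilizer M24 q ⊓ MulAction.stabilizer M24 r),
      ((g : M24) : Equiv.Perm GolayPt) x = y := by
  constructor
  · have h0 := card_stab_dodecad_point hd hp
    have h1 := card_chain (MulAction.stabilizer M24 d ⊓ MulAction.stabilizer M24 p) q
      ((d.erase p)) (by
      intro s
      constructor
      · intro hs
        have hs' := Finset.mem_erase.1 hs
        obtain ⟨g, hg, h1, h2⟩ := exists_transport_dod hd hd (L := [p, q]) (L' := [p, s])
          (by simpa using hpq) (by simpa using hs'.1.symm) rfl (by simp [hp, hq]) (by simp [hp, hs'.2])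
          (by norm_num)
        simp only [List.map_cons, List.map_nil, List.cons.injEq, and_true] at h2
        exact ⟨⟨g, hg⟩, ⟨(mem_stabilizer_M24_finset _ _).2 h1, (mem_stabilizer_M24 _ _).2 h2.1⟩, h2.2⟩
      · rintro ⟨⟨a, haM⟩, ⟨ha1, ha2⟩, rfl⟩
        have ha1' := (mem_stabilizer_M24_finset _ _).1 ha1
        have ha2' : a p = p := (mem_stabilizer_M24 _ _).1 ha2
        refine Finset.mem_erase.2 ⟨fun h => hpq (a.injective (by rw [ha2']; exact h.symm)), ?_⟩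
        rw [← ha1']
        exact (apply_mem_smul a d q).2 hq)
    have h2 := card_chain (MulAction.stabilizer M24 d ⊓ MulAction.stabilizer M24 p ⊓
      MulAction.stabilizer M24 q) r (((d.erase p).erase q)) (by
      intro s
      constructor
      · intro hs
        have hs' := Finset.mem_erase.1 hs
        have hs'' := Finset.mem_erase.1 hs'.2
        obtain ⟨g, hg, h1, h2⟩ := exists_transport_dod hd hd (L := [p, q, r]) (L' := [p, q, s])
          (by simp [hpq, hpr, hqr]) (by simp [hpq, hs'.1.symm, hs''.1.symm]) rfl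
          (by simp [hp, hq, hr]) (by simp [hp, hq, hs''.2])
          (by norm_num)
        simp only [List.map_cons, List.map_nil, List.cons.injEq, and_true] at h2
        exact ⟨⟨g, hg⟩, ⟨⟨(mem_stabilizer_M24_finset _ _).2 h1, (mem_stabilizer_M24 _ _).2 h2.1⟩,
          (mem_stabilizer_M24 _ _).2 h2.2.1⟩, h2.2.2⟩
      · rintro ⟨⟨a, haM⟩, ⟨⟨ha1, ha2⟩, ha3⟩, rfl⟩
        have ha1' := (mem_stabilizer_M24_finset _ _).1 ha1
        have ha2' : a p = p := (mem_stabilizer_M24 _ _).1 ha2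
        have ha3' : a q = q := (mem_stabilizer_M24 _ _).1 ha3
        refine Finset.mem_erase.2 ⟨fun h => hqr (a.injective (by rw [ha3']; exact h.symm)),
          Finset.mem_erase.2 ⟨fun h => hpr (a.injective (by rw [ha2']; exact h.symm)), ?_⟩⟩
        rw [← ha1']
        exact (apply_mem_smul a d r).2 hr)
    have c1 : (d.erase p).card = 11 := by rw [Finset.card_erase_of_mem hp, hd.2]
    have c2 : ((d.erase p).erase q).card = 10 := by
      rw [Finset.card_erase_of_mem (Finset.mem_erase.2 ⟨hpq.symm, hq⟩), c1]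
    rw [c1, h0] at h1
    rw [c2] at h2
    omega
  · intro x hx y hy
    obtain ⟨u, hu, hud, hL⟩ := exists_transport_dod hd dod0_mem (L := [p, q, r])
      (L' := [pt 23, pt 0, pt 1]) (by simp [hpq, hpr, hqr]) (by decide +kernel) rfl
      (by simp [hp, hq, hr]) (by
        intro p hp
        simp only [List.mem_cons, List.not_mem_nil, or_false] at hp
        rcases hp with rfl | rfl | rfl
        · exact pt23_mem_dod0
        · exact ptL_mem_dod0.1
        · exact ptL_mem_dod0.2) (by norm_num)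
    simp only [List.map_cons, List.map_nil, List.cons.injEq, and_true] at hL
    obtain ⟨hup, huq, hur⟩ := hL
    have hout : ∀ z, z ∉ d → idx (u z) ∈ outerL := by
      intro z hz
      apply mem_outer
      intro h
      rw [← hud, apply_mem_smul] at h
      exact hz h
    obtain ⟨gx, hgx, hx0⟩ := exists_of_lvl (by decide) lvl3 (hout x hx)
    obtain ⟨gy, hgy, hy0⟩ := exists_of_lvl (by decide) lvl3 (hout y hy)
    rw [pt_idx] at hx0 hy0
    have hgg : gy * gx⁻¹ ∈ stabL [dod0, 2 ^ 23, 2 ^ 0, 2 ^ 1] :=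
      (stabL _).mul_mem hgy ((stabL _).inv_mem hgx)
    set g0 : Equiv.Perm GolayPt := gy * gx⁻¹ with hg0
    have hmem : u⁻¹ * g0 * u ∈ M24 := M24.mul_mem (M24.mul_mem (M24.inv_mem hu) hgg.1) hu
    have hs : (u⁻¹ * g0 * u) • d = d := by
      rw [mul_smul, mul_smul, hud, hgg.2 _ (by simp), ← hud, inv_smul_smul]
    have fixb : ∀ (z : GolayPt) (k : ℕ), k < 24 → 2 ^ k ∈ [dod0, 2 ^ 23, 2 ^ 0, 2 ^ 1] → u z = pt k →
        (u⁻¹ * g0 * u) z = z := by
      intro z k hk hkL hz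
      show u⁻¹ (g0 (u z)) = z
      rw [hz, fix_of_stabL hgg hk hkL, ← hz]
      simp
    refine ⟨⟨u⁻¹ * g0 * u, hmem⟩, ⟨⟨⟨(mem_stabilizer_M24_finset _ _).2 hs,
      (mem_stabilizer_M24 _ _).2 (fixb p 23 (by norm_num) (by simp) hup)⟩,
      (mem_stabilizer_M24 _ _).2 (fixb q 0 (by norm_num) (by simp) huq)⟩,
      (mem_stabilizer_M24 _ _).2 (fixb r 1 (by norm_num) (by simp) hur)⟩, ?_⟩
    show u⁻¹ (g0 (u x)) = y
    have h1 : gx⁻¹ (u x) = pt a0 := by rw [← hx0]; simp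
    show u⁻¹ (gy (gx⁻¹ (u x))) = y
    rw [h1, hy0]
    simp

/-! ### Dodecads through a point -/

theorem conj_of_certD {L : List ℕ} {gens : List (List ℕ)} {t : CT} {rep : ℕ → ℕ} {fam : ℕ → Bool}
    (hgens : gens.all (genOK L) = true)
    (hc : codeAll (fun m => popc m != 12 || !fam m ||
      findOK gens t (rep (popc (dod0 &&& m))) m) = true)
    {a b : Finset GolayPt} (ha : a ∈ dodecads) (hb : b ∈ dodecads) (hfa : fam (toMask a) = true)
    (hfb : fam (toMask b) = true) (h : (ofMask dod0 ∩ a).card = (ofMask dod0 ∩ b).card) :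
    ∃ g ∈ stabL L, g • a = b := by
  have key : ∀ m ∈ dodecadList, fam m = true →
      findOK gens t (rep (popc (dod0 &&& m))) m = true := by
    intro m hm hf
    have h1 := List.mem_filter.1 hm
    have h2 := (codeAll_iff _).1 hc m h1.1
    have h8 : popc m = 12 := by simpa using h1.2
    simpa [h8, hf] using h2
  have h1 := key _ ((mem_dodecads_iff a).1 ha) hfa
  have h2 := key _ ((mem_dodecads_iff b).1 hb) hfb
  rw [card_inter_dod0, card_inter_dod0] at h
  rw [← h] at h2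
  obtain ⟨g, hg, h3⟩ := conj_of_findOK (moves_all_of_genOK hgens) h1 h2
  rw [ofMask_toMask, ofMask_toMask] at h3
  exact ⟨g, hg, h3⟩

theorem certC : codeAll (fun m => popc m != 12 || !(m.testBit 23) ||
    findOK gensC treeC (repC (popc (dod0 &&& m))) m) = true := by decide +kernel

theorem ncard_dodecads_transport {k : Equiv.Perm GolayPt} (hk : k ∈ M24)
    (P0 P : Finset GolayPt → Prop) (h : ∀ x, P0 x ↔ P (k • x)) :
    {x | x ∈ dodecads ∧ P x}.ncard = {x | x ∈ dodecads ∧ P0 x}.ncard := by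
  symm
  apply ncard_smul_eq k
  intro s
  simp only [Set.mem_ofPred_eq]
  rw [smul_mem_dodecads_iff hk, h]

theorem count_stdD {P0 : Finset GolayPt → Prop} {P : ℕ → Bool}
    (h : ∀ y ∈ dodecads, P0 y ↔ P (toMask y) = true) {n : ℕ}
    (hn : codeCount (fun m => popc m == 12 && P m) = n) :
    {y | y ∈ dodecads ∧ P0 y}.ncard = n := by
  rw [← hn]
  apply ncard_dodecads_filter
  · intro o ho
    have h8 : popc (toMask o) = 12 := by rw [← card_eq_popc]; exact ho.2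
    rw [h o ho]
    simp [h8]
  · intro m hm
    simp only [Bool.and_eq_true, beq_iff_eq] at hm
    exact hm.1

/-- The point stabiliser acting on dodecads through the point (S1639). -/
theorem s1639 (x : GolayPt) (d : Finset GolayPt) (hd : d ∈ dodecads) (hx : x ∈ d) :
    {d' : Finset GolayPt | d' ∈ dodecads ∧ x ∈ d' ∧ (d ∩ d').card = 4}.ncard = 165 ∧
    {d' : Finset GolayPt | d' ∈ dodecads ∧ x ∈ d' ∧ (d ∩ d').card = 8}.ncard = 330 ∧
    {d' : Finset GolayPt | d' ∈ dodecads ∧ x ∈ d' ∧ (d ∩ d').card = 6}.ncard = 792 ∧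
    ∀ d' d'' : Finset GolayPt, d' ∈ dodecads → d'' ∈ dodecads → x ∈ d' → x ∈ d'' →
      (d ∩ d').card = (d ∩ d'').card →
      ∃ g : Equiv.Perm GolayPt, g ∈ M24 ∧ g x = x ∧ g • d = d ∧ g • d' = d'' := by
  obtain ⟨k, hk, hkd, hL⟩ := exists_transport_dod dod0_mem hd (L := [pt 23]) (L' := [x])
    (by simp) (by simp) rfl (by simpa using pt23_mem_dod0) (by simpa using hx) (by norm_num)
  have h23 : k (pt 23) = x := by simpa using hL
  have fam : ∀ y, pt 23 ∈ y ↔ (toMask y).testBit 23 = true := fun y => mem_pt_iff (by norm_num) y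
  have cnt : ∀ c n : ℕ, codeCount (fun m => popc m == 12 && (m.testBit 23 && popc (dod0 &&& m) == c)) = n →
      {d' : Finset GolayPt | d' ∈ dodecads ∧ x ∈ d' ∧ (d ∩ d').card = c}.ncard = n := by
    intro c n hn
    rw [ncard_dodecads_transport hk (fun y => pt 23 ∈ y ∧ (ofMask dod0 ∩ y).card = c) _
      (fun y => by rw [mem_smul_of_map h23, inter_smul_of_eq hkd])]
    refine count_stdD (P := fun m => m.testBit 23 && popc (dod0 &&& m) == c) (fun y _ => ?_) hn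
    rw [fam, card_inter_dod0]; simp
  refine ⟨cnt 4 165 (by decide +kernel), cnt 8 330 (by decide +kernel), cnt 6 792 (by decide +kernel),
    fun a b ha hb hxa hxb h => ?_⟩
  have f : ∀ y, x ∈ y → (toMask (k⁻¹ • y)).testBit 23 = true := by
    intro y hy
    rw [← fam, mem_inv_smul_of_map h23]
    exact hy
  obtain ⟨g, hg, h1⟩ := conj_of_certD (L := [dod0, 2 ^ 23]) (fam := fun m => m.testBit 23) gensC_ok certC
    (smul_mem_dodecads (M24.inv_mem hk) ha) (smul_mem_dodecads (M24.inv_mem hk) hb)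
    (f a hxa) (f b hxb) (by rw [inter_inv_smul_of_eq hkd, inter_inv_smul_of_eq hkd]; exact h)
  exact ⟨k * g * k⁻¹, M24.mul_mem (M24.mul_mem hk hg.1) (M24.inv_mem hk),
    fix_back h23 (fix_of_stabL hg (by norm_num) (by simp)),
    stab_back hkd (hg.2 _ (by simp)), conj_back h1⟩

end Cfsg.Agent.Lib.Sporadic.M24DodFlag
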