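import Cfsg.Agent.Lib.Sporadic.M24DodCert

/-!
# The stabiliser of a complementary pair of dodecads is maximal
-/

namespace Cfsg.Agent.Lib.Sporadic.M24DodPair

open Cfsg Cfsg.Agent.Lib.Sporadic.GolayCore Cfsg.Agent.Lib.Sporadic.M24Tbl
open Cfsg.Agent.Lib.Sporadic.M24Chain Cfsg.Agent.Lib.Sporadic.M24Basic
open Cfsg.Agent.Lib.Sporadic.M24Act Cfsg.Agent.Lib.Sporadic.M24Lists
open Cfsg.Agent.Lib.Sporadic.M24Orbit Cfsg.Agent.Lib.Sporadic.M24Count
open Cfsg.Agent.Lib.Sporadic.M24Flag Cfsg.Agent.Lib.Sporadic.M24Dodecad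
open Cfsg.Agent.Lib.Sporadic.M24DodCert
open scoped Pointwise

theorem compl_mem_supports {d : Finset GolayPt}
    (hd : d ∈ supports (golayCode : Set (GolayPt → ZMod 2))) :
    dᶜ ∈ supports (golayCode : Set (GolayPt → ZMod 2)) := by
  rw [mem_supports_iff] at hd ⊢
  rw [toMask_compl]
  exact xor_mem_spanList allMask_mem_codeList hd

theorem compl_mem_dodecads {d : Finset GolayPt} (hd : d ∈ dodecads) : dᶜ ∈ dodecads := by
  refine ⟨compl_mem_supports hd.1, ?_⟩
  have h2 : d.card = 12 := hd.2
  rw [Finset.card_compl, h2]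
  rfl

theorem smul_compl' (g : Equiv.Perm GolayPt) (e : Finset GolayPt) : g • eᶜ = (g • e)ᶜ := by
  ext p
  rw [Finset.mem_compl, mem_smul_iff_inv, mem_smul_iff_inv, Finset.mem_compl]

/-- The pair of a dodecad and its complement. -/
def pairOf (e : Finset GolayPt) : Finset (Finset GolayPt) := {e, eᶜ}

theorem smul_pairOf (g : Equiv.Perm GolayPt) (e : Finset GolayPt) :
    g • pairOf e = pairOf (g • e) := by
  unfold pairOf
  rw [Finset.smul_finset_insert, Finset.smul_finset_singleton, smul_compl']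

theorem pairOf_compl (e : Finset GolayPt) : pairOf eᶜ = pairOf e := by
  unfold pairOf
  rw [compl_compl, Finset.pair_comm]

/-- The pairs. -/
def pairs : Set (Finset (Finset GolayPt)) := {y | ∃ e ∈ dodecads, y = pairOf e}

def cE (e : Finset GolayPt) : ℕ := (ofMask dod0 ∩ e).card

theorem cE_le (e : Finset GolayPt) : cE e ≤ 12 := by
  have h : (ofMask dod0).card = 12 := dod0_mem.2
  rw [← h]
  exact Finset.card_le_card Finset.inter_subset_left

theorem cE_compl (e : Finset GolayPt) : cE eᶜ = 12 - cE e := by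
  have h : (ofMask dod0).card = 12 := dod0_mem.2
  have h1 := Finset.card_inter_add_card_sdiff (ofMask dod0) e
  have h2 : ofMask dod0 ∩ eᶜ = ofMask dod0 \ e := by
    ext p; simp
  unfold cE
  rw [h2]
  omega

def clE (n : ℕ) : Fin 3 := if n = 12 ∨ n = 0 then 0 else if n = 6 then 2 else 1

theorem clE_compl {n : ℕ} (h : n ≤ 12) : clE (12 - n) = clE n := by
  interval_cases n <;> rfl

def cl (y : Finset (Finset GolayPt)) : Fin 3 :=
  if ∃ e ∈ y, clE (cE e) = 0 then 0 else if ∃ e ∈ y, clE (cE e) = 2 then 2 else 1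

theorem cl_pairOf (e : Finset GolayPt) : cl (pairOf e) = clE (cE e) := by
  have h : clE (cE eᶜ) = clE (cE e) := by rw [cE_compl, clE_compl (cE_le e)]
  have h0 : (∃ x ∈ pairOf e, clE (cE x) = 0) ↔ clE (cE e) = 0 := by
    simp [pairOf, h]
  have h2 : (∃ x ∈ pairOf e, clE (cE x) = 2) ↔ clE (cE e) = 2 := by
    simp [pairOf, h]
  unfold cl
  rw [if_congr h0 rfl (if_congr h2 rfl rfl)]
  generalize clE (cE e) = x
  fin_cases x <;> simp

theorem pt23_mem_or (e : Finset GolayPt) : pt 23 ∈ e ∨ pt 23 ∈ eᶜ := by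
  by_cases h : pt 23 ∈ e
  · exact Or.inl h
  · exact Or.inr (Finset.mem_compl.2 h)

theorem pairOf_injOn : Set.InjOn pairOf {e : Finset GolayPt | pt 23 ∈ e} := by
  intro a ha b hb hab
  have h1 : a ∈ pairOf b := by
    rw [← hab]; simp [pairOf]
  simp only [pairOf, Finset.mem_insert, Finset.mem_singleton] at h1
  rcases h1 with h1 | h1
  · exact h1
  · exfalso
    have ha' : pt 23 ∈ a := ha
    rw [h1, Finset.mem_compl] at ha'
    exact ha' hb

theorem ncard_class (Q : Finset GolayPt → Prop) (hQ : ∀ e, Q eᶜ ↔ Q e) (P : ℕ → Bool)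
    (hP : ∀ o ∈ dodecads, (pt 23 ∈ o ∧ Q o) ↔ P (toMask o) = true)
    (hP12 : ∀ m, P m = true → popc m = 12) :
    {y | y ∈ pairs ∧ ∃ e ∈ y, Q e}.ncard = codeCount P := by
  have h1 : {y | y ∈ pairs ∧ ∃ e ∈ y, Q e} = pairOf '' {e | e ∈ dodecads ∧ (pt 23 ∈ e ∧ Q e)} := by
    ext y
    constructor
    · rintro ⟨⟨e, he, rfl⟩, x, hx, hQx⟩
      have hQe : Q e := by
        simp only [pairOf, Finset.mem_insert, Finset.mem_singleton] at hx
        rcases hx with rfl | rfl
        · exact hQx
        · exact (hQ e).1 hQx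
      rcases pt23_mem_or e with h | h
      · exact ⟨e, ⟨he, h, hQe⟩, rfl⟩
      · exact ⟨eᶜ, ⟨compl_mem_dodecads he, h, (hQ e).2 hQe⟩, pairOf_compl e⟩
    · rintro ⟨e, ⟨he, h, hQe⟩, rfl⟩
      exact ⟨⟨e, he, rfl⟩, e, by simp [pairOf], hQe⟩
  rw [h1, Set.InjOn.ncard_image, ncard_dodecads_filter _ P hP hP12]
  intro a ha b hb
  exact pairOf_injOn ha.2.1 hb.2.1

theorem mem23_iff (y : Finset GolayPt) : pt 23 ∈ y ↔ (toMask y).testBit 23 = true :=
  mem_pt_iff (by norm_num) y

theorem isCoatom_pair0 : IsCoatom (MulAction.stabilizer M24 (pairOf (ofMask dod0))) := by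
  have h12 : ∀ {o : Finset GolayPt}, o ∈ dodecads → popc (toMask o) = 12 := fun ho => by
    rw [← card_eq_popc]; exact ho.2
  refine OrbitCoatom.isCoatom_stabilizer_of_classes (pairOf (ofMask dod0)) pairs ?_
    (y₀ := pairOf (ofMask 28637)) ⟨_, isDodecad_ofMask (by decide +kernel), rfl⟩ ?_
    (k := 3) cl ![1, 495, 792] 1288 ?_ 0 ?_ ?_ ?_ ?_ (by decide +kernel)
  · ext y
    constructor
    · rintro ⟨⟨g, hg⟩, rfl⟩
      exact ⟨_, smul_mem_dodecads hg dod0_mem, smul_pairOf g _⟩
    · rintro ⟨e, he, rfl⟩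
      obtain ⟨g, hg, hge⟩ := exists_smul_dod0 he
      exact ⟨⟨g, hg⟩, by
        show g • pairOf _ = _
        rw [smul_pairOf, hge]⟩
  · intro h
    have h1 : ofMask 28637 ∈ pairOf (ofMask dod0) := by
      rw [← h]; simp [pairOf]
    have h2 := cl_pairOf (ofMask dod0)
    simp only [pairOf, Finset.mem_insert, Finset.mem_singleton] at h1
    rcases h1 with h1 | h1
    · exact absurd h1 (by decide +kernel)
    · exact absurd h1 (by decide +kernel)
  · have := ncard_class (fun _ => True) (by simp) (fun m => popc m == 12 && m.testBit 23)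
      (fun o ho => by rw [mem23_iff]; simp [h12 ho])
      (fun m hm => by simp only [Bool.and_eq_true, beq_iff_eq] at hm; exact hm.1)
    have h1 : {y | y ∈ pairs ∧ ∃ e ∈ y, True} = pairs := by
      ext y
      constructor
      · exact fun h => h.1
      · rintro ⟨e, he, rfl⟩
        exact ⟨⟨e, he, rfl⟩, e, by simp [pairOf], trivial⟩
    rw [h1] at this
    rw [this]
    decide +kernel
  · rw [cl_pairOf]
    have : cE (ofMask dod0) = 12 := by
      unfold cE
      rw [Finset.inter_self]
      exact dod0_mem.2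
    rw [this]
    rfl
  · have key : ∀ (c : Fin 3), {y | y ∈ pairs ∧ cl y = c} =
        {y | y ∈ pairs ∧ ∃ e ∈ y, clE (cE e) = c} := by
      intro c
      ext y
      constructor
      · rintro ⟨⟨e, he, rfl⟩, h⟩
        rw [cl_pairOf] at h
        exact ⟨⟨e, he, rfl⟩, e, by simp [pairOf], h⟩
      · rintro ⟨⟨e, he, rfl⟩, x, hx, h⟩
        refine ⟨⟨e, he, rfl⟩, ?_⟩
        rw [cl_pairOf]
        simp only [pairOf, Finset.mem_insert, Finset.mem_singleton] at hx
        rcases hx with rfl | rfl
        · exact h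
        · rwa [cE_compl, clE_compl (cE_le e)] at h
    have hcount : ∀ c : Fin 3, {y | y ∈ pairs ∧ ∃ e ∈ y, clE (cE e) = c}.ncard =
        codeCount (fun m => popc m == 12 && (m.testBit 23 && decide (clE (popc (dod0 &&& m)) = c))) := by
      intro c
      apply ncard_class
      · intro e
        rw [cE_compl, clE_compl (cE_le e)]
      · intro o ho
        rw [mem23_iff]
        unfold cE
        rw [card_inter_dod0]
        simp [h12 ho]
      · intro m hm
        simp only [Bool.and_eq_true, beq_iff_eq] at hm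
        exact hm.1
    intro c
    rw [key, hcount]
    revert c
    decide +kernel
  · rintro _ ⟨e, he, rfl⟩ _ ⟨e', he', rfl⟩ hc
    rw [cl_pairOf, cl_pairOf] at hc
    -- choose the right member of the second pair
    have hcase : cE e = cE e' ∨ cE e = cE e'ᶜ := by
      rw [cE_compl]
      have h1 := cE_le e
      have h2 := cE_le e'
      have he4 : (cE e = 0 ∨ cE e = 4 ∨ cE e = 6 ∨ cE e = 8 ∨ cE e = 12) := by
        have : codeAll (fun m => popc m != 12 || (popc (dod0 &&& m) == 0 || popc (dod0 &&& m) == 4 ||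
            popc (dod0 &&& m) == 6 || popc (dod0 &&& m) == 8 || popc (dod0 &&& m) == 12)) = true := by
          decide +kernel
        have h3 := dodecad_all this _ ((mem_dodecads_iff e).1 he)
        unfold cE
        rw [card_inter_dod0]
        simpa [or_assoc] using h3
      have he4' : (cE e' = 0 ∨ cE e' = 4 ∨ cE e' = 6 ∨ cE e' = 8 ∨ cE e' = 12) := by
        have : codeAll (fun m => popc m != 12 || (popc (dod0 &&& m) == 0 || popc (dod0 &&& m) == 4 ||
            popc (dod0 &&& m) == 6 || popc (dod0 &&& m) == 8 || popc (dod0 &&& m) == 12)) = true := by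
          decide +kernel
        have h3 := dodecad_all this _ ((mem_dodecads_iff e').1 he')
        unfold cE
        rw [card_inter_dod0]
        simpa [or_assoc] using h3
      generalize cE e = a at *
      generalize cE e' = b at *
      rcases he4 with rfl | rfl | rfl | rfl | rfl <;> rcases he4' with rfl | rfl | rfl | rfl | rfl <;>
        first
        | omega
        | exact absurd hc (by decide)
    have hd0 : (compl (ofMask dod0)) = (ofMask dod0)ᶜ := rfl
    rcases hcase with h | h
    · obtain ⟨g, hg, h1, h2⟩ := dodecad_orbit_d0 he he' h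
      refine ⟨⟨g, hg⟩, (MulAction.mem_stabilizer_iff).2 ?_, ?_⟩
      · show g • pairOf _ = _
        rw [smul_pairOf, h1]
      · show g • pairOf _ = _
        rw [smul_pairOf, h2]
    · obtain ⟨g, hg, h1, h2⟩ := dodecad_orbit_d0 he (compl_mem_dodecads he') h
      refine ⟨⟨g, hg⟩, (MulAction.mem_stabilizer_iff).2 ?_, ?_⟩
      · show g • pairOf _ = _
        rw [smul_pairOf, h1]
      · show g • pairOf _ = _
        rw [smul_pairOf, h2, pairOf_compl]
  · rintro _ ⟨e, he, rfl⟩ hc
    rw [cl_pairOf, cl_pairOf] at hc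
    have hd : cE (ofMask dod0) = 12 := by
      unfold cE
      rw [Finset.inter_self]
      exact dod0_mem.2
    rw [hd] at hc
    have h3 : cE e = 12 ∨ cE e = 0 := by
      by_contra hcon
      have h0 : clE (cE e) ≠ 0 := by
        unfold clE
        rw [if_neg hcon]
        split_ifs <;> decide
      exact h0 hc
    have h12' : (ofMask dod0).card = 12 := dod0_mem.2
    rcases h3 with h3 | h3
    · have h4 : ofMask dod0 ∩ e = ofMask dod0 := by
        apply Finset.eq_of_subset_of_card_le Finset.inter_subset_left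
        rw [h12']; exact h3.ge
      have h5 : ofMask dod0 ⊆ e := Finset.inter_eq_left.1 h4
      have h6 : ofMask dod0 = e := Finset.eq_of_subset_of_card_le h5 (by rw [h12', he.2])
      rw [← h6]
    · have h4 : ofMask dod0 ∩ eᶜ = ofMask dod0 := by
        apply Finset.eq_of_subset_of_card_le Finset.inter_subset_left
        have : cE eᶜ = 12 := by rw [cE_compl, h3]
        rw [h12']
        exact this.ge
      have h5 : ofMask dod0 ⊆ eᶜ := Finset.inter_eq_left.1 h4
      have h6 : ofMask dod0 = eᶜ := Finset.eq_of_subset_of_card_le h5 (by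
        rw [h12', (compl_mem_dodecads he).2])
      rw [h6, pairOf_compl]

/-- The stabiliser of a complementary pair of dodecads is maximal. -/
theorem isCoatom_pair {d : Finset GolayPt} (hd : d ∈ dodecads) :
    IsCoatom (MulAction.stabilizer M24 ({d, dᶜ} : Finset (Finset GolayPt))) := by
  obtain ⟨g, hg, hgs⟩ := exists_smul_dod0 hd
  have := isCoatom_stabilizer_smul (⟨g, hg⟩ : M24) isCoatom_pair0
  rwa [show (⟨g, hg⟩ : M24) • pairOf (ofMask dod0) = pairOf d by
    show g • pairOf _ = _
    rw [smul_pairOf, hgs]] at this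

end Cfsg.Agent.Lib.Sporadic.M24DodPair
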