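import Cfsg.Agent.Lib.Sporadic.M24OctadStab

/-!
# Transport of flags (octad, points in it, a point outside); generic octad certificates
-/

namespace Cfsg.Agent.Lib.Sporadic.M24Flag

open Cfsg Cfsg.Agent.Lib.Sporadic.GolayCore Cfsg.Agent.Lib.Sporadic.M24Tbl
open Cfsg.Agent.Lib.Sporadic.M24Chain Cfsg.Agent.Lib.Sporadic.M24Basic
open Cfsg.Agent.Lib.Sporadic.M24Act Cfsg.Agent.Lib.Sporadic.M24Lists
open Cfsg.Agent.Lib.Sporadic.M24Orbit Cfsg.Agent.Lib.Sporadic.M24Count
open Cfsg.Agent.Lib.Sporadic.M24Six Cfsg.Agent.Lib.Sporadic.M24Octad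
open Cfsg.Agent.Lib.Sporadic.M24OctadStab
open scoped Pointwise

/-- Two lists of at most five distinct points inside two octads are matched by `M24`, moving one
octad to the other. -/
theorem exists_transport_flag {o o' : Finset GolayPt} (ho : o ∈ octads) (ho' : o' ∈ octads)
    {L L' : List GolayPt} (nd : L.Nodup) (nd' : L'.Nodup) (hlen : L.length = L'.length)
    (hL : ∀ p ∈ L, p ∈ o) (hL' : ∀ p ∈ L', p ∈ o') (h5 : L.length ≤ 5) :
    ∃ g ∈ M24, g • o = o' ∧ L.map g = L' := by
  have ext5 : ∀ {o : Finset GolayPt} (_ : o ∈ octads) {L : List GolayPt} (_ : L.Nodup)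
      (_ : ∀ p ∈ L, p ∈ o) (_ : L.length ≤ 5),
      ∃ R : List GolayPt, (L ++ R).Nodup ∧ (L ++ R).length = 5 ∧ ∀ p ∈ L ++ R, p ∈ o := by
    intro o ho L nd hL h5
    obtain ⟨B, hB1, hB2, hB3⟩ := Finset.exists_subsuperset_card_eq
      (s := L.toFinset) (t := o) (n := 5) (fun p hp => hL p (List.mem_toFinset.1 hp))
      (by rw [List.toFinset_card_of_nodup nd]; exact h5) (by rw [ho.2]; norm_num)
    refine ⟨(B \ L.toFinset).toList, ?_, ?_, ?_⟩
    · rw [List.nodup_append]
      refine ⟨nd, Finset.nodup_toList _, ?_⟩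
      intro a ha b hb hab
      subst hab
      have := Finset.mem_toList.1 hb
      exact (Finset.mem_sdiff.1 this).2 (List.mem_toFinset.2 ha)
    · rw [List.length_append, Finset.length_toList, Finset.card_sdiff_of_subset hB1, hB3,
        List.toFinset_card_of_nodup nd]
      omega
    · intro p hp
      rcases List.mem_append.1 hp with hp | hp
      · exact hL p hp
      · exact hB2 (Finset.mem_sdiff.1 (Finset.mem_toList.1 hp)).1
  obtain ⟨R, hR1, hR2, hR3⟩ := ext5 ho nd hL h5
  obtain ⟨R', hR1', hR2', hR3'⟩ := ext5 ho' nd' hL' (by omega)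
  obtain ⟨g, hg, h⟩ := exists_map_lists hR1 hR1' (by omega) (by omega)
  rw [List.map_append] at h
  have h1 := List.append_inj h (by simpa using hlen)
  refine ⟨g, hg, ?_, h1.1⟩
  have hsub : ((L ++ R).toFinset.image g) ⊆ o' ∩ g • o := by
    intro q hq
    obtain ⟨p, hp, rfl⟩ := Finset.mem_image.1 hq
    have hp' := List.mem_toFinset.1 hp
    refine Finset.mem_inter.2 ⟨hR3' _ ?_, ?_⟩
    · rw [← List.map_append] at h
      rw [← h]
      exact List.mem_map_of_mem hp'
    · exact (apply_mem_smul g o p).2 (hR3 p hp')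
  have hcard : ((L ++ R).toFinset.image g).card = 5 := by
    rw [Finset.card_image_of_injective _ g.injective, List.toFinset_card_of_nodup hR1, hR2]
  have := eq_of_octads_of_five ho' (smul_mem_octads hg ho) (by
    calc 5 = _ := hcard.symm
      _ ≤ _ := Finset.card_le_card hsub)
  exact this.symm

/-- The same with a point outside each octad. -/
theorem exists_transport_flag_out {o o' : Finset GolayPt} (ho : o ∈ octads) (ho' : o' ∈ octads)
    {L L' : List GolayPt} (nd : L.Nodup) (nd' : L'.Nodup) (hlen : L.length = L'.length)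
    (hL : ∀ p ∈ L, p ∈ o) (hL' : ∀ p ∈ L', p ∈ o') (h5 : L.length ≤ 5) {q q' : GolayPt}
    (hq : q ∉ o) (hq' : q' ∉ o') :
    ∃ g ∈ M24, g • o = o' ∧ L.map g = L' ∧ g q = q' := by
  obtain ⟨g, hg, h1, h2⟩ := exists_transport_flag ho ho' nd nd' hlen hL hL' h5
  have h3 : g q ∉ o' := by
    rw [← h1, apply_mem_smul]
    exact hq
  obtain ⟨f, hf, hfo, hfq⟩ := trans_outside ho' h3 hq'
  refine ⟨f * g, M24.mul_mem hf hg, ?_, ?_, ?_⟩
  · rw [mul_smul, h1]
    apply Finset.eq_of_subset_of_card_le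
    · intro x hx
      obtain ⟨y, hy, rfl⟩ := Finset.mem_smul_finset.1 hx
      show f y ∈ o'
      rw [hfo y hy]
      exact hy
    · rw [Finset.card_smul_finset]
  · rw [← h2]
    apply List.map_congr_left
    intro p hp
    show f (g p) = g p
    apply hfo
    apply hL'
    rw [← h2]
    exact List.mem_map_of_mem hp
  · show f (g q) = q'
    exact hfq

theorem toMask_octad0 : toMask (ofMask octad0) = octad0 := toMask_ofMask (by decide +kernel)

theorem card_inter_octad0 (x : Finset GolayPt) :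
    (ofMask octad0 ∩ x).card = popc (octad0 &&& toMask x) := by
  rw [card_eq_popc, toMask_inter, toMask_octad0]

/-- Points as bits of masks. -/
theorem mem_pt_iff {k : ℕ} (hk : k < 24) (x : Finset GolayPt) :
    pt k ∈ x ↔ (toMask x).testBit k = true := by
  have h := testBit_toMask x (pt k)
  rw [idx_pt hk] at h
  rw [h]
  simp

theorem ofMask_two_pow {k : ℕ} (hk : k < 24) : ofMask (2 ^ k) = {pt k} := by
  ext p
  rw [mem_ofMask, Finset.mem_singleton, Nat.testBit_two_pow]
  constructor
  · intro h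
    have h1 : k = idx p := by simpa using h
    rw [h1, pt_idx]
  · rintro rfl
    simp [idx_pt hk]

theorem fix_of_stabL {L : List ℕ} {g : Equiv.Perm GolayPt} (hg : g ∈ stabL L) {k : ℕ} (hk : k < 24)
    (h : 2 ^ k ∈ L) : g (pt k) = pt k := by
  have h1 := hg.2 _ h
  rw [ofMask_two_pow hk, Finset.smul_finset_singleton] at h1
  exact Finset.singleton_injective h1

/-- Conjugacy within a family of octads, from a certificate. -/
theorem conj_of_cert {L : List ℕ} {gens : List (List ℕ)} {t : CT} {rep : ℕ → ℕ} {fam : ℕ → Bool}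
    (hgens : gens.all (genOK L) = true)
    (hc : codeAll (fun m => popc m != 8 || !fam m ||
      findOK gens t (rep (popc (octad0 &&& m))) m) = true)
    {a b : Finset GolayPt} (ha : a ∈ octads) (hb : b ∈ octads) (hfa : fam (toMask a) = true)
    (hfb : fam (toMask b) = true) (h : (ofMask octad0 ∩ a).card = (ofMask octad0 ∩ b).card) :
    ∃ g ∈ stabL L, g • a = b := by
  have key : ∀ m ∈ octadList, fam m = true →
      findOK gens t (rep (popc (octad0 &&& m))) m = true := by
    intro m hm hf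
    have h1 := List.mem_filter.1 hm
    have h2 := (codeAll_iff _).1 hc m h1.1
    have h8 : popc m = 8 := by simpa using h1.2
    simpa [h8, hf] using h2
  have h1 := key _ ((mem_octads_iff a).1 ha) hfa
  have h2 := key _ ((mem_octads_iff b).1 hb) hfb
  rw [card_inter_octad0, card_inter_octad0] at h
  rw [← h] at h2
  obtain ⟨g, hg, h3⟩ := conj_of_findOK (moves_all_of_genOK hgens) h1 h2
  rw [ofMask_toMask, ofMask_toMask] at h3
  exact ⟨g, hg, h3⟩

/-- Transport of a count of octads. -/
theorem ncard_octads_transport {k : Equiv.Perm GolayPt} (hk : k ∈ M24)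
    (P0 P : Finset GolayPt → Prop) (h : ∀ x, P0 x ↔ P (k • x)) :
    {x | x ∈ octads ∧ P x}.ncard = {x | x ∈ octads ∧ P0 x}.ncard := by
  symm
  apply ncard_smul_eq k
  intro s
  simp only [Set.mem_ofPred_eq]
  rw [smul_mem_octads_iff hk, h]

theorem mem_smul_of_map {k : Equiv.Perm GolayPt} {p0 p : GolayPt} (h : k p0 = p)
    (x : Finset GolayPt) : p ∈ k • x ↔ p0 ∈ x := by
  rw [← h, apply_mem_smul]

theorem inter_smul_of_eq {k : Equiv.Perm GolayPt} {o0 o : Finset GolayPt} (h : k • o0 = o)
    (x : Finset GolayPt) : (o ∩ k • x).card = (o0 ∩ x).card := by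
  rw [← h, inter_smul_card]

/-- Conjugating back. -/
theorem conj_back {k g : Equiv.Perm GolayPt} {a b : Finset GolayPt} (h : g • (k⁻¹ • a) = k⁻¹ • b) :
    (k * g * k⁻¹) • a = b := by
  rw [mul_smul, mul_smul, h, smul_inv_smul]

theorem fix_back {k g : Equiv.Perm GolayPt} {p0 p : GolayPt} (h : k p0 = p) (hg : g p0 = p0) :
    (k * g * k⁻¹) p = p := by
  simp only [Equiv.Perm.mul_apply]
  rw [← h]
  simp [hg]

theorem stab_back {k g : Equiv.Perm GolayPt} {o0 o : Finset GolayPt} (h : k • o0 = o)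
    (hg : g • o0 = o0) : (k * g * k⁻¹) • o = o := by
  rw [← h, mul_smul, mul_smul, inv_smul_smul, hg]

theorem mem_inv_smul_of_map {k : Equiv.Perm GolayPt} {p0 p : GolayPt} (h : k p0 = p)
    (x : Finset GolayPt) : p0 ∈ k⁻¹ • x ↔ p ∈ x := by
  rw [mem_smul_iff_inv, inv_inv, h]

theorem inter_inv_smul_of_eq {k : Equiv.Perm GolayPt} {o0 o : Finset GolayPt} (h : k • o0 = o)
    (x : Finset GolayPt) : (o0 ∩ k⁻¹ • x).card = (o ∩ x).card := by
  rw [← h, ← inter_smul_card k o0 (k⁻¹ • x), smul_inv_smul]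

/-- A count of octads in the standard position, from a kernel count. -/
theorem count_std {P0 : Finset GolayPt → Prop} {P : ℕ → Bool}
    (h : ∀ y ∈ octads, P0 y ↔ P (toMask y) = true) {n : ℕ}
    (hn : codeCount (fun m => popc m == 8 && P m) = n) :
    {y | y ∈ octads ∧ P0 y}.ncard = n := by
  rw [← hn]
  apply ncard_octads_filter
  · intro o ho
    have h8 : popc (toMask o) = 8 := by rw [← card_eq_popc]; exact ho.2
    rw [h o ho]
    simp [h8]
  · intro m hm
    simp only [Bool.and_eq_true, beq_iff_eq] at hm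
    exact hm.1

/-- The conjugacy statement carried back from the standard position. -/
theorem conj_std {L : List ℕ} {gens : List (List ℕ)} {t : CT} {rep : ℕ → ℕ} {fam : ℕ → Bool}
    (hgens : gens.all (genOK L) = true)
    (hc : codeAll (fun m => popc m != 8 || !fam m ||
      findOK gens t (rep (popc (octad0 &&& m))) m) = true) (hO : octad0 ∈ L)
    {k : Equiv.Perm GolayPt} {o a b : Finset GolayPt} (hk : k ∈ M24)
    (hko : k • ofMask octad0 = o) (ha : a ∈ octads) (hb : b ∈ octads)
    (hfa : fam (toMask (k⁻¹ • a)) = true) (hfb : fam (toMask (k⁻¹ • b)) = true)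
    (h : (o ∩ a).card = (o ∩ b).card) :
    ∃ g, g ∈ M24 ∧ g • o = o ∧ g • a = b ∧
      ∀ (j : ℕ) (p : GolayPt), j < 24 → 2 ^ j ∈ L → k (pt j) = p → g p = p := by
  obtain ⟨g, hg, h1⟩ := conj_of_cert hgens hc (smul_mem_octads (M24.inv_mem hk) ha)
    (smul_mem_octads (M24.inv_mem hk) hb) hfa hfb
    (by rw [inter_inv_smul_of_eq hko, inter_inv_smul_of_eq hko]; exact h)
  refine ⟨k * g * k⁻¹, M24.mul_mem (M24.mul_mem hk hg.1) (M24.inv_mem hk), ?_, conj_back h1, ?_⟩
  · exact stab_back hko (hg.2 _ hO)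
  · intro j p hj hjL hp
    exact fix_back hp (fix_of_stabL hg hj hjL)

end Cfsg.Agent.Lib.Sporadic.M24Flag
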