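import Cfsg.Agent.Lib.Sporadic.M24Sextet
import Cfsg.Agent.Lib.Sporadic.M24Flag

/-!
# The duads avoiding two points, under the stabiliser of a duad in `M22`
-/

namespace Cfsg.Agent.Lib.Sporadic.M24Duad

open Cfsg Cfsg.Agent.Lib.Sporadic.GolayCore Cfsg.Agent.Lib.Sporadic.M24Tbl
open Cfsg.Agent.Lib.Sporadic.M24Chain Cfsg.Agent.Lib.Sporadic.M24Basic
open Cfsg.Agent.Lib.Sporadic.M24Act Cfsg.Agent.Lib.Sporadic.M24Lists
open Cfsg.Agent.Lib.Sporadic.M24Orbit Cfsg.Agent.Lib.Sporadic.M24Count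
open Cfsg.Agent.Lib.Sporadic.M24Sextet Cfsg.Agent.Lib.Sporadic.M24Flag
open scoped Pointwise

/-- Generators of the stabiliser of the two points and the duad. -/
def gensD2 : List (List ℕ) := [
  [0,1,2,4,15,22,6,21,12,14,17,8,11,9,13,3,10,16,18,7,5,19,20,23],
  [0,1,2,18,9,8,21,19,14,13,4,3,5,10,12,22,15,11,17,7,16,6,20,23],
  [0,1,2,11,10,8,16,13,6,5,14,7,19,15,18,3,9,12,21,22,17,4,20,23],
  [0,2,1,7,17,21,16,13,10,11,8,20,9,14,6,12,3,19,15,4,18,22,5,23],
  [0,2,1,18,22,8,9,15,6,5,14,19,7,13,11,17,16,12,21,10,3,20,4,23],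
  [0,2,1,20,14,15,16,4,12,7,6,11,8,3,9,19,17,10,18,22,21,13,5,23],
  [0,1,2,18,7,8,10,15,4,17,14,16,22,21,12,5,19,11,13,9,3,20,6,23],
  [0,2,1,11,5,8,15,20,13,21,7,4,16,3,12,19,14,18,22,10,6,9,17,23]]

theorem gensD2_ok : gensD2.all (genOK [8388608, 1, 6]) = true := by decide +kernel

/-- The special duads. -/
def spec (m : ℕ) : Bool := oct5.any fun u => (m &&& u) == m

/-- The class of a duad. -/
def clD (m : ℕ) : ℕ := 2 * popc (m &&& 6) + (if spec m then 1 else 0)

set_option maxRecDepth 100000 in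
/-- Words for the duads. -/
def treeD2 : CT :=
  (.node (.node (.node (.node (.node (.node (.node (.node .nil 10 [] .nil) 12 [6,5] (.node .nil 18
  [0] .nil)) 20 [7,2] (.node (.node .nil 24 [] .nil) 34 [6,0,0] (.node .nil 36 [7,0] .nil))) 40 []
  (.node (.node (.node .nil 48 [4,1,0] .nil) 66 [7,5] (.node .nil 68 [5,2,0] .nil)) 72 [4,3,2] (.node
  (.node .nil 80 [3,5,0] .nil) 96 [0,5,2,0] .nil))) 130 [6,0] (.node (.node (.node (.node .nil 132
  [3] .nil) 136 [2,3,1] (.node .nil 144 [7,2] .nil)) 160 [6,0] (.node (.node .nil 192 [6,0] .nil) 258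
  [0,2] .nil)) 260 [0,7] (.node (.node (.node .nil 264 [1,7] .nil) 272 [7,7] (.node .nil 288 [6,3,4]
  .nil)) 320 [1,2,1] (.node (.node .nil 384 [2,7] .nil) 514 [1,0] .nil)))) 516 [7,2,1] (.node (.node
  (.node (.node (.node .nil 520 [3,1,5] .nil) 528 [5,2,2] (.node .nil 544 [7,4,4] .nil)) 576 [7,2,4]
  (.node (.node .nil 640 [0,3,3] .nil) 768 [6,7,0] (.node .nil 1026 [2,0] .nil))) 1028 [5,1,1] (.node
  (.node (.node .nil 1032 [2,0] .nil) 1040 [5,3] (.node .nil 1056 [5,4,0] .nil)) 1088 [1,2,6] (.node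
  (.node .nil 1152 [1,3,3] .nil) 1280 [5,3,0] .nil))) 1536 [5,1,1] (.node (.node (.node (.node .nil
  2050 [2] .nil) 2052 [7] (.node .nil 2056 [4,5] .nil)) 2064 [6,0,2] (.node (.node .nil 2080 [7]
  .nil) 2112 [5,2] .nil)) 2176 [7,2,0] (.node (.node (.node .nil 2304 [2] .nil) 2560 [0,2,3] (.node
  .nil 3072 [2] .nil)) 4098 [4,3,0] (.node (.node .nil 4100 [3,0,0] .nil) 4104 [6,5] .nil))))) 4112
  [4,4,0] (.node (.node (.node (.node (.node (.node .nil 4128 [0,3,2] .nil) 4160 [7,5] (.node .nil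
  4224 [3,0,0] .nil)) 4352 [0,2] (.node (.node .nil 4608 [6,5,0] .nil) 5120 [7,5,0] (.node .nil 6144
  [5,2] .nil))) 8194 [6,1] (.node (.node (.node .nil 8196 [2,3] .nil) 8200 [6,7,3] (.node .nil 8208
  [6,1] .nil)) 8224 [0,5] (.node (.node .nil 8256 [6,4] .nil) 8320 [0,5,0] .nil))) 8448 [2,6,0]
  (.node (.node (.node (.node .nil 8704 [4,6,4] .nil) 9216 [0,6,2] (.node .nil 10240 [6,2,5] .nil))
  12288 [2,3] (.node (.node .nil 16386 [0,1,0] .nil) 16388 [5,0] .nil)) 16392 [1,2] (.node (.node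
  (.node .nil 16400 [5,7,2] .nil) 16416 [5,0] (.node .nil 16448 [5,5,3] .nil)) 16512 [2,2] (.node
  (.node .nil 16640 [5,4,4,0] .nil) 16896 [7,0,3] .nil)))) 17408 [2,5,3] (.node (.node (.node (.node
  (.node .nil 18432 [2,2,0] .nil) 20480 [7,6,2] (.node .nil 24576 [5,4,4] .nil)) 32770 [0,0] (.node
  (.node .nil 32772 [3,1] .nil) 32776 [0,0] (.node .nil 32784 [0] .nil))) 32800 [3,4] (.node (.node
  (.node .nil 32832 [3,0,1] .nil) 32896 [6,7,2] (.node .nil 33024 [4,6,0] .nil)) 33280 [5,5,0] (.node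
  (.node .nil 33792 [3,1] .nil) 34816 [3,1] .nil))) 36864 [4,3] (.node (.node (.node (.node .nil
  40960 [3,6] .nil) 49152 [1,6,7] (.node .nil 65538 [6,2] .nil)) 65540 [1,5] (.node (.node .nil 65544
  [7,2,3] .nil) 65552 [6,2] .nil)) 65568 [6,3,1] (.node (.node (.node .nil 65600 [1,2,4] .nil) 65664
  [2,5,2] (.node .nil 65792 [6,7] .nil)) 66048 [0,1,1] (.node (.node .nil 66560 [6,5,2] .nil) 67584
  [0,3,0] .nil)))))) 69632 [1,5] (.node (.node (.node (.node (.node (.node (.node .nil 73728 [1,1,0]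
  .nil) 81920 [6,2] (.node .nil 98304 [2,6,4] .nil)) 131074 [1,1] (.node (.node .nil 131076 [3,0]
  .nil) 131080 [2,5] (.node .nil 131088 [0,2,0] .nil))) 131104 [3,0] (.node (.node (.node .nil 131136
  [6,1,0] .nil) 131200 [3] (.node .nil 131328 [0,2] .nil)) 131584 [7,7,1] (.node (.node .nil 132096
  [3,7,7] .nil) 133120 [1,2,5] .nil))) 135168 [3,0] (.node (.node (.node (.node .nil 139264 [1,1]
  .nil) 147456 [1,1] (.node .nil 163840 [0,5,3] .nil)) 196608 [1,7,3] (.node (.node .nil 262146 [1]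
  .nil) 262148 [4] .nil)) 262152 [7,1,1] (.node (.node (.node .nil 262160 [5,6] .nil) 262176 [5,4]
  (.node .nil 262208 [3,5] .nil)) 262272 [6] (.node (.node .nil 262400 [1] .nil) 262656 [1] .nil))))
  263168 [3,3,2] (.node (.node (.node (.node (.node .nil 264192 [3,1,0] .nil) 266240 [0,1] (.node
  .nil 270336 [0,0,1] .nil)) 278528 [0,1] (.node (.node .nil 294912 [3,7,3] .nil) 327680 [7,3,0]
  (.node .nil 393216 [2,5] .nil))) 524290 [4,7] (.node (.node (.node .nil 524292 [4,2] .nil) 524296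
  [2,4,3] (.node .nil 524304 [7,3,1] .nil)) 524320 [7,0] (.node (.node .nil 524352 [4,2] .nil) 524416
  [7,3,1] .nil))) 524544 [4,7] (.node (.node (.node (.node .nil 524800 [3,3,0] .nil) 525312 [3,0,2]
  (.node .nil 526336 [1,3] .nil)) 528384 [2,3,0] (.node (.node .nil 532480 [3,3] .nil) 540672 [5,0]
  .nil)) 557056 [2,2,3] (.node (.node (.node .nil 589824 [7,4,3] .nil) 655360 [1,6] (.node .nil
  786432 [3,1,4] .nil)) 1048578 [7,3] (.node (.node .nil 1048580 [5] .nil) 1048584 [4,2,4] .nil)))))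
  1048592 [2,7,1] (.node (.node (.node (.node (.node (.node .nil 1048608 [2,1,0] .nil) 1048640
  [5,2,0] (.node .nil 1048704 [6,4,4] .nil)) 1048832 [3,2] (.node (.node .nil 1049088 [1,0] .nil)
  1049600 [2,0] (.node .nil 1050624 [1,4,0] .nil))) 1052672 [2,4,0] (.node (.node (.node .nil 1056768
  [1,1,0] .nil) 1064960 [5] (.node .nil 1081344 [5] .nil)) 1114112 [0,4,0] (.node (.node .nil 1179648
  [1,4] .nil) 1310720 [7,3] .nil))) 1572864 [5,0,0] (.node (.node (.node (.node .nil 2097154 [2,1]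
  .nil) 2097156 [4,1] (.node .nil 2097160 [1,5,2] .nil)) 2097168 [4,4] (.node (.node .nil 2097184
  [2,1] .nil) 2097216 [2,1] .nil)) 2097280 [3] (.node (.node (.node .nil 2097408 [2,5,4] .nil)
  2097664 [5,5] (.node .nil 2098176 [5,1,4] .nil)) 2099200 [4,0,1] (.node (.node .nil 2101248 [5,3,2]
  .nil) 2105344 [2,6] .nil)))) 2113536 [3,0,5] (.node (.node (.node (.node (.node .nil 2129920 [4,6]
  .nil) 2162688 [0,3] (.node .nil 2228224 [7,1,0] .nil)) 2359296 [0,6] (.node (.node .nil 2621440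
  [0,3] .nil) 3145728 [2,4] .nil)) 4194306 [7,4] (.node (.node (.node .nil 4194308 [4,0] .nil)
  4194312 [1,3,1] (.node .nil 4194320 [0] .nil)) 4194336 [3,7,1] (.node (.node .nil 4194368 [7,7,3]
  .nil) 4194432 [0,7,0] .nil))) 4194560 [0,7] (.node (.node (.node (.node .nil 4194816 [1,0] .nil)
  4195328 [6,7,5] (.node .nil 4196352 [6,3,0] .nil)) 4198400 [7,0,1] (.node (.node .nil 4202496 [7,1]
  .nil) 4210688 [4,5,3] .nil)) 4227072 [5,7,0] (.node (.node (.node .nil 4259840 [1,5] .nil) 4325376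
  [4,0] (.node .nil 4456448 [4] .nil)) 4718592 [0,2,1] (.node (.node .nil 5242880 [7,6] .nil) 6291456
  [7,1] .nil)))))))

/-- Representatives. -/
def repD2 (c : ℕ) : ℕ := if c = 0 then 24 else if c = 1 then 40 else if c = 3 then 10 else 0

theorem certD2 : M24Choose.chooseAll (fun m => m.testBit 23 || m.testBit 0 || m == 6 ||
    findOK gensD2 treeD2 (repD2 (clD m)) m) 24 2 0 1 = true := by decide +kernel

theorem n30 : M24Choose.chooseCount (fun m => !m.testBit 23 && !m.testBit 0 && (popc (m &&& 6) == 0) && spec m)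
    24 2 0 1 = 30 := by decide +kernel

theorem n160 : M24Choose.chooseCount (fun m => !m.testBit 23 && !m.testBit 0 && (popc (m &&& 6) == 0) && !spec m)
    24 2 0 1 = 160 := by decide +kernel

/-- The standard duad. -/
abbrev s0 : Finset GolayPt := ofMask 6

/-- The special relation. -/
def Spec (p q : GolayPt) (s t : Finset GolayPt) : Prop := ∃ o ∈ octads, p ∈ o ∧ q ∈ o ∧ s ∪ t ⊆ o

theorem t0_sub {u : ℕ} (h : t0Mask &&& u = t0Mask) (hu : u < 2 ^ 24) : ofMask t0Mask ⊆ ofMask u := by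
  apply subset_iff_mask'.2
  rw [toMask_ofMask (by decide +kernel), toMask_ofMask hu, h]

theorem spec_iff (t : Finset GolayPt) : Spec (pt 23) (pt 0) s0 t ↔ spec (toMask t) = true := by
  constructor
  · rintro ⟨o, ho, h1, h2, h3⟩
    have h4 : ofMask t0Mask ⊆ o := by
      intro x hx
      have hx3 : ∀ x : GolayPt, x ∈ ofMask t0Mask → x = pt 23 ∨ x = pt 0 ∨ x ∈ s0 := by decide +kernel
      rcases hx3 x hx with rfl | rfl | h
      · exact h1
      · exact h2
      · exact h3 (Finset.mem_union_left _ h)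
    have h5 := (mem_octads_iff _).1 ho
    have h6 : t0Mask &&& toMask o = t0Mask := by
      have := subset_iff_mask'.1 h4
      rwa [toMask_ofMask (by decide +kernel)] at this
    have h7 := oct5_complete _ h5 (by simp [h6])
    simp only [spec, List.any_eq_true, beq_iff_eq]
    exact ⟨toMask o, h7, subset_iff_mask'.1 (fun x hx => h3 (Finset.mem_union_right _ hx))⟩
  · intro h
    simp only [spec, List.any_eq_true, beq_iff_eq] at h
    obtain ⟨u, hu, h1⟩ := h
    have hu' : ∀ u ∈ oct5, isOctad u = true ∧ (t0Mask &&& u) = t0Mask ∧ u < 2 ^ 24 := by decide +kernel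
    obtain ⟨h2, h3, h4⟩ := hu' u hu
    have hsub := t0_sub h3 h4
    have hp23 : pt 23 ∈ ofMask t0Mask := by decide +kernel
    have hp0 : pt 0 ∈ ofMask t0Mask := by decide +kernel
    have hs0 : s0 ⊆ ofMask t0Mask := by decide +kernel
    refine ⟨ofMask u, isOctad_ofMask h2, hsub hp23, hsub hp0, Finset.union_subset (hs0.trans hsub) ?_⟩
    apply subset_iff_mask'.2
    rw [toMask_ofMask h4, h1]

theorem inter_s0 (t : Finset GolayPt) : (s0 ∩ t).card = popc (toMask t &&& 6) := by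
  rw [← card_ofMask, ofMask_and, ofMask_toMask, Finset.inter_comm]

theorem disjoint_s0 (t : Finset GolayPt) : Disjoint s0 t ↔ popc (toMask t &&& 6) = 0 := by
  rw [← inter_s0, Finset.disjoint_iff_inter_eq_empty, Finset.card_eq_zero]

theorem count_30 : {t : Finset GolayPt | (t.card = 2 ∧ pt 23 ∉ t ∧ pt 0 ∉ t) ∧ Disjoint s0 t ∧
    Spec (pt 23) (pt 0) s0 t}.ncard = 30 := by
  rw [← n30, ← M24Choose.ncard_card_filter (fun t => (pt 23 ∉ t ∧ pt 0 ∉ t) ∧ Disjoint s0 t ∧
    Spec (pt 23) (pt 0) s0 t)]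
  · congr 1
    ext t
    simp only [Set.mem_ofPred_eq]
    tauto
  · intro t _
    rw [spec_iff, disjoint_s0, mem_pt_iff (by norm_num), mem_pt_iff (by norm_num)]
    simp only [Bool.and_eq_true, Bool.not_eq_true', beq_iff_eq, Bool.not_eq_true]
    generalize (toMask t).testBit 23 = a
    generalize (toMask t).testBit 0 = b
    generalize popc (toMask t &&& 6) = c
    generalize spec (toMask t) = d
    constructor
    · rintro ⟨⟨h1, h2⟩, h3, h4⟩
      exact ⟨⟨⟨h1, h2⟩, h3⟩, h4⟩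
    · rintro ⟨⟨⟨h1, h2⟩, h3⟩, h4⟩
      exact ⟨⟨h1, h2⟩, h3, h4⟩

theorem count_160 : {t : Finset GolayPt | (t.card = 2 ∧ pt 23 ∉ t ∧ pt 0 ∉ t) ∧ Disjoint s0 t ∧
    ¬ Spec (pt 23) (pt 0) s0 t}.ncard = 160 := by
  rw [← n160, ← M24Choose.ncard_card_filter (fun t => (pt 23 ∉ t ∧ pt 0 ∉ t) ∧ Disjoint s0 t ∧
    ¬ Spec (pt 23) (pt 0) s0 t)]
  · congr 1
    ext t
    simp only [Set.mem_ofPred_eq]
    tauto
  · intro t _
    rw [spec_iff, disjoint_s0, mem_pt_iff (by norm_num), mem_pt_iff (by norm_num)]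
    simp only [Bool.and_eq_true, Bool.not_eq_true', beq_iff_eq, Bool.not_eq_true]
    generalize (toMask t).testBit 23 = a
    generalize (toMask t).testBit 0 = b
    generalize popc (toMask t &&& 6) = c
    generalize spec (toMask t) = d
    constructor
    · rintro ⟨⟨h1, h2⟩, h3, h4⟩
      exact ⟨⟨⟨h1, h2⟩, h3⟩, h4⟩
    · rintro ⟨⟨⟨h1, h2⟩, h3⟩, h4⟩
      exact ⟨⟨h1, h2⟩, h3, h4⟩

theorem conj_std' {t t' : Finset GolayPt} (ht : t.card = 2) (ht' : t'.card = 2) (a1 : pt 23 ∉ t)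
    (a2 : pt 0 ∉ t) (a1' : pt 23 ∉ t') (a2' : pt 0 ∉ t') (hne : t ≠ s0) (hne' : t' ≠ s0)
    (hc : (s0 ∩ t).card = (s0 ∩ t').card)
    (hsp : Spec (pt 23) (pt 0) s0 t ↔ Spec (pt 23) (pt 0) s0 t') :
    ∃ g ∈ M24, g (pt 23) = pt 23 ∧ g (pt 0) = pt 0 ∧ g • s0 = s0 ∧ g • t = t' := by
  have key : ∀ {u : Finset GolayPt}, u.card = 2 → pt 23 ∉ u → pt 0 ∉ u → u ≠ s0 →
      findOK gensD2 treeD2 (repD2 (clD (toMask u))) (toMask u) = true := by
    intro u hu h1 h2 h3
    have h4 := M24Choose.forall_card_of_chooseAll certD2 hu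
    rw [mem_pt_iff (by norm_num)] at h1 h2
    have h5 : (toMask u == 6) = false := by
      rw [beq_eq_false_iff_ne]
      intro h
      apply h3
      rw [← ofMask_toMask u, h]
    simp only [Bool.or_eq_true, h5] at h4
    rcases h4 with ((h4 | h4) | h4) | h4
    · exact absurd h4 h1
    · exact absurd h4 h2
    · simp at h4
    · exact h4
  have hcl : clD (toMask t) = clD (toMask t') := by
    unfold clD
    rw [← inter_s0, ← inter_s0, hc]
    by_cases h : spec (toMask t) = true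
    · have h' := (spec_iff t').1 (hsp.1 ((spec_iff t).2 h))
      rw [if_pos h, if_pos h']
    · have h' : ¬ spec (toMask t') = true := fun h2 => h ((spec_iff t).1 (hsp.2 ((spec_iff t').2 h2)))
      rw [if_neg h, if_neg h']
  have h1 := key ht a1 a2 hne
  have h2 := key ht' a1' a2' hne'
  rw [hcl] at h1
  obtain ⟨g, hg, h3⟩ := conj_of_findOK (moves_all_of_genOK gensD2_ok) h1 h2
  rw [ofMask_toMask, ofMask_toMask] at h3
  obtain ⟨hm, hfx⟩ := hg
  refine ⟨g, hm, ?_, ?_, hfx 6 (by simp), h3⟩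
  · have := hfx 8388608 (by simp)
    rw [show (8388608 : ℕ) = 2 ^ 23 by norm_num, ofMask_two_pow (by norm_num),
      Finset.smul_finset_singleton] at this
    exact Finset.singleton_injective this
  · have := hfx 1 (by simp)
    rw [show (1 : ℕ) = 2 ^ 0 by norm_num, ofMask_two_pow (by norm_num),
      Finset.smul_finset_singleton] at this
    exact Finset.singleton_injective this

theorem spec_smul {k : Equiv.Perm GolayPt} (hk : k ∈ M24) {p q : GolayPt} {s t : Finset GolayPt} :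
    Spec (k p) (k q) (k • s) (k • t) ↔ Spec p q s t := by
  have fwd : ∀ {k : Equiv.Perm GolayPt} (_ : k ∈ M24) {p q : GolayPt} {s t : Finset GolayPt},
      Spec p q s t → Spec (k p) (k q) (k • s) (k • t) := by
    rintro k hk p q s t ⟨o, ho, h1, h2, h3⟩
    refine ⟨k • o, smul_mem_octads hk ho, Finset.mem_smul_finset.2 ⟨p, h1, rfl⟩,
      Finset.mem_smul_finset.2 ⟨q, h2, rfl⟩, ?_⟩
    rw [← Finset.smul_finset_union]
    exact Finset.smul_finset_subset_smul_finset_iff.2 h3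
  refine ⟨fun h => ?_, fwd hk⟩
  have := fwd (M24.inv_mem hk) h
  simpa using this

end Cfsg.Agent.Lib.Sporadic.M24Duad
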