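import Cfsg.Agent.Lib.Sporadic.M24Flag

/-!
# Certificates: orbits of joint stabilisers of an octad and points on families of octads
-/

namespace Cfsg.Agent.Lib.Sporadic.M24FlagCerts

open Cfsg Cfsg.Agent.Lib.Sporadic.GolayCore Cfsg.Agent.Lib.Sporadic.M24Tbl
open Cfsg.Agent.Lib.Sporadic.M24Chain Cfsg.Agent.Lib.Sporadic.M24Basic
open Cfsg.Agent.Lib.Sporadic.M24Act Cfsg.Agent.Lib.Sporadic.M24Lists
open Cfsg.Agent.Lib.Sporadic.M24Orbit Cfsg.Agent.Lib.Sporadic.M24Count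
open Cfsg.Agent.Lib.Sporadic.M24Octad Cfsg.Agent.Lib.Sporadic.M24OctadStab
open Cfsg.Agent.Lib.Sporadic.M24Flag
open scoped Pointwise

def gensA : List (List ℕ) := [
  [0,5,14,3,8,2,7,19,20,15,10,16,4,21,17,13,6,1,9,11,22,18,12,23],
  [0,14,1,2,18,3,16,15,8,12,7,9,22,10,5,20,4,17,19,6,13,11,21,23],
  [0,2,14,5,13,17,11,21,10,15,4,8,7,6,1,12,18,3,16,20,19,22,9,23],
  [0,5,14,1,4,3,6,12,18,10,22,7,11,20,17,13,16,2,19,8,15,21,9,23],
  [0,14,5,3,18,2,16,9,13,12,21,15,22,19,1,6,11,17,10,20,8,4,7,23],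
  [0,14,17,1,6,2,8,13,9,12,22,15,21,19,3,18,20,5,7,11,16,4,10,23]]

theorem gensA_ok : gensA.all (genOK [2 ^ 23, 2 ^ 0, octad0]) = true := by decide +kernel

def treeA : CT :=
  (.node (.node (.node (.node (.node (.node (.node .nil 8391797 [] .nil) 8398155 [2,2] .nil) 8412681
  [4,1] (.node .nil 8421811 [1,0] .nil)) 8431757 [0,0,1] (.node (.node (.node .nil 8471941 [0] .nil)
  8499969 [] .nil) 8505411 [2,0,4] (.node .nil 8524371 [3,3] .nil))) 8536111 [] (.node (.node (.node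
  (.node .nil 8546577 [2] .nil) 8593633 [4,5] .nil) 8619033 [0,4,1] (.node .nil 8657159 [5,0,1]
  .nil)) 8663097 [3,1,0] (.node (.node (.node .nil 8675909 [0,4] .nil) 8688833 [2] .nil) 8716939 [1]
  (.node .nil 8783649 [1,2] .nil)))) 8922769 [2,1] (.node (.node (.node (.node (.node .nil 8946281
  [0,1] .nil) 8966165 [1,1] .nil) 8983587 [3,1] (.node .nil 9048457 [0,3] .nil)) 9112069 [3,3,0]
  (.node (.node (.node .nil 9193633 [1,2,0] .nil) 9240913 [4,0] .nil) 9347075 [4,2] (.node .nil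
  9440193 [2,4] .nil))) 9465987 [5,1] (.node (.node (.node (.node .nil 9471495 [3,5,0] .nil) 9506893
  [1,0,1] .nil) 9519665 [5,0,2] (.node .nil 9607201 [2,0,1] .nil)) 9748745 [1,1,0] (.node (.node .nil
  9776129 [3] .nil) 9830549 [3,2] (.node .nil 9963547 [1,4] .nil))))) 9969957 [0,1,0] (.node (.node
  (.node (.node (.node (.node .nil 10110017 [0,0] .nil) 10486557 [2,0,0,0] .nil) 10496547 [4,0]
  (.node .nil 10506593 [5,3,3] .nil)) 10557585 [2,2] (.node (.node (.node .nil 10630149 [2,1,0] .nil)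
  10666625 [0,0,4] .nil) 10765331 [2,0] (.node .nil 10846245 [4] .nil))) 10881097 [5,1,1] (.node
  (.node (.node (.node .nil 11010247 [2,5,1] .nil) 11046145 [4,3] .nil) 11100169 [3,4] (.node .nil
  11535529 [5,3,0] .nil)) 11575377 [0] (.node (.node (.node .nil 11731203 [0,2] .nil) 12325377 [5]
  .nil) 12587685 [1,4,1] (.node .nil 12599513 [3] .nil)))) 12641313 [1,5,1] (.node (.node (.node
  (.node (.node .nil 12650793 [5,0,0] .nil) 12656663 [2,2,0] .nil) 12717187 [0,0,0] (.node .nil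
  12747077 [5] .nil)) 12880401 [3,1] (.node (.node (.node .nil 13062145 [3,0] .nil) 13121601 [4]
  .nil) 13124355 [4,5,1] (.node .nil 13370381 [2,0,2] .nil))) 13636881 [1] (.node (.node (.node
  (.node .nil 13771273 [5,0] .nil) 13893731 [1,1,1] .nil) 14254209 [1,2] (.node .nil 14716939 [0,5,0]
  .nil)) 14747201 [5,1] (.node (.node .nil 14950785 [0,0] .nil) 15335473 [3,2,0] (.node .nil 15747077
  [4,3,1] .nil))))))

def repA (c : ℕ) : ℕ := if c = 2 then 8499969 else if c = 4 then 8391797 else if c = 8 then 8536111 else 0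

def famA (m : ℕ) : Bool := m.testBit 23 && m.testBit 0

theorem certA : codeAll (fun m => popc m != 8 || !famA m ||
    findOK gensA treeA (repA (popc (octad0 &&& m))) m) = true := by decide +kernel

def gensB : List (List ℕ) := [
  [3,2,5,1,4,14,21,13,10,9,11,15,8,16,17,20,19,0,12,6,18,22,7,23],
  [5,3,0,2,4,14,9,15,11,10,20,16,22,18,17,21,12,1,8,19,7,6,13,23],
  [0,3,17,1,4,14,13,22,6,12,8,11,18,10,2,7,15,5,21,20,19,9,16,23],
  [3,2,0,14,4,17,15,11,22,6,16,10,18,9,5,12,8,1,19,13,20,7,21,23],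
  [5,14,3,1,4,0,12,20,9,10,18,13,7,15,2,16,11,17,8,19,6,22,21,23],
  [1,5,2,3,4,17,19,11,18,6,8,10,13,21,0,16,12,14,7,22,9,15,20,23]]

theorem gensB_ok : gensB.all (genOK [2 ^ 23, 2 ^ 4, octad0]) = true := by decide +kernel

def treeB : CT :=
  (.node (.node (.node (.node (.node (.node (.node (.node .nil 8394986 [] .nil) 8398155 [4,3,4] .nil)
  8412681 [2,5,4] (.node (.node .nil 8414120 [0,3,0] .nil) 8426796 [5,4,1] .nil)) 8431757 [2,0,5]
  (.node (.node (.node .nil 8455014 [1,1,0] .nil) 8471941 [5,3] .nil) 8484900 [5,2,1] (.node (.node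
  .nil 8490656 [] .nil) 8499969 [5,1] .nil))) 8505411 [0,5] (.node (.node (.node (.node .nil 8521420
  [2,0] .nil) 8536111 [] .nil) 8555274 [2,4,1] (.node (.node .nil 8581192 [0,0,0,0] .nil) 8592704 [3]
  .nil)) 8593633 [3,3,2] (.node (.node (.node .nil 8611330 [3,5] .nil) 8622214 [2,1] .nil) 8657159
  [3,2,1] (.node .nil 8660134 [5,3,2,1] .nil)))) 8675909 [0,0,1] (.node (.node (.node (.node (.node
  .nil 8688833 [4,3,0] .nil) 8694112 [2,3] .nil) 8704546 [5,1,3] (.node (.node .nil 8716939 [3,1,1]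
  .nil) 8733800 [1,5,4] .nil)) 8783649 [2,1,1] (.node (.node (.node .nil 8796800 [4,3] .nil) 8798658
  [4,4,2,0] .nil) 8834052 [3] (.node .nil 8855820 [1,2] .nil))) 8925710 [5,5,1] (.node (.node (.node
  (.node .nil 8931660 [5,2,0] .nil) 8946281 [2,1,3] .nil) 8963210 [3,1,0] (.node (.node .nil 8983587
  [3,3] .nil) 8989058 [3,1,0] .nil)) 8999616 [5,0,0] (.node (.node (.node .nil 9020484 [4,0] .nil)
  9048457 [3,5,0] .nil) 9055272 [5] (.node .nil 9112069 [5,4,4] .nil))))) 9158944 [2,0,0] (.node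
  (.node (.node (.node (.node (.node .nil 9178690 [3,4,3] .nil) 9193633 [0,0,0] .nil) 9204992 [5,3]
  (.node (.node .nil 9208708 [2,1] .nil) 9279496 [0,4] .nil)) 9310308 [0,1,5] (.node (.node (.node
  .nil 9347075 [4,5] .nil) 9440193 [4,3,1] .nil) 9451104 [3,0] (.node .nil 9456930 [2,5] .nil)))
  9465987 [4] (.node (.node (.node (.node .nil 9471495 [1,2,0] .nil) 9486564 [4,4] .nil) 9506893
  [5,1] (.node (.node .nil 9543722 [5,0,1,0] .nil) 9578566 [5,3,0] .nil)) 9589508 [5,0,0] (.node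
  (.node (.node .nil 9607201 [0,3] .nil) 9610624 [0,2] .nil) 9652360 [4,2,1] (.node .nil 9701932
  [3,4] .nil)))) 9748745 [3,5,1] (.node (.node (.node (.node (.node .nil 9769376 [3,1] .nil) 9776129
  [4] .nil) 9835530 [4,2,0] (.node (.node .nil 9929280 [0,0] .nil) 9968772 [2,0] .nil)) 9969957
  [0,2,1] (.node (.node (.node .nil 9998658 [3,0,0] .nil) 10021376 [0] .nil) 10028808 [3,4] (.node
  .nil 10093218 [0,1] .nil))) 10110017 [4,0,1] (.node (.node (.node (.node .nil 10232008 [4,2,0]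
  .nil) 10305542 [1,5] .nil) 10491778 [5,4] (.node (.node .nil 10496547 [5,4] .nil) 10506593 [3,1]
  .nil)) 10513600 [4,1,3] (.node (.node (.node .nil 10525252 [5,4,2] .nil) 10543366 [0] .nil)
  10554382 [4,1] (.node .nil 10584520 [3,5,0] .nil)))))) 10619300 [2,3] (.node (.node (.node (.node
  (.node (.node (.node .nil 10630149 [1,1] .nil) 10650722 [2,1,2] .nil) 10666625 [2,5,0] (.node
  (.node .nil 10687016 [1,0,5] .nil) 10768524 [5,1,2] .nil)) 10790408 [3,0,1,0] (.node (.node (.node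
  .nil 10825794 [5,5,1] .nil) 10832640 [0,3,0] .nil) 10846245 [5,0] (.node .nil 10881097 [1,0]
  .nil))) 11010247 [4,0,5,0] (.node (.node (.node (.node .nil 11028004 [3,2] .nil) 11046145 [0,3]
  .nil) 11055264 [2,0,0] (.node (.node .nil 11100169 [3,2,4] .nil) 11150144 [5,3,0] .nil)) 11163650
  [3,1,4] (.node (.node (.node .nil 11272490 [0,5,1] .nil) 11469952 [1,0] .nil) 11535529 [5,2] (.node
  .nil 11548936 [4,4,1] .nil)))) 11551306 [2,0,5,1] (.node (.node (.node (.node (.node .nil 11608708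
  [4,2] .nil) 11654144 [1] .nil) 11731203 [1,3] (.node (.node .nil 11797828 [3,1,3] .nil) 11831426
  [3,1,1] .nil)) 11952160 [0,4,4] (.node (.node (.node .nil 12126304 [0,4,0] .nil) 12222476 [0,0,5]
  .nil) 12325377 [0,0,0] (.node .nil 12587685 [3,0] .nil))) 12594948 [5,2,0] (.node (.node (.node
  (.node .nil 12604486 [2,0,3,0] .nil) 12624578 [1,1,1] .nil) 12638592 [2] (.node (.node .nil
  12641313 [1,3,0] .nil) 12650793 [4,5,0] .nil)) 12661896 [3,0,3] (.node (.node (.node .nil 12698124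
  [1] .nil) 12717187 [3,2,3] .nil) 12726562 [4,1,0] (.node .nil 12733024 [5,0,1] .nil))))) 12747077
  [5,3,2] (.node (.node (.node (.node (.node (.node .nil 12849992 [3,5,1] .nil) 12871690 [2] .nil)
  12912836 [4,1] (.node (.node .nil 12944642 [3,3] .nil) 13009064 [1,4] .nil)) 13062145 [2,3,0]
  (.node (.node (.node .nil 13108704 [2,0,2] .nil) 13121601 [0,1,0] .nil) 13124355 [3,1,2] (.node
  .nil 13142054 [0,4,1] .nil))) 13262980 [2,4,4] (.node (.node (.node (.node .nil 13276672 [2,4,2]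
  .nil) 13303882 [3,2,1,1] .nil) 13370381 [2,4] (.node (.node .nil 13443616 [2,1,1] .nil) 13631886
  [3,1,3] .nil)) 13667400 [4,4,2] (.node (.node (.node .nil 13703682 [1,3] .nil) 13721920 [1,3,2]
  .nil) 13771273 [4,2,3] (.node .nil 13829156 [0,0] .nil)))) 13893731 [1,1,1] (.node (.node (.node
  (.node (.node .nil 13911680 [1,3,0] .nil) 13938692 [3,3,0,0] .nil) 14176296 [0,5,0] (.node (.node
  .nil 14254209 [1,2,0] .nil) 14551296 [0,1] .nil)) 14688364 [1,0,1,0] (.node (.node (.node .nil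
  14716939 [0,1,0] .nil) 14747201 [5,0] .nil) 14762146 [1,0,3] (.node .nil 14828808 [5,5] .nil)))
  14919680 [1,2] (.node (.node (.node (.node .nil 14949408 [3,2] .nil) 14950785 [0,1,1] .nil)
  15073798 [4,5,5] (.node (.node .nil 15207048 [0,5,0] .nil) 15274244 [5,4,0] .nil)) 15515712 [2,3,1]
  (.node (.node (.node .nil 15747077 [2,0,0,0] .nil) 15762208 [2,1,0] .nil) 15864000 [1,1] (.node
  .nil 16262146 [3,0,1] .nil)))))))

def repB (c : ℕ) : ℕ := if c = 2 then 8490656 else if c = 4 then 8394986 else if c = 8 then 8536111 else 0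

def famB (m : ℕ) : Bool := m.testBit 23 && !m.testBit 4

theorem certB : codeAll (fun m => popc m != 8 || !famB m ||
    findOK gensB treeB (repB (popc (octad0 &&& m))) m) = true := by decide +kernel

def gensC : List (List ℕ) := [
  [5,0,3,17,18,14,6,19,7,22,16,10,20,13,2,11,4,1,21,9,8,15,12,23],
  [2,3,17,1,15,14,11,22,16,7,10,18,13,21,5,9,20,0,8,4,6,12,19,23],
  [3,5,2,1,19,14,11,20,12,13,6,8,10,7,0,22,16,17,15,18,21,9,4,23],
  [2,3,1,0,18,17,9,13,8,11,21,22,20,4,14,16,15,5,7,19,10,12,6,23],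
  [3,2,0,1,4,17,16,12,11,19,10,15,7,21,14,22,9,5,13,6,18,20,8,23],
  [3,1,5,0,10,2,12,11,21,20,15,8,18,22,14,16,4,17,19,6,13,7,9,23]]

theorem gensC_ok : gensC.all (genOK [2 ^ 23, octad0]) = true := by decide +kernel

def treeC : CT :=
  (.node (.node (.node (.node (.node (.node (.node (.node .nil 8391797 [] .nil) 8394986 [3,3] (.node
  .nil 8398155 [4,2,5,0] .nil)) 8401364 [] (.node (.node .nil 8407702 [5,3,1] .nil) 8412681 [2,5,2]
  (.node .nil 8414120 [0,4,3] .nil))) 8421811 [5,0,1] (.node (.node (.node .nil 8426796 [5] .nil)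
  8431757 [4,2,2] (.node .nil 8436754 [0,1] .nil)) 8439632 [2,5] (.node (.node .nil 8455014 [2,0,1]
  .nil) 8464984 [3,0,0,0] (.node .nil 8471941 [0,1,0] .nil)))) 8474906 [5,2,0] (.node (.node (.node
  (.node .nil 8484900 [3,3,0] .nil) 8490656 [2,4,0] (.node .nil 8499969 [0,3,2] .nil)) 8505411 [2,0]
  (.node (.node .nil 8521420 [0,2] .nil) 8524371 [0,2,4] (.node .nil 8536111 [] .nil))) 8541360
  [5,0,0] (.node (.node (.node .nil 8546577 [5,0,5] .nil) 8555274 [5,4,5] (.node .nil 8561204 [2,3]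
  .nil)) 8581192 [2,1,1] (.node (.node .nil 8592704 [3,4,1] .nil) 8593633 [2,4,0] (.node .nil 8611330
  [4,0] .nil))))) 8619033 [4] (.node (.node (.node (.node (.node .nil 8622214 [4,3,3] .nil) 8654232
  [3,3] (.node .nil 8657159 [2,2] .nil)) 8660134 [4,1,0,1] (.node (.node .nil 8663097 [2,3,2] .nil)
  8675909 [1,1,0,0] (.node .nil 8683614 [0,0,0] .nil))) 8688833 [4,2] (.node (.node (.node .nil
  8694112 [5,2] .nil) 8704546 [3,0,0] (.node .nil 8716939 [5,0,3] .nil)) 8721940 [5,3,1] (.node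
  (.node .nil 8733800 [0] .nil) 8773776 [5,0,5] (.node .nil 8783649 [1,1] .nil)))) 8796800 [2,0,0]
  (.node (.node (.node (.node .nil 8798658 [1,1,2,0] .nil) 8834052 [1] (.node .nil 8849458 [1,2]
  .nil)) 8855820 [1,2,2] (.node (.node .nil 8919856 [3,0,0] .nil) 8922769 [3,0] (.node .nil 8925710
  [1,0,3] .nil))) 8931660 [2] (.node (.node (.node .nil 8937586 [2,4,4] .nil) 8946281 [3,2,4] (.node
  .nil 8963210 [1,4,4] .nil)) 8966165 [5,0] (.node (.node .nil 8978620 [1,3,2] .nil) 8983587 [4,0,2]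
  (.node .nil 8989058 [5,2,0] .nil)))))) 8999616 [1,4,1] (.node (.node (.node (.node (.node (.node
  .nil 9020484 [5,0,4] .nil) 9045270 [5,1,2] (.node .nil 9048457 [1,3] .nil)) 9055272 [4,1,1] (.node
  (.node .nil 9078992 [2,1,2] .nil) 9112069 [2,0,0] (.node .nil 9158944 [5,1] .nil))) 9178690 [4,0,2]
  (.node (.node (.node .nil 9193633 [0,5,0,1] .nil) 9204992 [1,5] (.node .nil 9208708 [5,5] .nil))
  9240913 [5,1,1,0] (.node (.node .nil 9279496 [1,1,0] .nil) 9310308 [4,5,3] (.node .nil 9323032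
  [4,4,0,0] .nil)))) 9347075 [4,1,2,0] (.node (.node (.node (.node .nil 9440193 [3,3,1,0] .nil)
  9451104 [0,5,0] (.node .nil 9456930 [1,0] .nil)) 9462812 [5,4,0,0] (.node (.node .nil 9465987
  [1,5,2,1] .nil) 9471495 [1,4] (.node .nil 9474712 [4,4] .nil))) 9486564 [0,5,2] (.node (.node
  (.node .nil 9503954 [1,0,2] .nil) 9506893 [3,0,3] (.node .nil 9519665 [4,0,0] .nil)) 9537812
  [4,1,0] (.node (.node .nil 9543722 [5,1,4] .nil) 9568632 [2,4,5] (.node .nil 9578566 [2,0,2]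
  .nil))))) 9589508 [4,3,1] (.node (.node (.node (.node (.node .nil 9607201 [1,0,0] .nil) 9610624
  [4,5] (.node .nil 9652360 [0,5] .nil)) 9701932 [1,2,0] (.node (.node .nil 9708306 [3] .nil) 9721936
  [0,3,1] (.node .nil 9748745 [1,1,2] .nil))) 9769376 [4,3,5] (.node (.node (.node .nil 9776129
  [0,0,1] .nil) 9830549 [1,2,0,0] (.node .nil 9835530 [1,0,1] .nil)) 9929280 [3,3,1] (.node (.node
  .nil 9963547 [1,2,4] .nil) 9968772 [2] (.node .nil 9969957 [4,3] .nil)))) 9998658 [2,3,3] (.node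
  (.node (.node (.node .nil 10021376 [1,3,1] .nil) 10028808 [0,2] (.node .nil 10093218 [5,3] .nil))
  10110017 [0,3,3] (.node (.node .nil 10170384 [2,2,1] .nil) 10232008 [0] (.node .nil 10257456 [0,4]
  .nil))) 10305542 [3,5,0] (.node (.node (.node .nil 10486557 [5,2,2,0] .nil) 10491778 [5,1,0] (.node
  .nil 10496547 [3,0,2] .nil)) 10506593 [5,2] (.node (.node .nil 10513600 [0,5,2] .nil) 10525252
  [2,2,2] .nil)))))) 10537016 [3,4,0] (.node (.node (.node (.node (.node (.node (.node .nil 10543366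
  [5,1,0] .nil) 10554382 [0,1] (.node .nil 10557585 [4] .nil)) 10560816 [4,1,2] (.node (.node .nil
  10584520 [1,3] .nil) 10619300 [3,1,1] (.node .nil 10625178 [5,3,5] .nil))) 10630149 [3,1,4,0]
  (.node (.node (.node .nil 10650722 [2,1,0,1] .nil) 10666625 [3,0] (.node .nil 10687016 [5,2,1]
  .nil)) 10698836 [0,0] (.node (.node .nil 10748656 [3,1,2] .nil) 10765331 [0,1,2] (.node .nil
  10768524 [5,5,2] .nil)))) 10790408 [1,0,1] (.node (.node (.node (.node .nil 10825794 [4,0] .nil)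
  10832640 [1,5,2] (.node .nil 10846245 [3,4] .nil)) 10881097 [5,1,3] (.node (.node .nil 10916112
  [1,4,3] .nil) 11010247 [1,2,3,0] (.node .nil 11015256 [4,3,0] .nil))) 11028004 [4,4,0] (.node
  (.node (.node .nil 11046145 [0,2,0] .nil) 11055264 [2,3] (.node .nil 11100169 [2,4,0,0] .nil))
  11108882 [2,3,0,1] (.node (.node .nil 11150144 [0,0] .nil) 11163650 [3,4,4,0] (.node .nil 11272490
  [5,2,2] .nil))))) 11282452 [4,3] (.node (.node (.node (.node (.node .nil 11469952 [0,3,3] .nil)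
  11535529 [1,4,0] (.node .nil 11538486 [5,2,0,1] .nil)) 11548936 [1,4,0] (.node (.node .nil 11551306
  [5,3,2] .nil) 11575377 [0,4,0] (.node .nil 11608708 [4,4,0] .nil))) 11654144 [0,5] (.node (.node
  (.node .nil 11669008 [5,2,1] .nil) 11731203 [3,5] (.node .nil 11797828 [2,2] .nil)) 11831426 [2,0]
  (.node (.node .nil 11952160 [2,5,3] .nil) 12075408 [3,1,5] (.node .nil 12126304 [4,0,0] .nil))))
  12222476 [5,1,1] (.node (.node (.node (.node .nil 12325377 [1,1] .nil) 12584506 [4,4] (.node .nil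
  12587685 [1,3,0] .nil)) 12594948 [1,4,2] (.node (.node .nil 12599513 [4,5,0] .nil) 12604486 [2,5]
  (.node .nil 12624578 [0,0,0] .nil))) 12638592 [0,4,1] (.node (.node (.node .nil 12641313 [4,1]
  .nil) 12650793 [2,2,0] (.node .nil 12656663 [0,4,0] .nil)) 12661896 [3,2,0] (.node (.node .nil
  12685424 [3,1] .nil) 12698124 [3,2,0] (.node .nil 12717187 [4,5] .nil)))))) 12720156 [2,2,1] (.node
  (.node (.node (.node (.node (.node .nil 12726562 [0,2,3,0] .nil) 12733024 [4,5,1] (.node .nil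
  12747077 [2,1] .nil)) 12780432 [2,1] (.node (.node .nil 12849992 [3,1,0] .nil) 12861748 [0,4,0,0]
  (.node .nil 12871690 [0,2,3] .nil))) 12880401 [4,4,1,0] (.node (.node (.node .nil 12912836 [5,2,3]
  .nil) 12944642 [5,0,1] (.node .nil 12985424 [1,2] .nil)) 13009064 [3,1,2] (.node (.node .nil
  13062145 [2,5,1] .nil) 13108704 [2,0,1] (.node .nil 13121601 [5,0] .nil)))) 13124355 [3,2] (.node
  (.node (.node (.node .nil 13142054 [0,3,0] .nil) 13148440 [3,5,2,0] (.node .nil 13192208 [2,3,1]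
  .nil)) 13262980 [2,2,3] (.node (.node .nil 13276672 [5,1,2] .nil) 13303882 [2,4] (.node .nil
  13370381 [2,5,0] .nil))) 13373586 [5,4,0] (.node (.node (.node .nil 13443616 [0,3,0] .nil) 13631886
  [3,2,2] (.node .nil 13636881 [4,1,3,0] .nil)) 13641904 [2,0,0,0] (.node (.node .nil 13667400
  [5,3,0] .nil) 13703682 [1,1,3] (.node .nil 13721920 [2,2,4,0] .nil))))) 13771273 [2,3,0] (.node
  (.node (.node (.node (.node .nil 13811730 [5,4,0] .nil) 13829156 [5,2,3] (.node .nil 13893731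
  [1,0,5] .nil)) 13911680 [2,2,3] (.node (.node .nil 13938692 [1,4] .nil) 14156372 [3,5,0] (.node
  .nil 14176296 [4,3,0] .nil))) 14254209 [1,2,1] (.node (.node (.node .nil 14551296 [4,4,1] .nil)
  14682450 [1,0] (.node .nil 14688364 [5,4,3] .nil)) 14709264 [2,4,1] (.node (.node .nil 14714004
  [1,3,0] .nil) 14716939 [0,3] (.node .nil 14747201 [2,0,5] .nil)))) 14762146 [3,1] (.node (.node
  (.node (.node .nil 14828808 [3,1,0] .nil) 14919680 [1] (.node .nil 14949408 [5] .nil)) 14950785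
  [0,3] (.node (.node .nil 15073798 [3] .nil) 15207048 [5,0,3] (.node .nil 15274244 [5,5,2] .nil)))
  15335473 [4,2,3] (.node (.node (.node .nil 15515712 [2,0,4] .nil) 15747077 [0,3,0,0] (.node .nil
  15762208 [4,1] .nil)) 15864000 [3,5] (.node (.node .nil 16056344 [3,0,1] .nil) 16262146 [3,2]
  .nil)))))))

def repC (c : ℕ) : ℕ := if c = 2 then 8401364 else if c = 4 then 8391797 else if c = 8 then 8536111 else 0

def famC (m : ℕ) : Bool := m.testBit 23

theorem certC : codeAll (fun m => popc m != 8 || !famC m ||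
    findOK gensC treeC (repC (popc (octad0 &&& m))) m) = true := by decide +kernel

def gensD : List (List ℕ) := [
  [1,5,2,3,4,0,21,13,20,9,11,15,8,22,23,10,6,14,18,19,12,16,7,17],
  [0,1,2,14,4,23,10,8,7,13,6,11,20,9,3,15,18,17,16,22,12,21,19,5],
  [5,1,0,14,4,23,13,22,10,8,12,18,11,21,17,9,6,2,15,7,20,19,16,3],
  [3,5,14,2,4,23,16,9,22,21,12,8,6,18,17,10,7,0,15,11,13,19,20,1],
  [17,3,0,14,4,23,19,20,6,15,21,22,12,7,2,8,9,1,10,16,13,18,11,5],
  [2,3,1,17,4,5,21,16,19,8,20,12,9,15,14,7,18,0,13,11,22,10,6,23]]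

theorem gensD_ok : gensD.all (genOK [2 ^ 4, octad0]) = true := by decide +kernel

def treeD : CT :=
  (.node (.node (.node (.node (.node (.node (.node (.node (.node .nil 15777 [] .nil) 18147 [] (.node
  .nil 31554 [4,4,1,0] .nil)) 36294 [3,2,2] (.node (.node .nil 45159 [1,3,4,0] .nil) 52005 [4,2,4,0]
  (.node .nil 63108 [2,5,3,1] .nil))) 72588 [5,1,0] (.node (.node (.node .nil 75309 [1,4,5] .nil)
  90318 [3,0,5] (.node .nil 104010 [1,0,0,2] .nil)) 118953 [0,0,1] (.node (.node .nil 126216 [2,3]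
  .nil) 138790 [3,2,2,0] (.node .nil 140167 [2,4,0,3] .nil)))) 153797 [2,0,4] (.node (.node (.node
  (.node .nil 157028 [2,0,3] .nil) 168928 [4,4,5] (.node .nil 175681 [4,3,4,0] .nil)) 185603
  [5,3,2,4] (.node (.node .nil 190626 [0,5,4] .nil) 198058 [4,1,0,0] (.node .nil 210955 [3,2,5]
  .nil))) 213833 [0,3] (.node (.node (.node .nil 231532 [0,2,2] .nil) 262637 [5,0,0] (.node .nil
  277580 [1,3,5,0] .nil)) 280334 [2,4,0,0] (.node (.node .nil 298027 [3,1,0,0] .nil) 307594 [4,0,1]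
  (.node .nil 314056 [4,3,1] .nil))))) 334433 [0,2,0] (.node (.node (.node (.node (.node .nil 337856
  [] .nil) 351362 [4,2,3,5] (.node .nil 352547 [4,4] .nil)) 371206 [5,5,0,2] (.node (.node .nil
  381252 [5,2,5,0] .nil) 402026 [5,3,1] (.node .nil 416040 [3,3,4] .nil))) 418953 [0,4,0] (.node
  (.node (.node .nil 430605 [3,0,4,0] .nil) 459847 [5,3,0,3] (.node .nil 475812 [5,0,0,1] .nil))
  493953 [0,2] (.node (.node .nil 504864 [3,0,0,2] .nil) 530245 [0,5] (.node .nil 535268 [2,5,4,0]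
  .nil)))) 545190 [3,2,2] (.node (.node (.node (.node .nil 551943 [3,4] .nil) 563843 [1,0] (.node
  .nil 567074 [0,1,0] .nil)) 580704 [4,3] (.node (.node .nil 582081 [1,5,0,1] .nil) 593097 [2,5,1]
  (.node .nil 602472 [4,3,2] .nil))) 608810 [3,3,3] (.node (.node (.node .nil 622863 [4,4,0,3] .nil)
  657763 [1,5,4] (.node .nil 668866 [3,2,3,0] .nil)) 675712 [1,4,0] (.node (.node .nil 684577 [0,1,2]
  .nil) 689317 [4,4,5] (.node .nil 702724 [2,2,2,3] .nil)))))) 705094 [4,0,3] (.node (.node (.node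
  (.node (.node (.node .nil 742412 [0,4] .nil) 762504 [4,3,4] (.node .nil 792232 [4,1,2,0] .nil))
  797449 [4,3,3] (.node (.node .nil 806987 [2,2,2] .nil) 843820 [5,4,4] (.node .nil 855332 [2,0,5,2]
  .nil))) 864389 [5,0,2] (.node (.node (.node .nil 884962 [4,5,3] .nil) 902657 [5,0,4] (.node .nil
  919694 [2,1,0,1] .nil)) 951624 [5,3,1] (.node (.node .nil 987906 [3,3,5] .nil) 1009728 [2,3,0,5]
  (.node .nil 1053483 [3,5,4] .nil)))) 1060490 [2,3,2] (.node (.node (.node (.node .nil 1070536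
  [0,4,1,0] .nil) 1075305 [2,0,5] (.node .nil 1090380 [0,5,1,0] .nil)) 1103886 [5,3,4] (.node (.node
  .nil 1116327 [4,3,5] .nil) 1127686 [2,4,0,2] (.node .nil 1134148 [3,5,0] .nil))) 1148257 [2,3,4,0]
  (.node (.node (.node .nil 1161408 [5,4,0] .nil) 1164162 [1,4,0,1] (.node .nil 1182989 [0,5,0]
  .nil)) 1192108 [2,2,5] (.node (.node .nil 1212619 [2,2,0,1] .nil) 1230376 [5,2,1] (.node .nil
  1250945 [2,1,5,0] .nil))))) 1256224 [3,4,4,0] (.node (.node (.node (.node (.node .nil 1265762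
  [3,3,5,0] .nil) 1302533 [4,2,4] (.node .nil 1315526 [4,0,4] .nil)) 1332261 [1,0,5] (.node (.node
  .nil 1337732 [3,2,4] .nil) 1351424 [4,3] (.node .nil 1352353 [1,4,5] .nil))) 1369154 [0,0,2] (.node
  (.node (.node .nil 1378634 [2,2,0,0] .nil) 1405448 [0,0,3] (.node .nil 1410188 [4,1,3,1] .nil))
  1445088 [2,4,5,0] (.node (.node .nil 1454401 [2,3,5,0] .nil) 1460739 [0,5,3] (.node .nil 1474854
  [3,4,0,1] .nil)))) 1573998 [1,3,5,0] (.node (.node (.node (.node .nil 1589901 [2,4] .nil) 1608104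
  [5,0,1,0] (.node .nil 1618953 [4,4,0,4] .nil)) 1647171 [3,4] (.node (.node .nil 1661185 [4,5,0]
  .nil) 1664160 [1,3] (.node .nil 1675812 [5] .nil))) 1710664 [2,2,3,0] (.node (.node (.node .nil
  1728778 [2,1,2,1] .nil) 1769924 [0,5,1] (.node .nil 1805314 [5,0,5,0] .nil)) 1836419 [2,2,0,1]
  (.node (.node .nil 1849378 [4,4] .nil) 1852256 [5,0,0,1] .nil)))))) 1869893 [5,5,0,3] (.node (.node
  (.node (.node (.node (.node (.node .nil 1975812 [3,0,4,0] .nil) 2019456 [5,2,3] (.node .nil 2031657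
  [0,2,0] .nil)) 2101096 [3,1,0] (.node (.node .nil 2110153 [0,5,0,0] .nil) 2115979 [0,5,0,1] (.node
  .nil 2126890 [2,1] .nil))) 2130606 [2,1,0,0] (.node (.node (.node .nil 2147405 [0,0,2,2] .nil)
  2168036 [0,3,3] (.node .nil 2173253 [4,1,5,0] .nil)) 2183687 [4,0,4] (.node (.node .nil 2201890
  [4,1,4,1] .nil) 2204803 [0,5,4,1] (.node .nil 2220640 [1,4,2,0] .nil)))) 2232654 [0,0,5] (.node
  (.node (.node (.node .nil 2255372 [3,2,4] .nil) 2268296 [0,0,2,3] (.node .nil 2269481 [0,4,2]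
  .nil)) 2296514 [5,5,0] (.node (.node .nil 2313249 [5,4,1] .nil) 2322816 [0,4] (.node .nil 2328324
  [3,4,3,1] .nil))) 2363013 [4,2,4,0] (.node (.node (.node .nil 2372388 [5,0,2,0] .nil) 2377830
  [1,2,2] (.node .nil 2392899 [0,0,2,0] .nil)) 2409888 [4,4,2,0] (.node (.node .nil 2422785 [1,2,1,5]
  .nil) 2430217 [5,5,5,0] (.node .nil 2435240 [3,3,4] .nil))))) 2494627 [0,3,2] (.node (.node (.node
  (.node (.node .nil 2501890 [1,5,5,0] .nil) 2512448 [2,2,3] (.node .nil 2531524 [3,0,0,3] .nil))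
  2605066 [3,4,5] (.node (.node .nil 2627629 [4,3,5,0] .nil) 2631052 [0,5,0] (.node .nil 2664522
  [2,1,2,0] .nil))) 2675464 [2,4,2,0] (.node (.node (.node .nil 2687905 [3,5,5,0] .nil) 2702848 [1,0]
  (.node .nil 2704706 [2,3,1] .nil)) 2738308 [0,2,0,4] (.node (.node .nil 2754059 [0,5,2] .nil)
  2769128 [4,1] (.node .nil 2826278 [0,3,3] .nil)))) 2854977 [5,4,0] (.node (.node (.node (.node .nil
  2890176 [4,2] .nil) 2892897 [3,0,1] (.node .nil 2908802 [1,3,1] .nil)) 2921478 [1,3,3] (.node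
  (.node .nil 2949708 [1,2,4,0] .nil) 3031301 [5,0,3] (.node .nil 3050016 [4,5,4] .nil))) 3152963
  [3,1,4,1] (.node (.node (.node .nil 3154402 [2,3,4] .nil) 3168928 [5,4,3] (.node .nil 3172097
  [5,2,2,3] .nil)) 3182981 [3,0,4,2,0] (.node (.node .nil 3189796 [5,3,0,1] .nil) 3227948 [5] (.node
  .nil 3246601 [2,1,5] .nil)))))) 3277413 [0,2,0,0] (.node (.node (.node (.node (.node (.node .nil
  3294342 [4,0,4,0] .nil) 3322370 [0,1] (.node .nil 3328320 [4,5,0,1] .nil)) 3351624 [1,2,2,3] (.node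
  (.node .nil 3416079 [0,5,0,0] .nil) 3444840 [1,2,3,0] (.node .nil 3474978 [2,0] .nil))) 3489985
  [2,2,4] (.node (.node (.node .nil 3539848 [0,3] .nil) 3610628 [4,0,4,1] (.node .nil 3672838 [2,0,1]
  .nil)) 3698756 [0,0,5,1] (.node (.node .nil 3704512 [4] .nil) 3719203 [5,2,0,3] (.node .nil 3739786
  [3,5,4] .nil)))) 3806496 [1,4] (.node (.node (.node (.node .nil 3811457 [5,5,3,1] .nil) 3951624
  [2,4,0,0] (.node .nil 4038912 [5] .nil)) 4196943 [1,3,4] (.node (.node .nil 4213932 [1,2,3] .nil)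
  4223245 [1,2,4] (.node .nil 4229001 [5,0,1] .nil))) 4241960 [5,4,4] (.node (.node (.node .nil
  4243818 [4,4,0,0] .nil) 4264387 [3,3,4,3] (.node .nil 4271202 [3,3,2] .nil)) 4282144 [0,0,1] (.node
  (.node .nil 4287105 [2,5,0] .nil) 4299781 [3,5,3,1] (.node .nil 4301220 [2,3,0,4] .nil))))) 4330601
  [5,0,1] (.node (.node (.node (.node (.node .nil 4336072 [4,0] .nil) 4346506 [2,2,2,0] (.node .nil
  4367374 [1,4,0,3] .nil)) 4403780 [5,0,3,0] (.node (.node .nil 4409606 [3,2,3] .nil) 4424227 [0,0]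
  (.node .nil 4441280 [5,0,4,0] .nil))) 4459426 [5,5] (.node (.node (.node .nil 4470275 [1,3,4] .nil)
  4476225 [2,5,1,0] (.node .nil 4485344 [4,4,0,0] .nil)) 4490852 [2,0,2] (.node (.node .nil 4505735
  [4,3,2,4] .nil) 4526126 [3,1] (.node .nil 4563017 [4,2,0,1] .nil)))) 4593028 [3,2,3] (.node (.node
  (.node (.node .nil 4597797 [5,0,2,0] .nil) 4626498 [5,2,4] (.node .nil 4645632 [2,4,3,1] .nil))
  4656648 [0,4,2,0] (.node (.node .nil 4726026 [1,4,4,0] .nil) 4726955 [2,3,3] (.node .nil 4744776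
  [0,4,3,4] .nil))) 4755660 [5,0] (.node (.node (.node .nil 4785798 [0,3,0,3] .nil) 4800613 [5,0,2]
  (.node .nil 4819776 [2,3] .nil)) 4845570 [2,5,3,3] (.node (.node .nil 4850476 [1,3,5] .nil) 4900873
  [2,1,5] .nil))))))) 4921504 [3,2,3,1] (.node (.node (.node (.node (.node (.node (.node (.node .nil
  4924673 [5,0,3] .nil) 4989254 [3,4,0,0] (.node .nil 5003780 [1,2,4] .nil)) 5017889 [0,4,4] (.node
  (.node .nil 5024896 [4,0] .nil) 5063048 [2,5,3,2] (.node .nil 5112513 [3,0,4] .nil))) 5129250 [5,5]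
  (.node (.node (.node .nil 5249380 [1,2,1,4] .nil) 5252293 [1,0,5] (.node .nil 5268006 [3,2,1,2]
  .nil)) 5280930 [0,0] (.node (.node .nil 5286147 [0] .nil) 5296705 [4,5,1,0] (.node .nil 5309160
  [5,0,0] .nil)))) 5325835 [2,2,1,2] (.node (.node (.node (.node .nil 5375810 [4,0,2] .nil) 5390753
  [0,2] (.node .nil 5405696 [4,0,3,0] .nil)) 5409412 [4,2,5,0] (.node (.node .nil 5476616 [4,1,0]
  .nil) 5511305 [0,3,0] (.node .nil 5514536 [3,0] .nil))) 5571333 [3,4,0] (.node (.node (.node .nil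
  5621792 [1,2,2] .nil) 5652556 [1,0,4] (.node .nil 5709954 [2,4,4,0] .nil)) 5770785 [5,1,4] (.node
  (.node .nil 5780352 [2,4] .nil) 5785794 [4,4,0] (.node .nil 5817604 [1,5,0] .nil))))) 5842956 [2,4]
  (.node (.node (.node (.node (.node .nil 5902343 [5,0,5,0] .nil) 5939296 [4,1] (.node .nil 6062602
  [4,5,5,0] .nil)) 6100032 [3,2] (.node (.node .nil 6292775 [1,3,3] .nil) 6305926 [1,2,0,1] (.node
  .nil 6308804 [4,2,3] .nil))) 6326497 [5,4,1] (.node (.node (.node .nil 6337856 [2] .nil) 6344194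
  [2,4,0,1] (.node .nil 6365962 [3,1] .nil)) 6379592 [3,0,5] (.node (.node .nil 6429441 [0,5,2] .nil)
  6432416 [1,5,3] (.node .nil 6447171 [0,5,4,0] .nil)))) 6475812 [1,4] (.node (.node (.node (.node
  .nil 6488205 [3,0,3] .nil) 6554826 [5,3,3] (.node .nil 6570537 [4,2,2] .nil)) 6588684 [5,3,4]
  (.node (.node .nil 6644740 [2,4,0] .nil) 6656640 [3] (.node .nil 6750560 [5,5,0,0] .nil))) 6820450
  [0,3,4] (.node (.node (.node .nil 6837377 [0,4,1] .nil) 6842656 [3,2,0,1] (.node .nil 6857221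
  [3,0,3] .nil)) 6915112 [4,5,5,1] (.node (.node .nil 6949956 [2,0,4] .nil) 6979970 [2,1,3,1] (.node
  .nil 7145475 [3,5,3] .nil)))))) 7221256 [2,3,5] (.node (.node (.node (.node (.node (.node .nil
  7345676 [3,5,0,1] .nil) 7397512 [0,4,0] (.node .nil 7409024 [0,2] .nil)) 7417889 [3,4,0,2] (.node
  (.node .nil 7438406 [3,3] .nil) 7473194 [0,1] (.node .nil 7612992 [0] .nil))) 7622914 [5,3,5,0]
  (.node (.node (.node .nil 7767041 [1,5,4,0] .nil) 7864649 [1,0,4,1] (.node .nil 8077824 [0,5,3]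
  .nil)) 8126628 [3,3,1] (.node (.node .nil 8394986 [4,2] .nil) 8398155 [1] (.node .nil 8412681
  [2,5,0] .nil)))) 8414120 [2,5,2] (.node (.node (.node (.node .nil 8426796 [5,0] .nil) 8431757
  [5,1,0,0] (.node .nil 8455014 [2,0,0] .nil)) 8471941 [0,1,4] (.node (.node .nil 8484900 [2,5,0,1]
  .nil) 8490656 [5,3,2,0] (.node .nil 8499969 [4,5] .nil))) 8505411 [2,3,1] (.node (.node (.node .nil
  8521420 [4,4,4] .nil) 8536111 [] (.node .nil 8555274 [4,0,0] .nil)) 8581192 [2,4,2,0] (.node (.node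
  .nil 8592704 [3,4,3] .nil) 8593633 [5,4,0] (.node .nil 8611330 [5,1,5] .nil))))) 8622214 [2,5,5]
  (.node (.node (.node (.node (.node .nil 8657159 [4,1,4] .nil) 8660134 [4,1,3] (.node .nil 8675909
  [4,5] .nil)) 8688833 [0,1,2,2] (.node (.node .nil 8694112 [3,4,4] .nil) 8704546 [4,3] (.node .nil
  8716939 [1,4,4] .nil))) 8733800 [4,2,0] (.node (.node (.node .nil 8783649 [5,3] .nil) 8796800
  [5,2,2] (.node .nil 8798658 [5,2,4,0] .nil)) 8834052 [5,0,4,1] (.node (.node .nil 8855820 [0,1,5]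
  .nil) 8925710 [0,2,4] (.node .nil 8931660 [2,3] .nil)))) 8946281 [5,2] (.node (.node (.node (.node
  .nil 8963210 [2,2,0] .nil) 8983587 [1,3,2] (.node .nil 8989058 [4,4,1] .nil)) 8999616 [1,3,0]
  (.node (.node .nil 9020484 [1,2,0,2] .nil) 9048457 [1,0,2] (.node .nil 9055272 [5,2,0] .nil)))
  9112069 [3,4,1] (.node (.node (.node .nil 9158944 [1,4,0] .nil) 9178690 [5,5,1] (.node .nil 9193633
  [0,5,5] .nil)) 9204992 [1,5,0,0] (.node (.node .nil 9208708 [5,4,5] .nil) 9279496 [2,2] .nil))))))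
  9310308 [3,2,1] (.node (.node (.node (.node (.node (.node (.node .nil 9347075 [1,0,0] .nil) 9440193
  [1] (.node .nil 9451104 [5,2] .nil)) 9456930 [4,4,0] (.node (.node .nil 9465987 [0,0,2] .nil)
  9471495 [3,4,0] (.node .nil 9486564 [1,5,0] .nil))) 9506893 [0,5] (.node (.node (.node .nil 9543722
  [4,1,2] .nil) 9578566 [4,0,2] (.node .nil 9589508 [5,2,5,0] .nil)) 9607201 [3,5,5] (.node (.node
  .nil 9610624 [5,4,2,0] .nil) 9652360 [5,2,2,0] (.node .nil 9701932 [4,1,2,0] .nil)))) 9748745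
  [1,0,0,1] (.node (.node (.node (.node .nil 9769376 [4,3,2,0] .nil) 9776129 [3,4,1] (.node .nil
  9835530 [5,2,2] .nil)) 9929280 [2,1,2,2] (.node (.node .nil 9968772 [2,1,4] .nil) 9969957 [3,0,1]
  (.node .nil 9998658 [3,2] .nil))) 10021376 [4,5,0,0] (.node (.node (.node .nil 10028808 [3,5,4,1]
  .nil) 10093218 [1,2] (.node .nil 10110017 [2,5] .nil)) 10232008 [2,1,2] (.node (.node .nil 10305542
  [2,0,1] .nil) 10491778 [2,0,1,0] (.node .nil 10496547 [0] .nil))))) 10506593 [4,5,0] (.node (.node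
  (.node (.node (.node .nil 10513600 [3,5] .nil) 10525252 [0,3,5,0] (.node .nil 10543366 [5,4,5]
  .nil)) 10554382 [2,2] (.node (.node .nil 10584520 [4,0,1,0] .nil) 10619300 [5,5,2] (.node .nil
  10630149 [0,1,5,0] .nil))) 10650722 [3,4,3] (.node (.node (.node .nil 10666625 [1,0,4,2] .nil)
  10687016 [3] (.node .nil 10768524 [1,5] .nil)) 10790408 [4,2,0] (.node (.node .nil 10825794 [1,2,0]
  .nil) 10832640 [5,1,3,0] (.node .nil 10846245 [5,5,4,0] .nil)))) 10881097 [0,4,2,0] (.node (.node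
  (.node (.node .nil 11010247 [3,3] .nil) 11028004 [4,4,2,0] (.node .nil 11046145 [0,4,3] .nil))
  11055264 [3,2,0] (.node (.node .nil 11100169 [0,4,1] .nil) 11150144 [5,3] (.node .nil 11163650
  [1,0,1] .nil))) 11272490 [2,0] (.node (.node (.node .nil 11469952 [4,3,0,1] .nil) 11535529 [3,0,0]
  (.node .nil 11548936 [4,0,0] .nil)) 11551306 [1,2,1] (.node (.node .nil 11608708 [2,4,1] .nil)
  11654144 [2,3,0] .nil))))) 11731203 [0,4,5,0] (.node (.node (.node (.node (.node (.node .nil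
  11797828 [5,5,4] .nil) 11831426 [2,4,4] (.node .nil 11952160 [1,3] .nil)) 12126304 [1,2] (.node
  (.node .nil 12222476 [4] .nil) 12325377 [4,0,3,3] (.node .nil 12587685 [1,3,0,1] .nil))) 12594948
  [4,1,2,2] (.node (.node (.node .nil 12604486 [3,5,0] .nil) 12624578 [5,1,5] (.node .nil 12638592
  [4,5,4,4] .nil)) 12641313 [1,5,2] (.node (.node .nil 12650793 [0,2,1] .nil) 12661896 [4,4,4] (.node
  .nil 12698124 [2,4,0] .nil)))) 12717187 [5,4] (.node (.node (.node (.node .nil 12726562 [2] .nil)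
  12733024 [1,5,2,0] (.node .nil 12747077 [5,3,0,2] .nil)) 12849992 [3] (.node (.node .nil 12871690
  [4,0,1] .nil) 12912836 [0,2,4,0] (.node .nil 12944642 [2,5,5] .nil))) 13009064 [4,0] (.node (.node
  (.node .nil 13062145 [0,1,3] .nil) 13108704 [5,5,5,2] (.node .nil 13121601 [0,1,3] .nil)) 13124355
  [0,0,1,2] (.node (.node .nil 13142054 [3,2,0] .nil) 13262980 [3,5] (.node .nil 13276672 [1,4,1]
  .nil))))) 13303882 [1,5,5] (.node (.node (.node (.node (.node .nil 13370381 [1,5,0,2] .nil)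
  13443616 [4,1,2] (.node .nil 13631886 [2,1,2] .nil)) 13667400 [0,2,3] (.node (.node .nil 13703682
  [2,0,0] .nil) 13721920 [0,0,4] (.node .nil 13771273 [3,0,2] .nil))) 13829156 [2,0,2] (.node (.node
  (.node .nil 13893731 [3,2] .nil) 13911680 [5,2,3,0] (.node .nil 13938692 [1,5] .nil)) 14176296
  [4,4,2] (.node (.node .nil 14254209 [2,3,3,1] .nil) 14551296 [4,5,4,1] (.node .nil 14688364 [5,3,2]
  .nil)))) 14716939 [3,5,3] (.node (.node (.node (.node .nil 14747201 [5,4] .nil) 14762146 [1,2,0]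
  (.node .nil 14828808 [1,4,1] .nil)) 14919680 [0,3,5] (.node (.node .nil 14949408 [2] .nil) 14950785
  [0,4,4,0,0] (.node .nil 15073798 [5,0,5] .nil))) 15207048 [5,3,2] (.node (.node (.node .nil
  15274244 [5,1] .nil) 15515712 [4,3,1,0] (.node .nil 15747077 [5,2,5] .nil)) 15762208 [5,5,2] (.node
  (.node .nil 15864000 [4] .nil) 16262146 [3,5,5,2] .nil))))))))

def repD (c : ℕ) : ℕ := if c = 0 then 337856 else if c = 2 then 15777 else if c = 4 then 18147 else if c = 8 then 8536111 else 0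

def famD (m : ℕ) : Bool := !m.testBit 4

theorem certD : codeAll (fun m => popc m != 8 || !famD m ||
    findOK gensD treeD (repD (popc (octad0 &&& m))) m) = true := by decide +kernel

/-- Rank 3 action on octads through a point (S1607). -/
theorem s1607 (x : GolayPt) (o : Finset GolayPt) (ho : o ∈ octads) (hx : x ∈ o) :
    {o' : Finset GolayPt | o' ∈ octads ∧ x ∈ o' ∧ (o ∩ o').card = 2}.ncard = 112 ∧
    {o' : Finset GolayPt | o' ∈ octads ∧ x ∈ o' ∧ (o ∩ o').card = 4}.ncard = 140 ∧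
    ∀ o' o'' : Finset GolayPt, o' ∈ octads → o'' ∈ octads → x ∈ o' → x ∈ o'' →
      (o ∩ o').card = (o ∩ o'').card →
      ∃ g : Equiv.Perm GolayPt, g ∈ M24 ∧ g x = x ∧ g • o = o ∧ g • o' = o'' := by
  obtain ⟨k, hk, hko, hL⟩ := exists_transport_flag octad0_mem ho (L := [pt 23]) (L' := [x])
    (by simp) (by simp) rfl (by decide +kernel) (by simpa using hx) (by norm_num)
  have h23 : k (pt 23) = x := by simpa using hL
  have fam : ∀ y, pt 23 ∈ y ↔ (toMask y).testBit 23 = true := fun y => mem_pt_iff (by norm_num) y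
  refine ⟨?_, ?_, fun a b ha hb hxa hxb h => ?_⟩
  · rw [ncard_octads_transport hk (fun y => pt 23 ∈ y ∧ (ofMask octad0 ∩ y).card = 2) _
      (fun y => by rw [mem_smul_of_map h23, inter_smul_of_eq hko])]
    refine count_std (P := fun m => m.testBit 23 && popc (octad0 &&& m) == 2) (fun y _ => ?_)
      (by decide +kernel)
    rw [fam, card_inter_octad0]; simp
  · rw [ncard_octads_transport hk (fun y => pt 23 ∈ y ∧ (ofMask octad0 ∩ y).card = 4) _
      (fun y => by rw [mem_smul_of_map h23, inter_smul_of_eq hko])]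
    refine count_std (P := fun m => m.testBit 23 && popc (octad0 &&& m) == 4) (fun y _ => ?_)
      (by decide +kernel)
    rw [fam, card_inter_octad0]; simp
  · obtain ⟨g, h1, h2, h3, h4⟩ := conj_std (fam := famC) gensC_ok certC (by simp) hk hko ha hb
      (by simp only [famC]; rw [← fam, mem_inv_smul_of_map h23]; exact hxa)
      (by simp only [famC]; rw [← fam, mem_inv_smul_of_map h23]; exact hxb) h
    exact ⟨g, h1, h4 23 x (by norm_num) (by simp) h23, h2, h3⟩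

/-- Rank 4 action on octads avoiding a point (S1608). -/
theorem s1608 (x : GolayPt) (o : Finset GolayPt) (ho : o ∈ octads) (hx : x ∉ o) :
    {o' : Finset GolayPt | o' ∈ octads ∧ x ∉ o' ∧ (o ∩ o').card = 0}.ncard = 15 ∧
    {o' : Finset GolayPt | o' ∈ octads ∧ x ∉ o' ∧ (o ∩ o').card = 4}.ncard = 210 ∧
    {o' : Finset GolayPt | o' ∈ octads ∧ x ∉ o' ∧ (o ∩ o').card = 2}.ncard = 280 ∧
    ∀ o' o'' : Finset GolayPt, o' ∈ octads → o'' ∈ octads → x ∉ o' → x ∉ o'' →
      (o ∩ o').card = (o ∩ o'').card →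
      ∃ g : Equiv.Perm GolayPt, g ∈ M24 ∧ g x = x ∧ g • o = o ∧ g • o' = o'' := by
  obtain ⟨k, hk, hko, -, h4'⟩ := exists_transport_flag_out octad0_mem ho (L := []) (L' := [])
    (by simp) (by simp) rfl (by simp) (by simp) (by norm_num) (q := pt 4) (q' := x)
    (by decide +kernel) hx
  have fam : ∀ y, pt 4 ∈ y ↔ (toMask y).testBit 4 = true := fun y => mem_pt_iff (by norm_num) y
  have cnt : ∀ c n : ℕ, codeCount (fun m => popc m == 8 && (!m.testBit 4 && popc (octad0 &&& m) == c)) = n →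
      {o' : Finset GolayPt | o' ∈ octads ∧ x ∉ o' ∧ (o ∩ o').card = c}.ncard = n := by
    intro c n hn
    rw [ncard_octads_transport hk (fun y => pt 4 ∉ y ∧ (ofMask octad0 ∩ y).card = c) _
      (fun y => by rw [mem_smul_of_map h4', inter_smul_of_eq hko])]
    refine count_std (P := fun m => !m.testBit 4 && popc (octad0 &&& m) == c) (fun y _ => ?_) hn
    rw [fam, card_inter_octad0]; simp
  refine ⟨cnt 0 15 (by decide +kernel), cnt 4 210 (by decide +kernel), cnt 2 280 (by decide +kernel),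
    fun a b ha hb hxa hxb h => ?_⟩
  obtain ⟨g, h1, h2, h3, h4⟩ := conj_std (fam := famD) gensD_ok certD (by simp) hk hko ha hb
    (by
      have := (mem_inv_smul_of_map h4' a).not.2 hxa
      rw [fam] at this
      simpa [famD] using this)
    (by
      have := (mem_inv_smul_of_map h4' b).not.2 hxb
      rw [fam] at this
      simpa [famD] using this) h
  exact ⟨g, h1, h4 4 x (by norm_num) (by simp) h4', h2, h3⟩

/-- Orbits of a hexad stabiliser in the two-point stabiliser (S1604). -/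
theorem s1604 (p q : GolayPt) (hpq : p ≠ q) (o o' o'' : Finset GolayPt) (ho : o ∈ octads)
    (ho' : o' ∈ octads) (ho'' : o'' ∈ octads) (hp : p ∈ o ∧ p ∈ o' ∧ p ∈ o'')
    (hq : q ∈ o ∧ q ∈ o' ∧ q ∈ o'') (h : (o ∩ o').card = (o ∩ o'').card) :
    {x : Finset GolayPt | x ∈ octads ∧ p ∈ x ∧ q ∈ x ∧ (o ∩ x).card = 2}.ncard = 16 ∧
    {x : Finset GolayPt | x ∈ octads ∧ p ∈ x ∧ q ∈ x ∧ (o ∩ x).card = 4}.ncard = 60 ∧
    ∃ g : Equiv.Perm GolayPt, g ∈ M24 ∧ g p = p ∧ g q = q ∧ g • o = o ∧ g • o' = o'' := by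
  obtain ⟨k, hk, hko, hL⟩ := exists_transport_flag octad0_mem ho (L := [pt 23, pt 0]) (L' := [p, q])
    (by simp; decide) (by simpa using hpq) rfl (by decide +kernel)
    (by simpa using ⟨hp.1, hq.1⟩) (by norm_num)
  have h23 : k (pt 23) = p := by simp at hL; exact hL.1
  have h0 : k (pt 0) = q := by simp at hL; exact hL.2
  have fam : ∀ y, pt 23 ∈ y ↔ (toMask y).testBit 23 = true := fun y => mem_pt_iff (by norm_num) y
  have fam0 : ∀ y, pt 0 ∈ y ↔ (toMask y).testBit 0 = true := fun y => mem_pt_iff (by norm_num) y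
  have cnt : ∀ c n : ℕ, codeCount (fun m => popc m == 8 && (m.testBit 23 && m.testBit 0 && popc (octad0 &&& m) == c)) = n →
      {x : Finset GolayPt | x ∈ octads ∧ p ∈ x ∧ q ∈ x ∧ (o ∩ x).card = c}.ncard = n := by
    intro c n hn
    rw [ncard_octads_transport hk (fun y => pt 23 ∈ y ∧ pt 0 ∈ y ∧ (ofMask octad0 ∩ y).card = c) _
      (fun y => by rw [mem_smul_of_map h23, mem_smul_of_map h0, inter_smul_of_eq hko])]
    refine count_std (P := fun m => m.testBit 23 && m.testBit 0 && popc (octad0 &&& m) == c)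
      (fun y _ => ?_) hn
    rw [fam, fam0, card_inter_octad0]; simp [and_assoc]
  refine ⟨cnt 2 16 (by decide +kernel), cnt 4 60 (by decide +kernel), ?_⟩
  have f : ∀ y, p ∈ y → q ∈ y → famA (toMask (k⁻¹ • y)) = true := by
    intro y h1 h2
    have h3 := (mem_inv_smul_of_map h23 y).2 h1
    have h4 := (mem_inv_smul_of_map h0 y).2 h2
    rw [fam] at h3
    rw [fam0] at h4
    simp [famA, h3, h4]
  obtain ⟨g, h1, h2, h3, h4⟩ := conj_std (fam := famA) gensA_ok certA (by simp) hk hko ho' ho''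
    (f _ hp.2.1 hq.2.1) (f _ hp.2.2 hq.2.2) h
  exact ⟨g, h1, h4 23 p (by norm_num) (by simp) h23, h4 0 q (by norm_num) (by simp) h0, h2, h3⟩

/-- Rank 3 action on octads through a point and avoiding another one (S1605). -/
theorem s1605 (p q : GolayPt) (hpq : p ≠ q) :
    {x : Finset GolayPt | (x ∈ octads ∧ p ∈ x ∧ q ∉ x)}.ncard = 176 ∧
    (∀ o o' : Finset GolayPt, (o ∈ octads ∧ p ∈ o ∧ q ∉ o) → (o' ∈ octads ∧ p ∈ o' ∧ q ∉ o') →
      ∃ g : Equiv.Perm GolayPt, g ∈ M24 ∧ g p = p ∧ g q = q ∧ g • o = o') ∧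
    ∀ o : Finset GolayPt, (o ∈ octads ∧ p ∈ o ∧ q ∉ o) →
      {x : Finset GolayPt | (x ∈ octads ∧ p ∈ x ∧ q ∉ x) ∧ (o ∩ x).card = 2}.ncard = 70 ∧
      {x : Finset GolayPt | (x ∈ octads ∧ p ∈ x ∧ q ∉ x) ∧ (o ∩ x).card = 4}.ncard = 105 ∧
      ∀ o' o'' : Finset GolayPt, (o' ∈ octads ∧ p ∈ o' ∧ q ∉ o') → (o'' ∈ octads ∧ p ∈ o'' ∧ q ∉ o'') →
        (o ∩ o').card = (o ∩ o'').card →
        ∃ g : Equiv.Perm GolayPt, g ∈ M24 ∧ g p = p ∧ g q = q ∧ g • o = o ∧ g • o' = o'' := by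
  have fam : ∀ y, pt 23 ∈ y ↔ (toMask y).testBit 23 = true := fun y => mem_pt_iff (by norm_num) y
  have fam4 : ∀ y, pt 4 ∈ y ↔ (toMask y).testBit 4 = true := fun y => mem_pt_iff (by norm_num) y
  have std : ∀ o : Finset GolayPt, (o ∈ octads ∧ p ∈ o ∧ q ∉ o) →
      ∃ k ∈ M24, k • ofMask octad0 = o ∧ k (pt 23) = p ∧ k (pt 4) = q := by
    intro o ho
    obtain ⟨k, hk, hko, hL, h4⟩ := exists_transport_flag_out octad0_mem ho.1 (L := [pt 23]) (L' := [p])
      (by simp) (by simp) rfl (by decide +kernel) (by simpa using ho.2.1) (by norm_num)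
      (q := pt 4) (q' := q) (by decide +kernel) ho.2.2
    exact ⟨k, hk, hko, by simpa using hL, h4⟩
  refine ⟨?_, ?_, ?_⟩
  · obtain ⟨k, hk, h23, h4⟩ := exists_map_two (p := pt 23) (q := pt 4) (p' := p) (q' := q)
      (by decide +kernel) hpq
    have : {x : Finset GolayPt | (x ∈ octads ∧ p ∈ x ∧ q ∉ x)} =
      {x | x ∈ octads ∧ (p ∈ x ∧ q ∉ x)} := rfl
    rw [this, ncard_octads_transport hk (fun y => pt 23 ∈ y ∧ pt 4 ∉ y) _
      (fun y => by rw [mem_smul_of_map h23, mem_smul_of_map h4])]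
    refine count_std (P := fun m => m.testBit 23 && !m.testBit 4) (fun y _ => ?_) (by decide +kernel)
    rw [fam, fam4]; simp
  · intro o o' ho ho'
    obtain ⟨k, hk, hko, h1, h2⟩ := std o ho
    obtain ⟨k', hk', hko', h1', h2'⟩ := std o' ho'
    refine ⟨k' * k⁻¹, M24.mul_mem hk' (M24.inv_mem hk), ?_, ?_, ?_⟩
    · show k' (k⁻¹ p) = p
      have h3 : k⁻¹ p = pt 23 := by rw [← h1]; simp
      rw [h3, h1']
    · show k' (k⁻¹ q) = q
      have h3 : k⁻¹ q = pt 4 := by rw [← h2]; simp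
      rw [h3, h2']
    · rw [mul_smul, ← hko, inv_smul_smul, hko']
  · intro o ho
    obtain ⟨k, hk, hko, h23, h4⟩ := std o ho
    have cnt : ∀ c n : ℕ, codeCount (fun m => popc m == 8 && (m.testBit 23 && !m.testBit 4 && popc (octad0 &&& m) == c)) = n →
        {x : Finset GolayPt | (x ∈ octads ∧ p ∈ x ∧ q ∉ x) ∧ (o ∩ x).card = c}.ncard = n := by
      intro c n hn
      have : {x : Finset GolayPt | (x ∈ octads ∧ p ∈ x ∧ q ∉ x) ∧ (o ∩ x).card = c} =
          {x | x ∈ octads ∧ (p ∈ x ∧ q ∉ x ∧ (o ∩ x).card = c)} := by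
        ext x
        simp only [Set.mem_ofPred_eq, and_assoc]
      rw [this, ncard_octads_transport hk (fun y => pt 23 ∈ y ∧ pt 4 ∉ y ∧ (ofMask octad0 ∩ y).card = c) _
        (fun y => by rw [mem_smul_of_map h23, mem_smul_of_map h4, inter_smul_of_eq hko])]
      refine count_std (P := fun m => m.testBit 23 && !m.testBit 4 && popc (octad0 &&& m) == c)
        (fun y _ => ?_) hn
      rw [fam, fam4, card_inter_octad0]; simp [and_assoc]
    refine ⟨cnt 2 70 (by decide +kernel), cnt 4 105 (by decide +kernel), ?_⟩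
    intro a b ha hb h
    have f : ∀ y, p ∈ y → q ∉ y → famB (toMask (k⁻¹ • y)) = true := by
      intro y h1 h2
      have h3 := (mem_inv_smul_of_map h23 y).2 h1
      have h5 := (mem_inv_smul_of_map h4 y).not.2 h2
      rw [fam] at h3
      rw [fam4] at h5
      simp [famB, h3, h5]
    obtain ⟨g, h1, h2, h3, h5⟩ := conj_std (fam := famB) gensB_ok certB (by simp) hk hko ha.1 hb.1
      (f _ ha.2.1 ha.2.2) (f _ hb.2.1 hb.2.2) h
    exact ⟨g, h1, h5 23 p (by norm_num) (by simp) h23, h5 4 q (by norm_num) (by simp) h4, h2, h3⟩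

end Cfsg.Agent.Lib.Sporadic.M24FlagCerts
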