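import Cfsg.Agent.Lib.Sporadic.M24SextetTree

/-!
# The master table of sextets
-/

namespace Cfsg.Agent.Lib.Sporadic.M24SextetTab

open Cfsg Cfsg.Agent.Lib.Sporadic.GolayCore Cfsg.Agent.Lib.Sporadic.M24Tbl
open Cfsg.Agent.Lib.Sporadic.M24Orbit Cfsg.Agent.Lib.Sporadic.M24Fast
open Cfsg.Agent.Lib.Sporadic.M24Sextet Cfsg.Agent.Lib.Sporadic.M24SextetTree
open Cfsg.Agent.Lib.Sporadic.M24Cert Cfsg.Agent.Lib.Sporadic.M24Classes
open Cfsg.Agent.Lib.Sporadic.M24OctadStab
open scoped Pointwise

/-- The sextet of a key. -/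
noncomputable def sxObj (m : ℕ) : Finset (Finset GolayPt) := sextetOf (ofMask m)

/-- Test that a tetrad lies in the sextet of another one. -/
def sxSem (f : ℕ → ℕ) (r : ℕ) (_ : List ℕ) (m : ℕ) (_ : List ℕ) : Bool :=
  let a := f r
  Nat.beq a m || fOct (Nat.lor a m)

/-- What the check of an entry gives. -/
theorem entry_spec {m : ℕ} {v : List ℕ} (hf : sxTree.find m = some v) :
    m < 2 ^ 24 ∧ popc m = 4 ∧ m.testBit 23 = true ∧ v.Nodup ∧ (∀ b ∈ v, b < 2 ^ 24) ∧
      famOf v = sextetOf (ofMask m) := by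
  have h := ctAll_of_find entries_ok hf
  have hlt : m < 2 ^ 24 := (find_bd bd_ok hf).2
  unfold entryOK at h
  cases v with
  | nil => simp at h
  | cons a rest =>
    simp only [Bool.and_eq_true, decide_eq_true_eq, List.all_eq_true] at h
    obtain ⟨⟨⟨⟨⟨h1, h2⟩, h3⟩, h4⟩, hnd⟩, hall⟩ := h
    have h1 := Nat.eq_of_beq_eq_true h1
    subst h1
    have h2 := Nat.eq_of_beq_eq_true h2
    rw [fpop_eq] at h2
    have h4 := Nat.eq_of_beq_eq_true h4
    have hc4 : (ofMask a).card = 4 := by rw [card_ofMask]; exact h2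
    have hall' : ∀ u ∈ rest, u < 2 ^ 24 ∧ (ofMask u).card = 4 ∧ ofMask a ∪ ofMask u ∈ octads := by
      intro u hu
      obtain ⟨⟨h5, h6⟩, h7⟩ := hall u hu
      refine ⟨Nat.le_of_ble_eq_true h5, ?_, ?_⟩
      · have := Nat.eq_of_beq_eq_true h6
        rw [fpop_eq] at this
        rw [card_ofMask]
        exact this
      · rw [← ofMask_or]
        exact ofMask_mem_octads_of_fOct h7
    have hlts : ∀ b ∈ a :: rest, b < 2 ^ 24 := by
      intro b hb
      rcases List.mem_cons.1 hb with rfl | hb
      · exact hlt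
      · exact (hall' b hb).1
    refine ⟨hlt, h2, h3, hnd, hlts, ?_⟩
    apply Finset.eq_of_subset_of_card_le
    · intro s hs
      obtain ⟨u, hu, rfl⟩ := mem_famOf.1 hs
      rcases List.mem_cons.1 hu with rfl | hu
      · exact mem_sextetOf hc4
      · obtain ⟨-, hcu, h6⟩ := hall' u hu
        rw [sextetOf_eq_of_union hc4 hcu h6]
        exact mem_sextetOf hcu
    · rw [(sextetOf_mem hc4).1, famOf_card_of_nodup hnd hlts]
      simp [h4]

theorem sx_master : Master sextets sxObj sxTree := by
  refine Master.of_count bd_ok (Set.toFinite _) ?_ ?_ (by rw [ncard_sextets, count_ok])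
  · intro m v hf
    obtain ⟨-, h4, -⟩ := entry_spec hf
    exact sextetOf_mem (by rw [card_ofMask]; exact h4)
  · intro m v m' v' hf hf' he
    obtain ⟨h1, h2, h3, -⟩ := entry_spec hf
    obtain ⟨h1', h2', h3', -⟩ := entry_spec hf'
    have hc : (ofMask m).card = 4 := by rw [card_ofMask]; exact h2
    have hc' : (ofMask m').card = 4 := by rw [card_ofMask]; exact h2'
    have hS := sextetOf_mem hc
    have hm : ofMask m ∈ sextetOf (ofMask m) := mem_sextetOf hc
    have hm' : ofMask m' ∈ sextetOf (ofMask m) := by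
      have : sextetOf (ofMask m) = sextetOf (ofMask m') := he
      rw [this]
      exact mem_sextetOf hc'
    have hp : pt 23 ∈ ofMask m := by
      rw [mem_ofMask]
      have : idx (pt 23) = 23 := idx_pt (by norm_num)
      rw [this]
      exact h3
    have hp' : pt 23 ∈ ofMask m' := by
      rw [mem_ofMask]
      have : idx (pt 23) = 23 := idx_pt (by norm_num)
      rw [this]
      exact h3'
    by_cases hne : ofMask m = ofMask m'
    · exact (ofMask_inj h1 h1').1 hne
    · exact absurd hp' (Finset.disjoint_left.1 (sextets_disjoint hS hm hm' hne) hp)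

theorem sx_sys : Sys sextets sxObj sxTree sxSem where
  master := sx_master
  inv := fun g hg x hx => smul_mem_sextets hg hx
  sound := by
    intro g f r m vr v hg hf hr hm hs
    obtain ⟨-, h4r, -⟩ := entry_spec hr
    obtain ⟨-, h4m, -⟩ := entry_spec hm
    have hcr : (ofMask r).card = 4 := by rw [card_ofMask]; exact h4r
    have hcm : (ofMask m).card = 4 := by rw [card_ofMask]; exact h4m
    have hcf : (ofMask (f r)).card = 4 := by rw [hf, Finset.card_smul_finset, hcr]
    show g • sextetOf (ofMask r) = sextetOf (ofMask m)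
    rw [smul_sextetOf hg hcr, ← hf]
    simp only [sxSem, Bool.or_eq_true] at hs
    rcases hs with hs | hs
    · rw [Nat.eq_of_beq_eq_true hs]
    · apply sextetOf_eq_of_union hcf hcm
      rw [← ofMask_or]
      exact ofMask_mem_octads_of_fOct hs

/-- The class values on the table. -/
def sxClv (L : List ℕ) (_ : ℕ) (v : List ℕ) : ℕ := clLL L v

theorem sx_hcl {L : List ℕ} (hL : L.Nodup) (hL' : ∀ a ∈ L, a < 2 ^ 24) (m : ℕ) (v : List ℕ)
    (hf : sxTree.find m = some v) : clF (famOf L) (sxObj m) = sxClv L m v := by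
  obtain ⟨-, -, -, h1, h2, h3⟩ := entry_spec hf
  show clF (famOf L) (sextetOf (ofMask m)) = clLL L v
  rw [← h3]
  exact clF_famOf hL h1 hL' h2

/-- The certificate for the orbits on sextets of the stabiliser of a family of masks. -/
theorem sx_cert {L : List ℕ} (hL : L.Nodup) (hL' : ∀ a ∈ L, a < 2 ^ 24) {gens : List (List ℕ)}
    {tbs : List ℕ} (hgens : gensFOK L gens tbs = true) {tr : CT} {reps : List (ℕ × ℕ × List ℕ)}
    (hreps : ∀ p ∈ reps, sxTree.find p.2.1 = some p.2.2)
    (cert : ctAll (certNode tbs tr reps (sxClv L) sxSem) sxTree = true) :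
    Cert sextets sxObj sxTree sxSem (famOf L) (clF (famOf L)) (sxClv L) (stabF L) tbs tr reps where
  sys := sx_sys
  hcl := sx_hcl hL hL'
  hinv := fun g _ h x _ => clF_invariant h x
  hH := fun g hg => ⟨hg.1, hg.2⟩
  hgens := moves_of_gensFOK hgens
  hreps := hreps
  cert := cert

end Cfsg.Agent.Lib.Sporadic.M24SextetTab
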