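import Cfsg.Agent.Lib.Sporadic.M24SxKerData

/-!
# The action of the sextet stabiliser on the tetrads
-/

namespace Cfsg.Agent.Lib.Sporadic.M24SxKer

open Cfsg Cfsg.Agent.Lib.Sporadic.GolayCore Cfsg.Agent.Lib.Sporadic.M24Tbl
open Cfsg.Agent.Lib.Sporadic.M24Chain Cfsg.Agent.Lib.Sporadic.M24Basic
open Cfsg.Agent.Lib.Sporadic.M24Act Cfsg.Agent.Lib.Sporadic.M24Lists
open Cfsg.Agent.Lib.Sporadic.M24Orbit Cfsg.Agent.Lib.Sporadic.M24Count
open Cfsg.Agent.Lib.Sporadic.M24Sextet Cfsg.Agent.Lib.Sporadic.M24Fast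
open Cfsg.Agent.Lib.Sporadic.M24Classes Cfsg.Agent.Lib.Sporadic.M24Cert
open Cfsg.Agent.Lib.Sporadic.M24SxKerData
open scoped Pointwise

/-- The standard sextet. -/
abbrev S0 : Finset (Finset GolayPt) := famOf sx0

theorem S0_mem : S0 ∈ sextets := sx0_mem

/-- The swap of two tetrads of the standard sextet. -/
theorem exists_swap_S0 {a b : Finset GolayPt} (ha : a ∈ S0) (hb : b ∈ S0) (hne : a ≠ b) :
    ∃ g ∈ M24, g • a = b ∧ g • b = a ∧ ∀ t ∈ S0, t ≠ a → t ≠ b → g • t = t := by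
  obtain ⟨x, hx, rfl⟩ := mem_famOf.1 ha
  obtain ⟨y, hy, rfl⟩ := mem_famOf.1 hb
  have hxy : x ≠ y := fun h => hne (by rw [h])
  have h1 := List.all_eq_true.1 (List.all_eq_true.1 swapsT_complete x hx) y hy
  have h2 : (x == y) = false := by simpa using hxy
  rw [h2, Bool.false_or] at h1
  obtain ⟨p, hp, h3⟩ := List.any_eq_true.1 h1
  have h4 := List.all_eq_true.1 swapsT_ok p hp
  simp only [Bool.and_eq_true, List.all_eq_true, beq_iff_eq] at h4
  obtain ⟨hg, h5⟩ := h4
  have hact : ∀ m, ofMask (applyT p.2.2 m) = gPerm p.2.2 hg • ofMask m := fun m => ofMask_applyT _ m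
  have key : applyT p.2.2 x = y ∧ applyT p.2.2 y = x ∧
      ∀ z ∈ sx0, z ≠ x → z ≠ y → applyT p.2.2 z = z := by
    simp only [Bool.or_eq_true, Bool.and_eq_true, beq_iff_eq] at h3
    rcases h3 with ⟨e1, e2⟩ | ⟨e1, e2⟩
    · rw [e1, e2] at h5
      exact ⟨by rw [h5 x hx, if_pos rfl], by rw [h5 y hy, if_neg (Ne.symm hxy), if_pos rfl],
        fun z hz h6 h7 => by rw [h5 z hz, if_neg h6, if_neg h7]⟩
    · rw [e1, e2] at h5
      exact ⟨by rw [h5 x hx, if_neg hxy, if_pos rfl], by rw [h5 y hy, if_pos rfl],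
        fun z hz h6 h7 => by rw [h5 z hz, if_neg h7, if_neg h6]⟩
  obtain ⟨k1, k2, k3⟩ := key
  refine ⟨gPerm p.2.2 hg, gPerm_mem hg, ?_, ?_, ?_⟩
  · rw [← hact, k1]
  · rw [← hact, k2]
  · intro t ht h6 h7
    obtain ⟨z, hz, rfl⟩ := mem_famOf.1 ht
    have hzx : z ≠ x := fun h => h6 (by rw [h])
    have hzy : z ≠ y := fun h => h7 (by rw [h])
    rw [← hact, k3 z hz hzx hzy]

theorem mem_stab_iff {S : Finset (Finset GolayPt)} (s : M24) :
    s ∈ MulAction.stabilizer M24 S ↔ (s : Equiv.Perm GolayPt) • S = S :=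
  MulAction.mem_stabilizer_iff

section general

variable {S : Finset (Finset GolayPt)}

/-- A general statement about transport to the standard sextet. -/
theorem exists_transport (hS : S ∈ sextets) : ∃ k ∈ M24, k • S0 = S := exists_smul_sextet S0_mem hS

/-- The swap of two tetrads of a sextet. -/
theorem exists_swap (hS : S ∈ sextets) {a b : Finset GolayPt} (ha : a ∈ S) (hb : b ∈ S) (hne : a ≠ b) :
    ∃ g ∈ M24, g • a = b ∧ g • b = a ∧ ∀ t ∈ S, t ≠ a → t ≠ b → g • t = t := by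
  obtain ⟨k, hk, rfl⟩ := exists_transport hS
  obtain ⟨a', ha', rfl⟩ := Finset.mem_smul_finset.1 ha
  obtain ⟨b', hb', rfl⟩ := Finset.mem_smul_finset.1 hb
  have hne' : a' ≠ b' := fun h => hne (by rw [h])
  obtain ⟨g, hg, h1, h2, h3⟩ := exists_swap_S0 ha' hb' hne'
  refine ⟨k * g * k⁻¹, M24.mul_mem (M24.mul_mem hk hg) (M24.inv_mem hk), ?_, ?_, ?_⟩
  · rw [mul_smul, mul_smul, inv_smul_smul, h1]
  · rw [mul_smul, mul_smul, inv_smul_smul, h2]
  · intro t ht h4 h5
    obtain ⟨t', ht', rfl⟩ := Finset.mem_smul_finset.1 ht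
    have h6 : t' ≠ a' := fun h => h4 (by rw [h])
    have h7 : t' ≠ b' := fun h => h5 (by rw [h])
    rw [mul_smul, mul_smul, inv_smul_smul, h3 t' ht' h6 h7]

/-- An element permuting the tetrads stabilises the sextet. -/
theorem mem_stab_of_perm (hS : S ∈ sextets) {g : Equiv.Perm GolayPt} (hg : g ∈ M24)
    (h : ∀ t ∈ S, g • t ∈ S) : g • S = S := by
  apply Finset.eq_of_subset_of_card_le
  · intro x hx
    obtain ⟨t, ht, rfl⟩ := Finset.mem_smul_finset.1 hx
    exact h t ht
  · rw [Finset.card_smul_finset]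

/-- Realisation of a permutation of the tetrads. -/
def Realises (S : Finset (Finset GolayPt)) (e : Equiv.Perm ↥S) : Prop :=
  ∃ g ∈ MulAction.stabilizer M24 S, ∀ t : ↥S,
    ((g : M24) : Equiv.Perm GolayPt) • (t : Finset GolayPt) = ((e t : ↥S) : Finset GolayPt)

theorem realises_all (hS : S ∈ sextets) (e : Equiv.Perm ↥S) : Realises S e := by
  induction e using Equiv.Perm.swap_induction_on with
  | one => exact ⟨1, Subgroup.one_mem _, fun t => one_smul _ _⟩
  | swap_mul f x y hne hf =>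
    obtain ⟨g, hg, h⟩ := hf
    have hne' : (x : Finset GolayPt) ≠ y := fun h => hne (Subtype.ext h)
    obtain ⟨u, hu, h1, h2, h3⟩ := exists_swap hS x.2 y.2 hne'
    have hu' : ∀ t ∈ S, u • t ∈ S := by
      intro t ht
      by_cases h4 : t = x
      · rw [h4, h1]; exact y.2
      by_cases h5 : t = y
      · rw [h5, h2]; exact x.2
      rw [h3 t ht h4 h5]
      exact ht
    have hU : u • S = S := mem_stab_of_perm hS hu hu'
    refine ⟨(⟨u, hu⟩ : M24) * g, Subgroup.mul_mem _ ((mem_stab_iff _).2 hU) hg, ?_⟩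
    intro t
    have h6 : (((⟨u, hu⟩ : M24) * g : M24) : Equiv.Perm GolayPt) = u * (g : M24).1 := rfl
    rw [h6, mul_smul, h t]
    show u • ((f t : ↥S) : Finset GolayPt) = ((Equiv.swap x y * f) t : ↥S)
    rw [Equiv.Perm.mul_apply]
    generalize f t = w
    by_cases h7 : w = x
    · subst h7
      rw [Equiv.swap_apply_left, h1]
    by_cases h8 : w = y
    · subst h8
      rw [Equiv.swap_apply_right, h2]
    rw [Equiv.swap_apply_of_ne_of_ne h7 h8]
    exact h3 w w.2 (fun h => h7 (Subtype.ext h)) (fun h => h8 (Subtype.ext h))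

/-- The action on the tetrads. -/
noncomputable def onTetrads (S : Finset (Finset GolayPt)) :
    MulAction.stabilizer M24 S →* Equiv.Perm ↥S where
  toFun s :=
    { toFun := fun t => ⟨((s : M24) : Equiv.Perm GolayPt) • (t : Finset GolayPt), by
        have h := (mem_stab_iff _).1 s.2
        have h2 := Finset.smul_mem_smul_finset (a := ((s : M24) : Equiv.Perm GolayPt)) t.2
        rwa [h] at h2⟩
      invFun := fun t => ⟨((s : M24) : Equiv.Perm GolayPt)⁻¹ • (t : Finset GolayPt), by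
        have h := (mem_stab_iff _).1 s.2
        have h2 := Finset.smul_mem_smul_finset (a := ((s : M24) : Equiv.Perm GolayPt)⁻¹) t.2
        rwa [inv_smul_eq_iff.2 h.symm] at h2⟩
      left_inv := fun t => Subtype.ext (inv_smul_smul _ _)
      right_inv := fun t => Subtype.ext (smul_inv_smul _ _) }
  map_one' := by
    ext t : 1
    exact Subtype.ext (one_smul _ _)
  map_mul' a b := by
    ext t : 1
    exact Subtype.ext (mul_smul _ _ _)

theorem onTetrads_apply (s : MulAction.stabilizer M24 S) (t : ↥S) :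
    ((onTetrads S s t : ↥S) : Finset GolayPt) = ((s : M24) : Equiv.Perm GolayPt) • (t : Finset GolayPt) := rfl

theorem onTetrads_surjective (hS : S ∈ sextets) : Function.Surjective (onTetrads S) := by
  intro e
  obtain ⟨g, hg, h⟩ := realises_all hS e
  refine ⟨⟨g, hg⟩, ?_⟩
  ext t : 1
  exact Subtype.ext (h t)

/-- The order of the stabiliser of a sextet. -/
theorem card_stab_sextet' (hS : S ∈ sextets) : Nat.card (MulAction.stabilizer M24 S) = 138240 :=
  card_stab_sextet hS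

/-- The order of the kernel. -/
theorem card_ker (hS : S ∈ sextets) : Nat.card (onTetrads S).ker = 192 := by
  have h1 := Subgroup.card_eq_card_quotient_mul_card_subgroup (onTetrads S).ker
  have h2 : Nat.card (MulAction.stabilizer M24 S ⧸ (onTetrads S).ker) = Nat.card (Equiv.Perm ↥S) :=
    Nat.card_congr (QuotientGroup.quotientKerEquivOfSurjective _ (onTetrads_surjective hS)).toEquiv
  have h3 : Nat.card (Equiv.Perm ↥S) = 720 := by
    rw [Nat.card_eq_fintype_card, Fintype.card_perm, Fintype.card_coe, hS.1]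
    rfl
  rw [h2, h3, card_stab_sextet' hS] at h1
  omega

theorem mem_ker_iff (s : MulAction.stabilizer M24 S) :
    s ∈ (onTetrads S).ker ↔ ∀ t ∈ S, ((s : M24) : Equiv.Perm GolayPt) • t = t := by
  rw [MonoidHom.mem_ker]
  constructor
  · intro h t ht
    have := congrArg (fun e : Equiv.Perm ↥S => ((e ⟨t, ht⟩ : ↥S) : Finset GolayPt)) h
    exact this
  · intro h
    ext t : 1
    exact Subtype.ext (h t t.2)

/-- The order of the kernel, on the subtype. -/
theorem card_kernel_subtype (hS : S ∈ sextets) :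
    Nat.card {g : ↥(MulAction.stabilizer M24 S) // ∀ t ∈ S, ((g : M24) : Equiv.Perm GolayPt) • t = t} = 192 := by
  rw [← card_ker hS]
  apply Nat.card_congr
  exact Equiv.subtypeEquivRight fun s => (mem_ker_iff s).symm

/-- The elements of square one of the kernel, as permutations. -/
def NP (S : Finset (Finset GolayPt)) : Set (Equiv.Perm GolayPt) :=
  {g | g ∈ M24 ∧ (∀ t ∈ S, g • t = t) ∧ g * g = 1}

theorem conj_mem_NP {k g : Equiv.Perm GolayPt} (hk : k ∈ M24) (h : g ∈ NP S) :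
    k * g * k⁻¹ ∈ NP (k • S) := by
  refine ⟨M24.mul_mem (M24.mul_mem hk h.1) (M24.inv_mem hk), ?_, ?_⟩
  · intro t ht
    obtain ⟨t', ht', rfl⟩ := Finset.mem_smul_finset.1 ht
    rw [mul_smul, mul_smul, inv_smul_smul, h.2.1 t' ht']
  · have := h.2.2
    calc k * g * k⁻¹ * (k * g * k⁻¹) = k * (g * g) * k⁻¹ := by group
      _ = 1 := by rw [this]; group

end general

/-- The elements of `klist` are in the kernel. -/
theorem kl_good {T : List ℕ} (hT : T ∈ klist) : goodT T = true ∧ ∀ m ∈ sx0, applyT T m = m := by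
  have h := List.all_eq_true.1 klist_ok T hT
  simp only [Bool.and_eq_true, List.all_eq_true, beq_iff_eq] at h
  exact h

/-- The permutation of an element of the list. -/
noncomputable def kPerm (T : {T // T ∈ klist}) : Equiv.Perm GolayPt := gPerm T.1 (kl_good T.2).1

theorem kPerm_pt (T : {T // T ∈ klist}) {b : ℕ} (hb : b < 24) : kPerm T (pt b) = pt (T.1.getD b 0) :=
  gPerm_pt _ hb

theorem kPerm_injective : Function.Injective kPerm := by
  intro A B h
  apply Subtype.ext
  have hA := validTbl_of_goodT (kl_good A.2).1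
  have hB := validTbl_of_goodT (kl_good B.2).1
  apply List.ext_getElem (by rw [hA.1, hB.1])
  intro i hi hi'
  have hi24 : i < 24 := by rwa [hA.1] at hi
  have h1 := congrFun (congrArg DFunLike.coe h) (pt i)
  rw [kPerm_pt _ hi24, kPerm_pt _ hi24] at h1
  have h2 := congrArg idx h1
  rw [List.getD_eq_getElem _ _ hi, List.getD_eq_getElem _ _ hi'] at h2
  rwa [idx_pt (hA.2.2 _ (List.getElem_mem _)), idx_pt (hB.2.2 _ (List.getElem_mem _))] at h2

theorem kPerm_mem (T : {T // T ∈ klist}) : kPerm T ∈ M24 := gPerm_mem _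

theorem kPerm_fix (T : {T // T ∈ klist}) : ∀ t ∈ S0, kPerm T • t = t := by
  intro t ht
  obtain ⟨m, hm, rfl⟩ := mem_famOf.1 ht
  have h := ofMask_applyT (validTbl_of_goodT (kl_good T.2).1) m
  rw [(kl_good T.2).2 m hm] at h
  exact h.symm

/-- Every element of the kernel on the tetrads of the standard sextet is listed. -/
theorem exists_kl {g : Equiv.Perm GolayPt} (hg : g ∈ M24) (hfix : ∀ t ∈ S0, g • t = t) :
    ∃ T : {T // T ∈ klist}, kPerm T = g := by
  let f : {T // T ∈ klist} → {g : ↥(MulAction.stabilizer M24 S0) // ∀ t ∈ S0, ((g : M24) : Equiv.Perm GolayPt) • t = t} :=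
    fun T => ⟨⟨⟨kPerm T, kPerm_mem T⟩, (mem_stab_iff _).2
      (mem_stab_of_perm S0_mem (kPerm_mem T) (fun t ht => by rw [kPerm_fix T t ht]; exact ht))⟩,
      kPerm_fix T⟩
  have hinj : Function.Injective f := by
    intro A B h
    apply kPerm_injective
    exact congrArg (fun x => ((x.1 : M24) : Equiv.Perm GolayPt)) h
  have hcard : Nat.card {T // T ∈ klist} = 192 := by
    rw [Nat.card_eq_fintype_card, ← klist_length, ← List.toFinset_card_of_nodup klist_nodup]
    exact Fintype.card_of_subtype _ (by simp)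
  have hsurj := ((Nat.bijective_iff_injective_and_card f).2 ⟨hinj, by rw [hcard, card_kernel_subtype S0_mem]⟩).2
  obtain ⟨T, hT⟩ := hsurj ⟨⟨⟨g, hg⟩, (mem_stab_iff _).2
    (mem_stab_of_perm S0_mem hg (fun t ht => by rw [hfix t ht]; exact ht))⟩, hfix⟩
  exact ⟨T, congrArg (fun x => ((x.1 : M24) : Equiv.Perm GolayPt)) hT⟩

theorem kPerm_sq (T : {T // T ∈ klist}) : kPerm T * kPerm T = 1 ↔ invT T.1 = true := by
  have hv := validTbl_of_goodT (kl_good T.2).1
  have hlt : ∀ i, i < 24 → T.1.getD i 0 < 24 := by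
    intro i hi
    rw [List.getD_eq_getElem _ _ (by rw [hv.1]; exact hi)]
    exact hv.2.2 _ (List.getElem_mem _)
  constructor
  · intro h
    simp only [invT, List.all_eq_true, List.mem_range, beq_iff_eq]
    intro i hi
    have h1 := congrFun (congrArg DFunLike.coe h) (pt i)
    simp only [Equiv.Perm.mul_apply, Equiv.Perm.one_apply] at h1
    rw [kPerm_pt _ hi, kPerm_pt _ (hlt i hi)] at h1
    have h2 := congrArg idx h1
    rwa [idx_pt (hlt _ (hlt i hi)), idx_pt hi] at h2
  · intro h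
    simp only [invT, List.all_eq_true, List.mem_range, beq_iff_eq] at h
    apply Equiv.ext
    intro p
    simp only [Equiv.Perm.mul_apply, Equiv.Perm.one_apply]
    have h1 := h (idx p) (idx_lt p)
    rw [← pt_idx p, kPerm_pt _ (idx_lt p), kPerm_pt _ (hlt _ (idx_lt p)), h1]

/-- The elements of square one of the kernel at the standard sextet. -/
theorem NP_S0_iff {g : Equiv.Perm GolayPt} :
    g ∈ NP S0 ↔ ∃ T : {T // T ∈ klist}, T.1 ∈ l64 ∧ kPerm T = g := by
  constructor
  · rintro ⟨hg, hfix, hsq⟩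
    obtain ⟨T, rfl⟩ := exists_kl hg hfix
    exact ⟨T, l64_spec T.1 T.2 ((kPerm_sq T).1 hsq), rfl⟩
  · rintro ⟨T, hT, rfl⟩
    exact ⟨kPerm_mem T, kPerm_fix T, (kPerm_sq T).2 (l64_sub _ hT).2⟩

theorem NP_S0_mul {a b : Equiv.Perm GolayPt} (ha : a ∈ NP S0) (hb : b ∈ NP S0) :
    a * b * (a * b) = 1 := by
  obtain ⟨A, hA, rfl⟩ := NP_S0_iff.1 ha
  obtain ⟨B, hB, rfl⟩ := NP_S0_iff.1 hb
  have h1 := List.all_eq_true.1 (List.all_eq_true.1 l64_pairs A.1 hA) B.1 hB
  simp only [pairT, List.all_eq_true, List.mem_range, beq_iff_eq] at h1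
  have hvA := validTbl_of_goodT (kl_good A.2).1
  have hvB := validTbl_of_goodT (kl_good B.2).1
  have hltA : ∀ i, i < 24 → A.1.getD i 0 < 24 := by
    intro i hi
    rw [List.getD_eq_getElem _ _ (by rw [hvA.1]; exact hi)]
    exact hvA.2.2 _ (List.getElem_mem _)
  have hltB : ∀ i, i < 24 → B.1.getD i 0 < 24 := by
    intro i hi
    rw [List.getD_eq_getElem _ _ (by rw [hvB.1]; exact hi)]
    exact hvB.2.2 _ (List.getElem_mem _)
  apply Equiv.ext
  intro p
  simp only [Equiv.Perm.mul_apply, Equiv.Perm.one_apply]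
  have h2 := h1 (idx p) (idx_lt p)
  have l1 := hltB _ (idx_lt p)
  have l2 := hltA _ l1
  have l3 := hltB _ l2
  rw [← pt_idx p, kPerm_pt _ (idx_lt p), kPerm_pt _ l1, kPerm_pt _ l2, kPerm_pt _ l3, h2]

theorem ncard_NP_S0 : Nat.card (NP S0) = 64 := by
  let f : {T // T ∈ l64} → NP S0 := fun T => ⟨kPerm ⟨T.1, (l64_sub _ T.2).1⟩,
    NP_S0_iff.2 ⟨_, T.2, rfl⟩⟩
  have hbij : Function.Bijective f := by
    constructor
    · intro A B h
      have h1 := kPerm_injective (congrArg Subtype.val h)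
      have h2 := congrArg Subtype.val h1
      exact Subtype.ext h2
    · rintro ⟨g, hg⟩
      obtain ⟨T, hT, rfl⟩ := NP_S0_iff.1 hg
      exact ⟨⟨T.1, hT⟩, rfl⟩
  rw [← Nat.card_congr (Equiv.ofBijective f hbij), Nat.card_eq_fintype_card, ← l64_length,
    ← List.toFinset_card_of_nodup l64_nodup]
  exact Fintype.card_of_subtype _ (by simp)

section general

variable {S : Finset (Finset GolayPt)}

theorem NP_mul (hS : S ∈ sextets) {a b : Equiv.Perm GolayPt} (ha : a ∈ NP S) (hb : b ∈ NP S) :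
    a * b * (a * b) = 1 := by
  obtain ⟨k, hk, rfl⟩ := exists_transport hS
  have hk' := M24.inv_mem hk
  have ha' := conj_mem_NP hk' ha
  have hb' := conj_mem_NP hk' hb
  rw [inv_smul_smul] at ha' hb'
  have h := NP_S0_mul ha' hb'
  have h2 : a * b * (a * b) = k * (k⁻¹ * a * k⁻¹⁻¹ * (k⁻¹ * b * k⁻¹⁻¹) * (k⁻¹ * a * k⁻¹⁻¹ * (k⁻¹ * b * k⁻¹⁻¹))) * k⁻¹ := by
    group
  rw [h2, h]
  group

theorem card_NP (hS : S ∈ sextets) : Nat.card (NP S) = 64 := by
  obtain ⟨k, hk, rfl⟩ := exists_transport hS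
  rw [← ncard_NP_S0]
  have hk' := M24.inv_mem hk
  refine (Nat.card_congr ⟨fun g => ⟨k⁻¹ * g.1 * k⁻¹⁻¹, ?_⟩, fun g => ⟨k * g.1 * k⁻¹, conj_mem_NP hk g.2⟩, ?_, ?_⟩)
  · have := conj_mem_NP hk' g.2
    rwa [inv_smul_smul] at this
  · rintro ⟨g, hg⟩
    apply Subtype.ext
    show k * (k⁻¹ * g * k⁻¹⁻¹) * k⁻¹ = g
    group
  · rintro ⟨g, hg⟩
    apply Subtype.ext
    show k⁻¹ * (k * g * k⁻¹) * k⁻¹⁻¹ = g
    group

/-- The subgroup of the elements of square one of the kernel. -/
def Nsub (hS : S ∈ sextets) : Subgroup (MulAction.stabilizer M24 S) where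
  carrier := {s | ((s : M24) : Equiv.Perm GolayPt) ∈ NP S}
  one_mem' := ⟨M24.one_mem, fun t _ => one_smul _ t, by simp⟩
  mul_mem' := by
    intro a b ha hb
    refine ⟨M24.mul_mem ha.1 hb.1, ?_, NP_mul hS ha hb⟩
    intro t ht
    show (((a : M24) : Equiv.Perm GolayPt) * ((b : M24) : Equiv.Perm GolayPt)) • t = t
    rw [mul_smul, hb.2.1 t ht, ha.2.1 t ht]
  inv_mem' := by
    intro a ha
    have h : ((a : M24) : Equiv.Perm GolayPt)⁻¹ = (a : M24) := by
      rw [inv_eq_iff_mul_eq_one]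
      exact ha.2.2
    show ((a : M24) : Equiv.Perm GolayPt)⁻¹ ∈ NP S
    rw [h]
    exact ha

theorem Nsub_normal (hS : S ∈ sextets) : (Nsub hS).Normal := by
  constructor
  intro a ha h
  have h1 := (mem_stab_iff _).1 h.2
  have hh : ((h : M24) : Equiv.Perm GolayPt) ∈ M24 := (h : M24).2
  have h2 := conj_mem_NP hh ha
  rwa [h1] at h2

theorem card_Nsub (hS : S ∈ sextets) : Nat.card (Nsub hS) = 64 := by
  rw [← card_NP hS]
  apply Nat.card_congr
  refine ⟨fun s => ⟨(((s : MulAction.stabilizer M24 S) : M24) : Equiv.Perm GolayPt), s.2⟩,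
    fun g => ⟨⟨⟨g.1, g.2.1⟩, (mem_stab_iff _).2
      (mem_stab_of_perm hS g.2.1 (fun t ht => by rw [g.2.2.1 t ht]; exact ht))⟩, g.2⟩, ?_, ?_⟩
  · intro s
    rfl
  · intro g
    rfl

theorem Nsub_sq (hS : S ∈ sextets) (x : MulAction.stabilizer M24 S) (hx : x ∈ Nsub hS) : x * x = 1 := by
  apply Subtype.ext
  apply Subtype.ext
  exact hx.2.2

end general

end Cfsg.Agent.Lib.Sporadic.M24SxKer
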