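import Cfsg.Agent.Lib.Sporadic.M24TblGroup
import Cfsg.Agent.Lib.Sporadic.M24SxKer
import Cfsg.Agent.Lib.Sporadic.M24SextetTab
import Cfsg.Agent.Lib.Compute.M24ClassFacts

/-!
# The centraliser of a fixed-point-free involution of `M24`
-/

namespace Cfsg.Agent.Lib.Sporadic.M24FpfCent

open Cfsg Cfsg.Agent.Lib.Sporadic.GolayCore Cfsg.Agent.Lib.Sporadic.M24Tbl
open Cfsg.Agent.Lib.Sporadic.M24Chain Cfsg.Agent.Lib.Sporadic.M24Basic
open Cfsg.Agent.Lib.Sporadic.M24Orbit Cfsg.Agent.Lib.Sporadic.M24Sextet Cfsg.Agent.Lib.Sporadic.M24Fast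
open Cfsg.Agent.Lib.Sporadic.M24Cert Cfsg.Agent.Lib.Sporadic.M24Classes
open Cfsg.Agent.Lib.Sporadic.M24SxKerData Cfsg.Agent.Lib.Sporadic.M24SxKer
open Cfsg.Agent.Lib.Sporadic.M24SextetTab Cfsg.Agent.Lib.Sporadic.M24SextetTree
open Cfsg.Agent.Lib.Sporadic.M24TblGroup
open scoped Pointwise

/-- A fixed-point-free involution in the kernel at the standard sextet. -/
def tt1 : List ℕ := [1,0,23,5,13,3,19,21,18,10,9,12,11,4,17,20,22,14,8,6,15,7,16,2]

/-- The fixed-point-free involutions of the kernel, with conjugating elements. -/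
def conjL : List (List ℕ × List ℕ) := [
  ([1,0,23,5,13,3,19,21,18,10,9,12,11,4,17,20,22,14,8,6,15,7,16,2],[0,1,2,3,4,5,6,7,8,9,10,11,12,13,14,15,16,17,18,19,20,21,22,23]),
  ([1,0,23,5,22,3,7,6,11,15,20,8,18,16,17,9,13,14,12,21,10,19,4,2],[13,16,22,5,6,3,12,11,9,0,1,20,10,7,17,23,19,14,15,18,2,8,21,4]),
  ([1,0,23,14,16,17,7,6,18,20,15,12,11,22,3,10,4,5,8,21,9,19,13,2],[23,2,0,4,19,16,5,14,20,11,12,10,15,21,13,18,7,22,9,17,8,3,6,1]),
  ([1,0,23,14,22,17,21,19,12,10,9,18,8,16,3,20,13,5,11,7,15,6,4,2],[5,17,3,9,1,10,12,18,19,16,13,21,6,0,15,22,2,20,7,8,4,11,23,14]),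
  ([1,0,23,17,13,14,21,19,11,20,15,8,18,4,5,10,22,3,12,7,9,6,16,2],[1,0,23,19,17,7,16,13,8,10,15,12,18,3,21,9,14,6,11,22,20,4,5,2]),
  ([1,0,23,17,16,14,19,21,12,15,20,18,8,22,5,9,4,3,11,6,10,7,13,2],[15,9,10,14,18,5,23,0,13,6,19,4,16,11,3,7,12,17,22,2,21,1,8,20]),
  ([2,23,0,5,13,3,21,19,12,15,20,18,8,4,17,9,22,14,11,7,10,6,16,1],[0,2,23,21,3,6,10,9,22,12,8,13,4,5,19,11,14,7,16,20,18,15,17,1]),
  ([2,23,0,5,16,3,19,21,11,20,15,8,18,22,17,10,4,14,12,6,9,7,13,1],[3,5,17,21,13,7,18,8,9,2,0,10,15,22,6,23,16,19,20,12,1,11,4,14]),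
  ([2,23,0,14,13,17,7,6,11,10,9,8,18,4,3,20,22,5,12,21,15,19,16,1],[1,23,0,3,20,14,6,19,18,13,4,8,11,15,5,16,9,17,12,7,22,21,10,2]),
  ([2,23,0,14,22,17,19,21,18,15,20,12,11,16,3,9,13,5,8,6,10,7,4,1],[4,22,16,21,2,7,10,9,3,12,11,17,5,0,6,18,23,19,14,20,8,15,1,13]),
  ([2,23,0,17,16,14,21,19,18,10,9,12,11,22,5,20,4,3,8,7,15,6,13,1],[21,6,19,11,17,12,4,22,20,0,2,9,10,3,18,23,5,8,15,16,1,13,14,7]),
  ([2,23,0,17,22,14,7,6,12,20,15,18,8,16,5,10,13,3,11,21,9,19,4,1],[21,19,7,12,3,8,15,20,0,13,16,23,1,17,18,22,14,11,2,10,4,9,5,6]),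
  ([23,2,1,5,16,3,7,6,12,10,9,18,8,22,17,20,4,14,11,21,15,19,13,0],[22,13,16,14,8,17,9,20,21,0,23,7,6,12,3,2,18,5,19,10,1,15,11,4]),
  ([23,2,1,5,22,3,21,19,18,20,15,12,11,16,17,10,13,14,8,7,9,6,4,0],[6,21,19,14,20,17,8,12,22,1,2,16,13,9,3,23,15,5,4,18,0,11,10,7]),
  ([23,2,1,14,13,17,19,21,12,20,15,18,8,4,3,10,22,5,11,6,9,7,16,0],[19,6,21,10,3,15,18,12,2,13,4,0,23,14,9,22,17,20,1,11,16,8,5,7]),
  ([23,2,1,14,16,17,21,19,11,15,20,8,18,22,3,9,4,5,12,7,10,6,13,0],[14,3,5,1,8,2,10,15,4,21,6,13,22,11,0,7,18,23,16,20,19,9,12,17]),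
  ([23,2,1,17,13,14,7,6,18,15,20,12,11,4,5,9,22,3,8,21,10,19,16,0],[15,9,10,7,5,6,8,11,1,22,16,0,23,14,19,4,17,21,2,18,13,12,3,20]),
  ([23,2,1,17,22,14,19,21,11,10,9,8,18,16,5,20,13,3,12,6,15,7,4,0],[11,8,18,6,2,19,14,17,13,10,9,22,4,1,7,15,23,21,16,5,20,3,0,12])]

/-- Elements of the centraliser moving the point `0` to each point. -/
def traL : List (List ℕ) := [
  [0,1,2,3,4,5,6,7,8,9,10,11,12,13,14,15,16,17,18,19,20,21,22,23],
  [1,0,23,12,6,11,20,9,22,14,17,13,4,19,18,3,21,8,16,15,5,10,7,2],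
  [2,23,0,11,20,12,19,21,5,16,22,17,14,15,8,4,10,18,3,6,13,7,9,1],
  [3,5,17,9,18,10,7,6,23,4,13,0,1,8,15,16,12,20,2,21,22,19,11,14],
  [4,13,16,17,9,14,6,21,23,8,18,1,0,10,3,12,20,5,2,19,11,7,15,22],
  [5,3,17,0,10,1,18,12,21,16,22,19,6,9,2,13,15,23,7,8,4,11,20,14],
  [6,19,21,22,3,16,23,0,10,18,8,15,20,5,4,11,17,13,9,2,12,1,14,7],
  [7,21,6,0,18,1,5,14,9,22,16,15,20,8,23,13,12,2,10,3,4,17,11,19],
  [8,18,12,21,4,7,1,23,10,14,17,20,15,13,6,3,16,19,9,0,5,2,22,11],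
  [9,10,15,23,3,2,6,21,12,4,13,8,18,5,1,22,17,0,11,19,16,7,14,20],
  [10,9,15,18,3,8,1,23,16,7,21,4,13,5,12,19,14,11,22,0,6,2,17,20],
  [11,12,8,15,6,20,16,4,23,5,3,1,0,19,10,14,7,9,2,22,17,13,21,18],
  [12,11,8,20,2,15,14,5,4,19,6,16,22,23,10,7,1,9,13,17,21,3,0,18],
  [13,4,16,2,3,23,10,15,19,11,12,7,21,5,1,8,14,0,6,9,18,20,17,22],
  [14,17,5,0,6,1,22,4,11,20,15,8,18,19,23,10,21,2,12,16,9,13,7,3],
  [15,20,9,17,23,14,4,16,12,19,6,8,18,2,3,21,1,5,11,13,7,22,0,10],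
  [16,22,13,8,6,18,5,14,1,15,20,2,23,19,11,9,21,12,0,3,10,17,7,4],
  [17,14,5,0,11,1,20,10,4,7,21,22,16,12,2,6,18,23,13,15,19,9,8,3],
  [18,8,11,19,4,6,23,1,10,17,14,20,15,13,7,5,16,21,9,2,3,0,22,12],
  [19,6,21,13,11,4,10,15,17,0,1,5,3,12,22,23,8,16,14,9,2,20,18,7],
  [20,15,10,18,4,8,7,19,0,3,5,2,23,13,11,17,22,12,1,21,14,6,16,9],
  [21,7,19,17,23,14,15,10,13,8,18,22,16,2,5,11,0,3,4,20,12,9,1,6],
  [22,16,13,5,10,3,21,6,2,12,11,0,1,9,14,8,15,17,23,7,18,19,20,4],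
  [23,2,1,9,8,10,13,16,14,19,6,3,5,18,15,7,11,20,17,4,21,22,12,0]]

theorem card_conj_orbit {G : Type*} [Group G] (M : Subgroup G) (x : G) (Y : Set G)
    (h1 : ∀ m ∈ M, m * x * m⁻¹ ∈ Y) (h2 : ∀ y ∈ Y, ∃ m ∈ M, m * x * m⁻¹ = y) :
    Nat.card M = Y.ncard * Nat.card {m // m ∈ M ∧ m * x = x * m} := by
  letI : MulAction M G := MulAction.compHom G ((MulAut.conj : G →* MulAut G).comp M.subtype)
  have hact : ∀ (m : M) (g : G), m • g = (m : G) * g * (m : G)⁻¹ := fun m g => rfl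
  have h3 := Subgroup.index_mul_card (MulAction.stabilizer M x)
  rw [MulAction.index_stabilizer] at h3
  have h4 : MulAction.orbit M x = Y := by
    ext y
    constructor
    · rintro ⟨m, rfl⟩
      exact h1 m.1 m.2
    · intro hy
      obtain ⟨m, hm, rfl⟩ := h2 y hy
      exact ⟨⟨m, hm⟩, rfl⟩
  rw [h4] at h3
  rw [← h3]
  congr 1
  refine Nat.card_congr
    { toFun := fun g => ⟨g.1.1, g.1.2, ?_⟩
      invFun := fun g => ⟨⟨g.1, g.2.1⟩, MulAction.mem_stabilizer_iff.2 ?_⟩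
      left_inv := fun g => rfl
      right_inv := fun g => rfl }
  · have h5 := MulAction.mem_stabilizer_iff.1 g.2
    rw [hact] at h5
    have h6 : g.1.1 * x * g.1.1⁻¹ = x := h5
    rw [mul_inv_eq_iff_eq_mul] at h6
    exact h6
  · rw [hact]
    show g.1 * x * g.1⁻¹ = x
    rw [mul_inv_eq_iff_eq_mul]
    exact g.2.2

/-- The tables are as they should be. -/
theorem tt1_good : goodT tt1 = true := by decide +kernel

noncomputable def t1 : Equiv.Perm GolayPt := gPerm tt1 tt1_good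

theorem t1_mem : t1 ∈ M24 := gPerm_mem _

theorem tbl_t1 : tblOf t1 = tt1 := tblOf_gPerm _

theorem tt1_sq : tcomp tt1 tt1 = idTbl := by decide +kernel

theorem t1_sq : t1 * t1 = 1 := by
  apply tblOf_injective
  rw [tblOf_mul, tbl_t1, tt1_sq, tblOf_one]

theorem fpf_of_getD {T : List ℕ} (g : Equiv.Perm GolayPt) (h : tblOf g = T)
    (hT : (List.range 24).all (fun i => T.getD i 0 != i) = true) : ∀ p, g p ≠ p := by
  intro p hp
  have h1 := idx_apply_eq_getD g p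
  rw [hp, h] at h1
  have h2 := List.all_eq_true.1 hT (idx p) (List.mem_range.2 (idx_lt p))
  rw [← h1] at h2
  simp at h2

theorem t1_fpf : ∀ p, t1 p ≠ p := fpf_of_getD t1 tbl_t1 (by decide +kernel)

/-- The standard sextet is the only one all of whose tetrads are fixed by `t1`. -/
theorem unique_check : ctAll (fun m v => !(v.all fun u => applyT tt1 u == u) || Nat.beq m 8388615) sxTree = true := by
  decide +kernel

theorem obj_S0 : sxObj 8388615 = S0 :=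
  (entry_spec (m := 8388615) (v := sx0) (by decide +kernel)).2.2.2.2.2.symm

theorem unique_S {S : Finset (Finset GolayPt)} (hS : S ∈ sextets) (h : ∀ u ∈ S, t1 • u = u) : S = S0 := by
  obtain ⟨m, v, hf, rfl⟩ := sx_master.surj S hS
  have h1 := ctAll_of_find unique_check hf
  simp only [Bool.or_eq_true, Bool.not_eq_true'] at h1
  obtain ⟨-, -, -, hnd, hlt, he⟩ := entry_spec hf
  have h2 : (v.all fun u => applyT tt1 u == u) = true := by
    rw [List.all_eq_true]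
    intro u hu
    have h3 : ofMask u ∈ sxObj m := by
      show ofMask u ∈ sextetOf (ofMask m)
      rw [← he]
      exact mem_famOf.2 ⟨u, hu, rfl⟩
    have h4 := h _ h3
    have h5 := ofMask_applyT (validTbl_of_goodT tt1_good) u
    have h6 : ofMask (applyT tt1 u) = ofMask u := by
      rw [h5]
      exact h4
    rw [beq_iff_eq]
    exact (ofMask_inj (applyT_lt (validTbl_of_goodT tt1_good) u) (hlt u hu)).1 h6
  rcases h1 with h1 | h1
  · rw [h2] at h1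
    simp at h1
  · rw [Nat.eq_of_beq_eq_true h1, obj_S0]

theorem t1_fix : ∀ u ∈ S0, t1 • u = u := by
  intro u hu
  obtain ⟨m, hm, rfl⟩ := mem_famOf.1 hu
  have h1 : (sx0.all fun u => applyT tt1 u == u) = true := by decide +kernel
  have h2 := List.all_eq_true.1 h1 m hm
  have h5 := ofMask_applyT (validTbl_of_goodT tt1_good) m
  rw [beq_iff_eq.1 h2] at h5
  exact h5.symm

/-- Anything commuting with `t1` fixes the standard sextet. -/
theorem cent_stab {c : Equiv.Perm GolayPt} (hc : c ∈ M24) (hct : c * t1 = t1 * c) : c • S0 = S0 := by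
  apply unique_S (smul_mem_sextets hc S0_mem)
  intro u hu
  obtain ⟨w, hw, rfl⟩ := Finset.mem_smul_finset.1 hu
  show t1 • (c • w) = c • w
  rw [← mul_smul, ← hct, mul_smul, t1_fix w hw]

/-- The set of conjugates. -/
def Yset : Set (Equiv.Perm GolayPt) := {x | x ∈ M24 ∧ (∀ u ∈ S0, x • u = u) ∧ x * x = 1 ∧ ∀ p, x p ≠ p}

/-- The check on the list of conjugates. -/
def conjOK (p : List ℕ × List ℕ) : Bool :=
  goodT p.1 && goodT p.2 && (sx0.all fun u => applyT p.1 u == u) && (tcomp p.1 p.1 == idTbl) &&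
    ((List.range 24).all fun i => p.1.getD i 0 != i) && (sx0.all fun u => sx0.contains (applyT p.2 u)) &&
    (tcomp p.2 tt1 == tcomp p.1 p.2)

theorem conjL_ok : conjL.all conjOK = true := by decide +kernel

theorem conjL_nodup : (conjL.map Prod.fst).Nodup := by decide +kernel

theorem conjL_length : conjL.length = 18 := by decide +kernel

/-- Every element of the kernel which is a fixed-point-free involution is in the list. -/
theorem conjL_complete : klist.all (fun T => !(tcomp T T == idTbl && (List.range 24).all fun i => T.getD i 0 != i) || (conjL.map Prod.fst).contains T) = true := by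
  decide +kernel

theorem tbl_of_Y {x : Equiv.Perm GolayPt} (hx : x ∈ Yset) : tblOf x ∈ conjL.map Prod.fst := by
  obtain ⟨hx, hfix, hsq, hf⟩ := hx
  obtain ⟨T, rfl⟩ := exists_kl hx hfix
  have hT : tblOf (kPerm T) = T.1 := tblOf_gPerm _
  have h1 := List.all_eq_true.1 conjL_complete T.1 T.2
  have h2 : tcomp T.1 T.1 = idTbl := by
    rw [← hT, ← tblOf_mul, hsq, tblOf_one]
  have h3 : ((List.range 24).all fun i => T.1.getD i 0 != i) = true := by
    rw [List.all_eq_true]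
    intro i hi
    have hi' := List.mem_range.1 hi
    rw [bne_iff_ne]
    intro h4
    apply hf (pt i)
    apply idx_injective
    rw [idx_apply_eq_getD, idx_pt hi', hT, h4]
  rw [h2, h3] at h1
  simp only [beq_self_eq_true, Bool.and_self, Bool.not_true, Bool.false_or, List.contains_iff_mem] at h1
  rw [hT]
  exact h1

theorem conj_spec {p : List ℕ × List ℕ} (hp : p ∈ conjL) :
    ∃ x ∈ Yset, tblOf x = p.1 ∧ ∃ m ∈ M24, m • S0 = S0 ∧ m * t1 = x * m := by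
  have h := List.all_eq_true.1 conjL_ok p hp
  simp only [conjOK, Bool.and_eq_true, List.all_eq_true, beq_iff_eq, bne_iff_ne, ne_eq,
    List.contains_iff_mem, List.mem_range] at h
  obtain ⟨⟨⟨⟨⟨⟨h1, h2⟩, h3⟩, h4⟩, h5⟩, h6⟩, h7⟩ := h
  have hx1 : tblOf (gPerm p.1 h1) = p.1 := tblOf_gPerm h1
  have hm1 : tblOf (gPerm p.2 h2) = p.2 := tblOf_gPerm h2
  refine ⟨gPerm p.1 h1, ⟨gPerm_mem h1, ?_, ?_, ?_⟩, hx1, gPerm p.2 h2, gPerm_mem h2, ?_, ?_⟩
  · intro u hu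
    obtain ⟨w, hw, rfl⟩ := mem_famOf.1 hu
    have h8 := ofMask_applyT (validTbl_of_goodT h1) w
    rw [h3 w hw] at h8
    exact h8.symm
  · apply tblOf_injective
    rw [tblOf_mul, hx1, h4, tblOf_one]
  · apply fpf_of_getD _ hx1
    simpa using h5
  · apply mem_stab_of_perm S0_mem (gPerm_mem h2)
    intro t ht
    obtain ⟨w, hw, rfl⟩ := mem_famOf.1 ht
    have h8 := ofMask_applyT (validTbl_of_goodT h2) w
    have h9 : gPerm p.2 h2 • ofMask w = ofMask (applyT p.2 w) := h8.symm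
    rw [h9]
    exact mem_famOf.2 ⟨_, h6 w hw, rfl⟩
  · apply tblOf_injective
    rw [tblOf_mul, tblOf_mul, hm1, hx1, tbl_t1, h7]

theorem ncard_Y : Yset.ncard = 18 := by
  have hnat : Nat.card Yset = (conjL.map Prod.fst).length := by
    apply card_of_tables conjL_nodup
    · intro x hx
      exact tbl_of_Y hx
    · intro T hT
      obtain ⟨p, hp, rfl⟩ := List.mem_map.1 hT
      obtain ⟨x, hx, h1, -⟩ := conj_spec hp
      exact ⟨x, hx, h1⟩
  rw [← Nat.card_coe_set_eq, hnat]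
  simp [conjL_length]

/-- The stabiliser of the standard sextet, in the group of permutations. -/
def Mp : Subgroup (Equiv.Perm GolayPt) := M24 ⊓ MulAction.stabilizer _ S0

theorem mem_Mp {g : Equiv.Perm GolayPt} : g ∈ Mp ↔ g ∈ M24 ∧ g • S0 = S0 := by
  simp only [Mp, Subgroup.mem_inf, MulAction.mem_stabilizer_iff]

theorem card_Mp : Nat.card Mp = 138240 := by
  rw [← card_stab_sextet' S0_mem]
  refine Nat.card_congr
    { toFun := fun g => ⟨⟨g.1, (mem_Mp.1 g.2).1⟩, (mem_stab_iff _).2 (mem_Mp.1 g.2).2⟩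
      invFun := fun g => ⟨g.1.1, mem_Mp.2 ⟨g.1.2, (mem_stab_iff _).1 g.2⟩⟩
      left_inv := fun g => rfl
      right_inv := fun g => rfl }

theorem card_cent : Nat.card {c // c ∈ M24 ∧ c * t1 = t1 * c} = 7680 := by
  have h1 := card_conj_orbit Mp t1 Yset ?_ ?_
  · rw [card_Mp, ncard_Y] at h1
    have h2 : Nat.card {m // m ∈ Mp ∧ m * t1 = t1 * m} = Nat.card {c // c ∈ M24 ∧ c * t1 = t1 * c} := by
      refine Nat.card_congr
        { toFun := fun g => ⟨g.1, (mem_Mp.1 g.2.1).1, g.2.2⟩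
          invFun := fun g => ⟨g.1, mem_Mp.2 ⟨g.2.1, cent_stab g.2.1 g.2.2⟩, g.2.2⟩
          left_inv := fun g => rfl
          right_inv := fun g => rfl }
    rw [h2] at h1
    omega
  · intro m hm
    obtain ⟨hm1, hm2⟩ := mem_Mp.1 hm
    refine ⟨M24.mul_mem (M24.mul_mem hm1 t1_mem) (M24.inv_mem hm1), ?_, ?_, ?_⟩
    · intro u hu
      have h3 : m⁻¹ • u ∈ S0 := by
        have : m⁻¹ • S0 = S0 := by
          conv_lhs => rw [← hm2]
          rw [inv_smul_smul]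
        rw [← this]
        exact Finset.smul_mem_smul_finset hu
      rw [mul_smul, mul_smul, t1_fix _ h3, smul_inv_smul]
    · calc m * t1 * m⁻¹ * (m * t1 * m⁻¹) = m * (t1 * t1) * m⁻¹ := by group
        _ = 1 := by rw [t1_sq]; group
    · intro p hp
      apply t1_fpf (m⁻¹ p)
      have h3 : m (t1 (m⁻¹ p)) = p := hp
      exact Equiv.Perm.eq_inv_iff_eq.2 h3
  · intro y hy
    have h3 := tbl_of_Y hy
    obtain ⟨p, hp, hp1⟩ := List.mem_map.1 h3
    obtain ⟨x, -, h1, m, hm, hm2, hm3⟩ := conj_spec hp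
    have e : x = y := tblOf_injective (by rw [h1, hp1])
    subst e
    exact ⟨m, mem_Mp.2 ⟨hm, hm2⟩, by rw [hm3, mul_inv_cancel_right]⟩

/-- The centraliser is transitive. -/
theorem trans_cent (q : GolayPt) : ∃ c ∈ M24, c * t1 = t1 * c ∧ c (pt 0) = q := by
  have h1 : traL.all (fun m => goodT m && (tcomp m tt1 == tcomp tt1 m)) = true := by decide +kernel
  have h2 : (List.range 24).all (fun i => traL.any fun m => m.getD 0 0 == i) = true := by decide +kernel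
  obtain ⟨m, hm, hm2⟩ := List.any_eq_true.1 (List.all_eq_true.1 h2 (idx q) (List.mem_range.2 (idx_lt q)))
  have h3 := List.all_eq_true.1 h1 m hm
  simp only [Bool.and_eq_true, beq_iff_eq] at h3 hm2
  refine ⟨gPerm m h3.1, gPerm_mem _, ?_, ?_⟩
  · apply tblOf_injective
    rw [tblOf_mul, tblOf_mul, tbl_t1, tblOf_gPerm, h3.2]
  · rw [gPerm_pt _ (by norm_num), hm2]
    exact pt_idx' q

/-- The statement, for every fixed-point-free involution. -/
theorem main (t : Equiv.Perm GolayPt) (ht : t ∈ M24) (h₂ : orderOf t = 2) (h₀ : ∀ p, t p ≠ p) :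
    Nat.card {c : Equiv.Perm GolayPt // c ∈ M24 ∧ c * t = t * c} = 7680 ∧
      (∀ p q : GolayPt, ∃ c ∈ M24, c * t = t * c ∧ c p = q) ∧
      ∃ S ∈ sextets, t • S = S ∧ ∀ c ∈ M24, c * t = t * c → c • S = S := by
  -- `t` is conjugate to `t1`
  have key : ∀ {x : Equiv.Perm GolayPt}, x ∈ M24 → orderOf x = 2 → (∀ p, x p ≠ p) →
      ∃ g ∈ M24, g * Cfsg.Agent.Lib.Compute.M24.t0P * g⁻¹ = x := by
    intro x hx h2 h0
    rcases Cfsg.Agent.Lib.Compute.M24.inv_class' hx h2 with ⟨-, h8⟩ | ⟨h, -⟩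
    · exfalso
      rw [(Cfsg.Agent.Lib.Compute.M24.fpf_iff_card x).1 h0] at h8
      omega
    · exact h
  have ho1 : orderOf t1 = 2 := by
    apply orderOf_eq_prime
    · rw [pow_two]; exact t1_sq
    · intro h
      apply t1_fpf (pt 0)
      rw [h]
      rfl
  obtain ⟨g, hg, e1⟩ := key ht h₂ h₀
  obtain ⟨g', hg', e2⟩ := key t1_mem ho1 t1_fpf
  obtain ⟨k, hk, rfl⟩ : ∃ k ∈ M24, k * t1 * k⁻¹ = t := by
    refine ⟨g * g'⁻¹, M24.mul_mem hg (M24.inv_mem hg'), ?_⟩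
    rw [← e1, ← e2]
    group
  have hcomm : ∀ c : Equiv.Perm GolayPt, c * (k * t1 * k⁻¹) = (k * t1 * k⁻¹) * c ↔
      (k⁻¹ * c * k) * t1 = t1 * (k⁻¹ * c * k) := by
    intro c
    constructor
    · intro h
      calc k⁻¹ * c * k * t1 = k⁻¹ * (c * (k * t1 * k⁻¹)) * k := by group
        _ = k⁻¹ * ((k * t1 * k⁻¹) * c) * k := by rw [h]
        _ = t1 * (k⁻¹ * c * k) := by group
    · intro h
      calc c * (k * t1 * k⁻¹) = k * ((k⁻¹ * c * k) * t1) * k⁻¹ := by group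
        _ = k * (t1 * (k⁻¹ * c * k)) * k⁻¹ := by rw [h]
        _ = k * t1 * k⁻¹ * c := by group
  have hmemk : ∀ c : Equiv.Perm GolayPt, c ∈ M24 ↔ k⁻¹ * c * k ∈ M24 := by
    intro c
    constructor
    · intro h
      exact M24.mul_mem (M24.mul_mem (M24.inv_mem hk) h) hk
    · intro h
      have : c = k * (k⁻¹ * c * k) * k⁻¹ := by group
      rw [this]
      exact M24.mul_mem (M24.mul_mem hk h) (M24.inv_mem hk)
  refine ⟨?_, ?_, k • S0, smul_mem_sextets hk S0_mem, ?_, ?_⟩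
  · rw [← card_cent]
    refine Nat.card_congr
      { toFun := fun c => ⟨k⁻¹ * c.1 * k, (hmemk _).1 c.2.1, (hcomm _).1 c.2.2⟩
        invFun := fun c => ⟨k * c.1 * k⁻¹, M24.mul_mem (M24.mul_mem hk c.2.1) (M24.inv_mem hk), ?_⟩
        left_inv := fun c => by
          apply Subtype.ext
          show k * (k⁻¹ * c.1 * k) * k⁻¹ = c.1
          group
        right_inv := fun c => by
          apply Subtype.ext
          show k⁻¹ * (k * c.1 * k⁻¹) * k = c.1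
          group }
    rw [hcomm]
    have e : k⁻¹ * (k * c.1 * k⁻¹) * k = c.1 := by group
    rw [e]
    exact c.2.2
  · intro p q
    -- move `p` to the base point
    obtain ⟨a, ha, ha1, ha2⟩ := trans_cent (k⁻¹ p)
    obtain ⟨b, hb, hb1, hb2⟩ := trans_cent (k⁻¹ q)
    have hc : M24.carrier (k * (b * a⁻¹) * k⁻¹) :=
      M24.mul_mem (M24.mul_mem hk (M24.mul_mem hb (M24.inv_mem ha))) (M24.inv_mem hk)
    refine ⟨k * (b * a⁻¹) * k⁻¹, hc, ?_, ?_⟩
    · rw [hcomm]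
      have e : k⁻¹ * (k * (b * a⁻¹) * k⁻¹) * k = b * a⁻¹ := by group
      rw [e]
      have ha1' : a⁻¹ * t1 = t1 * a⁻¹ := (show Commute a t1 from ha1).inv_left.eq
      rw [mul_assoc, ha1', ← mul_assoc, hb1, mul_assoc]
    · show k (b (a⁻¹ (k⁻¹ p))) = q
      rw [← ha2]
      simp [hb2]
  · rw [mul_smul, inv_smul_smul, mul_smul, cent_stab t1_mem rfl]
  · intro c hc hcc
    have h1 := cent_stab ((hmemk c).1 hc) ((hcomm c).1 hcc)
    have e : c • k • S0 = k • ((k⁻¹ * c * k) • S0) := by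
      rw [← mul_smul, ← mul_smul]
      congr 1
      group
    rw [e, h1]

end Cfsg.Agent.Lib.Sporadic.M24FpfCent
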