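import Cfsg.Agent.Lib.Sporadic.M24T

/-!
# Subgroups of index 253 of the stabiliser of a point
-/

set_option autoImplicit false

namespace Cfsg.Agent.Lib.Sporadic.M24I253

open Cfsg Cfsg.Agent.Lib.Sporadic.GolayCore Cfsg.Agent.Lib.Sporadic.M24Tbl
open Cfsg.Agent.Lib.Sporadic.M24Chain Cfsg.Agent.Lib.Sporadic.M24Basic Cfsg.Agent.Lib.Sporadic.M24TblGroup
open Cfsg.Agent.Lib.Sporadic.M24Act Cfsg.Agent.Lib.Sporadic.M24Syl Cfsg.Agent.Lib.Sporadic.M24TData
open Cfsg.Agent.Lib.Sporadic.M24T
open scoped Pointwise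

local notation "P" => Equiv.Perm GolayPt

/-- A bound for the order from an orbit. -/
theorem card_le_step {K L : Subgroup P} (a : GolayPt) (S : Finset GolayPt) (hS : ∀ k ∈ K, k a ∈ S)
    (hL : ∀ k ∈ K, k a = a → k ∈ L) : Nat.card K ≤ S.card * Nat.card L := by
  have h1 : ((orb K a : Finset GolayPt) : Set GolayPt) = MulAction.orbit K a := by
    ext p
    rw [Finset.mem_coe, mem_orb, MulAction.mem_orbit_iff]
    constructor
    · rintro ⟨g, hg, e⟩
      exact ⟨⟨g, hg⟩, e⟩
    · rintro ⟨g, e⟩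
      exact ⟨g.1, g.2, e⟩
  have h2 := MulAction.index_stabilizer (G := K) (x := a)
  rw [← h1, Set.ncard_coe_finset] at h2
  have h3 := Subgroup.index_mul_card (MulAction.stabilizer K a)
  rw [h2] at h3
  rw [← h3]
  have h4 : (orb K a).card ≤ S.card := by
    apply Finset.card_le_card
    intro p hp
    obtain ⟨k, hk, rfl⟩ := mem_orb.1 hp
    exact hS k hk
  have h5 : Nat.card (MulAction.stabilizer K a) ≤ Nat.card L := by
    refine Nat.card_le_card_of_injective (fun y => ⟨y.1.1, hL y.1.1 y.1.2 y.2⟩) ?_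
    intro y z e
    exact Subtype.ext (Subtype.ext (congrArg (fun z : L => (z : P)) e))
  exact Nat.mul_le_mul h4 h5

/-- The stabiliser of the base octad. -/
abbrev stO : Subgroup P := MulAction.stabilizer P (ofMask 8536111)

/-- The stabiliser of the base duad. -/
abbrev stD : Subgroup P := MulAction.stabilizer P (ofMask 3)

/-- A step for the octad. -/
theorem step_O (F : List ℕ) (b n : ℕ) (hb : ∀ p ∈ ofMask 8536111, idx p ∉ F → (Finset.univ.filter fun p => p ∈ ofMask 8536111 ∧ idx p ∉ F).card = n)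
    (h0 : pt b ∈ ofMask 8536111) (hbF : b ∉ F) (hlt : b < 24) (hF : ∀ f ∈ F, f < 24) :
    Nat.card ↥(fixG F ⊓ stO) ≤ n * Nat.card ↥(fixG (b :: F) ⊓ stO) := by
  have hidx : idx (pt b) = b := idx_pt hlt
  have hn : (Finset.univ.filter fun p => p ∈ ofMask 8536111 ∧ idx p ∉ F).card = n :=
    hb _ h0 (by rwa [hidx])
  rw [← hn]
  apply card_le_step (pt b)
  · intro k hk
    obtain ⟨h1, h2⟩ := Subgroup.mem_inf.1 hk
    have h3 : k • ofMask 8536111 = ofMask 8536111 := h2
    rw [Finset.mem_filter]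
    refine ⟨Finset.mem_univ _, ?_, ?_⟩
    · rw [← h3]
      exact (apply_mem_smul k _ _).2 h0
    · intro hf
      have h4 := (mem_fixG.1 h1).2 _ hf
      rw [pt_idx'] at h4
      have h6 := k.injective h4
      rw [h6, hidx] at hf
      exact hbF hf
  · intro k hk e
    obtain ⟨h1, h2⟩ := Subgroup.mem_inf.1 hk
    refine Subgroup.mem_inf.2 ⟨?_, h2⟩
    refine Subgroup.mem_inf.2 ⟨h1, ?_⟩
    exact e

theorem card_KO : Nat.card ↥(fixG [23] ⊓ stO) ≤ 40320 := by
  have h1 := step_O [23] 0 7 (fun _ _ _ => by decide +kernel) (by decide +kernel) (by decide) (by norm_num) (by simp)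
  have h2 := step_O [0, 23] 1 6 (fun _ _ _ => by decide +kernel) (by decide +kernel) (by decide) (by norm_num) (by simp)
  have h3 := step_O [1, 0, 23] 2 5 (fun _ _ _ => by decide +kernel) (by decide +kernel) (by decide) (by norm_num) (by simp)
  have h4 := step_O [2, 1, 0, 23] 3 4 (fun _ _ _ => by decide +kernel) (by decide +kernel) (by decide) (by norm_num) (by simp)
  have h5 : Nat.card ↥(fixG [3, 2, 1, 0, 23] ⊓ stO) ≤ 48 := by
    rw [← card_fixG_5]
    exact Nat.card_le_card_of_injective (fun y => ⟨y.1, (Subgroup.mem_inf.1 y.2).1⟩) (fun y z e =>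
      Subtype.ext (congrArg (fun z : fixG [3, 2, 1, 0, 23] => (z : P)) e))
  omega

theorem card_KD : Nat.card ↥(fixG [23] ⊓ stD) ≤ 40320 := by
  have h1 : Nat.card ↥(fixG [23] ⊓ stD) ≤ ({pt 0, pt 1} : Finset GolayPt).card * Nat.card (fixG [1, 0, 23]) := by
    have hD : ∀ p : GolayPt, p ∈ ofMask 3 ↔ p = pt 0 ∨ p = pt 1 := by decide +kernel
    have h00 : pt 0 ∈ ofMask 3 := by decide +kernel
    have h01 : pt 1 ∈ ofMask 3 := by decide +kernel
    apply card_le_step (pt 0)
    · intro k hk
      have h2 : k • ofMask 3 = ofMask 3 := (Subgroup.mem_inf.1 hk).2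
      have h3 : k (pt 0) ∈ ofMask 3 := by
        rw [← h2]
        exact (apply_mem_smul k _ _).2 h00
      simpa using (hD _).1 h3
    · intro k hk e
      obtain ⟨h1, h2⟩ := Subgroup.mem_inf.1 hk
      have h2 : k • ofMask 3 = ofMask 3 := h2
      have h3 : k (pt 1) ∈ ofMask 3 := by
        rw [← h2]
        exact (apply_mem_smul k _ _).2 h01
      refine mem_fixG.2 ⟨(mem_fixG.1 h1).1, ?_⟩
      intro f hf
      simp only [List.mem_cons, List.not_mem_nil, or_false] at hf
      rcases hf with rfl | rfl | rfl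
      · rcases (hD _).1 h3 with h4 | h4
        · exfalso
          rw [← e] at h4
          have h5 := k.injective h4
          revert h5
          decide +kernel
        · exact h4
      · exact e
      · exact (mem_fixG.1 h1).2 23 (by simp)
  have h2 : ({pt 0, pt 1} : Finset GolayPt).card = 2 := by decide +kernel
  rw [h2, card_fixG_3] at h1
  omega

/-- Subgroups of order 40320 containing the subgroup of order 128. -/
theorem main_cases {X : Subgroup P} (hT : T0 ≤ X) (hX : X ≤ fixG [23]) (hc : Nat.card X = 40320) :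
    X = fixG [23] ⊓ stO ∨ X = fixG [23] ⊓ stD := by
  have h23 : ∀ g ∈ X, g (pt 23) = pt 23 := fun g hg => (mem_fixG.1 (hX hg)).2 23 (by simp)
  rcases orb_two_cases hT hX (by rw [hc]; norm_num) (by rw [hc]; norm_num) (by rw [hc]; norm_num) with h | h
  · left
    have key : X ≤ fixG [23] ⊓ stO := by
      intro g hg
      refine Subgroup.mem_inf.2 ⟨hX hg, ?_⟩
      show g • ofMask 8536111 = ofMask 8536111
      apply Finset.eq_of_subset_of_card_le
      · intro p hp
        obtain ⟨q, hq, rfl⟩ := Finset.mem_smul_finset.1 hp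
        have hsplit : ∀ q : GolayPt, q ∈ ofMask 8536111 ↔ q = pt 23 ∨ q ∈ ofMask (mk true true false) := by decide +kernel
        rcases (hsplit q).1 hq with rfl | h1
        · show g (pt 23) ∈ _
          rw [h23 g hg]
          decide +kernel
        · rw [← h] at h1
          have h2 := (apply_mem_orb hg).2 h1
          rw [h] at h2
          exact (hsplit _).2 (Or.inr h2)
      · rw [Finset.card_smul_finset]
    exact Subgroup.eq_of_le_of_card_ge key (by rw [hc]; exact card_KO)
  · right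
    have key : X ≤ fixG [23] ⊓ stD := by
      intro g hg
      refine Subgroup.mem_inf.2 ⟨hX hg, ?_⟩
      show g • ofMask 3 = ofMask 3
      apply Finset.eq_of_subset_of_card_le
      · intro p hp
        obtain ⟨q, hq, rfl⟩ := Finset.mem_smul_finset.1 hp
        have hsplit : ∀ q : GolayPt, q ∈ ofMask 3 ∨ q = pt 23 ∨ q ∈ ofMask (mk true false true) := by decide +kernel
        have hnot : ∀ q : GolayPt, q ∈ ofMask 3 → q ≠ pt 23 ∧ q ∉ ofMask (mk true false true) := by decide +kernel
        obtain ⟨h1, h2⟩ := hnot q hq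
        rcases hsplit (g q) with h3 | h3 | h3
        · exact h3
        · exfalso
          rw [← h23 g hg] at h3
          exact h1 (g.injective h3)
        · exfalso
          rw [← h] at h2 h3
          exact h2 ((apply_mem_orb hg).1 h3)
      · rw [Finset.card_smul_finset]
    exact Subgroup.eq_of_le_of_card_ge key (by rw [hc]; exact card_KD)

/-- The statement `S1609`. -/
theorem s1609 (x : GolayPt) (H : Subgroup ↥(MulAction.stabilizer M24 x)) (hH : H.index = 253) :
    (∃ s : Finset GolayPt, s.card = 2 ∧ x ∉ s ∧ H = (MulAction.stabilizer M24 s).subgroupOf (MulAction.stabilizer M24 x)) ∨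
      ∃ o ∈ octads, x ∈ o ∧ H = (MulAction.stabilizer M24 o).subgroupOf (MulAction.stabilizer M24 x) := by
  obtain ⟨k, hk, hkx⟩ := exists_map_one x (pt 23)
  let H₀' : Subgroup P := (H.map (MulAction.stabilizer M24 x).subtype).map (M24 : Subgroup P).subtype
  let H₀ : Subgroup P := H₀'.map (MulAut.conj k).toMonoidHom
  have hc0 : Nat.card H₀ = Nat.card H := by
    show Nat.card (H₀'.map (MulAut.conj k).toMonoidHom) = _
    rw [card_conj]
    show Nat.card ((H.map (MulAction.stabilizer M24 x).subtype).map (M24 : Subgroup P).subtype) = _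
    rw [Subgroup.card_map_of_injective (Subgroup.subtype_injective _), Subgroup.card_map_of_injective (Subgroup.subtype_injective _)]
  have h3 := Subgroup.index_mul_card H
  rw [hH, card_stab_one] at h3
  have hcH : Nat.card H = 40320 := by omega
  rw [hcH] at hc0
  have hmem0 : ∀ z, z ∈ H₀ ↔ ∃ y ∈ H, z = k * ((y : M24) : P) * k⁻¹ := by
    intro z
    constructor
    · rintro ⟨_, ⟨_, ⟨y, hy, rfl⟩, rfl⟩, rfl⟩
      exact ⟨y, hy, rfl⟩
    · rintro ⟨y, hy, rfl⟩
      exact ⟨_, ⟨_, ⟨y, hy, rfl⟩, rfl⟩, rfl⟩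
  have hfix : ∀ y : MulAction.stabilizer M24 x, ((y : M24) : P) x = x := fun y => (mem_stabilizer_M24 _ _).1 y.2
  have hkinv : k⁻¹ (pt 23) = x := by rw [← hkx]; simp
  have hH0 : H₀ ≤ fixG [23] := by
    intro z hz
    obtain ⟨y, -, rfl⟩ := (hmem0 z).1 hz
    refine mem_fixG.2 ⟨M24.mul_mem (M24.mul_mem hk (y : M24).2) (M24.inv_mem hk), ?_⟩
    intro f hf
    rw [List.mem_singleton] at hf
    subst hf
    simp only [Equiv.Perm.mul_apply, hkinv, hfix, hkx]
  haveI : Fact (Nat.Prime 2) := ⟨Nat.prime_two⟩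
  obtain ⟨g, hg, hle⟩ := exists_conj_contains (p := 2) (a := 7) hH0 T0_le (by rw [card_T0]; norm_num)
    (by rw [hc0]; norm_num) (by rw [card_fixG_1]; norm_num)
  let X : Subgroup P := H₀.map (MulAut.conj g).toMonoidHom
  have hX : X ≤ fixG [23] := conj_le hg hH0
  have hcX : Nat.card X = 40320 := by
    show Nat.card (H₀.map (MulAut.conj g).toMonoidHom) = _
    rw [card_conj, hc0]
  have hgM : g ∈ M24 := fixG_le_M24 _ hg
  have hg23 : g (pt 23) = pt 23 := (mem_fixG.1 hg).2 23 (by simp)
  set m : P := g * k with hm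
  have hmM : m ∈ M24 := M24.mul_mem hgM hk
  have hmx : m x = pt 23 := by
    rw [hm, Equiv.Perm.mul_apply, hkx, hg23]
  have hminv : m⁻¹ (pt 23) = x := by rw [← hmx]; simp
  have hmemX : ∀ z, z ∈ X ↔ ∃ y ∈ H, z = m * ((y : M24) : P) * m⁻¹ := by
    intro z
    constructor
    · rintro ⟨w, hw, rfl⟩
      obtain ⟨y, hy, rfl⟩ := (hmem0 w).1 hw
      refine ⟨y, hy, ?_⟩
      simp only [MulEquiv.coe_toMonoidHom, MulAut.conj_apply, hm]
      group
    · rintro ⟨y, hy, rfl⟩
      refine ⟨k * ((y : M24) : P) * k⁻¹, (hmem0 _).2 ⟨y, hy, rfl⟩, ?_⟩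
      simp only [MulEquiv.coe_toMonoidHom, MulAut.conj_apply, hm]
      group
  have hconj : ∀ y : MulAction.stabilizer M24 x, m * ((y : M24) : P) * m⁻¹ ∈ fixG [23] := by
    intro y
    refine mem_fixG.2 ⟨M24.mul_mem (M24.mul_mem hmM (y : M24).2) (M24.inv_mem hmM), ?_⟩
    intro f hf
    rw [List.mem_singleton] at hf
    subst hf
    simp only [Equiv.Perm.mul_apply, hminv, hfix, hmx]
  have hsmul : ∀ (y : MulAction.stabilizer M24 x) (s : Finset GolayPt),
      (m * ((y : M24) : P) * m⁻¹) • s = s ↔ ((y : M24) : P) • (m⁻¹ • s) = m⁻¹ • s := by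
    intro y s
    rw [mul_smul, mul_smul]
    constructor
    · intro h
      exact (smul_eq_iff_eq_inv_smul m).1 h
    · intro h
      exact (smul_eq_iff_eq_inv_smul m).2 h
  have key : ∀ s : Finset GolayPt, X = fixG [23] ⊓ MulAction.stabilizer P s →
      H = (MulAction.stabilizer M24 (m⁻¹ • s)).subgroupOf (MulAction.stabilizer M24 x) := by
    intro s hs
    ext y
    rw [Subgroup.mem_subgroupOf, mem_stabilizer_M24_finset, ← hsmul]
    constructor
    · intro hy
      have h1 : m * ((y : M24) : P) * m⁻¹ ∈ X := (hmemX _).2 ⟨y, hy, rfl⟩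
      rw [hs] at h1
      exact (Subgroup.mem_inf.1 h1).2
    · intro hy
      have h1 : m * ((y : M24) : P) * m⁻¹ ∈ X := by
        rw [hs]
        exact Subgroup.mem_inf.2 ⟨hconj y, hy⟩
      obtain ⟨y', hy', e⟩ := (hmemX _).1 h1
      have e2 : ((y : M24) : P) = ((y' : M24) : P) := by
        have := mul_left_cancel (mul_right_cancel e)
        exact this
      have e3 : y = y' := Subtype.ext (Subtype.ext e2)
      rw [e3]
      exact hy'
  rcases main_cases hle hX hcX with h | h
  · right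
    refine ⟨m⁻¹ • ofMask 8536111, smul_mem_octads (M24.inv_mem hmM) (by
      rw [ofMask_mem_octads_iff (by norm_num)]; decide +kernel), ?_, key _ h⟩
    rw [← hminv]
    exact (apply_mem_smul m⁻¹ _ _).2 (by decide +kernel)
  · left
    refine ⟨m⁻¹ • ofMask 3, by rw [Finset.card_smul_finset]; decide +kernel, ?_, key _ h⟩
    intro hx
    rw [← hminv] at hx
    have h2 := (apply_mem_smul m⁻¹ _ _).1 hx
    revert h2
    decide +kernel

end Cfsg.Agent.Lib.Sporadic.M24I253
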