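import Cfsg.Agent.Lib.Sporadic.M24AllOnTr
import Cfsg.Agent.Lib.Sporadic.M24TrStab

/-!
# Transitivity on trios, and the standard trio
-/

namespace Cfsg.Agent.Lib.Sporadic.M24TrioTrans

open Cfsg Cfsg.Agent.Lib.Sporadic.GolayCore Cfsg.Agent.Lib.Sporadic.M24Tbl
open Cfsg.Agent.Lib.Sporadic.M24Orbit Cfsg.Agent.Lib.Sporadic.M24Fast
open Cfsg.Agent.Lib.Sporadic.M24Sextet
open Cfsg.Agent.Lib.Sporadic.M24Cert Cfsg.Agent.Lib.Sporadic.M24Classes
open Cfsg.Agent.Lib.Sporadic.M24TrioTab Cfsg.Agent.Lib.Sporadic.M24TrioTree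
open Cfsg.Agent.Lib.Sporadic.M24AllStab Cfsg.Agent.Lib.Sporadic.M24AllOnTr
open Cfsg.Agent.Lib.Sporadic.M24TrStab
open scoped Pointwise

/-- `M24` is transitive on trios. -/
theorem exists_smul_trio {T T' : Finset (Finset GolayPt)} (hT : T ∈ trios) (hT' : T' ∈ trios) :
    ∃ g ∈ M24, g • T = T' := by
  have h0 : ∀ y, clF (famOf famA) y = 0 := by
    intro y
    have : famOf famA = ∅ := rfl
    rw [this]
    simp [clF]
  obtain ⟨g, hg, -, h⟩ := CA_T.classes.hconj T hT T' hT' (by rw [h0, h0])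
  exact ⟨g, hg, h⟩

/-- The key of the standard trio. -/
def key0 : ℕ := 8536111 * 16777216 + 4202192

theorem find_key0 : trTree.find key0 = some famT := by decide +kernel

theorem obj_key0 : trObj key0 = famOf famT := trObj_eq find_key0

theorem famT_mem : famOf famT ∈ trios := by
  rw [← obj_key0]
  exact tr_master.mem _ _ find_key0

theorem orbit_trio {T : Finset (Finset GolayPt)} (hT : T ∈ trios) :
    MulAction.orbit M24 T = trios := by
  ext s
  constructor
  · rintro ⟨⟨g, hg⟩, rfl⟩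
    exact smul_mem_trios hg hT
  · intro hs
    obtain ⟨g, hg, hgs⟩ := exists_smul_trio hT hs
    exact ⟨⟨g, hg⟩, hgs⟩

end Cfsg.Agent.Lib.Sporadic.M24TrioTrans
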