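import Cfsg.Agent.Lib.Sporadic.M24I253
import Cfsg.Agent.Lib.Sporadic.M24Sextet
import Cfsg.Agent.Lib.Sporadic.M24OctadStab
import Cfsg.Agent.Lib.Sporadic.M24TrioTrans
import Cfsg.Agent.S1557
import Cfsg.Agent.Lib.Compute.M24Sylow2

/-!
# Subgroups of small index of the group of the length-24 code: tools
-/

set_option autoImplicit false

namespace Cfsg.Agent.Lib.Sporadic.M24Idx

open Cfsg Cfsg.Agent.Lib.Sporadic.GolayCore Cfsg.Agent.Lib.Sporadic.M24Tbl
open Cfsg.Agent.Lib.Sporadic.M24Chain Cfsg.Agent.Lib.Sporadic.M24Basic Cfsg.Agent.Lib.Sporadic.M24TblGroup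
open Cfsg.Agent.Lib.Sporadic.M24Act Cfsg.Agent.Lib.Sporadic.M24Syl Cfsg.Agent.Lib.Sporadic.M24TData
open Cfsg.Agent.Lib.Sporadic.M24T Cfsg.Agent.Lib.Sporadic.M24I253
open Cfsg.Agent.Lib.Sporadic.M24Sextet Cfsg.Agent.Lib.Sporadic.M24OctadStab
open scoped Pointwise

local notation "P" => Equiv.Perm GolayPt

/-- Moving a point while fixing at most four others. -/
theorem exists_fix_move (F : Finset GolayPt) (hF : F.card ≤ 4) {p q : GolayPt} (hp : p ∉ F) (hq : q ∉ F) :
    ∃ g ∈ M24, (∀ x ∈ F, g x = x) ∧ g p = q := by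
  classical
  let e := F.equivFin
  have hinj : ∀ r, r ∉ F → Function.Injective (Fin.cons r (fun i => (e.symm i : GolayPt)) : Fin (F.card + 1) → GolayPt) := by
    intro r hr
    rw [Fin.cons_injective_iff]
    refine ⟨?_, ?_⟩
    · rintro ⟨i, hi⟩
      exact hr (hi ▸ (e.symm i).2)
    · intro i j hij
      exact e.symm.injective (Subtype.ext hij)
  obtain ⟨g, hg, h⟩ := exists_map_embedding (k := F.card + 1) (by omega) ⟨_, hinj p hp⟩ ⟨_, hinj q hq⟩
  refine ⟨g, hg, ?_, ?_⟩
  · intro x hx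
    have := h (Fin.succ (e ⟨x, hx⟩))
    simpa using this
  · have := h 0
    simpa using this

theorem card_univ_pts : (Finset.univ : Finset GolayPt).card = 24 := by decide +kernel

/-- The invariant sets of a pointwise stabiliser of at most four points. -/
theorem subset_of_invariant_fix (F u : Finset GolayPt) (hF : F.card ≤ 4)
    (hu : ∀ g ∈ M24, (∀ x ∈ F, g x = x) → g • u = u) (hc : u.card + F.card < 24) : u ⊆ F := by
  classical
  intro p hp
  by_contra hpF
  have h1 : Fᶜ ⊆ u := by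
    intro q hq
    rw [Finset.mem_compl] at hq
    obtain ⟨g, hg, h1, h2⟩ := exists_fix_move F hF hpF hq
    rw [← hu g hg h1, ← h2]
    exact (apply_mem_smul g _ _).2 hp
  have h2 := Finset.card_le_card h1
  rw [Finset.card_compl, Fintype.card_eq_nat_card] at h2
  have h3 : Nat.card GolayPt = 24 := by
    rw [Nat.card_eq_fintype_card, ← Finset.card_univ, card_univ_pts]
  omega

/-- The invariant sets of a group transitive outside a set `o`. -/
theorem subset_of_moves (o u : Finset GolayPt) (ho : o.card = 8)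
    (hu : ∀ p q, p ∉ o → q ∉ o → ∃ g : P, g • u = u ∧ g p = q) (hc : u.card < 16) : u ⊆ o := by
  classical
  intro p hp
  by_contra hpF
  have h1 : oᶜ ⊆ u := by
    intro q hq
    rw [Finset.mem_compl] at hq
    obtain ⟨g, h1, h2⟩ := hu p q hpF hq
    rw [← h1, ← h2]
    exact (apply_mem_smul g _ _).2 hp
  have h2 := Finset.card_le_card h1
  rw [Finset.card_compl, Fintype.card_eq_nat_card] at h2
  have h3 : Nat.card GolayPt = 24 := by
    rw [Nat.card_eq_fintype_card, ← Finset.card_univ, card_univ_pts]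
  omega

/-- The system of translates. -/
theorem exists_blocks {Y : Subgroup P} {a : GolayPt} (ht : ∀ z, ∃ h ∈ Y, h a = z) {s : Finset GolayPt}
    (hs : ∀ x ∈ Y, x a = a → x • s = s) :
    ∃ S : GolayPt → Finset GolayPt, S a = s ∧ ∀ g ∈ Y, ∀ z, g • S z = S (g z) := by
  choose h hY e using ht
  refine ⟨fun z => h z • s, hs _ (hY a) (e a), ?_⟩
  intro g hg z
  have hu := hs ((h (g z))⁻¹ * g * h z) (Y.mul_mem (Y.mul_mem (Y.inv_mem (hY _)) hg) (hY z)) (by
    simp only [Equiv.Perm.mul_apply, e]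
    rw [Equiv.Perm.inv_eq_iff_eq, e])
  rw [mul_smul, mul_smul, inv_smul_eq_iff] at hu
  exact hu

/-- The order of a transitive group. -/
theorem card_trans {Y : Subgroup P} {a : GolayPt} (ht : ∀ z, ∃ h ∈ Y, h a = z) :
    Nat.card Y = 24 * Nat.card ↥(Y ⊓ MulAction.stabilizer P a) := by
  have h1 : MulAction.orbit Y a = Set.univ := by
    ext z
    simp only [Set.mem_univ, iff_true]
    obtain ⟨h, hh, e⟩ := ht z
    exact ⟨⟨h, hh⟩, e⟩
  have h2 := MulAction.index_stabilizer (G := Y) (x := a)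
  rw [h1, Set.ncard_univ, Nat.card_eq_fintype_card, ← Finset.card_univ, card_univ_pts] at h2
  have h3 := Subgroup.index_mul_card (MulAction.stabilizer Y a)
  rw [h2] at h3
  rw [← h3]
  congr 1
  apply Nat.card_congr
  exact
    { toFun := fun x => ⟨x.1.1, Subgroup.mem_inf.2 ⟨x.1.2, x.2⟩⟩
      invFun := fun x => ⟨⟨x.1, (Subgroup.mem_inf.1 x.2).1⟩, (Subgroup.mem_inf.1 x.2).2⟩
      left_inv := fun _ => rfl
      right_inv := fun _ => rfl }

/-- Membership in a conjugate. -/
theorem mem_map_conj {H : Subgroup P} {g z : P} :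
    z ∈ H.map (MulAut.conj g).toMonoidHom ↔ ∃ y ∈ H, z = g * y * g⁻¹ := by
  constructor
  · rintro ⟨y, hy, rfl⟩
    exact ⟨y, hy, rfl⟩
  · rintro ⟨y, hy, rfl⟩
    exact ⟨y, hy, rfl⟩

/-- Elements of prime order at least five lie in subgroups of index at most three. -/
theorem mem_of_small_index {G : Type*} [Group G] [Finite G] {A B : Subgroup G} (hAB : A ≤ B)
    (hc : Nat.card B ≤ 3 * Nat.card A) {g : G} (hg : g ∈ B) {q : ℕ} (hq : q.Prime) (hq5 : 5 ≤ q) (hgq : g ^ q = 1) :
    g ∈ A := by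
  classical
  let A' : Subgroup B := A.subgroupOf B
  have h1 : Nat.card A' = Nat.card A := Nat.card_congr (Subgroup.subgroupOfEquivOfLe hAB).toEquiv
  have h2 := Subgroup.index_mul_card A'
  rw [h1] at h2
  have hpos : 0 < Nat.card A := Nat.card_pos
  have hidx : A'.index ≤ 3 := by
    by_contra hh
    push Not at hh
    have : 4 * Nat.card A ≤ A'.index * Nat.card A := Nat.mul_le_mul_right _ hh
    omega
  have hcard : Nat.card (B ⧸ A') = A'.index := rfl
  let φ := MulAction.toPermHom B (B ⧸ A')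
  let g' : B := ⟨g, hg⟩
  have h3 : (φ g') ^ q = 1 := by
    rw [← map_pow]
    have : g' ^ q = 1 := Subtype.ext hgq
    rw [this, map_one]
  have h4 : (φ g') ^ (Nat.card (Equiv.Perm (B ⧸ A'))) = 1 := pow_card_eq_one'
  rw [Nat.card_perm, hcard] at h4
  have hdvd : A'.index.factorial ∣ 6 := by
    have := Nat.factorial_dvd_factorial hidx
    simpa [Nat.factorial] using this
  have h5 : (φ g') ^ 6 = 1 := by
    obtain ⟨c, hc⟩ := hdvd
    rw [hc, pow_mul, h4, one_pow]
  have hcop : Nat.Coprime q 6 := by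
    rw [Nat.coprime_comm]
    have h2 : ¬ q ∣ 6 := by
      intro hd
      have := Nat.le_of_dvd (by norm_num) hd
      interval_cases q <;> first | omega | (exfalso; revert hq; norm_num) | (revert hd; norm_num)
    exact ((Nat.Prime.coprime_iff_not_dvd hq).2 h2).symm
  have h6 : φ g' = 1 := by
    have := pow_gcd_eq_one.2 ⟨h3, h5⟩
    rwa [hcop.gcd_eq_one, pow_one] at this
  have h7 : g' • ((1 : B) : B ⧸ A') = ((1 : B) : B ⧸ A') := by
    have : (φ g') ((1 : B) : B ⧸ A') = ((1 : B) : B ⧸ A') := by rw [h6]; rfl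
    exact this
  have h8 : ((g' : B) : B ⧸ A') = ((1 : B) : B ⧸ A') := by
    rw [← h7]
    simp
  have h9 : g'⁻¹ * 1 ∈ A' := QuotientGroup.eq.1 h8
  have h10 : g' ∈ A' := by simpa using h9
  exact h10

/-- The stabiliser of a trio has order 64512. -/
theorem card_stab_trio {T : Finset (Finset GolayPt)} (hT : T ∈ trios) :
    Nat.card (MulAction.stabilizer M24 T) = 64512 := by
  have h1 := Subgroup.index_mul_card (MulAction.stabilizer M24 T)
  have h0 : MulAction.orbit M24 T = trios := Cfsg.Agent.Lib.Sporadic.M24TrioTrans.orbit_trio hT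
  rw [MulAction.index_stabilizer, h0, card_M24] at h1
  have h2 : trios.ncard = 3795 := Cfsg.Agent.S1557.result.2
  rw [h2] at h1
  omega

theorem mem_stab_ff {S : Finset (Finset GolayPt)} (s : M24) :
    s ∈ MulAction.stabilizer M24 S ↔ (s : Equiv.Perm GolayPt) • S = S := by
  rw [MulAction.mem_stabilizer_iff]; rfl

/-- Bounding the order by the stabiliser of a family. -/
theorem card_dvd_stab_ff {Y : Subgroup P} (hYM : Y ≤ M24) {S : Finset (Finset GolayPt)}
    (h : ∀ y ∈ Y, y • S = S) : Nat.card Y ∣ Nat.card (MulAction.stabilizer M24 S) := by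
  let Y' : Subgroup (MulAction.stabilizer M24 S) :=
    ((Y.comap (M24 : Subgroup P).subtype).subgroupOf (MulAction.stabilizer M24 S))
  have : Nat.card Y' = Nat.card Y := by
    apply Nat.card_congr
    exact
      { toFun := fun x => ⟨x.1.1.1, x.2⟩
        invFun := fun x => ⟨⟨⟨x.1, hYM x.2⟩, (mem_stab_ff _).2 (h x.1 x.2)⟩, x.2⟩
        left_inv := fun _ => rfl
        right_inv := fun _ => rfl }
  rw [← this]
  exact Subgroup.card_subgroup_dvd_card Y'

/-- Bounding the order by the stabiliser of a set. -/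
theorem card_dvd_stab {Y : Subgroup P} (hYM : Y ≤ M24) {S : Finset GolayPt}
    (h : ∀ y ∈ Y, y • S = S) : Nat.card Y ∣ Nat.card (MulAction.stabilizer M24 S) := by
  let Y' : Subgroup (MulAction.stabilizer M24 S) :=
    ((Y.comap (M24 : Subgroup P).subtype).subgroupOf (MulAction.stabilizer M24 S))
  have : Nat.card Y' = Nat.card Y := by
    apply Nat.card_congr
    exact
      { toFun := fun x => ⟨x.1.1.1, x.2⟩
        invFun := fun x => ⟨⟨⟨x.1, hYM x.2⟩, (mem_stabilizer_M24_finset _ _).2 (h x.1 x.2)⟩, x.2⟩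
        left_inv := fun _ => rfl
        right_inv := fun _ => rfl }
  rw [← this]
  exact Subgroup.card_subgroup_dvd_card Y'

/-- Recognising a subgroup as a stabiliser. -/
theorem eq_stab_of_conj (H : Subgroup M24) {m : P} (hm : m ∈ M24) {s : Finset GolayPt}
    (hs : ∀ y ∈ H, (m * (y : P) * m⁻¹) • s = s)
    (hc : Nat.card (MulAction.stabilizer M24 (m⁻¹ • s)) ≤ Nat.card H) :
    H = MulAction.stabilizer M24 (m⁻¹ • s) := by
  refine Subgroup.eq_of_le_of_card_ge ?_ hc
  intro y hy
  rw [mem_stabilizer_M24_finset]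
  have := hs y hy
  rw [mul_smul, mul_smul] at this
  exact (smul_eq_iff_eq_inv_smul m).1 this

/-- Recognising a subgroup as a stabiliser of a family. -/
theorem eq_stab_of_conj_ff (H : Subgroup M24) {m : P} (hm : m ∈ M24) {s : Finset (Finset GolayPt)}
    (hs : ∀ y ∈ H, (m * (y : P) * m⁻¹) • s = s)
    (hc : Nat.card (MulAction.stabilizer M24 (m⁻¹ • s)) ≤ Nat.card H) :
    H = MulAction.stabilizer M24 (m⁻¹ • s) := by
  refine Subgroup.eq_of_le_of_card_ge ?_ hc
  intro y hy
  rw [mem_stab_ff]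
  have := hs y hy
  rw [mul_smul, mul_smul] at this
  exact (smul_eq_iff_eq_inv_smul m).1 this

end Cfsg.Agent.Lib.Sporadic.M24Idx
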