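import Cfsg.Agent.Lib.Sporadic.M24TblGroup

/-!
# A subgroup of order nine, as products of elements of orders five and seven
-/

set_option autoImplicit false

namespace Cfsg.Agent.Lib.Sporadic.M24Idx

open Cfsg.Agent.Lib.Sporadic.M24Tbl Cfsg.Agent.Lib.Sporadic.M24Chain Cfsg.Agent.Lib.Sporadic.M24TblGroup

/-- Powers of tables. -/
def powT (A : List ℕ) : ℕ → List ℕ
  | 0 => idTbl
  | n + 1 => tcomp (powT A n) A

theorem tblOf_pow (g : Equiv.Perm Cfsg.GolayPt) (n : ℕ) : tblOf (g ^ n) = powT (tblOf g) n := by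
  induction n with
  | zero => rw [pow_zero, tblOf_one]; rfl
  | succ n ih => rw [pow_succ, tblOf_mul, ih]; rfl

/-- The factorisations. -/
def pairs9 : List (List ℕ × ℕ × List ℕ × ℕ) := [
  ([0,1,4,12,3,9,8,7,18,13,2,21,10,11,17,16,20,6,14,15,22,5,19,23], 5, [0,1,10,4,2,21,17,7,6,5,12,13,3,9,18,19,15,14,8,22,16,11,20,23], 5),
  ([0,1,4,12,3,9,8,7,18,13,2,21,10,11,17,16,20,6,14,15,22,5,19,23], 5, [0,1,12,22,2,15,14,20,9,5,19,4,17,8,21,10,18,3,6,13,16,7,11,23], 7),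
  ([0,1,6,19,20,2,12,9,10,14,16,3,13,5,21,15,22,7,8,4,11,17,18,23], 5, [0,1,15,20,19,9,6,14,22,7,5,3,21,18,10,8,13,2,12,11,4,16,17,23], 5),
  ([0,1,4,12,3,9,8,7,18,13,2,21,10,11,17,16,20,6,14,15,22,5,19,23], 5, [0,1,4,14,5,21,19,11,9,16,22,17,12,8,18,13,15,10,6,3,2,20,7,23], 5),
  ([0,1,6,19,20,2,12,9,10,14,16,3,13,5,21,15,22,7,8,4,11,17,18,23], 5, [0,1,3,6,7,10,5,17,22,4,20,21,15,18,13,11,9,8,12,2,19,14,16,23], 7),
  ([0,1,4,12,3,9,8,7,18,13,2,21,10,11,17,16,20,6,14,15,22,5,19,23], 5, [0,1,13,17,5,18,12,20,6,16,4,3,10,9,15,22,21,19,8,14,2,7,11,23], 7),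
  ([0,1,6,19,20,2,12,9,10,14,16,3,13,5,21,15,22,7,8,4,11,17,18,23], 5, [0,1,21,5,4,13,20,16,22,19,6,15,3,18,9,2,10,11,12,8,7,17,14,23], 5),
  ([0,1,4,12,3,9,8,7,18,13,2,21,10,11,17,16,20,6,14,15,22,5,19,23], 5, [0,1,3,12,16,15,4,11,6,2,17,10,13,9,21,14,18,22,8,19,5,20,7,23], 5),
  ([0,1,4,12,3,9,8,7,18,13,2,21,10,11,17,16,20,6,14,15,22,5,19,23], 5, [0,1,17,19,16,18,22,7,9,2,14,12,4,8,15,3,21,13,6,10,5,11,20,23], 5)]

/-- The check of one factorisation. -/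
def pairOK (e : List ℕ × ℕ × List ℕ × ℕ) : Bool :=
  goodT e.1 && goodT e.2.2.1 && (powT e.1 e.2.1 == idTbl) && (powT e.2.2.1 e.2.2.2 == idTbl) &&
    (e.2.1 == 5 || e.2.1 == 7) && (e.2.2.2 == 5 || e.2.2.2 == 7) &&
    (e.1.getD 23 0 == 23) && (e.1.getD 0 0 == 0) && (e.1.getD 1 0 == 1) &&
    (e.2.2.1.getD 23 0 == 23) && (e.2.2.1.getD 0 0 == 0) && (e.2.2.1.getD 1 0 == 1)

theorem pairs9_ok : pairs9.all pairOK = true := by decide +kernel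

/-- The elements of the subgroup of order nine. -/
def e9 : List (List ℕ) := pairs9.map fun e => tcomp e.1 e.2.2.1

theorem e9_tg : tgCheck e9 = true := by decide +kernel

theorem e9_len : e9.length = 9 := by decide +kernel

end Cfsg.Agent.Lib.Sporadic.M24Idx
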