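import Cfsg.Agent.Lib.Sporadic.M24IdxBase

/-!
# Subgroups of index 276 of the group of the length-24 code
-/

set_option autoImplicit false

namespace Cfsg.Agent.Lib.Sporadic.M24Idx

open Cfsg Cfsg.Agent.Lib.Sporadic.GolayCore Cfsg.Agent.Lib.Sporadic.M24Tbl
open Cfsg.Agent.Lib.Sporadic.M24Chain Cfsg.Agent.Lib.Sporadic.M24Basic Cfsg.Agent.Lib.Sporadic.M24TblGroup
open Cfsg.Agent.Lib.Sporadic.M24Act Cfsg.Agent.Lib.Sporadic.M24Syl Cfsg.Agent.Lib.Sporadic.M24TData
open Cfsg.Agent.Lib.Sporadic.M24T Cfsg.Agent.Lib.Sporadic.M24I253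
open scoped Pointwise

local notation "P" => Equiv.Perm GolayPt

/-- The residue of an orbit. -/
theorem orb_res {X : Subgroup P} (a : GolayPt) {h : P} (hX : h ∈ X) {q : ℕ} [hq : Fact q.Prime] (hh : h ^ q = 1)
    {e : Finset GolayPt} (he : ∀ x ∈ e, h x = x) (hd : ∀ x ∈ e, x ∉ orb X a) :
    (orb X a).card % q + e.card ≤ (Finset.univ.filter fun x => h x = x).card := by
  classical
  have h1 := orb_mod a hX hh
  have h2 : ((orb X a).filter fun x => h x = x).card + e.card ≤ (Finset.univ.filter fun x => h x = x).card := by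
    rw [← Finset.card_union_of_disjoint]
    · apply Finset.card_le_card
      intro x hx
      rcases Finset.mem_union.1 hx with hx | hx
      · exact Finset.mem_filter.2 ⟨Finset.mem_univ _, (Finset.mem_filter.1 hx).2⟩
      · exact Finset.mem_filter.2 ⟨Finset.mem_univ _, he x hx⟩
    · rw [Finset.disjoint_left]
      intro x hx hx'
      exact hd x hx' (Finset.mem_filter.1 hx).1
  have h3 : (orb X a).card % q = ((orb X a).filter fun x => h x = x).card % q := h1
  have h4 := Nat.mod_le ((orb X a).filter fun x => h x = x).card q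
  omega

/-- The number of fixed points of an element of order seven. -/
theorem fix7 {h : P} (hM : h ∈ M24) (hh : h ^ 7 = 1) (h1 : h ≠ 1) : (Finset.univ.filter fun x => h x = x).card = 3 := by
  haveI : Fact (Nat.Prime 7) := ⟨by norm_num⟩
  have h2 := fix_le_four hM (q := 7) (by norm_num) hh h1
  have h3 := card_fix_mod (q := 7) hh
  have h4 : (Finset.univ.filter fun x => h x = x).card % 7 = 24 % 7 := h3
  omega

/-- The number of fixed points of an element of order eleven. -/
theorem fix11 {h : P} (hM : h ∈ M24) (hh : h ^ 11 = 1) (h1 : h ≠ 1) : (Finset.univ.filter fun x => h x = x).card = 2 := by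
  haveI : Fact (Nat.Prime 11) := ⟨by norm_num⟩
  have h2 := fix_le_four hM (q := 11) (by norm_num) hh h1
  have h3 := card_fix_mod (q := 11) hh
  have h4 : (Finset.univ.filter fun x => h x = x).card % 11 = 24 % 11 := h3
  omega

/-- No transitive group of order 887040. -/
theorem no_trans_276 {H : Subgroup P} (hM : H ≤ M24) (hc : Nat.card H = 887040) (ht : ∀ a z, ∃ h ∈ H, h a = z) : False := by
  classical
  haveI : Fact (Nat.Prime 7) := ⟨by norm_num⟩
  haveI : Fact (Nat.Prime 11) := ⟨by norm_num⟩
  have hXc : ∀ a : GolayPt, Nat.card ↥(H ⊓ MulAction.stabilizer P a) = 36960 := by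
    intro a
    have := card_trans (ht a)
    omega
  have hXM : ∀ a : GolayPt, H ⊓ MulAction.stabilizer P a ≤ M24 := fun a g hg => hM (Subgroup.mem_inf.1 hg).1
  have hfixa : ∀ a : GolayPt, ∀ g ∈ H ⊓ MulAction.stabilizer P a, g a = a := fun a g hg => (Subgroup.mem_inf.1 hg).2
  have main : ∀ a : GolayPt, ∃ b : GolayPt, b ≠ a ∧ (∀ g ∈ H ⊓ MulAction.stabilizer P a, g b = b) ∧
      ∀ c, (∀ g ∈ H ⊓ MulAction.stabilizer P a, g c = c) → c = a ∨ c = b := by
    intro a
    obtain ⟨y11, hy11, p11, n11⟩ := exists_order (H ⊓ MulAction.stabilizer P a) (q := 11) (by rw [hXc]; norm_num)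
    obtain ⟨y7, hy7, p7, n7⟩ := exists_order (H ⊓ MulAction.stabilizer P a) (q := 7) (by rw [hXc]; norm_num)
    have f11 := fix11 (hXM a hy11) p11 n11
    have f7 := fix7 (hXM a hy7) p7 n7
    have hanot : ∀ c, c ≠ a → a ∉ orb (H ⊓ MulAction.stabilizer P a) c := by
      intro c hca h1
      obtain ⟨g, hg, e⟩ := mem_orb.1 h1
      apply hca
      apply g.injective
      rw [e, hfixa a g hg]
    have hsize : ∀ c, c ≠ a → (orb (H ⊓ MulAction.stabilizer P a) c).card = 1 ∨ (orb (H ⊓ MulAction.stabilizer P a) c).card = 22 := by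
      intro c hca
      have h1 := orb_res (X := H ⊓ MulAction.stabilizer P a) c hy11 p11 (e := {a}) (by simpa using hfixa a _ hy11)
        (by simpa using hanot c hca)
      have h2 := orb_res (X := H ⊓ MulAction.stabilizer P a) c hy7 p7 (e := {a}) (by simpa using hfixa a _ hy7)
        (by simpa using hanot c hca)
      rw [f11, Finset.card_singleton] at h1
      rw [f7, Finset.card_singleton] at h2
      have h3 := orb_card_dvd (H ⊓ MulAction.stabilizer P a) c
      rw [hXc] at h3
      have h4 : (orb (H ⊓ MulAction.stabilizer P a) c).card ≤ 23 := by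
        have h5 : orb (H ⊓ MulAction.stabilizer P a) c ⊆ Finset.univ.erase a := by
          intro x hx
          refine Finset.mem_erase.2 ⟨?_, Finset.mem_univ _⟩
          rintro rfl
          exact hanot c hca hx
        have h6 := Finset.card_le_card h5
        rw [Finset.card_erase_of_mem (Finset.mem_univ _), card_univ_pts] at h6
        exact h6
      have h5 : 0 < (orb (H ⊓ MulAction.stabilizer P a) c).card :=
        Finset.card_pos.2 ⟨c, self_mem_orb _ _⟩
      generalize (orb (H ⊓ MulAction.stabilizer P a) c).card = t at h1 h2 h3 h4 h5 ⊢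
      interval_cases t <;> first | omega | (exfalso; revert h3; norm_num)
    have hbex : ∃ b, b ≠ a ∧ ∀ g ∈ H ⊓ MulAction.stabilizer P a, g b = b := by
      obtain ⟨c, hc⟩ : ∃ c, c ≠ a := by
        by_cases h : a = pt 0
        · exact ⟨pt 1, by rw [h]; decide +kernel⟩
        · exact ⟨pt 0, fun e => h e.symm⟩
      rcases hsize c hc with h1 | h1
      · refine ⟨c, hc, fun g hg => ?_⟩
        obtain ⟨u, hu⟩ := Finset.card_eq_one.1 h1
        have h2 := self_mem_orb (H ⊓ MulAction.stabilizer P a) c
        have h3 : g c ∈ orb (H ⊓ MulAction.stabilizer P a) c := mem_orb.2 ⟨g, hg, rfl⟩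
        rw [hu, Finset.mem_singleton] at h2 h3
        exact h3.trans h2.symm
      · -- the complement of the orbit and of the point has one element
        have h2 : (insert a (orb (H ⊓ MulAction.stabilizer P a) c)).card = 23 := by
          rw [Finset.card_insert_of_notMem (hanot c hc), h1]
        have h3 : ((insert a (orb (H ⊓ MulAction.stabilizer P a) c))ᶜ).card = 1 := by
          rw [Finset.card_compl, h2, Fintype.card_eq_nat_card, Nat.card_eq_fintype_card, ← Finset.card_univ, card_univ_pts]
        obtain ⟨b, hb⟩ := Finset.card_eq_one.1 h3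
        have hbm : b ∈ (insert a (orb (H ⊓ MulAction.stabilizer P a) c))ᶜ := by
          rw [hb]
          exact Finset.mem_singleton_self _
        rw [Finset.mem_compl, Finset.mem_insert, not_or] at hbm
        refine ⟨b, hbm.1, fun g hg => ?_⟩
        have h4 : g b ∈ (insert a (orb (H ⊓ MulAction.stabilizer P a) c))ᶜ := by
          rw [Finset.mem_compl, Finset.mem_insert, not_or]
          refine ⟨?_, ?_⟩
          · intro e
            apply hbm.1
            apply g.injective
            rw [e, hfixa a g hg]
          · intro e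
            exact hbm.2 ((apply_mem_orb hg).1 e)
        rw [hb, Finset.mem_singleton] at h4
        exact h4
    obtain ⟨b, hba, hb⟩ := hbex
    refine ⟨b, hba, hb, ?_⟩
    intro c hc'
    by_contra hne
    push Not at hne
    have h1 : ({a, b, c} : Finset GolayPt) ⊆ Finset.univ.filter fun x => y11 x = x := by
      intro x hx
      simp only [Finset.mem_insert, Finset.mem_singleton] at hx
      refine Finset.mem_filter.2 ⟨Finset.mem_univ _, ?_⟩
      rcases hx with rfl | rfl | rfl
      · exact hfixa _ _ hy11
      · exact hb _ hy11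
      · exact hc' _ hy11
    have h2 := Finset.card_le_card h1
    rw [f11, Finset.card_eq_three.2 ⟨a, b, c, hba.symm, hne.1.symm, hne.2.symm, rfl⟩] at h2
    omega
  choose φ hφ1 hφ2 hφ3 using main
  have hinv : ∀ a, φ (φ a) = a := by
    intro a
    have hle : H ⊓ MulAction.stabilizer P a ≤ H ⊓ MulAction.stabilizer P (φ a) := by
      intro g hg
      exact Subgroup.mem_inf.2 ⟨(Subgroup.mem_inf.1 hg).1, hφ2 a g hg⟩
    have heq := Subgroup.eq_of_le_of_card_ge hle (by rw [hXc, hXc])
    have h1 : ∀ g ∈ H ⊓ MulAction.stabilizer P (φ a), g a = a := by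
      intro g hg
      rw [← heq] at hg
      exact hfixa a g hg
    rcases hφ3 (φ a) a h1 with h2 | h2
    · exact absurd h2.symm (hφ1 a)
    · exact h2.symm
  obtain ⟨y7, hy7, p7, n7⟩ := exists_order H (q := 7) (by rw [hc]; norm_num)
  have f7 := fix7 (hM hy7) p7 n7
  let e : P := Function.Involutive.toPerm φ hinv
  have he2 : e ^ 2 = 1 := by
    apply Equiv.ext
    intro x
    show φ (φ x) = x
    exact hinv x
  have hΩ1 : ∀ x, y7 x = x → y7 (φ x) = φ x := by
    intro x hx
    exact hφ2 x y7 (Subgroup.mem_inf.2 ⟨hy7, hx⟩)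
  have hΩ : ∀ x, e x ∈ (Finset.univ.filter fun x => y7 x = x) ↔ x ∈ (Finset.univ.filter fun x => y7 x = x) := by
    intro x
    simp only [Finset.mem_filter, Finset.mem_univ, true_and]
    constructor
    · intro h
      have := hΩ1 _ h
      have e2 : φ (e x) = x := hinv x
      rwa [e2] at this
    · exact hΩ1 x
  haveI : Fact (Nat.Prime 2) := ⟨Nat.prime_two⟩
  have h1 := card_mod (p := 2) he2 _ hΩ
  have h2 : ((Finset.univ.filter fun x => y7 x = x).filter fun x => e x = x) = ∅ := by
    apply Finset.filter_eq_empty_iff.2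
    intro x _
    exact hφ1 x
  rw [h2, f7, Finset.card_empty] at h1
  revert h1
  decide

/-- The stabiliser of a duad. -/
theorem card_stab_duad {s : Finset GolayPt} (hs : s.card = 2) : Nat.card (MulAction.stabilizer M24 s) = 887040 := by
  classical
  have h1 := Subgroup.index_mul_card (MulAction.stabilizer M24 s)
  have h2 : MulAction.orbit M24 s = ((Finset.powersetCard 2 (Finset.univ : Finset GolayPt) : Finset (Finset GolayPt)) : Set (Finset GolayPt)) := by
    ext t
    simp only [Finset.mem_coe, Finset.mem_powersetCard, Finset.subset_univ, true_and]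
    constructor
    · rintro ⟨⟨g, hg⟩, rfl⟩
      show ((g : P) • s).card = 2
      rw [Finset.card_smul_finset, hs]
    · intro ht
      obtain ⟨g, hg, e⟩ := exists_smul_eq_of_card (s := s) (t := t) (by rw [hs, ht]) (by rw [hs]; norm_num)
      exact ⟨⟨g, hg⟩, e⟩
  rw [MulAction.index_stabilizer, h2, Set.ncard_coe_finset, Finset.card_powersetCard, card_univ_pts, card_M24] at h1
  have h3 : Nat.choose 24 2 = 276 := by decide
  rw [h3] at h1
  omega

/-- Subgroups of index 276 stabilise a duad. -/
theorem duad_276 {H : Subgroup P} (hM : H ≤ M24) (hc : Nat.card H = 887040) :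
    ∃ s : Finset GolayPt, s.card = 2 ∧ ∀ y ∈ H, y • s = s := by
  classical
  haveI : Fact (Nat.Prime 7) := ⟨by norm_num⟩
  haveI : Fact (Nat.Prime 11) := ⟨by norm_num⟩
  obtain ⟨y11, hy11, p11, n11⟩ := exists_order H (q := 11) (by rw [hc]; norm_num)
  obtain ⟨y7, hy7, p7, n7⟩ := exists_order H (q := 7) (by rw [hc]; norm_num)
  have f11 := fix11 (hM hy11) p11 n11
  have f7 := fix7 (hM hy7) p7 n7
  have hsize : ∀ a, (orb H a).card = 1 ∨ (orb H a).card = 2 ∨ (orb H a).card = 22 ∨ (orb H a).card = 24 := by
    intro a
    have h1 := orb_res (X := H) a hy11 p11 (e := ∅) (by simp) (by simp)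
    have h2 := orb_res (X := H) a hy7 p7 (e := ∅) (by simp) (by simp)
    rw [f11, Finset.card_empty] at h1
    rw [f7, Finset.card_empty] at h2
    have h3 := orb_card_dvd H a
    rw [hc] at h3
    have h4 : (orb H a).card ≤ 24 := by
      have := Finset.card_le_card (Finset.subset_univ (orb H a))
      rwa [card_univ_pts] at this
    have h5 : 0 < (orb H a).card := Finset.card_pos.2 ⟨a, self_mem_orb _ _⟩
    generalize (orb H a).card = t at h1 h2 h3 h4 h5 ⊢
    interval_cases t <;> first | omega | (exfalso; revert h3; norm_num)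
  have hinvs : ∀ a, ∀ y ∈ H, y • orb H a = orb H a := by
    intro a y hy
    apply Finset.eq_of_subset_of_card_le
    · intro p hp
      obtain ⟨q, hq, rfl⟩ := Finset.mem_smul_finset.1 hp
      exact (apply_mem_orb hy).2 hq
    · rw [Finset.card_smul_finset]
  -- orbits of size one are impossible
  have h1 : ∀ a, (orb H a).card ≠ 1 := by
    intro a h
    have hfix : ∀ y ∈ H, y a = a := by
      intro y hy
      obtain ⟨u, hu⟩ := Finset.card_eq_one.1 h
      have h2 := self_mem_orb H a
      have h3 : y a ∈ orb H a := mem_orb.2 ⟨y, hy, rfl⟩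
      rw [hu, Finset.mem_singleton] at h2 h3
      exact h3.trans h2.symm
    let Y' : Subgroup (MulAction.stabilizer M24 a) :=
      ((H.comap (M24 : Subgroup P).subtype).subgroupOf (MulAction.stabilizer M24 a))
    have h2 : Nat.card Y' = Nat.card H := by
      apply Nat.card_congr
      exact
        { toFun := fun x => ⟨x.1.1.1, x.2⟩
          invFun := fun x => ⟨⟨⟨x.1, hM x.2⟩, (mem_stabilizer_M24 _ _).2 (hfix x.1 x.2)⟩, x.2⟩
          left_inv := fun _ => rfl
          right_inv := fun _ => rfl }
    have h3 := Subgroup.card_subgroup_dvd_card Y'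
    rw [h2, hc, card_stab_one] at h3
    revert h3
    norm_num
  by_cases h2 : ∃ a, (orb H a).card = 2
  · obtain ⟨a, ha⟩ := h2
    exact ⟨orb H a, ha, hinvs a⟩
  · push Not at h2
    exfalso
    have hbig : ∀ a, (orb H a).card = 24 := by
      intro a
      rcases hsize a with h3 | h3 | h3 | h3
      · exact absurd h3 (h1 a)
      · exact absurd h3 (h2 a)
      · exfalso
        obtain ⟨p, hp⟩ : ∃ p, p ∉ orb H a := by
          by_contra hh
          push Not at hh
          have h4 : (Finset.univ : Finset GolayPt) ⊆ orb H a := fun z _ => hh z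
          have h5 := Finset.card_le_card h4
          rw [card_univ_pts, h3] at h5
          omega
        have h4 : Disjoint (orb H a) (orb H p) := by
          rw [Finset.disjoint_left]
          intro x hx hx'
          obtain ⟨g, hg, rfl⟩ := mem_orb.1 hx'
          exact hp ((apply_mem_orb hg).1 hx)
        have h5 : (orb H a ∪ orb H p).card ≤ 24 := by
          have := Finset.card_le_card (Finset.subset_univ (orb H a ∪ orb H p))
          rwa [card_univ_pts] at this
        rw [Finset.card_union_of_disjoint h4, h3] at h5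
        rcases hsize p with h6 | h6 | h6 | h6
        · exact h1 p h6
        · exact h2 p h6
        · omega
        · omega
      · exact h3
    apply no_trans_276 hM hc
    intro a z
    have h3 : orb H a = Finset.univ := Finset.eq_univ_of_card _ (by
      rw [hbig a, ← Finset.card_univ, card_univ_pts])
    have h4 : z ∈ orb H a := by
      rw [h3]
      exact Finset.mem_univ _
    exact mem_orb.1 h4

end Cfsg.Agent.Lib.Sporadic.M24Idx
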