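import Cfsg.Agent.Lib.Sporadic.M24IdxOct
import Cfsg.Agent.Lib.Sporadic.M24IdxDuad

/-!
# Subgroups of odd small index of the group of the length-24 code
-/

set_option autoImplicit false

namespace Cfsg.Agent.Lib.Sporadic.M24Idx

open Cfsg Cfsg.Agent.Lib.Sporadic.GolayCore Cfsg.Agent.Lib.Sporadic.M24Tbl
open Cfsg.Agent.Lib.Sporadic.M24Chain Cfsg.Agent.Lib.Sporadic.M24Basic Cfsg.Agent.Lib.Sporadic.M24TblGroup
open Cfsg.Agent.Lib.Sporadic.M24Act Cfsg.Agent.Lib.Sporadic.M24Syl Cfsg.Agent.Lib.Sporadic.M24TData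
open Cfsg.Agent.Lib.Sporadic.M24T Cfsg.Agent.Lib.Sporadic.M24I253
open Cfsg.Agent.Lib.Sporadic.M24Sextet Cfsg.Agent.Lib.Sporadic.M24OctadStab
open Cfsg.Agent.Lib.Compute.M24 (P0 P0_le_M24 exists_T23 exists_T4)
open scoped Pointwise

local notation "P" => Equiv.Perm GolayPt

/-- The points fixed by the central involution. -/
theorem t8P_iff (p : GolayPt) : Cfsg.Agent.Lib.Compute.M24.t8P p = p ↔ p ∈ O8s := by
  rw [← Cfsg.Agent.Lib.Compute.M24.mem_O8_iff, mem_ofMask]
  cases p <;> rfl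

/-- Conjugating a subgroup of `M24` into normal form. -/
theorem normal_form {Y₀ : Subgroup P} (hY₀ : Y₀ ≤ M24) (h1024 : 1024 ∣ Nat.card Y₀) :
    ∃ m ∈ M24, ∃ Y : Subgroup P, (∀ z, z ∈ Y ↔ ∃ y ∈ Y₀, z = m * y * m⁻¹) ∧ Nat.card Y = Nat.card Y₀ ∧ Y ≤ M24 ∧
      ((∀ y ∈ Y, y • O8s = O8s) ∨ ((∀ z, ∃ h ∈ Y, h (pt 23) = z) ∧ T0 ≤ Y)) := by
  haveI : Fact (Nat.Prime 2) := ⟨Nat.prime_two⟩
  obtain ⟨g, hg, hle⟩ := exists_conj_contains (p := 2) (a := 10) hY₀ P0_le_M24
    (by rw [Cfsg.Agent.Lib.Compute.M24.card_P0]; norm_num) (by norm_num; exact h1024) (by rw [card_M24]; norm_num)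
  have hY₁M : Y₀.map (MulAut.conj g).toMonoidHom ≤ M24 := conj_le hg hY₀
  have hc1 : Nat.card (Y₀.map (MulAut.conj g).toMonoidHom) = Nat.card Y₀ := card_conj _ _
  generalize hY₁ : Y₀.map (MulAut.conj g).toMonoidHom = Y₁ at hle hY₁M hc1
  have hm1 : ∀ z, z ∈ Y₁ ↔ ∃ y ∈ Y₀, z = g * y * g⁻¹ := by
    intro z
    rw [← hY₁]
    exact mem_map_conj
  by_cases htr : ∀ z, ∃ h ∈ Y₁, h (pt 23) = z
  · have hcX := card_trans htr
    have hX₁ : Y₁ ⊓ MulAction.stabilizer P (pt 23) ≤ fixG [23] := by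
      intro x hx
      obtain ⟨h1, h2⟩ := Subgroup.mem_inf.1 hx
      refine mem_fixG.2 ⟨hY₁M h1, ?_⟩
      intro f hf
      rw [List.mem_singleton] at hf
      subst hf
      exact h2
    have h128 : 2 ^ 7 ∣ Nat.card ↥(Y₁ ⊓ MulAction.stabilizer P (pt 23)) := by
      rw [← hc1, hcX] at h1024
      have : Nat.Coprime (2 ^ 7) 3 := by norm_num
      apply this.dvd_of_dvd_mul_left
      obtain ⟨c, hc⟩ := h1024
      exact ⟨c, by omega⟩
    obtain ⟨g', hg', hle'⟩ := exists_conj_contains (p := 2) (a := 7) hX₁ T0_le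
      (by rw [card_T0]; norm_num) h128 (by rw [card_fixG_1]; norm_num)
    have hg'M := fixG_le_M24 _ hg'
    have hg23 : g' (pt 23) = pt 23 := (mem_fixG.1 hg').2 23 (by simp)
    refine ⟨g' * g, M24.mul_mem hg'M hg, Y₁.map (MulAut.conj g').toMonoidHom, ?_, ?_,
      conj_le hg'M hY₁M, Or.inr ⟨?_, ?_⟩⟩
    · intro z
      rw [mem_map_conj]
      constructor
      · rintro ⟨y, hy, rfl⟩
        obtain ⟨y', hy', rfl⟩ := (hm1 y).1 hy
        exact ⟨y', hy', by group⟩
      · rintro ⟨y, hy, rfl⟩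
        exact ⟨g * y * g⁻¹, (hm1 _).2 ⟨y, hy, rfl⟩, by group⟩
    · rw [card_conj, hc1]
    · intro z
      obtain ⟨h, hh, e⟩ := htr (g'⁻¹ z)
      refine ⟨g' * h * g'⁻¹, mem_map_conj.2 ⟨h, hh, rfl⟩, ?_⟩
      have h1 : g'⁻¹ (pt 23) = pt 23 := by
        rw [Equiv.Perm.inv_eq_iff_eq, hg23]
      simp only [Equiv.Perm.mul_apply, h1, e]
      simp
    · intro t ht
      obtain ⟨y, hy, e⟩ := mem_map_conj.1 (hle' ht)
      exact mem_map_conj.2 ⟨y, (Subgroup.mem_inf.1 hy).1, e⟩
  · refine ⟨g, hg, Y₁, hm1, hc1, hY₁M, Or.inl ?_⟩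
    have key : ∀ y ∈ Y₁, ∀ p ∈ O8s, y p ∈ O8s := by
      intro y hy p hp
      by_contra hout
      apply htr
      obtain ⟨t, ht, e⟩ := exists_T23 ((t8P_iff p).2 hp)
      have hout' : Cfsg.Agent.Lib.Compute.M24.t8P (y p) ≠ y p := fun h => hout ((t8P_iff _).1 h)
      obtain ⟨t1, ht1, e1, -⟩ := exists_T4 hout'
      intro z
      by_cases hz : z ∈ O8s
      · obtain ⟨t2, ht2, e2⟩ := exists_T23 ((t8P_iff z).2 hz)
        exact ⟨t2, hle ht2, e2⟩
      · have hz' : Cfsg.Agent.Lib.Compute.M24.t8P z ≠ z := fun h => hz ((t8P_iff _).1 h)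
        obtain ⟨t2, ht2, e2, -⟩ := exists_T4 hz'
        refine ⟨t2 * t1⁻¹ * (y * t), Y₁.mul_mem (Y₁.mul_mem (hle ht2) (Y₁.inv_mem (hle ht1))) (Y₁.mul_mem hy (hle ht)), ?_⟩
        have e3 : t (pt 23) = p := e
        have e4 : t1⁻¹ (y p) = Cfsg.Agent.Lib.Compute.Golay.idxPt 4 := by
          rw [Equiv.Perm.inv_eq_iff_eq, e1]
        simp only [Equiv.Perm.mul_apply, e3, e4, e2]
    intro y hy
    apply Finset.eq_of_subset_of_card_le
    · intro p hp
      obtain ⟨q, hq, rfl⟩ := Finset.mem_smul_finset.1 hp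
      exact key y hy q hq
    · rw [Finset.card_smul_finset]

/-- The stabiliser of the point in a transitive group. -/
theorem card_inf_fix {Y : Subgroup P} (hYM : Y ≤ M24) (ht : ∀ z, ∃ h ∈ Y, h (pt 23) = z) :
    Nat.card Y = 24 * Nat.card ↥(Y ⊓ fixG [23]) := by
  have h1 := card_trans ht
  have h2 : Y ⊓ MulAction.stabilizer P (pt 23) = Y ⊓ fixG [23] := by
    ext x
    rw [Subgroup.mem_inf, Subgroup.mem_inf]
    constructor
    · rintro ⟨h3, h4⟩
      refine ⟨h3, mem_fixG.2 ⟨hYM h3, ?_⟩⟩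
      intro f hf
      rw [List.mem_singleton] at hf
      subst hf
      exact h4
    · rintro ⟨h3, h4⟩
      exact ⟨h3, (mem_fixG.1 h4).2 23 (by simp)⟩
  rw [h2] at h1
  exact h1

theorem mem_inf_fix {Y : Subgroup P} (hYM : Y ≤ M24) {x : P} (hx : x ∈ Y) (h23 : x (pt 23) = pt 23) :
    x ∈ Y ⊓ fixG [23] := by
  refine Subgroup.mem_inf.2 ⟨hx, mem_fixG.2 ⟨hYM hx, ?_⟩⟩
  intro f hf
  rw [List.mem_singleton] at hf
  subst hf
  exact h23

theorem T0_le_inf {Y : Subgroup P} (hT : T0 ≤ Y) : T0 ≤ Y ⊓ fixG [23] := le_inf hT T0_le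

theorem five_sub : ∀ a b : Bool, 5 ≤ (insert (pt 23) (ofMask (mk a b false))).card ∧
    insert (pt 23) (ofMask (mk a b false)) ⊆ O8s := by
  decide +kernel

/-- Short orbits give the octad as a block. -/
theorem smul_O8s_of_orb {X : Subgroup P} (hX : X ≤ fixG [23]) {a b : Bool}
    (h : orb X (pt 3) = ofMask (mk a b false)) {x : P} (hx : x ∈ X) : x • O8s = O8s := by
  classical
  obtain ⟨h1, h2⟩ := five_sub a b
  have hinv : ∀ u ∈ insert (pt 23) (ofMask (mk a b false)), x⁻¹ u ∈ insert (pt 23) (ofMask (mk a b false)) := by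
    intro u hu
    rcases Finset.mem_insert.1 hu with rfl | hu
    · have h3 : x⁻¹ (pt 23) = pt 23 := (mem_fixG.1 (hX (X.inv_mem hx))).2 23 (by simp)
      rw [h3]
      exact Finset.mem_insert_self _ _
    · rw [← h] at hu
      have h3 := (apply_mem_orb (X.inv_mem hx)).2 hu
      rw [h] at h3
      exact Finset.mem_insert_of_mem h3
  symm
  apply eq_of_octads_of_five O8s_mem (smul_mem_octads (fixG_le_M24 _ (hX hx)) O8s_mem)
  refine h1.trans (Finset.card_le_card ?_)
  intro u hu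
  exact Finset.mem_inter.2 ⟨h2 hu, (mem_smul_iff_inv _ _ _).2 (h2 (hinv u hu))⟩

/-- No transitive subgroup of order 967680. -/
theorem no_253 {Y : Subgroup P} (hYM : Y ≤ M24) (hc : Nat.card Y = 967680) (ht : ∀ z, ∃ h ∈ Y, h (pt 23) = z)
    (hT : T0 ≤ Y) : False := by
  have h1 := card_inf_fix hYM ht
  have hcX : Nat.card ↥(Y ⊓ fixG [23]) = 40320 := by omega
  rcases main_cases (T0_le_inf hT) inf_le_right hcX with h | h
  · have h2 := card_le_of_octad_block hYM ht hT (by
      intro x hx h23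
      have h3 := mem_inf_fix hYM hx h23
      rw [h] at h3
      exact (Subgroup.mem_inf.1 h3).2)
    omega
  · apply no_duad_block hYM ht
    · intro g hg
      have h2 : g ∈ fixG [23] ⊓ stD := by
        obtain ⟨h3, h4⟩ := mem_fixG.1 hg
        have hD : ∀ p : GolayPt, p ∈ ofMask 3 ↔ p = pt 0 ∨ p = pt 1 := by decide +kernel
        refine Subgroup.mem_inf.2 ⟨mem_fixG.2 ⟨h3, ?_⟩, ?_⟩
        · intro f hf
          rw [List.mem_singleton] at hf
          subst hf
          exact h4 23 (by simp)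
        · show g • ofMask 3 = ofMask 3
          apply Finset.eq_of_subset_of_card_le
          · intro p hp
            obtain ⟨r, hr, rfl⟩ := Finset.mem_smul_finset.1 hp
            rcases (hD r).1 hr with rfl | rfl
            · show g (pt 0) ∈ _
              rw [h4 0 (by simp)]
              exact hr
            · show g (pt 1) ∈ _
              rw [h4 1 (by simp)]
              exact hr
          · rw [Finset.card_smul_finset]
      rw [← h] at h2
      exact (Subgroup.mem_inf.1 h2).1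
    · intro x hx h23
      have h3 := mem_inf_fix hYM hx h23
      rw [h] at h3
      exact (Subgroup.mem_inf.1 h3).2

/-- No transitive subgroup of order 322560. -/
theorem no_759 {Y : Subgroup P} (hYM : Y ≤ M24) (hc : Nat.card Y = 322560) (ht : ∀ z, ∃ h ∈ Y, h (pt 23) = z)
    (hT : T0 ≤ Y) : False := by
  have h1 := card_inf_fix hYM ht
  have hcX : Nat.card ↥(Y ⊓ fixG [23]) = 13440 := by omega
  have hX : Y ⊓ fixG [23] ≤ fixG [23] := inf_le_right
  rcases orb_two_cases (T0_le_inf hT) hX (by rw [hcX]; norm_num) (by rw [hcX]; norm_num) (by rw [hcX]; norm_num) with h | h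
  · have h2 := card_le_of_octad_block hYM ht hT (by
      intro x hx h23
      exact smul_O8s_of_orb hX h (mem_inf_fix hYM hx h23))
    omega
  · apply no_index3 (X := Y ⊓ fixG [23]) _ hcX
    intro g hg
    refine Subgroup.mem_inf.2 ⟨hX hg, ?_⟩
    have h23 := (mem_fixG.1 (hX hg)).2 23 (by simp)
    show g • ofMask 3 = ofMask 3
    apply Finset.eq_of_subset_of_card_le
    · intro p hp
      obtain ⟨q, hq, rfl⟩ := Finset.mem_smul_finset.1 hp
      have hsplit : ∀ q : GolayPt, q ∈ ofMask 3 ∨ q = pt 23 ∨ q ∈ ofMask (mk true false true) := by decide +kernel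
      have hnot : ∀ q : GolayPt, q ∈ ofMask 3 → q ≠ pt 23 ∧ q ∉ ofMask (mk true false true) := by decide +kernel
      obtain ⟨h3, h4⟩ := hnot q hq
      rcases hsplit (g q) with h5 | h5 | h5
      · exact h5
      · exfalso
        rw [← h23] at h5
        exact h3 (g.injective h5)
      · exfalso
        rw [← h] at h4 h5
        exact h4 ((apply_mem_orb hg).1 h5)
    · rw [Finset.card_smul_finset]

/-- One step of the count in a stabiliser of a set. -/
theorem step_tau {X : Subgroup P} {τ : Finset GolayPt} (hX : ∀ x ∈ X, x • τ = τ) (F : List ℕ) (b n : ℕ)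
    (hn : (τ.filter fun p => idx p ∉ F).card = n) (h0 : pt b ∈ τ) (hbF : b ∉ F) (hlt : b < 24) :
    Nat.card ↥(X ⊓ fixG F) ≤ n * Nat.card ↥(X ⊓ fixG (b :: F)) := by
  rw [← hn]
  apply card_le_step (pt b)
  · intro k hk
    obtain ⟨h1, h2⟩ := Subgroup.mem_inf.1 hk
    rw [Finset.mem_filter]
    refine ⟨?_, ?_⟩
    · rw [← hX k h1]
      exact (apply_mem_smul k _ _).2 h0
    · intro hf
      have h4 := (mem_fixG.1 h2).2 _ hf
      rw [pt_idx'] at h4
      have h6 := k.injective h4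
      rw [h6, idx_pt hlt] at hf
      exact hbF hf
  · intro k hk e
    obtain ⟨h1, h2⟩ := Subgroup.mem_inf.1 hk
    refine Subgroup.mem_inf.2 ⟨h1, mem_fixG.2 ⟨(mem_fixG.1 h2).1, ?_⟩⟩
    intro f hf
    rcases List.mem_cons.1 hf with rfl | hf
    · exact e
    · exact (mem_fixG.1 h2).2 f hf

/-- Four points. -/
abbrev tau4 : Finset GolayPt := {pt 23, pt 0, pt 1, pt 2}

/-- The subgroups of order 138240. -/
theorem sextet_1771 {Y : Subgroup P} (hYM : Y ≤ M24) (hc : Nat.card Y = 138240) (ht : ∀ z, ∃ h ∈ Y, h (pt 23) = z)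
    (hT : T0 ≤ Y) : ∃ S₀ ∈ sextets, ∀ y ∈ Y, y • S₀ = S₀ := by
  classical
  have h1 := card_inf_fix hYM ht
  have hcX : Nat.card ↥(Y ⊓ fixG [23]) = 5760 := by omega
  have hX : Y ⊓ fixG [23] ≤ fixG [23] := inf_le_right
  obtain ⟨a, b, c, -, -, -, e⟩ := orb_eq (T0_le_inf hT) hX
  have hd := orb_card_dvd (Y ⊓ fixG [23]) (pt 3)
  rw [e, popc_mk, hcX] at hd
  have hbig : orb (Y ⊓ fixG [23]) (pt 3) = ofMask (mk false false true) := by
    cases c
    · exfalso
      have h2 := card_le_of_octad_block hYM ht hT (by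
        intro x hx h23
        exact smul_O8s_of_orb hX e (mem_inf_fix hYM hx h23))
      omega
    · cases a <;> cases b
      · exact e
      all_goals exact absurd hd (by decide)
  have htau44 : tau4.card = 4 := by decide +kernel
  have htau4m : ∀ q : GolayPt, q ∈ tau4 ↔ q ∉ ofMask (mk false false true) := by decide +kernel
  have htau4 : ∀ x ∈ Y ⊓ fixG [23], x • tau4 = tau4 := by
    intro x hx
    apply Finset.eq_of_subset_of_card_le
    · intro p hp
      obtain ⟨q, hq, rfl⟩ := Finset.mem_smul_finset.1 hp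
      show x q ∈ tau4
      rw [htau4m] at hq ⊢
      rw [← hbig] at hq ⊢
      exact fun h3 => hq ((apply_mem_orb hx).1 h3)
    · rw [Finset.card_smul_finset]
  -- the pointwise stabiliser of the tetrad lies in the group
  have hF : fixG [2, 1, 0, 23] ≤ Y := by
    have s1 := step_tau htau4 [23] 0 3 (by decide +kernel) (by decide +kernel) (by decide) (by norm_num)
    have s2 := step_tau htau4 [0, 23] 1 2 (by decide +kernel) (by decide +kernel) (by decide) (by norm_num)
    have s3 := step_tau htau4 [1, 0, 23] 2 1 (by decide +kernel) (by decide +kernel) (by decide) (by norm_num)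
    have h3 : Nat.card ↥((Y ⊓ fixG [23]) ⊓ fixG [23]) = 5760 := by
      rw [inf_assoc, inf_idem]
      exact hcX
    have h4 : Y ⊓ fixG [23] ⊓ fixG [2, 1, 0, 23] ≤ fixG [2, 1, 0, 23] := inf_le_right
    have h5 := Subgroup.eq_of_le_of_card_ge h4 (by rw [card_fixG_4]; omega)
    intro g hg
    rw [← h5] at hg
    exact (Subgroup.mem_inf.1 (Subgroup.mem_inf.1 hg).1).1
  have hFY : ∀ g ∈ M24, (∀ x ∈ tau4, g x = x) → g ∈ Y := by
    intro g hg hx
    apply hF
    refine mem_fixG.2 ⟨hg, ?_⟩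
    intro f hf
    simp only [List.mem_cons, List.not_mem_nil, or_false] at hf
    rcases hf with rfl | rfl | rfl | rfl
    · exact hx _ (by decide +kernel)
    · exact hx _ (by decide +kernel)
    · exact hx _ (by decide +kernel)
    · exact hx _ (by decide +kernel)
  obtain ⟨S, h0, hS⟩ := exists_blocks (a := pt 23) (s := tau4) ht (fun x hx h23 => htau4 x (mem_inf_fix hYM hx h23))
  have hcard : ∀ z, (S z).card = 4 := by
    intro z
    obtain ⟨h, hh, rfl⟩ := ht z
    rw [← hS h hh, h0, Finset.card_smul_finset, htau44]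
  have h23 : pt 23 ∈ tau4 := by decide +kernel
  have hself := block_self ht h0 hS h23
  have hb : ∀ b ∈ tau4, S b = tau4 := by
    intro b hb
    have h3 : S b ⊆ tau4 := subset_of_invariant_fix tau4 (S b) (by rw [htau44])
      (fun g hg hgx => by rw [hS g (hFY g hg hgx) b, hgx b hb]) (by rw [hcard, htau44]; norm_num)
    exact Finset.eq_of_subset_of_card_le h3 (by rw [hcard, htau44])
  have hdisj : ∀ {x y}, S x ≠ S y → Disjoint (S x) (S y) := block_disj ht h0 hS hb
  have hall : ∀ z, sextetOf (S z) = sextetOf tau4 := by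
    intro z
    by_cases hz : z ∈ tau4
    · rw [hb z hz]
    · have h5 : (insert z tau4).card = 5 := by
        rw [Finset.card_insert_of_notMem hz, htau44]
      obtain ⟨o, ho, hso⟩ := exists_octad_of_five h5
      have h3 : S z ⊆ o := by
        apply subset_of_moves o (S z) ho.2 ?_ (by rw [hcard]; norm_num)
        intro p q hp hq
        obtain ⟨g, hg, h6, h7⟩ := trans_outside ho hp hq
        refine ⟨g, ?_, h7⟩
        have hgY : g ∈ Y := hFY g hg (fun x hx => h6 x (hso (Finset.mem_insert_of_mem hx)))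
        rw [hS g hgY z, h6 z (hso (Finset.mem_insert_self _ _))]
      have hne : S (pt 23) ≠ S z := by
        intro h6
        apply hz
        have h7 := hself z
        rw [← h6, h0] at h7
        exact h7
      have hdj := hdisj hne
      rw [h0] at hdj
      have hu : tau4 ∪ S z = o := by
        apply Finset.eq_of_subset_of_card_le
        · exact Finset.union_subset (fun x hx => hso (Finset.mem_insert_of_mem hx)) h3
        · rw [Finset.card_union_of_disjoint hdj, htau44, hcard, ho.2]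
      exact (sextetOf_eq_of_union htau44 (hcard z) (by rw [hu]; exact ho)).symm
  refine ⟨sextetOf tau4, sextetOf_mem htau44, ?_⟩
  intro y hy
  rw [smul_sextetOf (hYM hy) htau44]
  have h6 : y • tau4 = S (y (pt 23)) := by
    rw [← hS y hy, h0]
  rw [h6, hall]

end Cfsg.Agent.Lib.Sporadic.M24Idx
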