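import Cfsg.Agent.Lib.Sporadic.M24IdxBase
import Cfsg.Agent.Lib.Sporadic.M24IdxData

/-!
# Subgroups of small index: the blocks
-/

set_option autoImplicit false

namespace Cfsg.Agent.Lib.Sporadic.M24Idx

open Cfsg Cfsg.Agent.Lib.Sporadic.GolayCore Cfsg.Agent.Lib.Sporadic.M24Tbl
open Cfsg.Agent.Lib.Sporadic.M24Chain Cfsg.Agent.Lib.Sporadic.M24Basic Cfsg.Agent.Lib.Sporadic.M24TblGroup
open Cfsg.Agent.Lib.Sporadic.M24Act Cfsg.Agent.Lib.Sporadic.M24Syl Cfsg.Agent.Lib.Sporadic.M24TData
open Cfsg.Agent.Lib.Sporadic.M24T Cfsg.Agent.Lib.Sporadic.M24I253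
open Cfsg.Agent.Lib.Sporadic.M24Sextet Cfsg.Agent.Lib.Sporadic.M24OctadStab
open scoped Pointwise

local notation "P" => Equiv.Perm GolayPt

/-- The base octad. -/
abbrev O8s : Finset GolayPt := ofMask 8536111

theorem O8s_mem : O8s ∈ octads := by
  rw [ofMask_mem_octads_iff (by norm_num)]
  decide +kernel

theorem O8s_card : O8s.card = 8 := O8s_mem.2

theorem wT_ok : l16.all (fun y => T0L.any fun T =>
    ([23, 0, 1, 2, 3, 5, 14, 17].all fun x => T.getD x 0 == x) && T.getD 4 0 == y) = true := by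
  decide +kernel

theorem mem_O8s_iff : ∀ p : GolayPt, p ∈ O8s ↔ idx p ∈ [23, 0, 1, 2, 3, 5, 14, 17] := by decide +kernel

theorem not_mem_O8s_iff : ∀ p : GolayPt, p ∉ O8s ↔ idx p ∈ l16 := by decide +kernel

/-- Elements of the group of order 128 fixing the octad pointwise. -/
theorem exists_W {y : ℕ} (hy : y ∈ l16) : ∃ t ∈ T0, (∀ x ∈ O8s, t x = x) ∧ t (pt 4) = pt y := by
  obtain ⟨T, hT, e⟩ := List.any_eq_true.1 (List.all_eq_true.1 wT_ok y hy)
  obtain ⟨h1, h2⟩ := Bool.and_eq_true_iff.1 e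
  obtain ⟨t, -, ht⟩ := exists_of_good (tg_T0.good T hT)
  refine ⟨t, ?_, ?_, ?_⟩
  · show tblOf t ∈ T0L
    rw [ht]
    exact hT
  · intro x hx
    have h3 := List.all_eq_true.1 h1 (idx x) ((mem_O8s_iff x).1 hx)
    have h4 : T.getD (idx x) 0 = idx x := beq_iff_eq.1 h3
    apply idx_injective
    rw [idx_apply_eq_getD, ht, h4]
  · have h5 : T.getD 4 0 = y := beq_iff_eq.1 h2
    have h1 := getD_tblOf t (i := 4) (by norm_num)
    rw [ht, h5] at h1
    rw [← pt_idx' (t (pt 4)), ← h1]

theorem W_move {p q : GolayPt} (hp : p ∉ O8s) (hq : q ∉ O8s) :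
    ∃ t ∈ T0, (∀ x ∈ O8s, t x = x) ∧ t p = q := by
  obtain ⟨t1, h1, h2, h3⟩ := exists_W ((not_mem_O8s_iff p).1 hp)
  obtain ⟨t2, h4, h5, h6⟩ := exists_W ((not_mem_O8s_iff q).1 hq)
  rw [pt_idx'] at h3 h6
  refine ⟨t2 * t1⁻¹, T0.mul_mem h4 (T0.inv_mem h1), ?_, ?_⟩
  · intro x hx
    have : t1⁻¹ x = x := by rw [Equiv.Perm.inv_eq_iff_eq, h2 x hx]
    rw [Equiv.Perm.mul_apply, this, h5 x hx]
  · have h7 : t1⁻¹ p = pt 4 := by rw [Equiv.Perm.inv_eq_iff_eq, h3]
    rw [Equiv.Perm.mul_apply, h7, h6]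

section blocks

variable {Y : Subgroup P} {S : GolayPt → Finset GolayPt} {a : GolayPt} {s : Finset GolayPt}

theorem block_self (ht : ∀ z, ∃ h ∈ Y, h a = z) (h0 : S a = s) (hS : ∀ g ∈ Y, ∀ z, g • S z = S (g z))
    (ha : a ∈ s) (z : GolayPt) : z ∈ S z := by
  obtain ⟨h, hh, rfl⟩ := ht z
  rw [← hS h hh a, h0]
  exact (apply_mem_smul h _ _).2 ha

theorem block_eq (ht : ∀ z, ∃ h ∈ Y, h a = z) (h0 : S a = s) (hS : ∀ g ∈ Y, ∀ z, g • S z = S (g z))
    (hb : ∀ b ∈ s, S b = s) {z y : GolayPt} (hy : y ∈ S z) : S y = S z := by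
  obtain ⟨h, hh, rfl⟩ := ht z
  rw [← hS h hh a, h0] at hy ⊢
  obtain ⟨b, hb', rfl⟩ := Finset.mem_smul_finset.1 hy
  show S (h b) = h • s
  rw [← hS h hh b, hb b hb']

theorem block_disj (ht : ∀ z, ∃ h ∈ Y, h a = z) (h0 : S a = s) (hS : ∀ g ∈ Y, ∀ z, g • S z = S (g z))
    (hb : ∀ b ∈ s, S b = s) {x y : GolayPt} (hne : S x ≠ S y) : Disjoint (S x) (S y) := by
  rw [Finset.disjoint_left]
  intro w h1 h2
  exact hne ((block_eq ht h0 hS hb h1).symm.trans (block_eq ht h0 hS hb h2))

end blocks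

/-- A group with the base octad as a block has order at most that of a trio stabiliser. -/
theorem card_le_of_octad_block {Y : Subgroup P} (hYM : Y ≤ M24) (ht : ∀ z, ∃ h ∈ Y, h (pt 23) = z)
    (hT : T0 ≤ Y) (hs : ∀ x ∈ Y, x (pt 23) = pt 23 → x • O8s = O8s) : Nat.card Y ≤ 64512 := by
  classical
  obtain ⟨S, h0, hS⟩ := exists_blocks ht hs
  have h23 : pt 23 ∈ O8s := by decide +kernel
  have hcard : ∀ z, (S z).card = 8 := by
    intro z
    obtain ⟨h, hh, rfl⟩ := ht z
    rw [← hS h hh, h0, Finset.card_smul_finset, O8s_card]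
  have hoct : ∀ z, S z ∈ octads := by
    intro z
    obtain ⟨h, hh, rfl⟩ := ht z
    rw [← hS h hh, h0]
    exact smul_mem_octads (hYM hh) O8s_mem
  have hself := block_self ht h0 hS h23
  have hb : ∀ b ∈ O8s, S b = O8s := by
    intro b hb
    have h1 : S b ⊆ O8s := by
      apply subset_of_moves O8s (S b) O8s_card ?_ (by rw [hcard]; norm_num)
      intro p q hp hq
      obtain ⟨t, ht1, ht2, ht3⟩ := W_move hp hq
      refine ⟨t, ?_, ht3⟩
      rw [hS t (hT ht1) b, ht2 b hb]
    exact Finset.eq_of_subset_of_card_le h1 (by rw [hcard, O8s_card])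
  have hdisj : ∀ {x y}, S x ≠ S y → Disjoint (S x) (S y) := block_disj ht h0 hS hb
  have heq : ∀ {z y}, y ∈ S z → S y = S z := block_eq ht h0 hS hb
  have hp : pt 4 ∉ O8s := by decide +kernel
  have hq : ∃ q, q ∉ O8s ∪ S (pt 4) := by
    by_contra hh
    push Not at hh
    have h1 : (Finset.univ : Finset GolayPt) ⊆ O8s ∪ S (pt 4) := fun z _ => hh z
    have h2 := Finset.card_le_card h1
    have h3 := Finset.card_union_le O8s (S (pt 4))
    rw [card_univ_pts] at h2
    rw [hcard, O8s_card] at h3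
    omega
  obtain ⟨q, hq⟩ := hq
  rw [Finset.mem_union, not_or] at hq
  obtain ⟨hq1, hq2⟩ := hq
  have e0 : S (pt 23) = O8s := h0
  have n1 : S (pt 23) ≠ S (pt 4) := by
    intro e
    apply hp
    rw [← e0, e]
    exact hself _
  have n2 : S (pt 23) ≠ S q := by
    intro e
    apply hq1
    rw [← e0, e]
    exact hself _
  have n3 : S (pt 4) ≠ S q := by
    intro e
    apply hq2
    rw [e]
    exact hself _
  have hcov : ∀ z, z ∈ S (pt 23) ∪ (S (pt 4) ∪ S q) := by
    intro z
    have h1 : (S (pt 23) ∪ (S (pt 4) ∪ S q)).card = 24 := by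
      rw [Finset.card_union_of_disjoint (Finset.disjoint_union_right.2 ⟨hdisj n1, hdisj n2⟩),
        Finset.card_union_of_disjoint (hdisj n3), hcard, hcard, hcard]
    have h2 : S (pt 23) ∪ (S (pt 4) ∪ S q) = Finset.univ := by
      apply Finset.eq_univ_of_card
      rw [h1]
      rfl
    rw [h2]
    exact Finset.mem_univ z
  let T : Finset (Finset GolayPt) := {S (pt 23), S (pt 4), S q}
  have hmemT : ∀ z, S z ∈ T := by
    intro z
    have h1 := hcov z
    simp only [Finset.mem_union] at h1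
    simp only [T, Finset.mem_insert, Finset.mem_singleton]
    rcases h1 with h1 | h1 | h1
    · exact Or.inl (heq h1)
    · exact Or.inr (Or.inl (heq h1))
    · exact Or.inr (Or.inr (heq h1))
  have hT3 : T.card = 3 := Finset.card_eq_three.2 ⟨_, _, _, n1, n2, n3, rfl⟩
  have hTm : ∀ o, o ∈ T ↔ o = S (pt 23) ∨ o = S (pt 4) ∨ o = S q := by
    intro o
    simp only [T, Finset.mem_insert, Finset.mem_singleton]
  have htrio : T ∈ trios := by
    refine ⟨hT3, ?_, ?_⟩
    · intro o ho
      rcases (hTm o).1 ho with rfl | rfl | rfl <;> exact hoct _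
    · intro o ho o' ho' hne
      rcases (hTm o).1 ho with rfl | rfl | rfl <;> rcases (hTm o').1 ho' with rfl | rfl | rfl <;>
        first
          | exact absurd rfl hne
          | exact hdisj hne
  have hinv : ∀ y ∈ Y, y • T = T := by
    intro y hy
    apply Finset.eq_of_subset_of_card_le
    · intro o ho
      obtain ⟨o', ho', rfl⟩ := Finset.mem_smul_finset.1 ho
      rcases (hTm o').1 ho' with rfl | rfl | rfl <;>
        · show y • S _ ∈ T
          rw [hS y hy]
          exact hmemT _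
    · rw [Finset.card_smul_finset]
  have hd := card_dvd_stab_ff hYM hinv
  rw [card_stab_trio htrio] at hd
  exact Nat.le_of_dvd (by norm_num) hd

/-- The image of an erased set. -/
theorem smul_erase (h : P) (A : Finset GolayPt) (x : GolayPt) : h • A.erase x = (h • A).erase (h x) := by
  classical
  ext y
  rw [mem_smul_iff_inv, Finset.mem_erase, Finset.mem_erase, mem_smul_iff_inv]
  constructor
  · rintro ⟨h1, h2⟩
    refine ⟨?_, h2⟩
    rintro rfl
    exact h1 (by simp)
  · rintro ⟨h1, h2⟩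
    refine ⟨?_, h2⟩
    intro e
    apply h1
    rw [← e]
    simp

/-- Three points. -/
abbrev T3pts : Finset GolayPt := {pt 23, pt 0, pt 1}

/-- Four points. -/
abbrev F4pts : Finset GolayPt := insert (pt 2) T3pts

/-- There is no transitive group with point stabilisers fixing a duad in this way. -/
theorem no_duad_block {Y : Subgroup P} (hYM : Y ≤ M24) (ht : ∀ z, ∃ h ∈ Y, h (pt 23) = z)
    (hL : fixG [1, 0, 23] ≤ Y) (hs : ∀ x ∈ Y, x (pt 23) = pt 23 → x • ofMask 3 = ofMask 3) : False := by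
  classical
  obtain ⟨S, h0, hS⟩ := exists_blocks ht hs
  have hTcard : T3pts.card = 3 := by decide +kernel
  have hnot : pt 23 ∉ ofMask 3 := by decide +kernel
  have h3card : (ofMask 3).card = 2 := by decide +kernel
  have hcard : ∀ z, (S z).card = 2 := by
    intro z
    obtain ⟨h, hh, rfl⟩ := ht z
    rw [← hS h hh, h0, Finset.card_smul_finset, h3card]
  have hselfnot : ∀ z, z ∉ S z := by
    intro z
    obtain ⟨h, hh, rfl⟩ := ht z
    rw [← hS h hh, h0]
    exact fun hz => hnot ((apply_mem_smul h _ _).1 hz)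
  have hLY : ∀ g ∈ M24, (∀ x ∈ T3pts, g x = x) → g ∈ Y := by
    intro g hg hx
    apply hL
    refine mem_fixG.2 ⟨hg, ?_⟩
    intro f hf
    simp only [List.mem_cons, List.not_mem_nil, or_false] at hf
    rcases hf with rfl | rfl | rfl
    · exact hx _ (by decide +kernel)
    · exact hx _ (by decide +kernel)
    · exact hx _ (by decide +kernel)
  have herase : ∀ x ∈ T3pts, S x = T3pts.erase x := by
    intro x hx
    have h1 : S x ⊆ T3pts := subset_of_invariant_fix T3pts (S x) (by rw [hTcard]; norm_num)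
      (fun g hg hgx => by rw [hS g (hLY g hg hgx) x, hgx x hx]) (by rw [hcard, hTcard]; norm_num)
    apply Finset.eq_of_subset_of_card_le
    · intro y hy
      refine Finset.mem_erase.2 ⟨?_, h1 hy⟩
      rintro rfl
      exact hselfnot _ hy
    · rw [Finset.card_erase_of_mem hx, hTcard, hcard]
  have htrans : ∀ h ∈ Y, ∀ x ∈ T3pts, S (h x) = (h • T3pts).erase (h x) := by
    intro h hh x hx
    rw [← hS h hh x, herase x hx, smul_erase]
  have h23T : pt 23 ∈ T3pts := by decide +kernel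
  have h2T : pt 2 ∉ T3pts := by decide +kernel
  obtain ⟨h, hh, hc⟩ := ht (pt 2)
  have hdisj : ∀ d, d ∈ T3pts → d ∉ h • T3pts := by
    intro d hd hd'
    obtain ⟨x, hx, rfl⟩ := Finset.mem_smul_finset.1 hd'
    have h1 := herase _ hd
    have h2 := htrans h hh x hx
    have h3 : T3pts.erase (h x) = (h • T3pts).erase (h x) := h1.symm.trans h2
    have h4 : T3pts = h • T3pts := by
      calc T3pts = insert (h x) (T3pts.erase (h x)) := (Finset.insert_erase hd).symm
        _ = insert (h x) ((h • T3pts).erase (h x)) := by rw [h3]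
        _ = h • T3pts := Finset.insert_erase hd'
    apply h2T
    rw [h4, ← hc]
    exact (apply_mem_smul h _ _).2 h23T
  have hSc : S (pt 2) = (h • T3pts).erase (pt 2) := by
    rw [← hc]
    exact htrans h hh _ h23T
  obtain ⟨d, hd⟩ : (S (pt 2)).Nonempty := by
    rw [← Finset.card_pos, hcard]
    norm_num
  have hd2 : d ≠ pt 2 := fun e => hselfnot _ (e ▸ hd)
  have hdT : d ∉ T3pts := by
    intro h1
    rw [hSc] at hd
    exact hdisj d h1 (Finset.mem_of_mem_erase hd)
  have hFcard : F4pts.card = 4 := by decide +kernel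
  have hw : ∃ w, w ∉ F4pts ∪ S (pt 2) := by
    by_contra hh
    push Not at hh
    have h1 : (Finset.univ : Finset GolayPt) ⊆ F4pts ∪ S (pt 2) := fun z _ => hh z
    have h2 := Finset.card_le_card h1
    have h3 := Finset.card_union_le F4pts (S (pt 2))
    rw [card_univ_pts] at h2
    rw [hcard, hFcard] at h3
    omega
  obtain ⟨w, hw⟩ := hw
  rw [Finset.mem_union, not_or] at hw
  have hdF : d ∉ F4pts := by
    show d ∉ insert (pt 2) T3pts
    rw [Finset.mem_insert, not_or]
    exact ⟨hd2, hdT⟩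
  obtain ⟨g, hg, h1, h2⟩ := exists_fix_move F4pts (by rw [hFcard]) hdF hw.1
  have hgY : g ∈ Y := hLY g hg (fun x hx => h1 x (Finset.mem_insert_of_mem hx))
  have hgc : g (pt 2) = pt 2 := h1 _ (Finset.mem_insert_self _ _)
  have h3 := hS g hgY (pt 2)
  rw [hgc] at h3
  apply hw.2
  rw [← h3, ← h2]
  exact (apply_mem_smul g _ _).2 hd

/-- There is no subgroup of index three of the stabiliser of a duad in the stabiliser of a point. -/
theorem no_index3 {X : Subgroup P} (hX : X ≤ fixG [23] ⊓ stD) (hc : Nat.card X = 13440) : False := by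
  have hmem : ∀ U q, goodT U = true → powT U q = idTbl → (q = 5 ∨ q = 7) → U.getD 23 0 = 23 → U.getD 0 0 = 0 →
      U.getD 1 0 = 1 → ∀ g, tblOf g = U → g ∈ M24 → g ∈ X := by
    intro U q _ hp hq h23 h0 h1 g hg hgM
    have hfix : ∀ b, U.getD b 0 = b → b < 24 → g (pt b) = pt b := by
      intro b hb hlt
      apply idx_injective
      rw [idx_apply_eq_getD, hg, idx_pt hlt, hb]
    have hgq : g ^ q = 1 := by
      apply tblOf_injective
      rw [tblOf_pow, hg, hp, tblOf_one]
    have hg23 := hfix 23 h23 (by norm_num)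
    have hg0 := hfix 0 h0 (by norm_num)
    have hg1 := hfix 1 h1 (by norm_num)
    have hB : g ∈ fixG [23] ⊓ stD := by
      refine Subgroup.mem_inf.2 ⟨mem_fixG.2 ⟨hgM, ?_⟩, ?_⟩
      · intro f hf
        rw [List.mem_singleton] at hf
        subst hf
        exact hg23
      · show g • ofMask 3 = ofMask 3
        have hD : ∀ p : GolayPt, p ∈ ofMask 3 ↔ p = pt 0 ∨ p = pt 1 := by decide +kernel
        apply Finset.eq_of_subset_of_card_le
        · intro p hp
          obtain ⟨r, hr, rfl⟩ := Finset.mem_smul_finset.1 hp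
          rcases (hD r).1 hr with rfl | rfl
          · show g (pt 0) ∈ _
            rw [hg0]
            exact hr
          · show g (pt 1) ∈ _
            rw [hg1]
            exact hr
        · rw [Finset.card_smul_finset]
    have hprime : q.Prime := by
      rcases hq with rfl | rfl <;> norm_num
    have h5 : 5 ≤ q := by
      rcases hq with rfl | rfl <;> norm_num
    exact mem_of_small_index hX (by rw [hc]; have := card_KD; omega) hB hprime h5 hgq
  have hsub : tblSubgroup e9 (TG.of_check e9_tg) ≤ X := by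
    intro g hg
    have h1 : tblOf g ∈ e9 := hg
    obtain ⟨e, he, e2⟩ := List.mem_map.1 h1
    have h2 := List.all_eq_true.1 pairs9_ok e he
    simp only [pairOK, Bool.and_eq_true, beq_iff_eq, Bool.or_eq_true] at h2
    obtain ⟨⟨⟨⟨⟨⟨⟨⟨⟨⟨⟨g1, g2⟩, p1⟩, p2⟩, q1⟩, q2⟩, u23⟩, u0⟩, u1⟩, v23⟩, v0⟩, v1⟩ := h2
    obtain ⟨u, huM, hu⟩ := exists_of_good g1
    obtain ⟨v, hvM, hv⟩ := exists_of_good g2
    have hu' := hmem _ _ g1 p1 q1 u23 u0 u1 u hu huM
    have hv' := hmem _ _ g2 p2 q2 v23 v0 v1 v hv hvM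
    have e3 : g = u * v := by
      apply tblOf_injective
      rw [tblOf_mul, hu, hv]
      exact e2.symm
    rw [e3]
    exact X.mul_mem hu' hv'
  have hd := Subgroup.card_dvd_of_le hsub
  rw [card_tblSubgroup, e9_len, hc] at hd
  revert hd
  norm_num

end Cfsg.Agent.Lib.Sporadic.M24Idx
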