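import Cfsg.Agent.Lib.Sporadic.M24M22Data

/-!
# No subgroups of index 56 or 210 in the stabiliser of two points
-/

set_option autoImplicit false

namespace Cfsg.Agent.Lib.Sporadic.M24M22

open Cfsg Cfsg.Agent.Lib.Sporadic.GolayCore Cfsg.Agent.Lib.Sporadic.M24Tbl
open Cfsg.Agent.Lib.Sporadic.M24Chain Cfsg.Agent.Lib.Sporadic.M24Basic Cfsg.Agent.Lib.Sporadic.M24TblGroup
open Cfsg.Agent.Lib.Sporadic.M24Act Cfsg.Agent.Lib.Sporadic.M24Syl Cfsg.Agent.Lib.Sporadic.M24M22Data
open Cfsg.Agent.Lib.Compute.M24 Cfsg.Agent.Lib.Compute.M24Enum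
open scoped Pointwise

/-- The stabiliser of the base points. -/
abbrev G0 : Subgroup (Equiv.Perm GolayPt) := fixG [0, 23]

theorem card_G0 : Nat.card G0 = 443520 := card_fixG_2

/-- The group of order 55. -/
noncomputable def K55 : Subgroup (Equiv.Perm GolayPt) := tblSubgroup L55 (TG.of_check tg55)

/-- The group of order 20. -/
noncomputable def K20 : Subgroup (Equiv.Perm GolayPt) := tblSubgroup L20 (TG.of_check tg20)

theorem card_K55 : Nat.card K55 = 55 := by
  rw [K55, card_tblSubgroup, len55]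

theorem card_K20 : Nat.card K20 = 20 := by
  rw [K20, card_tblSubgroup, len20]

theorem fix_of_G0 {y : Equiv.Perm GolayPt} (hy : y ∈ G0) : (tblOf y).getD 0 0 == 0 && (tblOf y).getD 23 0 == 23 := by
  have h := (mem_fixG.1 hy).2
  have h0 := h 0 (by simp)
  have h23 := h 23 (by simp)
  rw [getD_tblOf y (by norm_num), getD_tblOf y (by norm_num), h0, h23, idx_pt (by norm_num), idx_pt (by norm_num)]
  rfl

/-- The normaliser of the subgroup of order eleven. -/
theorem norm_C {y : Equiv.Perm GolayPt} (hy : y ∈ G0)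
    (hN : y ∈ Subgroup.normalizer ((Subgroup.zpowers sC : Subgroup (Equiv.Perm GolayPt)) : Set (Equiv.Perm GolayPt))) : y ∈ K55 := by
  obtain ⟨k, h1, h2, h3⟩ := exists_pow_of_normalizer (by norm_num) sC_pow sC_ne hN
  have h4 := memC (fixG_le_M24 _ hy) h1 h2 h3
  rw [← tblOf_eq_toL] at h4
  exact List.mem_filter.2 ⟨h4, fix_of_G0 hy⟩

/-- The normaliser of the subgroup of order five. -/
theorem norm_F {y : Equiv.Perm GolayPt} (hy : y ∈ G0)
    (hN : y ∈ Subgroup.normalizer ((Subgroup.zpowers sF : Subgroup (Equiv.Perm GolayPt)) : Set (Equiv.Perm GolayPt))) : y ∈ K20 := by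
  obtain ⟨k, h1, h2, h3⟩ := exists_pow_of_normalizer (by norm_num) sF_pow sF_ne hN
  have h4 := memF (fixG_le_M24 _ hy) h1 h2 h3
  rw [← tblOf_eq_toL] at h4
  exact List.mem_filter.2 ⟨h4, fix_of_G0 hy⟩

theorem sC_K : sC ∈ K55 := by
  show tblOf sC ∈ L55
  rw [tblOf_eq_toL, toL_sC]
  exact sC_L

theorem sF_K : sF ∈ K55 := by
  show tblOf sF ∈ L55
  rw [tblOf_eq_toL, toL_sF]
  exact sF_L

theorem card_zC : Nat.card (Subgroup.zpowers sC) = 11 := by
  haveI : Fact (Nat.Prime 11) := ⟨by norm_num⟩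
  rw [Nat.card_zpowers, orderOf_eq_prime sC_pow sC_ne]

theorem card_zF : Nat.card (Subgroup.zpowers sF) = 5 := by
  haveI : Fact (Nat.Prime 5) := ⟨by norm_num⟩
  rw [Nat.card_zpowers, orderOf_eq_prime sF_pow sF_ne]

theorem sub_le_norm (H C : Subgroup (Equiv.Perm GolayPt)) (hCH : C ≤ H) :
    C ≤ H ⊓ Subgroup.normalizer (C : Set (Equiv.Perm GolayPt)) :=
  le_inf hCH (Subgroup.le_normalizer)

/-- A subgroup containing the group of order eleven contains the normaliser or has an order excluded by Sylow's theorem. -/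
theorem step_C {H : Subgroup (Equiv.Perm GolayPt)} (hH : H ≤ G0) (hC : Subgroup.zpowers sC ≤ H)
    (h121 : ¬ 11 ^ 2 ∣ Nat.card H) :
    ∃ k d, Nat.card H = k * d ∧ k % 11 = 1 ∧ d ∣ 55 ∧ 11 ∣ d ∧ (d = 55 → K55 ≤ H) := by
  haveI : Fact (Nat.Prime 11) := ⟨by norm_num⟩
  obtain ⟨k, h1, h2⟩ := sylow_count (p := 11) (a := 1) hC (by rw [card_zC]; norm_num) (by simpa using h121)
  set N := H ⊓ Subgroup.normalizer ((Subgroup.zpowers sC : Subgroup (Equiv.Perm GolayPt)) : Set (Equiv.Perm GolayPt)) with hN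
  have hNK : N ≤ K55 := fun y hy => norm_C (hH (Subgroup.mem_inf.1 hy).1) (Subgroup.mem_inf.1 hy).2
  refine ⟨k, Nat.card N, h1, h2, ?_, ?_, ?_⟩
  · rw [← card_K55]
    exact Subgroup.card_dvd_of_le hNK
  · rw [← card_zC]
    exact Subgroup.card_dvd_of_le (sub_le_norm H _ hC)
  · intro h3
    have h4 : N = K55 := Subgroup.eq_of_le_of_card_ge hNK (by rw [card_K55, h3])
    rw [← h4]
    exact inf_le_left

/-- The same for the group of order five. -/
theorem step_F {H : Subgroup (Equiv.Perm GolayPt)} (hH : H ≤ G0) (hC : Subgroup.zpowers sF ≤ H)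
    (h25 : ¬ 5 ^ 2 ∣ Nat.card H) :
    ∃ k d, Nat.card H = k * d ∧ k % 5 = 1 ∧ d ∣ 20 ∧ 5 ∣ d ∧ (d = 20 → K20 ≤ H) := by
  haveI : Fact (Nat.Prime 5) := ⟨by norm_num⟩
  obtain ⟨k, h1, h2⟩ := sylow_count (p := 5) (a := 1) hC (by rw [card_zF]; norm_num) (by simpa using h25)
  set N := H ⊓ Subgroup.normalizer ((Subgroup.zpowers sF : Subgroup (Equiv.Perm GolayPt)) : Set (Equiv.Perm GolayPt)) with hN
  have hNK : N ≤ K20 := fun y hy => norm_F (hH (Subgroup.mem_inf.1 hy).1) (Subgroup.mem_inf.1 hy).2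
  refine ⟨k, Nat.card N, h1, h2, ?_, ?_, ?_⟩
  · rw [← card_K20]
    exact Subgroup.card_dvd_of_le hNK
  · rw [← card_zF]
    exact Subgroup.card_dvd_of_le (sub_le_norm H _ hC)
  · intro h3
    have h4 : N = K20 := Subgroup.eq_of_le_of_card_ge hNK (by rw [card_K20, h3])
    rw [← h4]
    exact inf_le_left

/-- The Sylow subgroup of order eleven of the stabiliser. -/
theorem exists_conj_C {H : Subgroup (Equiv.Perm GolayPt)} (hH : H ≤ G0) (h11 : 11 ∣ Nat.card H) :
    ∃ H' : Subgroup (Equiv.Perm GolayPt), H' ≤ G0 ∧ Nat.card H' = Nat.card H ∧ Subgroup.zpowers sC ≤ H' := by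
  haveI : Fact (Nat.Prime 11) := ⟨by norm_num⟩
  have hCG : Subgroup.zpowers sC ≤ G0 := by
    rw [Subgroup.zpowers_le, mem_fixG]
    refine ⟨sC_mem, ?_⟩
    intro f hf
    apply idx_injective
    rw [idx_pt (by simp at hf; omega), ← getD_tblOf sC (by simp at hf; omega), tblOf_eq_toL, toL_sC]
    simp only [List.mem_cons, List.not_mem_nil, or_false] at hf
    rcases hf with rfl | rfl <;> decide +kernel
  obtain ⟨g, hg, h⟩ := exists_conj_contains (p := 11) (a := 1) hH hCG (by rw [card_zC]; norm_num) (by simpa using h11)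
    (by rw [card_G0]; norm_num)
  exact ⟨_, conj_le hg hH, card_conj H g, h⟩

theorem sF_le_of_K55 {H : Subgroup (Equiv.Perm GolayPt)} (h : K55 ≤ H) : Subgroup.zpowers sF ≤ H :=
  Subgroup.zpowers_le.2 (h sF_K)

/-- No subgroup of order 2112. -/
theorem no_2112 {H : Subgroup (Equiv.Perm GolayPt)} (hH : H ≤ G0) (hc : Nat.card H = 2112) : False := by
  obtain ⟨H', h1, h2, h3⟩ := exists_conj_C hH (by rw [hc]; norm_num)
  rw [hc] at h2
  obtain ⟨k, d, e1, e2, e3, e4, -⟩ := step_C h1 h3 (by rw [h2]; norm_num)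
  rw [h2] at e1
  have hd : d ≤ 55 := Nat.le_of_dvd (by norm_num) e3
  interval_cases d <;> omega

/-- No subgroup of order 7920. -/
theorem no_7920 {H : Subgroup (Equiv.Perm GolayPt)} (hH : H ≤ G0) (hc : Nat.card H = 7920) : False := by
  obtain ⟨H', h1, h2, h3⟩ := exists_conj_C hH (by rw [hc]; norm_num)
  rw [hc] at h2
  obtain ⟨k, d, e1, e2, e3, e4, e5⟩ := step_C h1 h3 (by rw [h2]; norm_num)
  rw [h2] at e1
  have hd : d ≤ 55 := Nat.le_of_dvd (by norm_num) e3
  have hd55 : d = 55 := by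
    interval_cases d <;> omega
  have hK := e5 hd55
  obtain ⟨k', d', f1, f2, f3, f4, f5⟩ := step_F h1 (sF_le_of_K55 hK) (by rw [h2]; norm_num)
  rw [h2] at f1
  have hd' : d' ≤ 20 := Nat.le_of_dvd (by norm_num) f3
  have hd20 : d' = 20 := by
    interval_cases d' <;> omega
  have hK' := f5 hd20
  obtain ⟨a, ha, eaL⟩ := exists_of_good ((TG.of_check tg55).good _ aL_mem)
  obtain ⟨b, hb, ebL⟩ := exists_of_good ((TG.of_check tg20).good _ bL_mem)
  have ha' : a ∈ K55 := by
    show tblOf a ∈ L55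
    rw [eaL]
    exact aL_mem
  have hb' : b ∈ K20 := by
    show tblOf b ∈ L20
    rw [ebL]
    exact bL_mem
  have hab : a * b ∈ H' := H'.mul_mem (hK ha') (hK' hb')
  have hab7 : (a * b) ^ 7 = 1 := by
    apply tblOf_injective
    have e : (a * b) ^ 7 = (a * b) * ((a * b) * ((a * b) * ((a * b) * ((a * b) * ((a * b) * (a * b)))))) := by
      simp only [pow_succ', pow_zero, mul_one]
    rw [e]
    simp only [tblOf_mul, eaL, ebL, tblOf_one]
    exact ab_pow
  have hab1 : a * b ≠ 1 := by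
    intro e
    have e2 := congrArg tblOf e
    rw [tblOf_mul, eaL, ebL, tblOf_one] at e2
    exact ab_ne e2
  haveI : Fact (Nat.Prime 7) := ⟨by norm_num⟩
  have hord : orderOf (⟨a * b, hab⟩ : H') = 7 := by
    apply orderOf_eq_prime
    · exact Subtype.ext hab7
    · intro e
      exact hab1 (congrArg Subtype.val e)
  have hdvd := orderOf_dvd_natCard (⟨a * b, hab⟩ : H')
  rw [hord, h2] at hdvd
  omega

/-- The group in the ambient permutation group. -/
theorem exists_base {p q : GolayPt} (hpq : p ≠ q) (H : Subgroup ↥(MulAction.stabilizer M24 p ⊓ MulAction.stabilizer M24 q)) :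
    ∃ H' : Subgroup (Equiv.Perm GolayPt), H' ≤ G0 ∧ Nat.card H' = Nat.card H := by
  obtain ⟨g, hg, hgp, hgq⟩ := exists_map_two hpq (show pt 23 ≠ pt 0 by decide)
  let A : Subgroup M24 := MulAction.stabilizer M24 p ⊓ MulAction.stabilizer M24 q
  let H₀ : Subgroup (Equiv.Perm GolayPt) := (H.map A.subtype).map (M24 : Subgroup (Equiv.Perm GolayPt)).subtype
  have hc : Nat.card H₀ = Nat.card H := by
    show Nat.card ((H.map A.subtype).map (M24 : Subgroup (Equiv.Perm GolayPt)).subtype) = _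
    rw [Subgroup.card_map_of_injective (Subgroup.subtype_injective _), Subgroup.card_map_of_injective (Subgroup.subtype_injective _)]
  refine ⟨H₀.map (MulAut.conj g).toMonoidHom, ?_, by rw [card_conj, hc]⟩
  rintro _ ⟨_, ⟨_, ⟨x, -, rfl⟩, rfl⟩, rfl⟩
  have hx := Subgroup.mem_inf.1 x.2
  have hx1 : ((x : M24) : Equiv.Perm GolayPt) p = p := (mem_stabilizer_M24 _ _).1 hx.1
  have hx2 : ((x : M24) : Equiv.Perm GolayPt) q = q := (mem_stabilizer_M24 _ _).1 hx.2
  refine mem_fixG.2 ⟨M24.mul_mem (M24.mul_mem hg (x : M24).2) (M24.inv_mem hg), ?_⟩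
  have h1 : g⁻¹ (pt 23) = p := by rw [← hgp]; simp
  have h2 : g⁻¹ (pt 0) = q := by rw [← hgq]; simp
  intro f hf
  simp only [List.mem_cons, List.not_mem_nil, or_false] at hf
  simp only [MulEquiv.coe_toMonoidHom, MulAut.conj_apply, Equiv.Perm.mul_apply, Subgroup.subtype_apply]
  rcases hf with rfl | rfl
  · rw [h2, hx2, hgq]
  · rw [h1, hx1, hgp]

/-- The statement `S1606`. -/
theorem s1606 (p q : GolayPt) (hpq : p ≠ q)
    (H : Subgroup ↥(MulAction.stabilizer M24 p ⊓ MulAction.stabilizer M24 q)) : H.index ≠ 56 ∧ H.index ≠ 210 := by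
  obtain ⟨H', h1, h2⟩ := exists_base hpq H
  have h3 := Subgroup.index_mul_card H
  rw [card_stab_two hpq] at h3
  constructor
  · intro h
    rw [h] at h3
    exact no_7920 h1 (by omega)
  · intro h
    rw [h] at h3
    exact no_2112 h1 (by omega)

end Cfsg.Agent.Lib.Sporadic.M24M22
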