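import Cfsg.Agent.Lib.Sporadic.M24TblGroup
import Cfsg.Agent.Lib.Sporadic.M24DodFlag

/-!
# The group `M9`: the stabiliser of a dodecad and of three of its points
-/

namespace Cfsg.Agent.Lib.Sporadic.M24M9

open Cfsg Cfsg.Agent.Lib.Sporadic.GolayCore Cfsg.Agent.Lib.Sporadic.M24Tbl
open Cfsg.Agent.Lib.Sporadic.M24Chain Cfsg.Agent.Lib.Sporadic.M24Basic
open Cfsg.Agent.Lib.Sporadic.M24Dodecad Cfsg.Agent.Lib.Sporadic.M24DodFlag
open Cfsg.Agent.Lib.Sporadic.M24TblGroup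
open scoped Pointwise

/-- All the elements. -/
def elsM9 : List (List ℕ) := [
  [0,1,2,3,4,5,6,7,8,9,10,11,12,13,14,15,16,17,18,19,20,21,22,23],
  [0,1,2,3,5,10,15,14,6,8,17,19,23,20,12,9,11,4,21,22,13,18,16,7],
  [0,1,2,3,10,17,9,12,15,6,4,22,7,13,23,8,19,5,18,16,20,21,11,14],
  [0,1,2,3,11,16,12,6,23,7,22,10,9,21,8,14,17,19,20,5,18,13,4,15],
  [0,1,2,3,16,22,14,8,12,23,19,5,15,18,9,7,10,11,13,4,21,20,17,6],
  [0,1,2,3,17,4,8,23,9,15,5,16,14,20,7,6,22,10,21,11,13,18,19,12],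
  [0,1,2,3,19,11,23,15,7,14,16,17,8,18,6,12,4,22,13,10,21,20,5,9],
  [0,1,2,3,22,19,7,9,14,12,11,4,6,21,15,23,5,16,20,17,18,13,10,8],
  [0,1,2,6,4,5,3,8,7,9,20,22,14,17,12,23,21,13,18,19,10,16,11,15],
  [0,1,2,6,5,20,23,12,3,7,13,19,15,10,14,9,22,4,16,11,17,18,21,8],
  [0,1,2,6,11,19,8,9,12,14,22,4,3,16,23,15,5,21,10,13,18,17,20,7],
  [0,1,2,6,13,4,7,15,9,23,5,21,12,10,8,3,11,20,16,22,17,18,19,14],
  [0,1,2,6,19,22,15,23,8,12,21,13,7,18,3,14,4,11,17,20,16,10,5,9],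
  [0,1,2,6,20,13,9,14,23,3,4,11,8,17,15,7,19,5,18,21,10,16,22,12],
  [0,1,2,6,21,11,12,7,14,15,19,5,23,18,9,8,20,22,17,4,16,10,13,3],
  [0,1,2,6,22,21,14,3,15,8,11,20,9,16,7,12,13,19,10,5,18,17,4,23],
  [0,1,2,7,4,17,14,12,6,15,10,22,3,5,8,23,19,13,11,21,20,16,18,9],
  [0,1,2,7,10,13,15,3,23,14,4,18,12,5,9,6,21,17,11,19,20,16,22,8],
  [0,1,2,7,13,4,6,9,15,23,17,19,8,20,12,14,18,10,16,22,5,11,21,3],
  [0,1,2,7,17,10,23,8,14,6,13,21,9,20,3,15,22,4,16,18,5,11,19,12],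
  [0,1,2,7,18,21,12,15,8,3,22,4,14,16,23,9,17,19,20,13,11,5,10,6],
  [0,1,2,7,19,18,8,6,3,9,21,17,23,11,15,12,10,22,5,4,16,20,13,14],
  [0,1,2,7,21,22,9,23,12,8,19,13,6,11,14,3,4,18,5,10,16,20,17,15],
  [0,1,2,7,22,19,3,14,9,12,18,10,15,16,6,8,13,21,20,17,11,5,4,23],
  [0,1,2,8,4,13,12,14,3,23,20,11,6,5,7,15,19,17,22,16,10,21,18,9],
  [0,1,2,8,11,19,6,12,9,14,18,20,23,21,3,7,17,16,10,13,22,5,4,15],
  [0,1,2,8,13,20,15,7,12,3,17,16,9,10,6,23,11,4,21,18,5,22,19,14],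
  [0,1,2,8,16,11,9,15,14,7,19,17,3,22,12,6,4,18,5,20,21,10,13,23],
  [0,1,2,8,17,4,3,9,23,15,13,19,7,10,14,12,18,20,21,11,5,22,16,6],
  [0,1,2,8,18,16,14,23,7,6,11,4,12,21,15,9,13,19,10,17,22,5,20,3],
  [0,1,2,8,19,18,7,3,6,9,16,13,15,22,23,14,20,11,5,4,21,10,17,12],
  [0,1,2,8,20,17,23,6,15,12,4,18,14,5,9,3,16,13,22,19,10,21,11,7],
  [0,1,2,9,10,17,3,15,12,6,20,11,23,5,7,14,21,13,18,16,4,19,22,8],
  [0,1,2,9,11,21,23,3,8,15,22,20,6,19,12,7,13,16,4,17,18,5,10,14],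
  [0,1,2,9,13,10,12,8,6,14,17,21,7,4,15,3,22,20,19,11,5,18,16,23],
  [0,1,2,9,16,11,8,14,15,7,21,13,12,18,3,23,10,22,5,20,19,4,17,6],
  [0,1,2,9,17,20,14,7,3,12,13,16,8,4,23,6,11,10,19,22,5,18,21,15],
  [0,1,2,9,20,13,6,23,14,3,10,22,15,5,8,12,16,17,18,21,4,19,11,7],
  [0,1,2,9,21,22,7,12,23,8,16,17,14,18,6,15,20,11,5,10,19,4,13,3],
  [0,1,2,9,22,16,15,6,7,23,11,10,3,19,14,8,17,21,4,13,18,5,20,12],
  [0,1,2,12,4,13,8,3,14,23,10,18,7,17,6,9,21,5,22,16,20,19,11,15],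
  [0,1,2,12,5,4,14,15,23,9,13,21,6,20,3,8,11,10,19,18,17,22,16,7],
  [0,1,2,12,10,5,23,7,9,8,4,11,3,17,15,14,16,13,22,21,20,19,18,6],
  [0,1,2,12,11,16,3,23,6,7,18,4,8,19,9,15,13,21,20,5,22,17,10,14],
  [0,1,2,12,13,10,9,6,8,14,5,16,15,20,7,23,18,4,19,11,17,22,21,3],
  [0,1,2,12,16,18,15,9,3,6,21,5,14,22,8,7,4,11,17,10,19,20,13,23],
  [0,1,2,12,18,21,7,8,15,3,11,10,23,19,14,6,5,16,20,13,22,17,4,9],
  [0,1,2,12,21,11,6,14,7,15,16,13,9,22,23,3,10,18,17,4,19,20,5,8],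
  [0,1,2,14,4,17,7,6,12,15,20,18,8,13,3,9,16,5,11,21,10,19,22,23],
  [0,1,2,14,5,4,12,23,15,9,17,16,3,10,6,7,22,20,19,18,13,11,21,8],
  [0,1,2,14,16,22,3,12,8,23,21,17,9,11,15,6,20,18,13,4,19,10,5,7],
  [0,1,2,14,17,20,9,3,7,12,5,21,23,10,8,15,18,4,19,22,13,11,16,6],
  [0,1,2,14,18,16,8,7,23,6,22,20,15,19,12,3,5,21,10,17,11,13,4,9],
  [0,1,2,14,20,5,15,8,9,7,4,22,6,13,23,12,21,17,11,16,10,19,18,3],
  [0,1,2,14,21,18,23,9,6,3,16,5,12,11,7,8,4,22,13,20,19,10,17,15],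
  [0,1,2,14,22,21,6,15,3,8,18,4,7,19,9,23,17,16,10,5,11,13,20,12],
  [0,1,2,15,5,10,3,6,14,8,13,16,12,4,23,7,18,20,21,22,17,11,19,9],
  [0,1,2,15,10,13,7,23,3,14,20,22,9,17,12,8,16,5,11,19,4,21,18,6],
  [0,1,2,15,13,20,8,12,7,3,5,19,6,4,9,14,22,10,21,18,17,11,16,23],
  [0,1,2,15,16,18,12,3,9,6,19,13,8,11,14,23,20,22,17,10,21,4,5,7],
  [0,1,2,15,18,19,23,14,12,9,22,10,7,21,8,6,13,16,4,5,11,17,20,3],
  [0,1,2,15,19,22,6,8,23,12,16,5,3,11,7,9,10,18,17,20,21,4,13,14],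
  [0,1,2,15,20,5,14,9,8,7,10,18,23,17,6,3,19,13,11,16,4,21,22,12],
  [0,1,2,15,22,16,9,7,6,23,18,20,14,21,3,12,5,19,4,13,11,17,10,8],
  [0,1,2,23,5,20,6,3,12,7,17,21,14,4,15,8,18,10,16,11,13,22,19,9],
  [0,1,2,23,10,5,12,9,7,8,20,18,15,13,3,6,19,17,22,21,4,16,11,14],
  [0,1,2,23,11,21,9,8,3,15,18,10,12,16,6,14,5,19,4,17,22,13,20,7],
  [0,1,2,23,17,10,7,14,8,6,5,19,3,4,9,12,11,20,16,18,13,22,21,15],
  [0,1,2,23,18,19,15,12,14,9,11,20,8,16,7,3,17,21,4,5,22,13,10,6],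
  [0,1,2,23,19,11,3,7,15,14,21,5,6,22,8,9,20,18,13,10,16,4,17,12],
  [0,1,2,23,20,17,8,15,6,12,10,11,9,13,14,7,21,5,22,19,4,16,18,3],
  [0,1,2,23,21,18,14,6,9,3,19,17,7,22,12,15,10,11,13,20,16,4,5,8]]

/-- The elements of order dividing `3`. -/
def elsT : List (List ℕ) := [
  [0,1,2,3,4,5,6,7,8,9,10,11,12,13,14,15,16,17,18,19,20,21,22,23],
  [0,1,2,6,20,13,9,14,23,3,4,11,8,17,15,7,19,5,18,21,10,16,22,12],
  [0,1,2,7,4,17,14,12,6,15,10,22,3,5,8,23,19,13,11,21,20,16,18,9],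
  [0,1,2,8,20,17,23,6,15,12,4,18,14,5,9,3,16,13,22,19,10,21,11,7],
  [0,1,2,9,10,17,3,15,12,6,20,11,23,5,7,14,21,13,18,16,4,19,22,8],
  [0,1,2,12,4,13,8,3,14,23,10,18,7,17,6,9,21,5,22,16,20,19,11,15],
  [0,1,2,14,20,5,15,8,9,7,4,22,6,13,23,12,21,17,11,16,10,19,18,3],
  [0,1,2,15,10,13,7,23,3,14,20,22,9,17,12,8,16,5,11,19,4,21,18,6],
  [0,1,2,23,10,5,12,9,7,8,20,18,15,13,3,6,19,17,22,21,4,16,11,14]]

/-- The generators of the quaternion subgroup. -/
def tA : List ℕ := [0,1,2,3,5,10,15,14,6,8,17,19,23,20,12,9,11,4,21,22,13,18,16,7]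

def tX : List ℕ := [0,1,2,3,11,16,12,6,23,7,22,10,9,21,8,14,17,19,20,5,18,13,4,15]

/-- The abstract structure of the group. -/
structure HasM9 (K : Type*) [Group K] : Prop where
  card : Nat.card K = 72
  T : ∃ T : Subgroup K, T.Normal ∧ Nat.card T = 9 ∧ ∀ x ∈ T, x ^ 3 = 1
  P : ∃ P : Subgroup K, Nat.card P = 8 ∧ Nonempty (P ≃* QuaternionGroup 2)

theorem HasM9.congr {K K' : Type*} [Group K] [Group K'] (e : K ≃* K') (h : HasM9 K) : HasM9 K' := by
  refine ⟨by rw [← Nat.card_congr e.toEquiv]; exact h.card, ?_, ?_⟩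
  · obtain ⟨T, hT, hc, h3⟩ := h.T
    refine ⟨T.map e.toMonoidHom, ?_, ?_, ?_⟩
    · exact Subgroup.Normal.map hT e.toMonoidHom e.surjective
    · rw [← hc]
      exact Nat.card_congr (e.subgroupMap T).symm.toEquiv
    · rintro _ ⟨x, hx, rfl⟩
      show e x ^ 3 = 1
      rw [← map_pow, h3 x hx, map_one]
  · obtain ⟨P, hc, ⟨f⟩⟩ := h.P
    refine ⟨P.map e.toMonoidHom, ?_, ⟨(e.subgroupMap P).symm.trans f⟩⟩
    rw [← hc]
    exact Nat.card_congr (e.subgroupMap P).symm.toEquiv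

theorem fact_72_3 : (Nat.factorization 72) 3 = 2 := by
  have : (72 : ℕ) = 3 ^ 2 * 8 := by norm_num
  rw [this, Nat.factorization_mul (by norm_num) (by norm_num), Nat.Prime.factorization_pow Nat.prime_three]
  have h8 : Nat.factorization 8 3 = 0 := Nat.factorization_eq_zero_of_not_dvd (by norm_num)
  simp [h8]

theorem fact_72_2 : (Nat.factorization 72) 2 = 3 := by
  have : (72 : ℕ) = 2 ^ 3 * 9 := by norm_num
  rw [this, Nat.factorization_mul (by norm_num) (by norm_num), Nat.Prime.factorization_pow Nat.prime_two]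
  have h8 : Nat.factorization 9 2 = 0 := Nat.factorization_eq_zero_of_not_dvd (by norm_num)
  simp [h8]

theorem HasM9.sylow {K : Type*} [Group K] [Finite K] (h : HasM9 K) :
    (∀ Q : Sylow 3 K, (Q : Subgroup K).Normal ∧ Nat.card Q = 9 ∧ ∀ x ∈ (Q : Subgroup K), x ^ 3 = 1) ∧
      ∀ P : Sylow 2 K, Nonempty (↥P ≃* QuaternionGroup 2) := by
  constructor
  · intro Q
    obtain ⟨T, hT, hc, h3⟩ := h.T
    haveI : Fact (Nat.Prime 3) := ⟨Nat.prime_three⟩
    let T' : Sylow 3 K := Sylow.ofCard T (by rw [h.card, fact_72_3, hc]; norm_num)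
    have hT' : ((T' : Subgroup K)).Normal := hT
    haveI := Sylow.unique_of_normal T' hT'
    have e : Q = T' := Subsingleton.elim _ _
    subst e
    exact ⟨hT, hc, h3⟩
  · intro P
    obtain ⟨P0, hc, ⟨f⟩⟩ := h.P
    haveI : Fact (Nat.Prime 2) := ⟨Nat.prime_two⟩
    let P' : Sylow 2 K := Sylow.ofCard P0 (by rw [h.card, fact_72_2, hc]; norm_num)
    exact ⟨(Sylow.equiv P P').trans f⟩

/-- The group in the permutation group. -/
def Kp (d : Finset GolayPt) (p q r : GolayPt) : Subgroup (Equiv.Perm GolayPt) :=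
  M24 ⊓ MulAction.stabilizer _ d ⊓ MulAction.stabilizer _ p ⊓ MulAction.stabilizer _ q ⊓
    MulAction.stabilizer _ r

theorem mem_Kp {d : Finset GolayPt} {p q r : GolayPt} {g : Equiv.Perm GolayPt} :
    g ∈ Kp d p q r ↔ g ∈ M24 ∧ g • d = d ∧ g p = p ∧ g q = q ∧ g r = r := by
  simp only [Kp, Subgroup.mem_inf, MulAction.mem_stabilizer_iff, Equiv.Perm.smul_def, and_assoc]

/-- The statement's group is isomorphic to the group of permutations. -/
theorem equiv_Kp (d : Finset GolayPt) (p q r : GolayPt) :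
    Nonempty (↥(MulAction.stabilizer M24 d ⊓ MulAction.stabilizer M24 p ⊓ MulAction.stabilizer M24 q ⊓
      MulAction.stabilizer M24 r) ≃* Kp d p q r) := by
  let H := (MulAction.stabilizer M24 d ⊓ MulAction.stabilizer M24 p ⊓ MulAction.stabilizer M24 q ⊓
      MulAction.stabilizer M24 r)
  let f : ↥H →* Equiv.Perm GolayPt := M24.subtype.comp H.subtype
  have hf : Function.Injective f := M24.subtype_injective.comp H.subtype_injective
  have hr : f.range = Kp d p q r := by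
    ext g
    rw [mem_Kp]
    constructor
    · rintro ⟨⟨⟨x, hx⟩, hH⟩, rfl⟩
      obtain ⟨⟨⟨h1, h2⟩, h3⟩, h4⟩ := hH
      exact ⟨hx, h1, h2, h3, h4⟩
    · rintro ⟨hx, h1, h2, h3, h4⟩
      exact ⟨⟨⟨g, hx⟩, ⟨⟨⟨h1, h2⟩, h3⟩, h4⟩⟩, rfl⟩
  exact ⟨(MonoidHom.ofInjective hf).trans (MulEquiv.subgroupCongr hr)⟩

/-- Conjugation carries the groups to each other. -/
theorem equiv_Kp_conj {d d' : Finset GolayPt} {p q r p' q' r' : GolayPt} {g : Equiv.Perm GolayPt}
    (hg : g ∈ M24) (hd : g • d = d') (hp : g p = p') (hq : g q = q') (hr : g r = r') :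
    Nonempty (Kp d p q r ≃* Kp d' p' q' r') := by
  have key : (Kp d p q r).map (MulAut.conj g).toMonoidHom = Kp d' p' q' r' := by
    subst hd hp hq hr
    ext x
    simp only [Subgroup.mem_map, mem_Kp, MulEquiv.coe_toMonoidHom, MulAut.conj_apply]
    constructor
    · rintro ⟨y, ⟨h0, h1, h2, h3, h4⟩, rfl⟩
      refine ⟨M24.mul_mem (M24.mul_mem hg h0) (M24.inv_mem hg), ?_, ?_, ?_, ?_⟩
      · rw [mul_smul, mul_smul, inv_smul_smul, h1]
      · simp [h2]
      · simp [h3]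
      · simp [h4]
    · rintro ⟨h0, h1, h2, h3, h4⟩
      refine ⟨g⁻¹ * x * g, ⟨M24.mul_mem (M24.mul_mem (M24.inv_mem hg) h0) hg, ?_, ?_, ?_, ?_⟩, by group⟩
      · rw [mul_smul, mul_smul, h1, inv_smul_smul]
      · simp [h2]
      · simp [h3]
      · simp [h4]
  exact ⟨((MulAut.conj g).subgroupMap (Kp d p q r)).trans (MulEquiv.subgroupCongr key)⟩

def p0 : GolayPt := pt 0
def q0 : GolayPt := pt 1
def r0 : GolayPt := pt 2
def d0 : Finset GolayPt := ofMask 8442831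

theorem d0_mem : d0 ∈ dodecads := (ofMask_mem_dodecads_iff (by decide +kernel)).2 (by decide +kernel)

theorem card_K0 : Nat.card (Kp d0 p0 q0 r0) = 72 := by
  obtain ⟨e⟩ := equiv_Kp d0 p0 q0 r0
  rw [← Nat.card_congr e.toEquiv]
  exact (s1600 d0_mem (by decide +kernel) (by decide +kernel) (by decide +kernel) (by decide +kernel)
    (by decide +kernel) (by decide +kernel)).1

/-- The table fixes the base data. -/
def okT (T : List ℕ) : Bool :=
  goodT T && (applyT T 8442831 == 8442831) && (T.getD 0 0 == 0) && (T.getD 1 0 == 1) && (T.getD 2 0 == 2)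

theorem okT_spec {T : List ℕ} (h : okT T = true) :
    ∃ g ∈ Kp d0 p0 q0 r0, tblOf g = T := by
  simp only [okT, Bool.and_eq_true, beq_iff_eq] at h
  obtain ⟨⟨⟨⟨h1, h2⟩, h3⟩, h4⟩, h5⟩ := h
  refine ⟨gPerm T h1, mem_Kp.2 ⟨gPerm_mem h1, ?_, ?_, ?_, ?_⟩, tblOf_gPerm h1⟩
  · have := ofMask_applyT (validTbl_of_goodT h1) 8442831
    rw [h2] at this
    exact this.symm
  · show gPerm T h1 (pt 0) = pt 0
    rw [gPerm_pt h1 (by norm_num), h3]
  · show gPerm T h1 (pt 1) = pt 1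
    rw [gPerm_pt h1 (by norm_num), h4]
  · show gPerm T h1 (pt 2) = pt 2
    rw [gPerm_pt h1 (by norm_num), h5]

theorem elsM9_nodup : elsM9.Nodup := by decide +kernel

theorem elsM9_ok : elsM9.all okT = true := by decide +kernel

theorem elsM9_spec : ∀ g ∈ Kp d0 p0 q0 r0, tblOf g ∈ elsM9 :=
  mem_of_card (S := (Kp d0 p0 q0 r0 : Set (Equiv.Perm GolayPt))) elsM9_nodup
    (by rw [show elsM9.length = 72 by decide +kernel]; exact card_K0)
    (fun T hT => okT_spec (List.all_eq_true.1 elsM9_ok T hT))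

theorem tgT : tgCheck elsT = true := by decide +kernel

theorem elsT_sub : elsT.all okT = true := by decide +kernel

theorem tcube : elsT.all (fun t => tcomp t (tcomp t t) == idTbl) = true := by decide +kernel

theorem tnorm : elsM9.all (fun x => elsT.all fun t => elsT.any fun t' => tcomp x t == tcomp t' x) = true := by
  decide +kernel

theorem good_A : okT tA = true := by decide +kernel
theorem good_X : okT tX = true := by decide +kernel

theorem qA4 : tcomp tA (tcomp tA (tcomp tA tA)) = idTbl := by decide +kernel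
theorem qX2 : tcomp tX tX = tcomp tA tA := by decide +kernel
theorem qXA : tcomp tX tA = tcomp (tcomp tA (tcomp tA tA)) tX := by decide +kernel
theorem qA2 : tcomp tA tA ≠ idTbl := by decide +kernel
theorem qXpow : ∀ k ∈ [idTbl, tA, tcomp tA tA, tcomp tA (tcomp tA tA)], k ≠ tX := by decide +kernel

section Hom

variable {G : Type*} [Group G] {n : ℕ} [NeZero n]

/-- The powers of `t`, indexed by `ZMod (2 * n)`. -/
def fa (t : G) (i : ZMod (2 * n)) : G := t ^ i.val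

lemma fa_add {t : G} (ht : t ^ (2 * n) = 1) (i j : ZMod (2 * n)) : fa t (i + j) = fa t i * fa t j := by
  simp only [fa]
  rw [ZMod.val_add, ← pow_add, ← pow_eq_pow_mod _ ht]

lemma fa_zero (t : G) : fa t (0 : ZMod (2 * n)) = 1 := by
  simp [fa]

lemma fa_natCast {t : G} (ht : t ^ (2 * n) = 1) (m : ℕ) : fa t (m : ZMod (2 * n)) = t ^ m := by
  simp only [fa]
  rw [ZMod.val_natCast, ← pow_eq_pow_mod _ ht]

lemma fa_neg {t : G} (ht : t ^ (2 * n) = 1) (i : ZMod (2 * n)) : fa t (-i) = (fa t i)⁻¹ := by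
  rw [eq_inv_iff_mul_eq_one, ← fa_add ht, neg_add_cancel, fa_zero]

lemma fa_mul_y {t y : G} (hy : y * t * y⁻¹ = t⁻¹) (i : ZMod (2 * n)) :
    fa t i * y = y * (fa t i)⁻¹ := by
  simp only [fa]
  generalize i.val = m
  have h1 : t * y = y * t⁻¹ := by
    have h2 : t⁻¹ = y⁻¹ * t * y := by
      have : t = y⁻¹ * t⁻¹ * y := by
        rw [← hy]
        group
      calc t⁻¹ = (y⁻¹ * t⁻¹ * y)⁻¹ := by rw [← this]
        _ = y⁻¹ * t * y := by group
    rw [h2]
    group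
  induction m with
  | zero => simp
  | succ m ih =>
    rw [pow_succ, mul_assoc, h1, ← mul_assoc, ih, mul_assoc, _root_.mul_inv_rev]
    congr 1
    rw [← _root_.mul_inv_rev, ← _root_.mul_inv_rev, ← pow_succ, ← pow_succ']

/-- The homomorphism from the generalized quaternion group attached to a pair `t, y`. -/
def quatHom {t y : G} (ht : t ^ (2 * n) = 1) (hy2 : y * y = t ^ n) (hy : y * t * y⁻¹ = t⁻¹) :
    QuaternionGroup n →* G where
  toFun g := match g with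
    | .a i => fa t i
    | .xa i => y * fa t i
  map_one' := by
    rw [QuaternionGroup.one_def]
    exact fa_zero t
  map_mul' g h := by
    rcases g with i | i <;> rcases h with j | j
    · rw [QuaternionGroup.a_mul_a]
      exact fa_add ht i j
    · rw [QuaternionGroup.a_mul_xa]
      show y * fa t (j - i) = fa t i * (y * fa t j)
      rw [sub_eq_add_neg, fa_add ht, fa_neg ht, ← mul_assoc (fa t i), fa_mul_y hy, mul_assoc]
      congr 1
      have h1 : fa t j * (fa t i)⁻¹ = fa t (j + -i) := by rw [fa_add ht, fa_neg ht]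
      have h2 : (fa t i)⁻¹ * fa t j = fa t (-i + j) := by rw [fa_add ht, fa_neg ht]
      rw [h1, h2, add_comm]
    · rw [QuaternionGroup.xa_mul_a]
      show y * fa t (i + j) = y * fa t i * fa t j
      rw [fa_add ht, mul_assoc]
    · rw [QuaternionGroup.xa_mul_xa]
      show fa t ((n : ZMod (2 * n)) + j - i) = y * fa t i * (y * fa t j)
      calc fa t ((n : ZMod (2 * n)) + j - i) = t ^ n * (fa t (-i) * fa t j) := by
            rw [sub_eq_add_neg, add_assoc, add_comm j, fa_add ht, fa_natCast ht, fa_add ht]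
        _ = y * y * ((fa t i)⁻¹ * fa t j) := by rw [hy2, fa_neg ht]
        _ = y * (y * (fa t i)⁻¹) * fa t j := by group
        _ = y * (fa t i * y) * fa t j := by rw [fa_mul_y hy]
        _ = y * fa t i * (y * fa t j) := by group

lemma quatHom_a {t y : G} (ht : t ^ (2 * n) = 1) (hy2 : y * y = t ^ n) (hy : y * t * y⁻¹ = t⁻¹)
    (i : ZMod (2 * n)) : quatHom ht hy2 hy (QuaternionGroup.a i) = fa t i := rfl

lemma quatHom_xa {t y : G} (ht : t ^ (2 * n) = 1) (hy2 : y * y = t ^ n) (hy : y * t * y⁻¹ = t⁻¹)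
    (i : ZMod (2 * n)) : quatHom ht hy2 hy (QuaternionGroup.xa i) = y * fa t i := rfl

lemma quatHom_injective {t y : G} (ht : t ^ (2 * n) = 1) (hy2 : y * y = t ^ n)
    (hy : y * t * y⁻¹ = t⁻¹) (hord : orderOf t = 2 * n) (hyz : y ∉ Subgroup.zpowers t) :
    Function.Injective (quatHom ht hy2 hy) := by
  rw [injective_iff_map_eq_one]
  rintro (i | i) h
  · rw [quatHom_a] at h
    have h1 : orderOf t ∣ i.val := orderOf_dvd_of_pow_eq_one h
    rw [hord] at h1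
    have h2 : i.val < 2 * n := ZMod.val_lt i
    have h3 : i.val = 0 := Nat.eq_zero_of_dvd_of_lt h1 h2
    rw [QuaternionGroup.one_def]
    congr 1
    exact (ZMod.val_eq_zero i).1 h3
  · rw [quatHom_xa] at h
    exfalso
    apply hyz
    have h1 : y = (fa t i)⁻¹ := eq_inv_of_mul_eq_one_left h
    rw [h1]
    exact Subgroup.inv_mem _ (Subgroup.pow_mem _ (Subgroup.mem_zpowers t) _)

end Hom

theorem quat_exists {G : Type*} [Group G] {t y : G} (ht : t ^ 4 = 1) (hy2 : y * y = t ^ 2)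
    (hy : y * t = t ^ 3 * y) (h2 : t ^ 2 ≠ 1) (hyz : ∀ k : ℕ, k < 4 → t ^ k ≠ y) :
    ∃ P : Subgroup G, Nat.card P = 8 ∧ Nonempty (P ≃* QuaternionGroup 2) := by
  have ht3 : t ^ 3 = t⁻¹ := by
    rw [eq_inv_iff_mul_eq_one, ← pow_succ]
    exact ht
  have ht' : t ^ (2 * 2) = 1 := ht
  have hy' : y * t * y⁻¹ = t⁻¹ := by
    rw [hy, ht3, mul_inv_cancel_right]
  have hord : orderOf t = 2 * 2 := by
    have h4 : orderOf t = 2 ^ 2 := by
      apply orderOf_eq_prime_pow (p := 2) (n := 1)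
      · simpa using h2
      · simpa using ht
    simpa using h4
  have hyz' : y ∉ Subgroup.zpowers t := by
    intro hm
    obtain ⟨k, hk⟩ := (Subgroup.mem_zpowers_iff).1 hm
    have e : t ^ k = t ^ (k % 4).toNat := by
      have h5 : (0:ℤ) ≤ k % 4 := Int.emod_nonneg _ (by norm_num)
      rw [← zpow_natCast, Int.toNat_of_nonneg h5]
      conv_lhs => rw [← Int.mul_ediv_add_emod k 4]
      rw [zpow_add, zpow_mul]
      have : t ^ (4:ℤ) = 1 := by
        rw [show (4:ℤ) = ((4:ℕ):ℤ) from rfl, zpow_natCast]; exact ht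
      rw [this, one_zpow, one_mul]
    have h6 : (k % 4).toNat < 4 := by omega
    exact hyz _ h6 (by rw [← e]; exact hk)
  have hinj := quatHom_injective ht' hy2 hy' hord hyz'
  refine ⟨(quatHom ht' hy2 hy').range, ?_, ⟨(MonoidHom.ofInjective hinj).symm⟩⟩
  have h1 : Nat.card (quatHom ht' hy2 hy').range = Nat.card (QuaternionGroup 2) :=
    (Nat.card_congr (MonoidHom.ofInjective hinj).toEquiv).symm
  rw [h1, Nat.card_eq_fintype_card, QuaternionGroup.card]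

/-- The group `T`. -/
def T0 : Subgroup (Equiv.Perm GolayPt) := tblSubgroup elsT (TG.of_check tgT)

theorem hasM9_K0 : HasM9 (Kp d0 p0 q0 r0) := by
  refine ⟨card_K0, ?_, ?_⟩
  · have hsub : T0 ≤ Kp d0 p0 q0 r0 := by
      intro g hg
      have h1 : okT (tblOf g) = true := List.all_eq_true.1 elsT_sub _ hg
      obtain ⟨g', hg', e⟩ := okT_spec h1
      rwa [← tblOf_injective e]
    refine ⟨T0.subgroupOf (Kp d0 p0 q0 r0), ?_, ?_, ?_⟩
    · constructor
      rintro ⟨t, ht⟩ htT ⟨x, hx⟩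
      have htT' : t ∈ T0 := htT
      rw [Subgroup.mem_subgroupOf]
      show x * t * x⁻¹ ∈ T0
      have h1 := List.all_eq_true.1 tnorm _ (elsM9_spec x hx)
      have h2 := List.all_eq_true.1 h1 _ htT'
      obtain ⟨t', ht', e⟩ := List.any_eq_true.1 h2
      have e' : tcomp (tblOf x) (tblOf t) = tcomp t' (tblOf x) := by simpa using e
      obtain ⟨u, -, rfl⟩ := okT_spec (List.all_eq_true.1 elsT_sub _ ht')
      have e2 : x * t = u * x := by
        apply tblOf_injective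
        rw [tblOf_mul, tblOf_mul, e']
      have e3 : x * t * x⁻¹ = u := by rw [e2, mul_inv_cancel_right]
      rw [e3]
      exact ht'
    · rw [Nat.card_congr (Subgroup.subgroupOfEquivOfLe hsub).toEquiv, T0, card_tblSubgroup]
      decide +kernel
    · rintro ⟨t, ht⟩ htT
      have htT' : t ∈ T0 := htT
      apply Subtype.ext
      show t ^ 3 = 1
      apply tblOf_injective
      have h1 := List.all_eq_true.1 tcube _ htT'
      have h2 : tcomp (tblOf t) (tcomp (tblOf t) (tblOf t)) = idTbl := by simpa using h1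
      rw [pow_succ', pow_two, tblOf_mul, tblOf_mul, h2, tblOf_one]
  · obtain ⟨a, ha, ea⟩ := okT_spec good_A
    obtain ⟨x, hx, ex⟩ := okT_spec good_X
    apply quat_exists (t := (⟨a, ha⟩ : Kp d0 p0 q0 r0)) (y := (⟨x, hx⟩ : Kp d0 p0 q0 r0))
    · apply Subtype.ext
      show a ^ 4 = 1
      apply tblOf_injective
      rw [show a ^ 4 = a * (a * (a * a)) by simp only [pow_succ', pow_zero, mul_one], tblOf_mul, tblOf_mul, tblOf_mul, ea, qA4, tblOf_one]
    · apply Subtype.ext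
      show x * x = a ^ 2
      apply tblOf_injective
      rw [pow_two, tblOf_mul, tblOf_mul, ea, ex, qX2]
    · apply Subtype.ext
      show x * a = a ^ 3 * x
      apply tblOf_injective
      rw [show a ^ 3 = a * (a * a) by simp only [pow_succ', pow_zero, mul_one], tblOf_mul, tblOf_mul, tblOf_mul, tblOf_mul, ea, ex, qXA]
    · intro h
      have h1 : a ^ 2 = 1 := congrArg Subtype.val h
      apply qA2
      rw [← ea, ← tblOf_mul, ← pow_two, h1, tblOf_one]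
    · intro k hk h
      have h1 : a ^ k = x := congrArg Subtype.val h
      have hpow : tblOf (a ^ k) ∈ [idTbl, tA, tcomp tA tA, tcomp tA (tcomp tA tA)] := by
        interval_cases k
        · rw [pow_zero, tblOf_one]; simp
        · rw [pow_one, ea]; simp
        · rw [pow_two, tblOf_mul, ea]; simp
        · rw [show a ^ 3 = a * (a * a) by simp only [pow_succ', pow_zero, mul_one], tblOf_mul, tblOf_mul, ea]; simp
      exact qXpow _ hpow (by rw [h1, ex])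

/-- The structure for every flag. -/
theorem hasM9_all {d : Finset GolayPt} (hd : d ∈ dodecads) {p q r : GolayPt} (hp : p ∈ d) (hq : q ∈ d)
    (hr : r ∈ d) (hpq : p ≠ q) (hpr : p ≠ r) (hqr : q ≠ r) :
    HasM9 ↥(MulAction.stabilizer M24 d ⊓ MulAction.stabilizer M24 p ⊓ MulAction.stabilizer M24 q ⊓
      MulAction.stabilizer M24 r) := by
  obtain ⟨g, hg, h1, h2⟩ := exists_transport_dod d0_mem hd (L := [p0, q0, r0]) (L' := [p, q, r])
    (by decide +kernel) (by simp [hpq, hpr, hqr]) rfl (by decide +kernel) (by simp [hp, hq, hr]) (by norm_num)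
  simp only [List.map_cons, List.map_nil, List.cons.injEq, and_true] at h2
  obtain ⟨e1⟩ := equiv_Kp_conj hg h1 h2.1 h2.2.1 h2.2.2
  obtain ⟨e2⟩ := equiv_Kp d p q r
  exact hasM9_K0.congr (e1.trans e2.symm)

end Cfsg.Agent.Lib.Sporadic.M24M9
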