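import Cfsg.Agent.Lib.Sporadic.M24TrioTree
import Cfsg.Agent.S1557

/-!
# The master table of trios
-/

namespace Cfsg.Agent.Lib.Sporadic.M24TrioTab

open Cfsg Cfsg.Agent.Lib.Sporadic.GolayCore Cfsg.Agent.Lib.Sporadic.M24Tbl
open Cfsg.Agent.Lib.Sporadic.M24Orbit Cfsg.Agent.Lib.Sporadic.M24Fast
open Cfsg.Agent.Lib.Sporadic.M24Sextet Cfsg.Agent.Lib.Sporadic.M24TrioTree
open Cfsg.Agent.Lib.Sporadic.M24Cert Cfsg.Agent.Lib.Sporadic.M24Classes
open Cfsg.Agent.Lib.Sporadic.M24OctadStab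
open scoped Pointwise

/-- The trio of a key. -/
def trObj (m : ℕ) : Finset (Finset GolayPt) := famOf ((trTree.find m).getD [])

/-- Test that an element moves a trio to a trio. -/
def trSem (f : ℕ → ℕ) (_ : ℕ) (vr : List ℕ) (_ : ℕ) (v : List ℕ) : Bool :=
  vr.all fun a => memB (f a) v

theorem trObj_eq {m : ℕ} {v : List ℕ} (hf : trTree.find m = some v) : trObj m = famOf v := by
  unfold trObj
  rw [hf]
  rfl

/-- What the check of an entry gives. -/
theorem tr_entry_spec {m : ℕ} {v : List ℕ} (hf : trTree.find m = some v) :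
    ∃ a b c, v = [a, b, c] ∧ m = a * 16777216 + b ∧ b < a ∧ c < b ∧ a < 2 ^ 24 ∧
      ofMask a ∈ octads ∧ ofMask b ∈ octads ∧ ofMask c ∈ octads ∧
      Disjoint (ofMask a) (ofMask b) ∧ Disjoint (ofMask a) (ofMask c) ∧
      Disjoint (ofMask b) (ofMask c) := by
  have h := ctAll_of_find tr_entries_ok hf
  unfold trEntryOK at h
  split at h
  · rename_i a b c
    simp only [Bool.and_eq_true] at h
    obtain ⟨⟨⟨⟨⟨⟨⟨⟨⟨h1, h2⟩, h3⟩, h4⟩, h5⟩, h6⟩, h7⟩, h8⟩, h9⟩, h10⟩ := h
    have hd : ∀ x y : ℕ, Nat.beq (Nat.land x y) 0 = true → Disjoint (ofMask x) (ofMask y) := by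
      intro x y hxy
      rw [Finset.disjoint_iff_inter_eq_empty, ← ofMask_and]
      have : x &&& y = 0 := Nat.eq_of_beq_eq_true hxy
      rw [this]
      ext p
      simp [mem_ofMask]
    exact ⟨a, b, c, rfl, Nat.eq_of_beq_eq_true h1, Nat.le_of_ble_eq_true h2, Nat.le_of_ble_eq_true h3,
      Nat.le_of_ble_eq_true h4, ofMask_mem_octads_of_fOct h5, ofMask_mem_octads_of_fOct h6,
      ofMask_mem_octads_of_fOct h7, hd _ _ h8, hd _ _ h9, hd _ _ h10⟩
  · simp at h

theorem tr_nodup_lt {m : ℕ} {v : List ℕ} (hf : trTree.find m = some v) :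
    v.Nodup ∧ ∀ a ∈ v, a < 2 ^ 24 := by
  obtain ⟨a, b, c, rfl, -, h2, h3, h4, -⟩ := tr_entry_spec hf
  constructor
  · simp only [List.nodup_cons, List.mem_cons, List.not_mem_nil, or_false, not_or, List.nodup_nil,
      and_true, not_false_eq_true]
    omega
  · intro x hx
    simp only [List.mem_cons, List.not_mem_nil, or_false] at hx
    omega

theorem tr_card {m : ℕ} {v : List ℕ} (hf : trTree.find m = some v) : (famOf v).card = 3 := by
  obtain ⟨hn, hlt⟩ := tr_nodup_lt hf
  rw [famOf_card_of_nodup hn hlt]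
  obtain ⟨a, b, c, rfl, -⟩ := tr_entry_spec hf
  rfl

theorem mem_famOf_mask {x : ℕ} {L : List ℕ} (hx : x < 2 ^ 24) (hL : ∀ a ∈ L, a < 2 ^ 24)
    (h : ofMask x ∈ famOf L) : x ∈ L := by
  obtain ⟨a, ha, he⟩ := mem_famOf.1 h
  rw [← (ofMask_inj (hL a ha) hx).1 he]
  exact ha

theorem tr_master : Master trios trObj trTree := by
  refine Master.of_count tr_bd_ok (Set.toFinite _) ?_ ?_ (by rw [Cfsg.Agent.S1557.result.2, tr_count_ok])
  · intro m v hf
    rw [trObj_eq hf]
    refine ⟨tr_card hf, ?_, ?_⟩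
    · intro o ho
      obtain ⟨a, b, c, rfl, -, -, -, -, h1, h2, h3, -⟩ := tr_entry_spec hf
      obtain ⟨x, hx, rfl⟩ := mem_famOf.1 ho
      simp only [List.mem_cons, List.not_mem_nil, or_false] at hx
      rcases hx with rfl | rfl | rfl <;> assumption
    · intro o ho o' ho' hne
      obtain ⟨a, b, c, rfl, -, -, -, -, -, -, -, h1, h2, h3⟩ := tr_entry_spec hf
      obtain ⟨x, hx, rfl⟩ := mem_famOf.1 ho
      obtain ⟨y, hy, rfl⟩ := mem_famOf.1 ho'
      simp only [List.mem_cons, List.not_mem_nil, or_false] at hx hy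
      rcases hx with rfl | rfl | rfl <;> rcases hy with rfl | rfl | rfl <;>
        first
        | exact absurd rfl hne
        | assumption
        | exact Disjoint.symm (by assumption)
  · intro m v m' v' hf hf' he
    rw [trObj_eq hf, trObj_eq hf'] at he
    obtain ⟨hn, hlt⟩ := tr_nodup_lt hf
    obtain ⟨hn', hlt'⟩ := tr_nodup_lt hf'
    have hs : ∀ x ∈ v, x ∈ v' := fun x hx =>
      mem_famOf_mask (hlt x hx) hlt' (he ▸ mem_famOf.2 ⟨x, hx, rfl⟩)
    have hs' : ∀ x ∈ v', x ∈ v := fun x hx =>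
      mem_famOf_mask (hlt' x hx) hlt (he.symm ▸ mem_famOf.2 ⟨x, hx, rfl⟩)
    obtain ⟨a, b, c, rfl, rfl, h1, h2, -⟩ := tr_entry_spec hf
    obtain ⟨a', b', c', rfl, rfl, h1', h2', -⟩ := tr_entry_spec hf'
    have e1 := hs a (by simp)
    have e2 := hs b (by simp)
    have e3 := hs c (by simp)
    have e1' := hs' a' (by simp)
    have e2' := hs' b' (by simp)
    have e3' := hs' c' (by simp)
    simp only [List.mem_cons, List.not_mem_nil, or_false] at e1 e2 e3 e1' e2' e3'
    have : a = a' ∧ b = b' := by omega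
    rw [this.1, this.2]

theorem smul_mem_trios {g : Equiv.Perm GolayPt} (hg : g ∈ M24) {T : Finset (Finset GolayPt)}
    (hT : T ∈ trios) : g • T ∈ trios := by
  refine ⟨by rw [Finset.card_smul_finset]; exact hT.1, ?_, ?_⟩
  · intro o ho
    obtain ⟨u, hu, rfl⟩ := Finset.mem_smul_finset.1 ho
    exact smul_mem_octads hg (hT.2.1 u hu)
  · intro o ho o' ho' hne
    obtain ⟨u, hu, rfl⟩ := Finset.mem_smul_finset.1 ho
    obtain ⟨u', hu', rfl⟩ := Finset.mem_smul_finset.1 ho'
    have hd : Disjoint u u' := by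
      apply hT.2.2 u hu u' hu'
      rintro rfl
      exact hne rfl
    rw [Finset.disjoint_left] at hd ⊢
    intro x hx hx'
    obtain ⟨a, ha, rfl⟩ := Finset.mem_smul_finset.1 hx
    obtain ⟨b, hb, hab⟩ := Finset.mem_smul_finset.1 hx'
    have : b = a := MulAction.injective g hab
    exact hd ha (this ▸ hb)

theorem tr_sys : Sys trios trObj trTree trSem where
  master := tr_master
  inv := fun g hg x hx => smul_mem_trios hg hx
  sound := by
    intro g f r m vr v hg hf hr hm hs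
    rw [trObj_eq hr, trObj_eq hm]
    apply Finset.eq_of_subset_of_card_le
    · intro s hs'
      obtain ⟨t, ht, rfl⟩ := Finset.mem_smul_finset.1 hs'
      obtain ⟨a, ha, rfl⟩ := mem_famOf.1 ht
      have h1 := List.all_eq_true.1 hs a ha
      exact mem_famOf.2 ⟨f a, memB_iff.1 h1, hf a⟩
    · rw [Finset.card_smul_finset, tr_card hr, tr_card hm]

/-- The class values on the table. -/
def trClv (L : List ℕ) (_ : ℕ) (v : List ℕ) : ℕ := clLL L v

/-- The certificate for the orbits on trios of the stabiliser of a family of masks. -/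
theorem tr_cert {L : List ℕ} (hL : L.Nodup) (hL' : ∀ a ∈ L, a < 2 ^ 24) {gens : List (List ℕ)}
    {tbs : List ℕ} (hgens : gensFOK L gens tbs = true) {tr : CT} {reps : List (ℕ × ℕ × List ℕ)}
    (hreps : ∀ p ∈ reps, trTree.find p.2.1 = some p.2.2)
    (cert : ctAll (certNode tbs tr reps (trClv L) trSem) trTree = true) :
    Cert trios trObj trTree trSem (famOf L) (clF (famOf L)) (trClv L) (stabF L) tbs tr reps where
  sys := tr_sys
  hcl := fun m v hf => by
    rw [trObj_eq hf]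
    exact clF_famOf hL (tr_nodup_lt hf).1 hL' (tr_nodup_lt hf).2
  hinv := fun g _ h x _ => clF_invariant h x
  hH := fun g hg => ⟨hg.1, hg.2⟩
  hgens := moves_of_gensFOK hgens
  hreps := hreps
  cert := cert

end Cfsg.Agent.Lib.Sporadic.M24TrioTab
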