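import Cfsg.Agent.Lib.Compute.M24Norm
import Cfsg.Agent.Lib.Compute.M24Fix
import Cfsg.Agent.Lib.Sporadic.M24TrioTab
import Cfsg.Agent.Lib.Sporadic.M24Basic

/-!
# The normaliser of a subgroup of order seven of `M24`
-/

set_option autoImplicit false

namespace Cfsg.Agent.Lib.Sporadic.M24N7

open Cfsg Cfsg.Agent.Lib.Compute.Golay Cfsg.Agent.Lib.Compute.GolayFast
open Cfsg.Agent.Lib.Compute.M24 Cfsg.Agent.Lib.Compute.M24Enum

/-- The table of an element of order seven. -/
def s7L : List ℕ := [0,1,14,9,15,21,6,4,11,5,3,10,13,22,16,17,18,12,19,20,23,8,7,2]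

def e1 : ℕ := 92517760045592893276290361232504864
def E1 : ℕ := 92517760045592893276290361232504864
def pos1 : List (ℕ × ℕ) := [(0,1415829711165297020254355436222002724331143137312),(1,1415829711165297020254355436222002724331143137312),(3,1415829711165297020254355436222002724331143137312),(4,1415829711165297020254355436222002724331143137312),(5,1415829711165297020254355436222002724331143137312),(4,1415829711164899381239555625321980291136458244128),(2,1415829711165297020254355436222002724331143137312),(5,1415829711165160072114890799708687357571358874656),(4,1415829711165082102553337173113939318975451384864),(4,1415829711164404719769865274587175465652917155872),(4,1415829711165160072114890799708687357571358874656),(4,1415829711165117396575290163086557594610540335136),(5,1415829711164996710624808680887136832753639278624),(5,1415829711165082102553337173113939318975451384864),(3,1415829711164404719769865274587175465652917155872),(5,1415829711164404719769865274587175465652917155872),(3,1415829711164899381239555625321980291136458244128),(5,1415829711164899381239555625321980291136458244128),(3,1415829711164996710624808680887136832753639278624),(3,1415829711165082102553337173113939318975451384864),(3,1415829711165117396575290163086557594610540335136),(4,1415829711164996710624808680887136832753639278624),(5,1415829711165117396575290163086557594610540335136),(3,1415829711165160072114890799708687357571358874656)]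
def ks1 : List ℕ := [0,0,0,0,0,2,0,6,4,1,6,5,3,4,1,1,2,2,3,4,5,3,5,6]
def lv1 : List Lvl := [⟨0,1,[0,1,6],[]⟩,
  ⟨1,1,[0,1,6],[]⟩,
  ⟨6,1,[0,1,6],[]⟩,
  ⟨2,7,[0,1,2,3,4,5,6,7,8,9,10,11,12,13,14,15,16,17,18,19,20,21,22,23],[10305542]⟩,
  ⟨3,7,[0,1,2,3,4,5,6,7,8,9,10,11,12,13,14,15,16,17,18,19,20,21,22,23],[280334,608810,1134148,2101096,8455014]⟩,
  ⟨4,7,[0,1,2,3,4,5,6,7,8,9,10,11,12,13,14,15,16,17,18,19,20,21,22,23],[5279,10558,18147,36294,69395,133817,262637,525274,1050548,4196943,8391797]⟩]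
def acc1 : List (List ℕ) := [[0,1,2,3,4,5,6,7,8,9,10,11,12,13,14,15,16,17,18,19,20,21,22,23],
  [0,1,14,9,15,21,6,4,11,5,3,10,13,22,16,17,18,12,19,20,23,8,7,2],
  [0,1,16,5,17,8,6,15,10,21,9,3,22,7,18,12,19,13,20,23,2,11,4,14],
  [0,1,18,21,12,11,6,17,3,8,5,9,7,4,19,13,20,22,23,2,14,10,15,16],
  [0,1,19,8,13,10,6,12,9,11,21,5,4,15,20,22,23,7,2,14,16,3,17,18],
  [0,1,20,11,22,3,6,13,5,10,8,21,15,17,23,7,2,4,14,16,18,9,12,19],
  [0,1,23,10,7,9,6,22,21,3,11,8,17,12,2,4,14,15,16,18,19,5,13,20],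
  [0,6,3,18,22,20,1,13,2,19,16,14,15,17,9,7,5,4,21,8,11,23,12,10],
  [0,6,5,20,4,2,1,7,16,23,19,18,12,13,21,15,8,17,11,10,3,14,22,9],
  [0,6,8,2,17,16,1,15,19,14,23,20,22,7,11,12,10,13,3,9,5,18,4,21],
  [0,6,9,19,7,23,1,22,14,20,18,16,17,12,5,4,21,15,8,11,10,2,13,3],
  [0,6,10,16,13,19,1,12,23,18,14,2,4,15,3,22,9,7,5,21,8,20,17,11],
  [0,6,11,14,12,18,1,17,20,16,2,23,7,4,10,13,3,22,9,5,21,19,15,8],
  [0,6,21,23,15,14,1,4,18,2,20,19,13,22,8,17,11,12,10,3,9,16,7,5],
  [1,0,4,5,19,8,6,18,10,21,9,3,2,14,15,20,17,23,12,13,22,11,16,7],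
  [1,0,7,9,18,21,6,16,11,5,3,10,23,2,4,19,15,20,17,12,13,8,14,22],
  [1,0,12,11,2,3,6,23,5,10,8,21,18,19,13,14,22,16,7,4,15,9,20,17],
  [1,0,13,10,14,9,6,2,21,3,11,8,19,20,22,16,7,18,4,15,17,5,23,12],
  [1,0,15,21,20,11,6,19,3,8,5,9,14,16,17,23,12,2,13,22,7,10,18,4],
  [1,0,17,8,23,10,6,20,9,11,21,5,16,18,12,2,13,14,22,7,4,3,19,15],
  [1,0,22,3,16,5,6,14,8,9,10,11,20,23,7,18,4,19,15,17,12,21,2,13],
  [1,6,3,15,2,12,0,23,22,17,4,7,18,19,9,14,5,16,21,8,11,13,20,10],
  [1,6,5,12,16,22,0,14,4,13,17,15,20,23,21,18,8,19,11,10,3,7,2,9],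
  [1,6,8,22,19,4,0,18,17,7,13,12,2,14,11,20,10,23,3,9,5,15,16,21],
  [1,6,9,17,14,13,0,2,7,12,15,4,19,20,5,16,21,18,8,11,10,22,23,3],
  [1,6,10,4,23,17,0,20,13,15,7,22,16,18,3,2,9,14,5,21,8,12,19,11],
  [1,6,11,7,20,15,0,19,12,4,22,13,14,16,10,23,3,2,9,5,21,17,18,8],
  [1,6,21,13,18,7,0,16,15,22,12,17,23,2,8,19,11,20,10,3,9,4,14,5],
  [6,0,4,2,10,16,1,11,19,14,23,20,5,21,15,3,17,9,12,13,22,18,8,7],
  [6,0,7,23,11,14,1,8,18,2,20,19,9,5,4,10,15,3,17,12,13,16,21,22],
  [6,0,12,18,5,20,1,9,2,19,16,14,11,10,13,21,22,8,7,4,15,23,3,17],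
  [6,0,13,19,21,23,1,5,14,20,18,16,10,3,22,8,7,11,4,15,17,2,9,12],
  [6,0,15,14,3,18,1,10,20,16,2,23,21,8,17,9,12,5,13,22,7,19,11,4],
  [6,0,17,16,9,19,1,3,23,18,14,2,8,11,12,5,13,21,22,7,4,20,10,15],
  [6,0,22,20,8,2,1,21,16,23,19,18,3,9,7,11,4,10,15,17,12,14,5,13],
  [6,1,2,12,8,22,0,21,4,13,17,15,3,9,14,11,16,10,18,19,20,7,5,23],
  [6,1,14,13,11,7,0,8,15,22,12,17,9,5,16,10,18,3,19,20,23,4,21,2],
  [6,1,16,22,10,4,0,11,17,7,13,12,5,21,18,3,19,9,20,23,2,15,8,14],
  [6,1,18,7,3,15,0,10,12,4,22,13,21,8,19,9,20,5,23,2,14,17,11,16],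
  [6,1,19,4,9,17,0,3,13,15,7,22,8,11,20,5,23,21,2,14,16,12,10,18],
  [6,1,20,15,5,12,0,9,22,17,4,7,11,10,23,21,2,8,14,16,18,13,3,19],
  [6,1,23,17,21,13,0,5,7,12,15,4,10,3,2,8,14,11,16,18,19,22,9,20]]
theorem cert1 : certOK e1 E1 pos1 ks1 lv1 [] = true := by decide +kernel
theorem search1 : search pos1 acc1 lv1 [] = true := by decide +kernel

def e2 : ℕ := 92517760045592893276290361232504864
def E2 : ℕ := 587179229735943628081115844773593120
def pos2 : List (ℕ × ℕ) := [(0,1415829711165297020254355436222002724331143137312),(1,1415829711165297020254355436222002724331143137312),(3,1415829711165297020254355436222002724331143137312),(4,1415829711165297020254355436222002724331143137312),(5,1415829711165297020254355436222002724331143137312),(4,1415829711165082102553337173113939318975451384864),(2,1415829711165297020254355436222002724331143137312),(5,1415829711165117396575290163086557594610540335136),(4,1415829711164404719769865274587175465652917155872),(4,1415829711164899381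239555625321980291136458244128),(4,1415829711165117396575290163086557594610540335136),(4,1415829711164996710624808680887136832753639278624),(5,1415829711165160072114890799708687357571358874656),(5,1415829711164404719769865274587175465652917155872),(3,1415829711164899381239555625321980291136458244128),(5,1415829711164899381239555625321980291136458244128),(3,1415829711165082102553337173113939318975451384864),(5,1415829711165082102553337173113939318975451384864),(3,1415829711165160072114890799708687357571358874656),(3,1415829711164404719769865274587175465652917155872),(3,1415829711164996710624808680887136832753639278624),(4,1415829711165160072114890799708687357571358874656),(5,1415829711164996710624808680887136832753639278624),(3,1415829711165117396575290163086557594610540335136)]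
def ks2 : List ℕ := [0,0,0,0,0,2,0,6,4,1,6,5,3,4,1,1,2,2,3,4,5,3,5,6]
def lv2 : List Lvl := [⟨0,1,[0,1,6],[]⟩,
  ⟨1,1,[0,1,6],[]⟩,
  ⟨6,1,[0,1,6],[]⟩,
  ⟨2,7,[0,1,2,3,4,5,6,7,8,9,10,11,12,13,14,15,16,17,18,19,20,21,22,23],[10305542]⟩,
  ⟨3,7,[0,1,2,3,4,5,6,7,8,9,10,11,12,13,14,15,16,17,18,19,20,21,22,23],[280334,608810,1134148,2101096,8455014]⟩,
  ⟨4,7,[0,1,2,3,4,5,6,7,8,9,10,11,12,13,14,15,16,17,18,19,20,21,22,23],[5279,10558,18147,36294,69395,133817,262637,525274,1050548,4196943,8391797]⟩]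
def acc2 : List (List ℕ) := [[0,1,2,11,17,5,6,4,10,3,21,9,15,12,16,13,19,7,23,14,18,8,22,20],
  [0,1,14,10,12,21,6,15,3,9,8,5,17,13,18,22,20,4,2,16,19,11,7,23],
  [0,1,16,3,13,8,6,17,9,5,11,21,12,22,19,7,23,15,14,18,20,10,4,2],
  [0,1,18,9,22,11,6,12,5,21,10,8,13,7,20,4,2,17,16,19,23,3,15,14],
  [0,1,19,5,7,10,6,13,21,8,3,11,22,4,23,15,14,12,18,20,2,9,17,16],
  [0,1,20,21,4,3,6,22,8,11,9,10,7,15,2,17,16,13,19,23,14,5,12,18],
  [0,1,23,8,15,9,6,7,11,10,5,3,4,17,14,12,18,22,20,2,16,21,13,19],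
  [0,6,3,14,4,20,1,22,16,18,23,19,7,15,5,17,8,13,10,9,21,2,12,11],
  [0,6,5,18,17,2,1,4,19,20,14,23,15,12,8,13,10,7,9,21,11,16,22,3],
  [0,6,8,20,13,16,1,17,23,2,18,14,12,22,10,7,9,15,21,11,3,19,4,5],
  [0,6,9,16,15,23,1,7,18,19,2,20,4,17,21,12,11,22,3,5,8,14,13,10],
  [0,6,10,2,7,19,1,13,14,16,20,18,22,4,9,15,21,12,11,3,5,23,17,8],
  [0,6,11,23,22,18,1,12,2,14,19,16,13,7,3,4,5,17,8,10,9,20,15,21],
  [0,6,21,19,12,14,1,15,20,23,16,2,17,13,11,22,3,4,5,8,10,18,7,9],
  [1,0,4,3,23,8,6,19,9,5,11,21,20,2,17,14,13,18,7,15,12,10,16,22],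
  [1,0,7,10,20,21,6,18,3,9,8,5,19,23,15,2,12,16,22,4,17,11,14,13],
  [1,0,12,21,16,3,6,2,8,11,9,10,14,18,22,19,4,23,17,13,7,5,20,15],
  [1,0,13,8,18,9,6,14,11,10,5,3,16,19,7,20,15,2,12,22,4,21,23,17],
  [1,0,15,9,2,11,6,20,5,21,10,8,23,14,12,16,22,19,4,17,13,3,18,7],
  [1,0,17,5,14,10,6,23,21,8,3,11,2,16,13,18,7,20,15,12,22,9,19,4],
  [1,0,22,11,19,5,6,16,10,3,21,9,18,20,4,23,17,14,13,7,15,8,2,12],
  [1,6,3,7,16,12,0,2,4,15,13,17,14,18,5,19,8,23,10,9,21,22,20,11],
  [1,6,5,15,19,22,0,16,17,12,7,13,18,20,8,23,10,14,9,21,11,4,2,3],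
  [1,6,8,12,23,4,0,19,13,22,15,7,20,2,10,14,9,18,21,11,3,17,16,5],
  [1,6,9,4,18,13,0,14,15,17,22,12,16,19,21,20,11,2,3,5,8,7,23,10],
  [1,6,10,22,14,17,0,23,7,4,12,15,2,16,9,18,21,20,11,3,5,13,19,8],
  [1,6,11,13,2,15,0,20,22,7,17,4,23,14,3,16,5,19,8,10,9,12,18,21],
  [1,6,21,17,20,7,0,18,12,13,4,22,19,23,11,2,3,16,5,8,10,15,14,9],
  [6,0,4,20,9,16,1,10,23,2,18,14,3,5,17,21,13,11,7,15,12,19,8,22],
  [6,0,7,19,3,14,1,11,20,23,16,2,10,9,15,5,12,8,22,4,17,18,21,13],
  [6,0,12,14,8,20,1,5,16,18,23,19,21,11,22,10,4,9,17,13,7,2,3,15],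
  [6,0,13,16,11,23,1,21,18,19,2,20,8,10,7,3,15,5,12,22,4,14,9,17],
  [6,0,15,23,5,18,1,3,2,14,19,16,9,21,12,8,22,10,4,17,13,20,11,7],
  [6,0,17,2,21,19,1,9,14,16,20,18,5,8,13,11,7,3,15,12,22,23,10,4],
  [6,0,22,18,10,2,1,8,19,20,14,23,11,3,4,9,17,21,13,7,15,16,5,12],
  [6,1,2,15,10,22,0,8,17,12,7,13,11,3,16,9,19,21,23,14,18,4,5,20],
  [6,1,14,17,3,7,0,11,12,13,4,22,10,9,18,5,20,8,2,16,19,15,21,23],
  [6,1,16,12,9,4,0,10,13,22,15,7,3,5,19,21,23,11,14,18,20,17,8,2],
  [6,1,18,13,5,15,0,3,22,7,17,4,9,21,20,8,2,10,16,19,23,12,11,14],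
  [6,1,19,22,21,17,0,9,7,4,12,15,5,8,23,11,14,3,18,20,2,13,10,16],
  [6,1,20,7,8,12,0,5,4,15,13,17,21,11,2,10,16,9,19,23,14,22,3,18],
  [6,1,23,4,11,13,0,21,15,17,22,12,8,10,14,3,18,5,20,2,16,7,9,19]]
theorem cert2 : certOK e2 E2 pos2 ks2 lv2 [] = true := by decide +kernel
theorem search2 : search pos2 acc2 lv2 [] = true := by decide +kernel

def e3 : ℕ := 92517760045592893276290361232504864
def E3 : ℕ := 684508614988999193237657461954627616
def pos3 : List (ℕ × ℕ) := [(0,1415829711165297020254355436222002724331143137312),(1,1415829711165297020254355436222002724331143137312),(3,1415829711165297020254355436222002724331143137312),(4,1415829711165297020254355436222002724331143137312),(5,1415829711165297020254355436222002724331143137312),(4,1415829711165160072114890799708687357571358874656),(2,1415829711165297020254355436222002724331143137312),(5,1415829711165082102553337173113939318975451384864),(4,1415829711165117396575290163086557594610540335136),(4,1415829711164996710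624808680887136832753639278624),(4,1415829711165082102553337173113939318975451384864),(4,1415829711164404719769865274587175465652917155872),(5,1415829711164899381239555625321980291136458244128),(5,1415829711165117396575290163086557594610540335136),(3,1415829711164996710624808680887136832753639278624),(5,1415829711164996710624808680887136832753639278624),(3,1415829711165160072114890799708687357571358874656),(5,1415829711165160072114890799708687357571358874656),(3,1415829711164899381239555625321980291136458244128),(3,1415829711165117396575290163086557594610540335136),(3,1415829711164404719769865274587175465652917155872),(4,1415829711164899381239555625321980291136458244128),(5,1415829711164404719769865274587175465652917155872),(3,1415829711165082102553337173113939318975451384864)]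
def ks3 : List ℕ := [0,0,0,0,0,2,0,6,4,1,6,5,3,4,1,1,2,2,3,4,5,3,5,6]
def lv3 : List Lvl := [⟨0,1,[0,1,6],[]⟩,
  ⟨1,1,[0,1,6],[]⟩,
  ⟨6,1,[0,1,6],[]⟩,
  ⟨2,7,[0,1,2,3,4,5,6,7,8,9,10,11,12,13,14,15,16,17,18,19,20,21,22,23],[10305542]⟩,
  ⟨3,7,[0,1,2,3,4,5,6,7,8,9,10,11,12,13,14,15,16,17,18,19,20,21,22,23],[280334,608810,1134148,2101096,8455014]⟩,
  ⟨4,7,[0,1,2,3,4,5,6,7,8,9,10,11,12,13,14,15,16,17,18,19,20,21,22,23],[5279,10558,18147,36294,69395,133817,262637,525274,1050548,4196943,8391797]⟩]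
def acc3 : List (List ℕ) := []
theorem cert3 : certOK e3 E3 pos3 ks3 lv3 [] = true := by decide +kernel
theorem search3 : search pos3 acc3 lv3 [] = true := by decide +kernel

def e4 : ℕ := 92517760045592893276290361232504864
def E4 : ℕ := 769900543517491420040143683766733856
def pos4 : List (ℕ × ℕ) := [(0,1415829711165297020254355436222002724331143137312),(1,1415829711165297020254355436222002724331143137312),(3,1415829711165297020254355436222002724331143137312),(4,1415829711165297020254355436222002724331143137312),(5,1415829711165297020254355436222002724331143137312),(4,1415829711164404719769865274587175465652917155872),(2,1415829711165297020254355436222002724331143137312),(5,1415829711164996710624808680887136832753639278624),(4,1415829711164899381239555625321980291136458244128),(4,1415829711165082102553337173113939318975451384864),(4,1415829711164996710624808680887136832753639278624),(4,1415829711165160072114890799708687357571358874656),(5,141582971116511739657529016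3086557594610540335136),(5,1415829711164899381239555625321980291136458244128),(3,1415829711165082102553337173113939318975451384864),(5,1415829711165082102553337173113939318975451384864),(3,1415829711164404719769865274587175465652917155872),(5,1415829711164404719769865274587175465652917155872),(3,1415829711165117396575290163086557594610540335136),(3,1415829711164899381239555625321980291136458244128),(3,1415829711165160072114890799708687357571358874656),(4,1415829711165117396575290163086557594610540335136),(5,1415829711165160072114890799708687357571358874656),(3,1415829711164996710624808680887136832753639278624)]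
def ks4 : List ℕ := [0,0,0,0,0,2,0,6,4,1,6,5,3,4,1,1,2,2,3,4,5,3,5,6]
def lv4 : List Lvl := [⟨0,1,[0,1,6],[]⟩,
  ⟨1,1,[0,1,6],[]⟩,
  ⟨6,1,[0,1,6],[]⟩,
  ⟨2,7,[0,1,2,3,4,5,6,7,8,9,10,11,12,13,14,15,16,17,18,19,20,21,22,23],[10305542]⟩,
  ⟨3,7,[0,1,2,3,4,5,6,7,8,9,10,11,12,13,14,15,16,17,18,19,20,21,22,23],[280334,608810,1134148,2101096,8455014]⟩,
  ⟨4,7,[0,1,2,3,4,5,6,7,8,9,10,11,12,13,14,15,16,17,18,19,20,21,22,23],[5279,10558,18147,36294,69395,133817,262637,525274,1050548,4196943,8391797]⟩]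
def acc4 : List (List ℕ) := [[0,1,2,9,7,5,6,17,21,11,8,3,13,15,19,12,14,4,20,16,23,10,22,18],
  [0,1,14,5,4,21,6,12,8,10,11,9,22,17,20,13,16,15,23,18,2,3,7,19],
  [0,1,16,21,15,8,6,13,11,3,10,5,7,12,23,22,18,17,2,19,14,9,4,20],
  [0,1,18,8,17,11,6,22,10,9,3,21,4,13,2,7,19,12,14,20,16,5,15,23],
  [0,1,19,11,12,10,6,7,3,5,9,8,15,22,14,4,20,13,16,23,18,21,17,2],
  [0,1,20,10,13,3,6,4,9,21,5,11,17,7,16,15,23,22,18,2,19,8,12,14],
  [0,1,23,3,22,9,6,15,5,8,21,10,12,4,18,17,2,7,19,14,20,11,13,16],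
  [0,6,3,19,13,20,1,4,23,14,2,18,17,7,8,15,9,22,11,5,10,16,12,21],
  [0,6,5,23,7,2,1,17,14,18,16,20,13,15,10,12,21,4,3,8,9,19,22,11],
  [0,6,8,14,15,16,1,13,18,20,19,2,7,12,9,22,11,17,5,10,21,23,4,3],
  [0,6,9,20,22,23,1,15,2,16,14,19,12,4,11,17,5,7,10,21,3,18,13,8],
  [0,6,10,18,12,19,1,7,20,2,23,16,15,22,21,4,3,13,8,9,11,14,17,5],
  [0,6,11,16,17,18,1,22,19,23,20,14,4,13,5,7,10,12,21,3,8,2,15,9],
  [0,6,21,2,4,14,1,12,16,19,18,23,22,17,3,13,8,15,9,11,5,20,7,10],
  [1,0,4,21,18,8,6,23,11,3,10,5,14,20,13,2,15,19,22,17,7,9,16,12],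
  [1,0,7,5,16,21,6,20,8,10,11,9,2,19,12,23,4,18,13,15,22,3,14,17],
  [1,0,12,10,23,3,6,16,9,21,5,11,19,14,4,18,13,2,15,22,17,8,20,7],
  [1,0,13,3,2,9,6,18,5,8,21,10,20,16,15,19,22,14,17,7,12,11,23,4],
  [1,0,15,8,19,11,6,2,10,9,3,21,16,23,22,14,17,20,7,12,4,5,18,13],
  [1,0,17,11,20,10,6,14,3,5,9,8,18,2,7,16,12,23,4,13,15,21,19,22],
  [1,0,22,9,14,5,6,19,21,11,8,3,23,18,17,20,7,16,12,4,13,10,2,15],
  [1,6,3,17,23,12,0,16,13,7,22,15,19,14,8,18,9,2,11,5,10,4,20,21],
  [1,6,5,13,14,22,0,19,7,15,4,12,23,18,10,20,21,16,3,8,9,17,2,11],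
  [1,6,8,7,18,4,0,23,15,12,17,22,14,20,9,2,11,19,5,10,21,13,16,3],
  [1,6,9,12,2,13,0,18,22,4,7,17,20,16,11,19,5,14,10,21,3,15,23,8],
  [1,6,10,15,20,17,0,14,12,22,13,4,18,2,21,16,3,23,8,9,11,7,19,5],
  [1,6,11,4,19,15,0,2,17,13,12,7,16,23,5,14,10,20,21,3,8,22,18,9],
  [1,6,21,22,16,7,0,20,4,17,15,13,2,19,3,23,8,18,9,11,5,12,14,10],
  [6,0,4,14,11,16,1,9,18,20,19,2,21,3,13,5,15,10,22,17,7,23,8,12],
  [6,0,7,2,8,14,1,3,16,19,18,23,5,10,12,9,4,11,13,15,22,20,21,17],
  [6,0,12,19,9,20,1,8,23,14,2,18,10,21,4,11,13,5,15,22,17,16,3,7],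
  [6,0,13,20,5,23,1,11,2,16,14,19,3,8,15,10,22,21,17,7,12,18,9,4],
  [6,0,15,16,10,18,1,5,19,23,20,14,8,9,22,21,17,3,7,12,4,2,11,13],
  [6,0,17,18,3,19,1,21,20,2,23,16,11,5,7,8,12,9,4,13,15,14,10,22],
  [6,0,22,23,21,2,1,10,14,18,16,20,9,11,17,3,7,8,12,4,13,19,5,15],
  [6,1,2,13,21,22,0,10,7,15,4,12,9,11,19,3,14,8,20,16,23,17,5,18],
  [6,1,14,22,8,7,0,3,4,17,15,13,5,10,20,9,16,11,23,18,2,12,21,19],
  [6,1,16,7,11,4,0,9,15,12,17,22,21,3,23,5,18,10,2,19,14,13,8,20],
  [6,1,18,4,10,15,0,5,17,13,12,7,8,9,2,21,19,3,14,20,16,22,11,23],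
  [6,1,19,15,3,17,0,21,12,22,13,4,11,5,14,8,20,9,16,23,18,7,10,2],
  [6,1,20,17,9,12,0,8,13,7,22,15,10,21,16,11,23,5,18,2,19,4,3,14],
  [6,1,23,12,5,13,0,11,22,4,7,17,3,8,18,10,2,21,19,14,20,15,9,16]]
theorem cert4 : certOK e4 E4 pos4 ks4 lv4 [] = true := by decide +kernel
theorem search4 : search pos4 acc4 lv4 [] = true := by decide +kernel

def e5 : ℕ := 92517760045592893276290361232504864
def E5 : ℕ := 805194565470481392658419318855684128
def pos5 : List (ℕ × ℕ) := [(0,1415829711165297020254355436222002724331143137312),(1,1415829711165297020254355436222002724331143137312),(3,1415829711165297020254355436222002724331143137312),(4,1415829711165297020254355436222002724331143137312),(5,1415829711165297020254355436222002724331143137312),(4,1415829711164996710624808680887136832753639278624),(2,1415829711165297020254355436222002724331143137312),(5,1415829711164899381239555625321980291136458244128),(4,1415829711165160072114890799708687357571358874656),(4,1415829711165117396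575290163086557594610540335136),(4,1415829711164899381239555625321980291136458244128),(4,1415829711165082102553337173113939318975451384864),(5,1415829711164404719769865274587175465652917155872),(5,1415829711165160072114890799708687357571358874656),(3,1415829711165117396575290163086557594610540335136),(5,1415829711165117396575290163086557594610540335136),(3,1415829711164996710624808680887136832753639278624),(5,1415829711164996710624808680887136832753639278624),(3,1415829711164404719769865274587175465652917155872),(3,1415829711165160072114890799708687357571358874656),(3,1415829711165082102553337173113939318975451384864),(4,1415829711164404719769865274587175465652917155872),(5,1415829711165082102553337173113939318975451384864),(3,1415829711164899381239555625321980291136458244128)]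
def ks5 : List ℕ := [0,0,0,0,0,2,0,6,4,1,6,5,3,4,1,1,2,2,3,4,5,3,5,6]
def lv5 : List Lvl := [⟨0,1,[0,1,6],[]⟩,
  ⟨1,1,[0,1,6],[]⟩,
  ⟨6,1,[0,1,6],[]⟩,
  ⟨2,7,[0,1,2,3,4,5,6,7,8,9,10,11,12,13,14,15,16,17,18,19,20,21,22,23],[10305542]⟩,
  ⟨3,7,[0,1,2,3,4,5,6,7,8,9,10,11,12,13,14,15,16,17,18,19,20,21,22,23],[280334,608810,1134148,2101096,8455014]⟩,
  ⟨4,7,[0,1,2,3,4,5,6,7,8,9,10,11,12,13,14,15,16,17,18,19,20,21,22,23],[5279,10558,18147,36294,69395,133817,262637,525274,1050548,4196943,8391797]⟩]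
def acc5 : List (List ℕ) := []
theorem cert5 : certOK e5 E5 pos5 ks5 lv5 [] = true := by decide +kernel
theorem search5 : search pos5 acc5 lv5 [] = true := by decide +kernel

def e6 : ℕ := 92517760045592893276290361232504864
def E6 : ℕ := 847870105071118014788182279674223648
def pos6 : List (ℕ × ℕ) := [(0,1415829711165297020254355436222002724331143137312),(1,1415829711165297020254355436222002724331143137312),(3,1415829711165297020254355436222002724331143137312),(4,1415829711165297020254355436222002724331143137312),(5,1415829711165297020254355436222002724331143137312),(4,1415829711165117396575290163086557594610540335136),(2,1415829711165297020254355436222002724331143137312),(5,1415829711164404719769865274587175465652917155872),(4,1415829711164996710624808680887136832753639278624),(4,1415829711165160072114890799708687357571358874656),(4,1415829711164404719769865274587175465652917155872),(4,1415829711164899381239555625321980291136458244128),(5,141582971116508210255333717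3113939318975451384864),(5,1415829711164996710624808680887136832753639278624),(3,1415829711165160072114890799708687357571358874656),(5,1415829711165160072114890799708687357571358874656),(3,1415829711165117396575290163086557594610540335136),(5,1415829711165117396575290163086557594610540335136),(3,1415829711165082102553337173113939318975451384864),(3,1415829711164996710624808680887136832753639278624),(3,1415829711164899381239555625321980291136458244128),(4,1415829711165082102553337173113939318975451384864),(5,1415829711164899381239555625321980291136458244128),(3,1415829711164404719769865274587175465652917155872)]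
def ks6 : List ℕ := [0,0,0,0,0,2,0,6,4,1,6,5,3,4,1,1,2,2,3,4,5,3,5,6]
def lv6 : List Lvl := [⟨0,1,[0,1,6],[]⟩,
  ⟨1,1,[0,1,6],[]⟩,
  ⟨6,1,[0,1,6],[]⟩,
  ⟨2,7,[0,1,2,3,4,5,6,7,8,9,10,11,12,13,14,15,16,17,18,19,20,21,22,23],[10305542]⟩,
  ⟨3,7,[0,1,2,3,4,5,6,7,8,9,10,11,12,13,14,15,16,17,18,19,20,21,22,23],[280334,608810,1134148,2101096,8455014]⟩,
  ⟨4,7,[0,1,2,3,4,5,6,7,8,9,10,11,12,13,14,15,16,17,18,19,20,21,22,23],[5279,10558,18147,36294,69395,133817,262637,525274,1050548,4196943,8391797]⟩]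
def acc6 : List (List ℕ) := []
theorem cert6 : certOK e6 E6 pos6 ks6 lv6 [] = true := by decide +kernel
theorem search6 : search pos6 acc6 lv6 [] = true := by decide +kernel

/-- The invariant trio. -/
def trioKey : ℕ := 172898308501649
def trioL : List ℕ := [10305542,4370577,2101096]
def nx : List ℕ := [0,6,3,18,22,20,1,13,2,19,16,14,15,17,9,7,5,4,21,8,11,23,12,10]
def ny : List ℕ := [1,0,4,5,19,8,6,18,10,21,9,3,2,14,15,20,17,23,12,13,22,11,16,7]

section generic

variable {G : Type*} [Group G]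

theorem mem_norm_of_conj_le [Finite G] {H : Subgroup G} {g : G} (h : ∀ x ∈ H, g * x * g⁻¹ ∈ H) :
    g ∈ Subgroup.normalizer (H : Set G) := by
  rw [Subgroup.mem_normalizer_iff_map_conj_eq]
  apply Subgroup.eq_of_le_of_card_ge
  · rintro _ ⟨x, hx, rfl⟩
    exact h x hx
  · exact le_of_eq (Subgroup.card_map_of_injective (MulAut.conj g).injective).symm

theorem norm_conj {S S0 : Subgroup G} {a : G} (h : ∀ x, x ∈ S ↔ a⁻¹ * x * a ∈ S0) (n : G) :
    n ∈ Subgroup.normalizer (S : Set G) ↔ a⁻¹ * n * a ∈ Subgroup.normalizer (S0 : Set G) := by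
  have h' : ∀ x, x ∈ S0 ↔ a * x * a⁻¹ ∈ S := by
    intro x
    rw [h]
    have e : a⁻¹ * (a * x * a⁻¹) * a = x := by group
    rw [e]
  rw [Subgroup.mem_normalizer_iff, Subgroup.mem_normalizer_iff]
  constructor
  · intro hn x
    rw [h', hn, h]
    have e : a⁻¹ * (n * (a * x * a⁻¹) * n⁻¹) * a = a⁻¹ * n * a * x * (a⁻¹ * n * a)⁻¹ := by group
    rw [e]
  · intro hn x
    rw [h, hn, h]
    have e : a⁻¹ * n * a * (a⁻¹ * x * a) * (a⁻¹ * n * a)⁻¹ = a⁻¹ * (n * x * n⁻¹) * a := by group
    rw [e]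

theorem cent_conj {S S0 : Subgroup G} {a : G} (h : ∀ x, x ∈ S ↔ a⁻¹ * x * a ∈ S0) (n : G) :
    n ∈ Subgroup.centralizer (S : Set G) ↔ a⁻¹ * n * a ∈ Subgroup.centralizer (S0 : Set G) := by
  have h' : ∀ x, x ∈ S0 ↔ a * x * a⁻¹ ∈ S := by
    intro x
    rw [h]
    have e : a⁻¹ * (a * x * a⁻¹) * a = x := by group
    rw [e]
  rw [Subgroup.mem_centralizer_iff, Subgroup.mem_centralizer_iff]
  constructor
  · intro hn x hx
    have h1 := hn _ ((h' x).1 hx)
    calc x * (a⁻¹ * n * a) = a⁻¹ * ((a * x * a⁻¹) * n) * a := by group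
      _ = a⁻¹ * (n * (a * x * a⁻¹)) * a := by rw [h1]
      _ = a⁻¹ * n * a * x := by group
  · intro hn x hx
    have h1 := hn _ ((h x).1 hx)
    calc x * n = a * ((a⁻¹ * x * a) * (a⁻¹ * n * a)) * a⁻¹ := by group
      _ = a * ((a⁻¹ * n * a) * (a⁻¹ * x * a)) * a⁻¹ := by rw [h1]
      _ = n * x := by group

end generic

/-- The element of order seven. -/
noncomputable def s7 : P := ofL s7L

theorem valid_s7 : validL s7L = true := by decide +kernel
theorem toL_s7 : toL s7 = s7L := toL_ofL valid_s7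
theorem s7_mem : s7 ∈ M24 := mem_M24_of_inM24 (codes_ofL valid_s7) (by decide +kernel)

theorem s7_pow7 : s7 ^ 7 = 1 := by
  apply eq_of_toL
  rw [toL_pow, toL_s7, toL_one]
  decide +kernel

theorem s7_ne : s7 ≠ 1 := by
  intro h
  have h1 := toL_s7
  rw [h, toL_one] at h1
  revert h1
  decide +kernel

theorem mem1 {y : P} (hy : y ∈ M24) (h : y * s7 = s7 ^ 1 * y) : toL y ∈ acc1 :=
  enum_toL cert1 search1 (by rw [toL_s7]; decide +kernel) (by rw [toL_pow, toL_s7]; decide +kernel) hy h (by simp)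
theorem mem2 {y : P} (hy : y ∈ M24) (h : y * s7 = s7 ^ 2 * y) : toL y ∈ acc2 :=
  enum_toL cert2 search2 (by rw [toL_s7]; decide +kernel) (by rw [toL_pow, toL_s7]; decide +kernel) hy h (by simp)
theorem mem3 {y : P} (hy : y ∈ M24) (h : y * s7 = s7 ^ 3 * y) : toL y ∈ acc3 :=
  enum_toL cert3 search3 (by rw [toL_s7]; decide +kernel) (by rw [toL_pow, toL_s7]; decide +kernel) hy h (by simp)
theorem mem4 {y : P} (hy : y ∈ M24) (h : y * s7 = s7 ^ 4 * y) : toL y ∈ acc4 :=
  enum_toL cert4 search4 (by rw [toL_s7]; decide +kernel) (by rw [toL_pow, toL_s7]; decide +kernel) hy h (by simp)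
theorem mem5 {y : P} (hy : y ∈ M24) (h : y * s7 = s7 ^ 5 * y) : toL y ∈ acc5 :=
  enum_toL cert5 search5 (by rw [toL_s7]; decide +kernel) (by rw [toL_pow, toL_s7]; decide +kernel) hy h (by simp)
theorem mem6 {y : P} (hy : y ∈ M24) (h : y * s7 = s7 ^ 6 * y) : toL y ∈ acc6 :=
  enum_toL cert6 search6 (by rw [toL_s7]; decide +kernel) (by rw [toL_pow, toL_s7]; decide +kernel) hy h (by simp)

/-- All the elements of the normaliser. -/
def allN : List (List ℕ) := acc1 ++ acc2 ++ acc4

theorem allN_nodup : allN.Nodup := by decide +kernel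
theorem allN_length : allN.length = 126 := by decide +kernel
theorem acc1_nodup : acc1.Nodup := by decide +kernel
theorem acc1_length : acc1.length = 42 := by decide +kernel
theorem allN_M24 : allN.all inM24 = true := by decide +kernel
theorem acc1_rel : acc1.all (fun T => mulL T s7L == mulL s7L T) = true := by decide +kernel
theorem acc2_rel : acc2.all (fun T => mulL T s7L == mulL (Cfsg.Agent.Lib.Compute.M24Enum.powL s7L 2) T) = true := by decide +kernel
theorem acc4_rel : acc4.all (fun T => mulL T s7L == mulL (Cfsg.Agent.Lib.Compute.M24Enum.powL s7L 4) T) = true := by decide +kernel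

/-- The subgroup of order seven in `M24`. -/
noncomputable def g7 : M24 := ⟨s7, s7_mem⟩

noncomputable def S7 : Subgroup M24 := Subgroup.zpowers g7

theorem toL_pow_coe (x : M24) (k : ℕ) : ((x ^ k : M24) : P) = (x : P) ^ k := rfl

theorem g7_pow7 : g7 ^ 7 = 1 := Subtype.ext s7_pow7

theorem g7_ne : g7 ≠ 1 := fun h => s7_ne (congrArg Subtype.val h)

theorem order_g7 : orderOf g7 = 7 := orderOf_eq_prime g7_pow7 g7_ne

theorem card_S7 : Nat.card S7 = 7 := by
  rw [S7, Nat.card_zpowers, order_g7]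

theorem mem_S7_iff (x : M24) : x ∈ S7 ↔ ∃ k < 7, g7 ^ k = x := by
  rw [S7, Subgroup.mem_zpowers_iff]
  constructor
  · rintro ⟨z, rfl⟩
    refine ⟨(z % 7).toNat, by omega, ?_⟩
    have h1 : (0 : ℤ) ≤ z % 7 := Int.emod_nonneg _ (by norm_num)
    rw [← zpow_natCast, Int.toNat_of_nonneg h1]
    conv_rhs => rw [← Int.mul_ediv_add_emod z 7]
    rw [zpow_add, zpow_mul]
    have : g7 ^ (7 : ℤ) = 1 := by
      rw [show (7 : ℤ) = ((7 : ℕ) : ℤ) from rfl, zpow_natCast]; exact g7_pow7
    rw [this, one_zpow, one_mul]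
  · rintro ⟨k, _, rfl⟩
    exact ⟨k, by simp⟩

/-- The normaliser in terms of the conjugation relation. -/
theorem mem_N_iff (y : M24) : y ∈ Subgroup.normalizer (S7 : Set M24) ↔ toL (y : P) ∈ allN := by
  constructor
  · intro hy
    have h1 : y * g7 * y⁻¹ ∈ S7 := (Subgroup.mem_normalizer_iff.1 hy g7).1 (Subgroup.mem_zpowers g7)
    obtain ⟨k, hk, e⟩ := (mem_S7_iff _).1 h1
    have e2 : y * g7 = g7 ^ k * y := by
      rw [e, inv_mul_cancel_right]
    have e3 : (y : P) * s7 = s7 ^ k * (y : P) := congrArg Subtype.val e2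
    have hyM : (y : P) ∈ M24 := y.2
    simp only [allN, List.mem_append]
    interval_cases k
    · exfalso
      apply g7_ne
      rw [pow_zero, one_mul] at e2
      exact mul_left_cancel (a := y) (by rw [e2, mul_one])
    · exact Or.inl (Or.inl (mem1 hyM e3))
    · exact Or.inl (Or.inr (mem2 hyM e3))
    · have := mem3 hyM e3
      simp [acc3] at this
    · exact Or.inr (mem4 hyM e3)
    · have := mem5 hyM e3
      simp [acc5] at this
    · have := mem6 hyM e3
      simp [acc6] at this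
  · intro hy
    have key : ∃ k : ℕ, y * g7 = g7 ^ k * y := by
      simp only [allN, List.mem_append] at hy
      rcases hy with (hy | hy) | hy
      · have h1 := List.all_eq_true.1 acc1_rel _ hy
        rw [beq_iff_eq, ← toL_s7, ← Cfsg.Agent.Lib.Compute.M24Enum.toL_mul, ← Cfsg.Agent.Lib.Compute.M24Enum.toL_mul] at h1
        refine ⟨1, Subtype.ext ?_⟩
        have h5 := eq_of_toL h1
        show (y : P) * s7 = s7 ^ 1 * (y : P)
        rw [pow_one]
        exact h5
      · have h1 := List.all_eq_true.1 acc2_rel _ hy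
        rw [beq_iff_eq, ← toL_s7, ← toL_pow, ← Cfsg.Agent.Lib.Compute.M24Enum.toL_mul, ← Cfsg.Agent.Lib.Compute.M24Enum.toL_mul] at h1
        exact ⟨2, Subtype.ext (eq_of_toL h1)⟩
      · have h1 := List.all_eq_true.1 acc4_rel _ hy
        rw [beq_iff_eq, ← toL_s7, ← toL_pow, ← Cfsg.Agent.Lib.Compute.M24Enum.toL_mul, ← Cfsg.Agent.Lib.Compute.M24Enum.toL_mul] at h1
        exact ⟨4, Subtype.ext (eq_of_toL h1)⟩
    obtain ⟨k, hk⟩ := key
    apply mem_norm_of_conj_le
    intro x hx
    obtain ⟨z, rfl⟩ := Subgroup.mem_zpowers_iff.1 hx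
    have e : y * g7 * y⁻¹ = g7 ^ k := by rw [hk, mul_inv_cancel_right]
    have e2 : y * g7 ^ z * y⁻¹ = (y * g7 * y⁻¹) ^ z := by
      rw [conj_zpow]
    rw [e2, e]
    exact Subgroup.zpow_mem _ (Subgroup.pow_mem _ (Subgroup.mem_zpowers g7) k) z

theorem mem_C_iff (y : M24) : y ∈ Subgroup.centralizer (S7 : Set M24) ↔ toL (y : P) ∈ acc1 := by
  constructor
  · intro hy
    have h1 : g7 * y = y * g7 := Subgroup.mem_centralizer_iff.1 hy g7 (Subgroup.mem_zpowers g7)
    have e3 : (y : P) * s7 = s7 ^ 1 * (y : P) := by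
      rw [pow_one]
      exact (congrArg Subtype.val h1).symm
    exact mem1 y.2 e3
  · intro hy
    have h1 := List.all_eq_true.1 acc1_rel _ hy
    rw [beq_iff_eq, ← toL_s7, ← Cfsg.Agent.Lib.Compute.M24Enum.toL_mul, ← Cfsg.Agent.Lib.Compute.M24Enum.toL_mul] at h1
    have h2 : y * g7 = g7 * y := Subtype.ext (eq_of_toL h1)
    rw [Subgroup.mem_centralizer_iff]
    intro x hx
    obtain ⟨z, rfl⟩ := Subgroup.mem_zpowers_iff.1 hx
    have hc : Commute y g7 := h2
    exact (hc.zpow_right z).symm.eq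

theorem card_of_list {K : Subgroup M24} {L : List (List ℕ)} (hnd : L.Nodup) (hM : L.all inM24 = true)
    (h : ∀ y : M24, y ∈ K ↔ toL (y : P) ∈ L) : Nat.card K = L.length := by
  classical
  have hc : Nat.card {T // T ∈ L} = L.length := by
    rw [Nat.card_eq_fintype_card]
    have h3 : Fintype.card {x // x ∈ L.toFinset} = L.toFinset.card := Fintype.card_coe _
    have e : Nat.card {x // x ∈ L} = Nat.card {x // x ∈ L.toFinset} :=
      Nat.card_congr (Equiv.subtypeEquivRight fun x => by simp)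
    rw [← Nat.card_eq_fintype_card, e, Nat.card_eq_fintype_card, h3, List.toFinset_card_of_nodup hnd]
  rw [← hc]
  refine Nat.card_congr (Equiv.ofBijective (fun x => ⟨toL ((x.1 : M24) : P), (h x.1).1 x.2⟩) ⟨?_, ?_⟩)
  · intro x y e
    exact Subtype.ext (Subtype.ext (eq_of_toL (congrArg Subtype.val e)))
  · rintro ⟨T, hT⟩
    obtain ⟨g, hg, rfl⟩ := exists_of_inM24 (List.all_eq_true.1 hM T hT)
    exact ⟨⟨⟨g, hg⟩, (h _).2 hT⟩, rfl⟩

theorem card_N : Nat.card (Subgroup.normalizer (S7 : Set M24)) = 126 := by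
  rw [card_of_list allN_nodup allN_M24 mem_N_iff, allN_length]

theorem card_C : Nat.card (Subgroup.centralizer (S7 : Set M24)) = 42 := by
  rw [card_of_list acc1_nodup (by decide +kernel) mem_C_iff, acc1_length]

/-- Non-commuting elements. -/
theorem noncomm : ∃ x ∈ Subgroup.centralizer (S7 : Set M24), ∃ y ∈ Subgroup.centralizer (S7 : Set M24), x * y ≠ y * x := by
  have h1 : nx ∈ acc1 := by decide +kernel
  have h2 : ny ∈ acc1 := by decide +kernel
  obtain ⟨x, hx, ex⟩ := exists_of_inM24 (L := nx) (by decide +kernel)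
  obtain ⟨y, hy, ey⟩ := exists_of_inM24 (L := ny) (by decide +kernel)
  refine ⟨⟨x, hx⟩, (mem_C_iff _).2 (by simpa [ex] using h1), ⟨y, hy⟩, (mem_C_iff _).2 (by simpa [ey] using h2), ?_⟩
  intro h
  have h3 : x * y = y * x := congrArg Subtype.val h
  have h4 := congrArg (fun σ : P => toL (σ : GolayPt → GolayPt)) h3
  simp only [Cfsg.Agent.Lib.Compute.M24Enum.toL_mul, ex, ey] at h4
  revert h4
  decide +kernel

open Cfsg.Agent.Lib.Sporadic.M24Sextet Cfsg.Agent.Lib.Sporadic.M24TrioTab Cfsg.Agent.Lib.Sporadic.M24TrioTree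
open Cfsg.Agent.Lib.Sporadic.M24Cert Cfsg.Agent.Lib.Sporadic.GolayCore Cfsg.Agent.Lib.Sporadic.M24Orbit
open scoped Pointwise

theorem trio_mem : famOf trioL ∈ trios := by
  have hf : trTree.find trioKey = some trioL := by decide +kernel
  have h1 := tr_master.mem _ _ hf
  rwa [trObj_eq hf] at h1

theorem allN_trio : allN.all (fun T => trioL.all fun u => trioL.contains (imgMask T u)) = true := by
  decide +kernel

theorem trioL_nodup_lt : ∀ m ∈ trioL, m < 2 ^ 24 := by decide +kernel

theorem trio_inv (y : M24) (hy : y ∈ Subgroup.normalizer (S7 : Set M24)) : (y : P) • famOf trioL = famOf trioL := by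
  have h1 := List.all_eq_true.1 allN_trio _ ((mem_N_iff y).1 hy)
  apply Finset.eq_of_subset_of_card_le
  · intro x hx
    obtain ⟨u, hu, rfl⟩ := Finset.mem_smul_finset.1 hx
    obtain ⟨m, hm, rfl⟩ := mem_famOf.1 hu
    have h2 := List.all_eq_true.1 h1 m hm
    rw [List.contains_iff_mem] at h2
    have h3 := Cfsg.Agent.Lib.Compute.M24.smul_ofMask (y : P) m
    have e : ofMask m = Cfsg.Agent.Lib.Sporadic.GolayCore.ofMask m := rfl
    rw [← e, h3]
    exact mem_famOf.2 ⟨_, h2, rfl⟩
  · rw [Finset.card_smul_finset]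

/-- The statement. -/
theorem main (S : Subgroup M24) (hS : Nat.card S = 7) :
    Nat.card ↥(Subgroup.normalizer (S : Set M24)) = 126 ∧ Nat.card ↥(Subgroup.centralizer (S : Set M24)) = 42 ∧
      (∃ x ∈ Subgroup.centralizer (S : Set M24), ∃ y ∈ Subgroup.centralizer (S : Set M24), x * y ≠ y * x) ∧
      ∃ T ∈ trios, ∀ n ∈ Subgroup.normalizer (S : Set M24), ((n : M24) : P) • T = T := by
  haveI : Fact (Nat.Prime 7) := ⟨by norm_num⟩
  have hfac : (Nat.card M24).factorization 7 = 1 := by
    rw [Cfsg.Agent.Lib.Sporadic.M24Basic.card_M24, show (244823040 : ℕ) = 7 ^ 1 * 34974720 by norm_num,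
      Nat.factorization_mul (by norm_num) (by norm_num), Nat.Prime.factorization_pow (by norm_num)]
    have h8 : Nat.factorization 34974720 7 = 0 := Nat.factorization_eq_zero_of_not_dvd (by norm_num)
    simp [h8]
  let P1 : Sylow 7 M24 := Sylow.ofCard S (by rw [hfac, hS]; norm_num)
  let P0 : Sylow 7 M24 := Sylow.ofCard S7 (by rw [hfac, card_S7]; norm_num)
  obtain ⟨a, ha⟩ := MulAction.exists_smul_eq M24 P0 P1
  have hconj : ∀ x, x ∈ S ↔ a⁻¹ * x * a ∈ S7 := by
    intro x
    have h1 : (S : Subgroup M24) = (P1 : Subgroup M24) := rfl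
    have h2 : (S7 : Subgroup M24) = (P0 : Subgroup M24) := rfl
    rw [h1, h2, ← ha, Sylow.coe_subgroup_smul, Subgroup.mem_pointwise_smul_iff_inv_smul_mem,
      MulAut.smul_def, ← MulAut.conj_inv_apply]
  refine ⟨?_, ?_, ?_, ?_⟩
  · rw [← card_N]
    refine Nat.card_congr
      { toFun := fun n => ⟨a⁻¹ * n.1 * a, (norm_conj hconj n.1).1 n.2⟩
        invFun := fun n => ⟨a * n.1 * a⁻¹, (norm_conj hconj _).2 (by
          have e : a⁻¹ * (a * n.1 * a⁻¹) * a = n.1 := by group
          rw [e]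
          exact n.2)⟩
        left_inv := fun n => by
          apply Subtype.ext
          show a * (a⁻¹ * n.1 * a) * a⁻¹ = n.1
          group
        right_inv := fun n => by
          apply Subtype.ext
          show a⁻¹ * (a * n.1 * a⁻¹) * a = n.1
          group }
  · rw [← card_C]
    refine Nat.card_congr
      { toFun := fun n => ⟨a⁻¹ * n.1 * a, (cent_conj hconj n.1).1 n.2⟩
        invFun := fun n => ⟨a * n.1 * a⁻¹, (cent_conj hconj _).2 (by
          have e : a⁻¹ * (a * n.1 * a⁻¹) * a = n.1 := by group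
          rw [e]
          exact n.2)⟩
        left_inv := fun n => by
          apply Subtype.ext
          show a * (a⁻¹ * n.1 * a) * a⁻¹ = n.1
          group
        right_inv := fun n => by
          apply Subtype.ext
          show a⁻¹ * (a * n.1 * a⁻¹) * a = n.1
          group }
  · obtain ⟨x, hx, y, hy, hxy⟩ := noncomm
    refine ⟨a * x * a⁻¹, (cent_conj hconj _).2 ?_, a * y * a⁻¹, (cent_conj hconj _).2 ?_, ?_⟩
    · have e : a⁻¹ * (a * x * a⁻¹) * a = x := by group
      rw [e]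
      exact hx
    · have e : a⁻¹ * (a * y * a⁻¹) * a = y := by group
      rw [e]
      exact hy
    · intro h
      apply hxy
      have e : x * y = a⁻¹ * (a * x * a⁻¹ * (a * y * a⁻¹)) * a := by group
      rw [e, h]
      group
  · refine ⟨(a : P) • famOf trioL, ?_, ?_⟩
    · exact Cfsg.Agent.Lib.Sporadic.M24TrioTab.smul_mem_trios a.2 trio_mem
    · intro n hn
      have h1 := trio_inv (a⁻¹ * n * a) ((norm_conj hconj n).1 hn)
      have e : ((n : M24) : P) • ((a : M24) : P) • famOf trioL =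
          (a : P) • (((a⁻¹ * n * a : M24) : M24) : P) • famOf trioL := by
        rw [← mul_smul, ← mul_smul]
        congr 1
        show (n : P) * (a : P) = (a : P) * ((a : P)⁻¹ * (n : P) * (a : P))
        group
      rw [e, h1]

end Cfsg.Agent.Lib.Sporadic.M24N7
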