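import Cfsg.Agent.Lib.Sporadic.M24QtCert
import Cfsg.Agent.Lib.Sporadic.M24DodFlag
import Cfsg.Agent.Lib.Sporadic.M24Dodecad

/-!
# The quartets of a dodecad
-/

namespace Cfsg.Agent.Lib.Sporadic.M24Qt

open Cfsg Cfsg.Agent.Lib.Sporadic.GolayCore Cfsg.Agent.Lib.Sporadic.M24Tbl
open Cfsg.Agent.Lib.Sporadic.M24Chain Cfsg.Agent.Lib.Sporadic.M24Basic
open Cfsg.Agent.Lib.Sporadic.M24Orbit Cfsg.Agent.Lib.Sporadic.M24Sextet Cfsg.Agent.Lib.Sporadic.M24Fast
open Cfsg.Agent.Lib.Sporadic.M24Cert Cfsg.Agent.Lib.Sporadic.M24Classes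
open Cfsg.Agent.Lib.Sporadic.M24Dodecad Cfsg.Agent.Lib.Sporadic.M24DodFlag
open Cfsg.Agent.Lib.Sporadic.M24QtTree Cfsg.Agent.Lib.Sporadic.M24QtCert
open Cfsg.Agent.Lib.Sporadic.M24Choose
open scoped Pointwise

/-- The standard dodecad. -/
def Dd : Finset GolayPt := ofMask dMask

theorem Dd_mem : Dd ∈ dodecads :=
  (ofMask_mem_dodecads_iff (by decide +kernel)).2 (by decide +kernel)

theorem hex_of_mem {m : ℕ} (hm : m ∈ hexL) : ofMask m ∈ hexadsOn Dd := by
  rw [hexL_eq] at hm
  obtain ⟨p, hp, rfl⟩ := List.mem_map.1 hm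
  have h := List.all_eq_true.1 hexW_ok p hp
  simp only [Bool.and_eq_true] at h
  obtain ⟨⟨h1, h2⟩, h3⟩ := h
  refine ⟨?_, ofMask p.2, ofMask_mem_octads_of_fOct h1, ?_⟩
  · rw [card_ofMask, ← fpop_eq]
    exact Nat.eq_of_beq_eq_true h3
  · rw [Dd, ← ofMask_and]
    congr 1
    exact Nat.eq_of_beq_eq_true h2

theorem mem_of_hex {m : ℕ} (hlt : m < 2 ^ 24) (h : ofMask m ∈ hexadsOn Dd) : m ∈ hexL := by
  obtain ⟨hc, o, ho, he⟩ := h
  have hx : toMask o ∈ octadList := by
    rw [← ofMask_mem_octads_iff (toMask_lt o), ofMask_toMask]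
    exact ho
  have h1 := octad_all hex_cover _ hx
  have h2 : ofMask (toMask o &&& dMask) = ofMask m := by
    rw [ofMask_and, ofMask_toMask]
    exact he
  have h3 : toMask o &&& dMask = m :=
    (ofMask_inj (Nat.and_lt_two_pow _ (by decide +kernel)) hlt).1 h2
  rw [h3] at h1
  simp only [Bool.or_eq_true, bne_iff_ne, List.contains_iff_mem] at h1
  rcases h1 with h1 | h1
  · rw [card_ofMask] at hc
    exact absurd hc h1
  · exact h1

theorem smul_hexad {g : Equiv.Perm GolayPt} (hg : g ∈ M24) {d h : Finset GolayPt} (hh : h ∈ hexadsOn d) :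
    g • h ∈ hexadsOn (g • d) := by
  obtain ⟨hc, o, ho, he⟩ := hh
  refine ⟨by rw [Finset.card_smul_finset]; exact hc, g • o, smul_mem_octads hg ho, ?_⟩
  rw [← Finset.smul_finset_inter, he]

theorem smul_quartet {g : Equiv.Perm GolayPt} (hg : g ∈ M24) {d : Finset GolayPt}
    {Q : Finset (Finset GolayPt)} (hQ : Q ∈ quartets d) : g • Q ∈ quartets (g • d) := by
  obtain ⟨h1, h2, h3⟩ := hQ
  refine ⟨by rw [Finset.card_smul_finset]; exact h1, ?_, ?_⟩
  · intro t ht
    obtain ⟨t', ht', rfl⟩ := Finset.mem_smul_finset.1 ht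
    exact ⟨by rw [Finset.card_smul_finset]; exact (h2 t' ht').1,
      Finset.smul_finset_subset_smul_finset (h2 t' ht').2⟩
  · intro t ht u hu hne
    obtain ⟨t', ht', rfl⟩ := Finset.mem_smul_finset.1 ht
    obtain ⟨u', hu', rfl⟩ := Finset.mem_smul_finset.1 hu
    rw [← Finset.smul_finset_union]
    exact smul_hexad hg (h3 t' ht' u' hu' (fun e => hne (by rw [e])))

theorem hexad_eq {d h h' : Finset GolayPt} (hh : h ∈ hexadsOn d) (hh' : h' ∈ hexadsOn d)
    (h5 : 5 ≤ (h ∩ h').card) : h = h' := by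
  obtain ⟨-, o, ho, rfl⟩ := hh
  obtain ⟨-, o', ho', rfl⟩ := hh'
  have : o = o' := by
    apply eq_of_octads_of_five ho ho'
    refine h5.trans (Finset.card_le_card ?_)
    intro x hx
    simp only [Finset.mem_inter] at hx ⊢
    exact ⟨hx.1.1, hx.2.1⟩
  rw [this]

theorem ofMask_t0 : ofMask t0 = {pt 0, pt 1, pt 23} := by decide +kernel

theorem ofMask_hex0 : ofMask (t0 ||| u0) ∈ hexadsOn Dd := hex_of_mem (by decide +kernel)

theorem five_pts : ({pt 0, pt 1, pt 23, pt 7, pt 8} : Finset GolayPt) ⊆ ofMask (t0 ||| u0) := by decide +kernel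

theorem disj0 : Disjoint (ofMask t0) (ofMask u0) := by decide +kernel

/-- Transport of a pair of triples to the standard one. -/
theorem exists_transport_pair {d t u : Finset GolayPt} (hd : d ∈ dodecads) (ht : t.card = 3) (hu : u.card = 3)
    (htu : Disjoint t u) (hh : t ∪ u ∈ hexadsOn d) :
    ∃ g ∈ M24, g • d = Dd ∧ g • t = ofMask t0 ∧ g • u = ofMask u0 := by
  obtain ⟨a, b, c, hab, hac, hbc, rfl⟩ := Finset.card_eq_three.1 ht
  obtain ⟨x, y, z, hxy, hxz, hyz, rfl⟩ := Finset.card_eq_three.1 hu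
  have hsub : ({a, b, c} ∪ {x, y, z} : Finset GolayPt) ⊆ d := by
    obtain ⟨-, o, -, he⟩ := hh
    rw [← he]
    exact Finset.inter_subset_right
  have hkey := Finset.disjoint_left.1 htu
  have h1 : a ≠ x := fun e => hkey (a := a) (by simp) (by simp [e])
  have h2 : a ≠ y := fun e => hkey (a := a) (by simp) (by simp [e])
  have h3 : b ≠ x := fun e => hkey (a := b) (by simp) (by simp [e])
  have h4 : b ≠ y := fun e => hkey (a := b) (by simp) (by simp [e])
  have h5 : c ≠ x := fun e => hkey (a := c) (by simp) (by simp [e])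
  have h6 : c ≠ y := fun e => hkey (a := c) (by simp) (by simp [e])
  obtain ⟨g, hg, hgd, hgL⟩ := exists_transport_dod hd Dd_mem (L := [a, b, c, x, y])
    (L' := [pt 0, pt 1, pt 23, pt 7, pt 8])
    (by simp [hab, hac, hbc, hxy, h1, h2, h3, h4, h5, h6])
    (by decide +kernel) rfl
    (by
      intro p hp
      apply hsub
      simp only [List.mem_cons, List.not_mem_nil, or_false] at hp
      simp only [Finset.mem_union, Finset.mem_insert, Finset.mem_singleton]
      tauto)
    (by decide +kernel) (by norm_num)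
  simp only [List.map_cons, List.map_nil, List.cons.injEq, and_true] at hgL
  obtain ⟨ha, hb, hc, hx, hy⟩ := hgL
  have hT : g • ({a, b, c} : Finset GolayPt) = ofMask t0 := by
    rw [ofMask_t0, Finset.smul_finset_insert, Finset.smul_finset_insert, Finset.smul_finset_singleton]
    rw [Equiv.Perm.smul_def, Equiv.Perm.smul_def, Equiv.Perm.smul_def, ha, hb, hc]
  have hH : g • ({a, b, c} ∪ {x, y, z} : Finset GolayPt) = ofMask (t0 ||| u0) := by
    apply hexad_eq (d := Dd)
    · rw [← hgd]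
      exact smul_hexad hg hh
    · exact ofMask_hex0
    · have hsub2 : ({pt 0, pt 1, pt 23, pt 7, pt 8} : Finset GolayPt) ⊆
          g • ({a, b, c} ∪ {x, y, z} : Finset GolayPt) ∩ ofMask (t0 ||| u0) := by
        intro p hp
        refine Finset.mem_inter.2 ⟨?_, five_pts hp⟩
        rw [Finset.mem_smul_finset]
        simp only [Finset.mem_insert, Finset.mem_singleton] at hp
        rcases hp with rfl | rfl | rfl | rfl | rfl
        · exact ⟨a, by simp, ha⟩
        · exact ⟨b, by simp, hb⟩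
        · exact ⟨c, by simp, hc⟩
        · exact ⟨x, by simp, hx⟩
        · exact ⟨y, by simp, hy⟩
      calc 5 = ({pt 0, pt 1, pt 23, pt 7, pt 8} : Finset GolayPt).card := by decide +kernel
        _ ≤ _ := Finset.card_le_card hsub2
  refine ⟨g, hg, hgd, hT, ?_⟩
  rw [Finset.smul_finset_union, hT, ofMask_or] at hH
  have hdisj : Disjoint (ofMask t0) (g • ({x, y, z} : Finset GolayPt)) := by
    rw [← hT]
    rw [Finset.disjoint_left] at htu ⊢
    intro p hp hp'
    obtain ⟨q, hq, rfl⟩ := Finset.mem_smul_finset.1 hp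
    obtain ⟨q', hq', e⟩ := Finset.mem_smul_finset.1 hp'
    exact htu hq (MulAction.injective g e ▸ hq')
  rw [← Finset.union_sdiff_cancel_left hdisj, hH, Finset.union_sdiff_cancel_left disj0]

theorem base_r {r : Finset GolayPt} (hr : r.card = 3) (h1 : ofMask t0 ∪ r ∈ hexadsOn Dd)
    (h2 : ofMask u0 ∪ r ∈ hexadsOn Dd) : r = ofMask r0 ∨ r = ofMask e0 := by
  have h := forall_card_of_chooseAll base_r_check hr
  simp only [Bool.or_eq_true, Bool.not_eq_true', beq_iff_eq] at h
  have hr' : ofMask (toMask r) = r := ofMask_toMask r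
  have h3 : t0 ||| toMask r ∈ hexL := by
    apply mem_of_hex (Nat.or_lt_two_pow (by decide +kernel) (toMask_lt r))
    rw [ofMask_or, hr']
    exact h1
  have h4 : u0 ||| toMask r ∈ hexL := by
    apply mem_of_hex (Nat.or_lt_two_pow (by decide +kernel) (toMask_lt r))
    rw [ofMask_or, hr']
    exact h2
  have h3' : hexL.contains (t0 ||| toMask r) = true := by simpa using h3
  have h4' : hexL.contains (u0 ||| toMask r) = true := by simpa using h4
  rcases h with ((h | h) | h) | h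
  · rw [h3'] at h
    exact absurd h (by simp)
  · rw [h4'] at h
    exact absurd h (by simp)
  · left
    rw [← hr', h]
  · right
    rw [← hr', h]

theorem q0_eq : q0L = [t0, u0, r0, e0] := rfl

theorem entry_spec {m : ℕ} {v : List ℕ} (hf : qtTree.find m = some v) :
    ∃ a b c e, v = [a, b, c, e] ∧ m = a * 16777216 + b ∧ b < a ∧ c < b ∧ e < c ∧ a < 2 ^ 24 ∧
      (ofMask a).card = 3 ∧ (ofMask b).card = 3 ∧ (ofMask c).card = 3 ∧ (ofMask e).card = 3 ∧
      (a ||| b) ∈ hexL ∧ (a ||| c) ∈ hexL ∧ (a ||| e) ∈ hexL ∧ (b ||| c) ∈ hexL ∧ (b ||| e) ∈ hexL ∧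
      (c ||| e) ∈ hexL := by
  have h := ctAll_of_find qt_entries_ok hf
  unfold qtEntryOK at h
  split at h
  · rename_i a b c e
    simp only [Bool.and_eq_true, List.contains_iff_mem] at h
    obtain ⟨⟨⟨⟨⟨⟨⟨⟨⟨⟨⟨⟨⟨⟨⟨h1, h2⟩, h3⟩, h4⟩, h5⟩, h6⟩, h7⟩, h8⟩, h9⟩, h10⟩, h11⟩, h12⟩, h13⟩, h14⟩, h15⟩, -⟩ := h
    have hc : ∀ x, Nat.beq (fpop x) 3 = true → (ofMask x).card = 3 := by
      intro x hx
      rw [card_ofMask, ← fpop_eq]
      exact Nat.eq_of_beq_eq_true hx
    exact ⟨a, b, c, e, rfl, Nat.eq_of_beq_eq_true h1, Nat.le_of_ble_eq_true h2, Nat.le_of_ble_eq_true h3,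
      Nat.le_of_ble_eq_true h4, Nat.le_of_ble_eq_true h5, hc _ h6, hc _ h7, hc _ h8, hc _ h9, h10, h11, h12, h13, h14, h15⟩
  · simp at h

theorem entry_nodup_lt {m : ℕ} {v : List ℕ} (hf : qtTree.find m = some v) :
    v.Nodup ∧ ∀ a ∈ v, a < 2 ^ 24 := by
  obtain ⟨a, b, c, e, rfl, -, h2, h3, h4, h5, -⟩ := entry_spec hf
  constructor
  · simp only [List.nodup_cons, List.mem_cons, List.not_mem_nil, or_false, not_or, List.nodup_nil,
      and_true, not_false_eq_true]
    omega
  · intro x hx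
    simp only [List.mem_cons, List.not_mem_nil, or_false] at hx
    omega

theorem entry_mem {m : ℕ} {v : List ℕ} (hf : qtTree.find m = some v) : famOf v ∈ quartets Dd := by
  have hcard := famOf_card_of_nodup (entry_nodup_lt hf).1 (entry_nodup_lt hf).2
  obtain ⟨a, b, c, e, rfl, -, -, -, -, -, ha, hb, hc, he, h1, h2, h3, h4, h5, h6⟩ := entry_spec hf
  have hunion : ∀ x y, (x ||| y) ∈ hexL → ofMask x ∪ ofMask y ∈ hexadsOn Dd := by
    intro x y hxy
    rw [← ofMask_or]
    exact hex_of_mem hxy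
  have hsub : ∀ x y, (x ||| y) ∈ hexL → ofMask x ⊆ Dd ∧ ofMask y ⊆ Dd := by
    intro x y hxy
    obtain ⟨-, o, -, he⟩ := hunion x y hxy
    have : ofMask x ∪ ofMask y ⊆ Dd := by
      rw [← he]
      exact Finset.inter_subset_right
    exact ⟨fun p hp => this (Finset.mem_union_left _ hp), fun p hp => this (Finset.mem_union_right _ hp)⟩
  refine ⟨by simpa using hcard, ?_, ?_⟩
  · intro t ht
    obtain ⟨x, hx, rfl⟩ := mem_famOf.1 ht
    simp only [List.mem_cons, List.not_mem_nil, or_false] at hx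
    rcases hx with rfl | rfl | rfl | rfl
    · exact ⟨ha, (hsub _ _ h1).1⟩
    · exact ⟨hb, (hsub _ _ h1).2⟩
    · exact ⟨hc, (hsub _ _ h2).2⟩
    · exact ⟨he, (hsub _ _ h3).2⟩
  · intro t ht u hu hne
    obtain ⟨x, hx, rfl⟩ := mem_famOf.1 ht
    obtain ⟨y, hy, rfl⟩ := mem_famOf.1 hu
    simp only [List.mem_cons, List.not_mem_nil, or_false] at hx hy
    rcases hx with rfl | rfl | rfl | rfl <;> rcases hy with rfl | rfl | rfl | rfl <;>
      first
      | exact absurd rfl hne
      | exact hunion _ _ (by assumption)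
      | (rw [Finset.union_comm]; exact hunion _ _ (by assumption))

/-- The standard quartet. -/
abbrev Q0 : Finset (Finset GolayPt) := famOf q0L

theorem key0 : qtTree.find (t0 * 16777216 + u0) = some q0L := by decide +kernel

theorem Q0_mem : Q0 ∈ quartets Dd := entry_mem key0

theorem Q0_card : Q0.card = 4 := by
  rw [famOf_card_of_nodup q0_nodup q0_lt]
  rfl

theorem base_unique {Q : Finset (Finset GolayPt)} (hQ : Q ∈ quartets Dd) (h1 : ofMask t0 ∈ Q)
    (h2 : ofMask u0 ∈ Q) : Q = Q0 := by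
  apply Finset.eq_of_subset_of_card_le
  · intro s hs
    by_cases h3 : s = ofMask t0
    · rw [h3]
      exact mem_famOf.2 ⟨t0, by decide +kernel, rfl⟩
    by_cases h4 : s = ofMask u0
    · rw [h4]
      exact mem_famOf.2 ⟨u0, by decide +kernel, rfl⟩
    have h5 := hQ.2.2 _ h1 _ hs (Ne.symm h3)
    have h6 := hQ.2.2 _ h2 _ hs (Ne.symm h4)
    rcases base_r (hQ.2.1 s hs).1 h5 h6 with rfl | rfl
    · exact mem_famOf.2 ⟨r0, by decide +kernel, rfl⟩
    · exact mem_famOf.2 ⟨e0, by decide +kernel, rfl⟩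
  · rw [Q0_card, hQ.1]

/-- Two triples of a quartet are disjoint and unite to a hexad. -/
theorem exists_pair {d : Finset GolayPt} {Q : Finset (Finset GolayPt)} (hQ : Q ∈ quartets d) :
    ∃ t ∈ Q, ∃ u ∈ Q, t.card = 3 ∧ u.card = 3 ∧ Disjoint t u ∧ t ∪ u ∈ hexadsOn d := by
  have h1 : 1 < Q.card := by rw [hQ.1]; norm_num
  obtain ⟨t, ht, u, hu, hne⟩ := Finset.one_lt_card.1 h1
  have h2 := hQ.2.2 t ht u hu hne
  have h3 := (hQ.2.1 t ht).1
  have h4 := (hQ.2.1 u hu).1
  refine ⟨t, ht, u, hu, h3, h4, ?_, h2⟩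
  have h5 := Finset.card_union_add_card_inter t u
  rw [h2.1, h3, h4] at h5
  exact Finset.disjoint_iff_inter_eq_empty.2 (Finset.card_eq_zero.1 (by omega))

/-- Transport of a quartet to the standard one. -/
theorem exists_to_base {d : Finset GolayPt} (hd : d ∈ dodecads) {Q : Finset (Finset GolayPt)} (hQ : Q ∈ quartets d) :
    ∃ g ∈ M24, g • d = Dd ∧ g • Q = Q0 := by
  obtain ⟨t, ht, u, hu, h1, h2, h3, h4⟩ := exists_pair hQ
  obtain ⟨g, hg, hgd, hgt, hgu⟩ := exists_transport_pair hd h1 h2 h3 h4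
  refine ⟨g, hg, hgd, base_unique ?_ ?_ ?_⟩
  · rw [← hgd]
    exact smul_quartet hg hQ
  · rw [← hgt]
    exact Finset.smul_mem_smul_finset ht
  · rw [← hgu]
    exact Finset.smul_mem_smul_finset hu

/-- The statement `S1596`. -/
theorem s1596 (d : Finset GolayPt) (hd : d ∈ dodecads) (t u : Finset GolayPt) (ht : t.card = 3) (hu : u.card = 3)
    (htu : Disjoint t u) (hh : t ∪ u ∈ hexadsOn d) :
    ∃! Q : Finset (Finset GolayPt), Q ∈ quartets d ∧ t ∈ Q ∧ u ∈ Q := by
  obtain ⟨g, hg, hgd, hgt, hgu⟩ := exists_transport_pair hd ht hu htu hh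
  refine ⟨g⁻¹ • Q0, ⟨?_, ?_, ?_⟩, ?_⟩
  · have h1 := smul_quartet (M24.inv_mem hg) Q0_mem
    rwa [← hgd, inv_smul_smul] at h1
  · rw [Finset.mem_smul_finset]
    exact ⟨ofMask t0, mem_famOf.2 ⟨t0, by decide +kernel, rfl⟩, by rw [← hgt, inv_smul_smul]⟩
  · rw [Finset.mem_smul_finset]
    exact ⟨ofMask u0, mem_famOf.2 ⟨u0, by decide +kernel, rfl⟩, by rw [← hgu, inv_smul_smul]⟩
  · rintro Q ⟨h1, h2, h3⟩
    have h4 : g • Q = Q0 := by
      apply base_unique
      · rw [← hgd]
        exact smul_quartet hg h1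
      · rw [← hgt]
        exact Finset.smul_mem_smul_finset h2
      · rw [← hgu]
        exact Finset.smul_mem_smul_finset h3
    rw [← h4, inv_smul_smul]

/-! ### The table -/

theorem ctAny_keys {P : ℕ → List ℕ → Bool} {t : CT} (h : ctAny P t = true) : ∃ m, m ∈ ctKeys P t := by
  induction t with
  | nil => simp [ctAny] at h
  | node l k v r ihl ihr =>
    simp only [ctAny, Bool.or_eq_true] at h
    simp only [ctKeys, Finset.mem_union]
    rcases h with (h | h) | h
    · obtain ⟨m, hm⟩ := ihl h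
      exact ⟨m, Or.inl (Or.inl hm)⟩
    · exact ⟨k, Or.inl (Or.inr (by simp [h]))⟩
    · obtain ⟨m, hm⟩ := ihr h
      exact ⟨m, Or.inr hm⟩

/-- The quartet of a key. -/
def qtObj (m : ℕ) : Finset (Finset GolayPt) := famOf ((qtTree.find m).getD [])

theorem qtObj_eq {m : ℕ} {v : List ℕ} (hf : qtTree.find m = some v) : qtObj m = famOf v := by
  unfold qtObj
  rw [hf]
  rfl

theorem mem_famOf_mask {x : ℕ} {L : List ℕ} (hx : x < 2 ^ 24) (hL : ∀ a ∈ L, a < 2 ^ 24)
    (h : ofMask x ∈ famOf L) : x ∈ L := by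
  obtain ⟨a, ha, he⟩ := mem_famOf.1 h
  rw [← (ofMask_inj (hL a ha) hx).1 he]
  exact ha

theorem surj_qt {Q : Finset (Finset GolayPt)} (hQ : Q ∈ quartets Dd) :
    ∃ m v, qtTree.find m = some v ∧ qtObj m = Q := by
  obtain ⟨t, ht, u, hu, h1, h2, h3, h4⟩ := exists_pair hQ
  have h5 := forall_card_of_chooseAll cover_ok h1
  have hlt : toMask t ||| toMask u < 2 ^ 24 := Nat.or_lt_two_pow (toMask_lt t) (toMask_lt u)
  have hH : toMask t ||| toMask u ∈ hexL := by
    apply mem_of_hex hlt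
    rw [ofMask_or, ofMask_toMask, ofMask_toMask]
    exact h4
  have h6 := List.all_eq_true.1 h5 _ hH
  have hand : Nat.land (toMask t) (toMask t ||| toMask u) = toMask t := by
    show toMask t &&& (toMask t ||| toMask u) = _
    apply Nat.eq_of_testBit_eq
    intro i
    rw [Nat.testBit_and, Nat.testBit_or]
    cases (toMask t).testBit i <;> simp
  have hxor : Nat.xor (toMask t ||| toMask u) (toMask t) = toMask u := by
    show (toMask t ||| toMask u) ^^^ toMask t = _
    have hlt2 : (toMask t ||| toMask u) ^^^ toMask t < 2 ^ 24 := Nat.xor_lt_two_pow hlt (toMask_lt t)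
    apply (ofMask_inj hlt2 (toMask_lt u)).1
    ext p
    rw [mem_ofMask, mem_ofMask, Nat.testBit_xor, Nat.testBit_or, testBit_toMask, testBit_toMask]
    by_cases h7 : p ∈ t
    · have h8 : p ∉ u := Finset.disjoint_left.1 h3 h7
      simp [h7, h8]
    · by_cases h8 : p ∈ u <;> simp [h7, h8]
  rw [hand, hxor] at h6
  simp only [Bool.or_eq_true, Bool.not_eq_true'] at h6
  replace h6 := h6.resolve_left (by rw [Nat.beq_refl]; simp)
  obtain ⟨m, hm⟩ := ctAny_keys h6
  obtain ⟨v, hf, hP⟩ := (mem_ctKeys _ qt_bd_ok).1 hm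
  simp only [Bool.and_eq_true, memB_iff] at hP
  refine ⟨m, v, hf, ?_⟩
  rw [qtObj_eq hf]
  -- uniqueness
  have hE := entry_mem hf
  have hm1 : t ∈ famOf v := mem_famOf.2 ⟨_, hP.1, ofMask_toMask t⟩
  have hm2 : u ∈ famOf v := mem_famOf.2 ⟨_, hP.2, ofMask_toMask u⟩
  obtain ⟨g, hg, hgd, hgt, hgu⟩ := exists_transport_pair Dd_mem h1 h2 h3 h4
  have e1 : g • famOf v = Q0 := by
    apply base_unique
    · rw [← hgd]
      exact smul_quartet hg hE
    · rw [← hgt]
      exact Finset.smul_mem_smul_finset hm1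
    · rw [← hgu]
      exact Finset.smul_mem_smul_finset hm2
  have e2 : g • Q = Q0 := by
    apply base_unique
    · rw [← hgd]
      exact smul_quartet hg hQ
    · rw [← hgt]
      exact Finset.smul_mem_smul_finset ht
    · rw [← hgu]
      exact Finset.smul_mem_smul_finset hu
  exact MulAction.injective g (e1.trans e2.symm)

theorem qt_master : Master (quartets Dd) qtObj qtTree where
  bd := ⟨_, qt_bd_ok⟩
  surj := fun Q hQ => surj_qt hQ
  mem := by
    intro m v hf
    rw [qtObj_eq hf]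
    exact entry_mem hf
  inj := by
    intro m v m' v' hf hf' he
    rw [qtObj_eq hf, qtObj_eq hf'] at he
    obtain ⟨hn, hlt⟩ := entry_nodup_lt hf
    obtain ⟨hn', hlt'⟩ := entry_nodup_lt hf'
    have hs : ∀ x ∈ v, x ∈ v' := fun x hx =>
      mem_famOf_mask (hlt x hx) hlt' (he ▸ mem_famOf.2 ⟨x, hx, rfl⟩)
    have hs' : ∀ x ∈ v', x ∈ v := fun x hx =>
      mem_famOf_mask (hlt' x hx) hlt (he.symm ▸ mem_famOf.2 ⟨x, hx, rfl⟩)
    obtain ⟨a, b, c, e, rfl, rfl, h1, h2, h3, -⟩ := entry_spec hf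
    obtain ⟨a', b', c', e', rfl, rfl, h1', h2', h3', -⟩ := entry_spec hf'
    have e1 := hs a (by simp)
    have e2 := hs b (by simp)
    have e3 := hs c (by simp)
    have e4 := hs e (by simp)
    have e1' := hs' a' (by simp)
    have e2' := hs' b' (by simp)
    have e3' := hs' c' (by simp)
    have e4' := hs' e' (by simp)
    simp only [List.mem_cons, List.not_mem_nil, or_false] at e1 e2 e3 e4 e1' e2' e3' e4'
    have : a = a' ∧ b = b' := by omega
    rw [this.1, this.2]

theorem ncard_quartets_Dd : (quartets Dd).ncard = 220 := by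
  have h := qt_master.ncard_filter (fun _ => True) (fun _ _ => true) (fun _ _ _ => by simp)
  rw [qt_count_ok] at h
  simpa using h

/-- The statement `S1597`. -/
theorem s1597 (d : Finset GolayPt) (hd : d ∈ dodecads) : (quartets d).ncard = 220 ∧
    ∀ Q ∈ quartets d, ∀ Q' ∈ quartets d, ∃ g : Equiv.Perm GolayPt, g ∈ M24 ∧ g • d = d ∧ g • Q = Q' := by
  constructor
  · obtain ⟨g, hg, hgd, -⟩ := exists_transport_dod hd Dd_mem (L := []) (L' := []) (by simp) (by simp) rfl
      (by simp) (by simp) (by norm_num)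
    have e : quartets d = (fun y => g⁻¹ • y) '' quartets Dd := by
      ext Q
      constructor
      · intro hQ
        refine ⟨g • Q, ?_, by simp⟩
        rw [← hgd]
        exact smul_quartet hg hQ
      · rintro ⟨y, hy, rfl⟩
        have h1 := smul_quartet (M24.inv_mem hg) hy
        rwa [← hgd, inv_smul_smul] at h1
    rw [e, ncard_translate, ncard_quartets_Dd]
  · intro Q hQ Q' hQ'
    obtain ⟨g, hg, h1, h2⟩ := exists_to_base hd hQ
    obtain ⟨g', hg', h1', h2'⟩ := exists_to_base hd hQ'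
    refine ⟨g'⁻¹ * g, M24.mul_mem (M24.inv_mem hg') hg, ?_, ?_⟩
    · rw [mul_smul, h1, ← h1', inv_smul_smul]
    · rw [mul_smul, h2, ← h2', inv_smul_smul]

end Cfsg.Agent.Lib.Sporadic.M24Qt
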