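import Cfsg.Agent.Lib.Sporadic.M24Qt

/-!
# The orbits of the stabiliser of a quartet on the quartets of its dodecad
-/

namespace Cfsg.Agent.Lib.Sporadic.M24Qt2

open Cfsg Cfsg.Agent.Lib.Sporadic.GolayCore Cfsg.Agent.Lib.Sporadic.M24Tbl
open Cfsg.Agent.Lib.Sporadic.M24Chain Cfsg.Agent.Lib.Sporadic.M24Basic
open Cfsg.Agent.Lib.Sporadic.M24Orbit Cfsg.Agent.Lib.Sporadic.M24Sextet Cfsg.Agent.Lib.Sporadic.M24Fast
open Cfsg.Agent.Lib.Sporadic.M24Cert Cfsg.Agent.Lib.Sporadic.M24Classes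
open Cfsg.Agent.Lib.Sporadic.M24Dodecad Cfsg.Agent.Lib.Sporadic.M24DodFlag
open Cfsg.Agent.Lib.Sporadic.M24QtTree Cfsg.Agent.Lib.Sporadic.M24QtCert
open Cfsg.Agent.Lib.Sporadic.M24Qt
open scoped Pointwise

theorem qt_sound {g : Equiv.Perm GolayPt} {f : ℕ → ℕ} {r m : ℕ} {vr v : List ℕ}
    (hf : ∀ a, ofMask (f a) = g • ofMask a) (hr : qtTree.find r = some vr)
    (hm : qtTree.find m = some v) (hs : qtSem f r vr m v = true) : g • qtObj r = qtObj m := by
  rw [qtObj_eq hr, qtObj_eq hm]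
  apply Finset.eq_of_subset_of_card_le
  · intro s hs'
    obtain ⟨t, ht, rfl⟩ := Finset.mem_smul_finset.1 hs'
    obtain ⟨a, ha, rfl⟩ := mem_famOf.1 ht
    have h1 := List.all_eq_true.1 hs a ha
    exact mem_famOf.2 ⟨f a, memB_iff.1 h1, hf a⟩
  · rw [Finset.card_smul_finset, (entry_mem hr).1, (entry_mem hm).1]

theorem qt_cl {m : ℕ} {v : List ℕ} (hf : qtTree.find m = some v) : clF Q0 (qtObj m) = qtClv q0L m v := by
  rw [qtObj_eq hf]
  exact clF_famOf q0_nodup (entry_nodup_lt hf).1 q0_lt (entry_nodup_lt hf).2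

theorem moved {m : ℕ} {v : List ℕ} (hf : qtTree.find m = some v) :
    ∃ c w r vr, treeQ.find m = some (c :: w) ∧ repOf repsQ c = some (r, vr) ∧ clF Q0 (qtObj m) = c ∧
      ∃ g ∈ stabF q0L, g • qtObj r = qtObj m := by
  obtain ⟨c, w, r, vr, h1, h2, h3, h4, h5⟩ := certNode_spec (ctAll_of_find certQ hf)
  refine ⟨c, w, r, vr, h1, h2, by rw [qt_cl hf, h3], ?_⟩
  obtain ⟨g, hg, hg'⟩ := moves_wordF (moves_of_gensFOK gensQ_ok) w h4
  exact ⟨g, hg, qt_sound hg' (hrepsQ (c, r, vr) (repOf_mem h2)) hf h5⟩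

theorem hconj {x y : Finset (Finset GolayPt)} (hx : x ∈ quartets Dd) (hy : y ∈ quartets Dd)
    (hc : clF Q0 x = clF Q0 y) : ∃ g ∈ stabF q0L, g • x = y := by
  obtain ⟨m, v, hf, rfl⟩ := surj_qt hx
  obtain ⟨m', v', hf', rfl⟩ := surj_qt hy
  obtain ⟨c, w, r, vr, h1, h2, h3, g, hg, e⟩ := moved hf
  obtain ⟨c', w', r', vr', h1', h2', h3', g', hg', e'⟩ := moved hf'
  have hcc : c = c' := by rw [← h3, ← h3', hc]
  subst hcc
  rw [h2] at h2'
  have hr : r = r' := by
    have := Option.some.inj h2'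
    exact (Prod.ext_iff.1 this).1
  subst hr
  refine ⟨g' * g⁻¹, (stabF q0L).mul_mem hg' ((stabF q0L).inv_mem hg), ?_⟩
  rw [mul_smul, ← e, inv_smul_smul, e']

theorem ncard_class (c : ℕ) : {y | y ∈ quartets Dd ∧ clF Q0 y = c}.ncard =
    ctCount (fun m _ => Nat.beq (clsOf treeQ m) c) qtTree := by
  apply qt_master.ncard_filter (fun y => clF Q0 y = c)
  intro m v hf
  obtain ⟨c', w, r, vr, h1, h2, h3, -⟩ := moved hf
  rw [h3, clsOf_eq h1]
  constructor
  · rintro rfl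
    exact Nat.beq_refl _
  · exact Nat.eq_of_beq_eq_true

/-- Elements of the stabiliser of the quartet preserve the dodecad. -/
theorem stabF_Dd {g : Equiv.Perm GolayPt} (hg : g ∈ stabF q0L) : g • Dd = Dd := by
  have h1 : g • Q0 = Q0 := (Subgroup.mem_inf.1 hg).2
  have h2 : ∀ p, p ∈ Dd ↔ ∃ a ∈ Q0, p ∈ a := by
    have h3 : ∀ p : GolayPt, p ∈ Dd → ∃ a ∈ q0L, p ∈ ofMask a := by decide +kernel
    have h4 : ∀ a ∈ q0L, ∀ p : GolayPt, p ∈ ofMask a → p ∈ Dd := by decide +kernel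
    intro p
    constructor
    · intro hp
      obtain ⟨a, ha, hp'⟩ := h3 p hp
      exact ⟨ofMask a, mem_famOf.2 ⟨a, ha, rfl⟩, hp'⟩
    · rintro ⟨a, ha, hp⟩
      obtain ⟨m, hm, rfl⟩ := mem_famOf.1 ha
      exact h4 m hm p hp
  apply Finset.eq_of_subset_of_card_le
  · intro p hp
    obtain ⟨q, hq, rfl⟩ := Finset.mem_smul_finset.1 hp
    obtain ⟨a, ha, hq'⟩ := (h2 q).1 hq
    refine (h2 _).2 ⟨g • a, ?_, Finset.smul_mem_smul_finset hq'⟩
    rw [← h1]
    exact Finset.smul_mem_smul_finset ha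
  · rw [Finset.card_smul_finset]

/-- The orbit of a translate. -/
theorem orbit_eq {k : Equiv.Perm GolayPt} (hk : k ∈ M24) {x : Finset (Finset GolayPt)} (hx : x ∈ quartets Dd) :
    MulAction.orbit ↥(MulAction.stabilizer M24 (k • Dd) ⊓ MulAction.stabilizer M24 (k • Q0)) (k • x) =
      (fun y => k • y) '' {y | y ∈ quartets Dd ∧ clF Q0 y = clF Q0 x} := by
  ext Y
  constructor
  · rintro ⟨⟨⟨h, hM⟩, hH⟩, rfl⟩
    obtain ⟨hH1, hH2⟩ := hH
    have hH1' : h • k • Dd = k • Dd := hH1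
    have hH2' : h • k • Q0 = k • Q0 := hH2
    have h1 : (k⁻¹ * h * k) • Dd = Dd := by
      rw [mul_smul, mul_smul, hH1', inv_smul_smul]
    have h2 : (k⁻¹ * h * k) • Q0 = Q0 := by
      rw [mul_smul, mul_smul, hH2', inv_smul_smul]
    have hM' : k⁻¹ * h * k ∈ M24 := M24.mul_mem (M24.mul_mem (M24.inv_mem hk) hM) hk
    refine ⟨(k⁻¹ * h * k) • x, ⟨?_, clF_invariant h2 x⟩, ?_⟩
    · have := smul_quartet hM' hx
      rwa [h1] at this
    · show k • (k⁻¹ * h * k) • x = h • k • x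
      rw [← mul_smul, ← mul_smul]
      congr 1
      group
  · rintro ⟨y, ⟨hy, hc⟩, rfl⟩
    obtain ⟨g, hg, e⟩ := hconj hx hy hc.symm
    have hgM : g ∈ M24 := (Subgroup.mem_inf.1 hg).1
    have hg1 := stabF_Dd hg
    have hg2 : g • Q0 = Q0 := (Subgroup.mem_inf.1 hg).2
    have hM : k * g * k⁻¹ ∈ M24 := M24.mul_mem (M24.mul_mem hk hgM) (M24.inv_mem hk)
    refine ⟨⟨⟨k * g * k⁻¹, hM⟩, ⟨?_, ?_⟩⟩, ?_⟩
    · show (k * g * k⁻¹) • k • Dd = k • Dd
      rw [mul_smul, mul_smul, inv_smul_smul, hg1]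
    · show (k * g * k⁻¹) • k • Q0 = k • Q0
      rw [mul_smul, mul_smul, inv_smul_smul, hg2]
    · show (k * g * k⁻¹) • k • x = k • y
      rw [mul_smul, mul_smul, inv_smul_smul, e]

theorem classes_all : ctAll (fun m _ => memB (clsOf treeQ m) [512, 176, 128, 112, 80]) qtTree = true := by
  decide +kernel

theorem class_values {y : Finset (Finset GolayPt)} (hy : y ∈ quartets Dd) :
    clF Q0 y ∈ [512, 176, 128, 112, 80] := by
  obtain ⟨m, v, hf, rfl⟩ := surj_qt hy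
  have h1 := ctAll_of_find classes_all hf
  obtain ⟨c, w, -, -, h2, -, h3, -⟩ := moved hf
  rw [h3]
  rw [clsOf_eq h2] at h1
  exact memB_iff.1 h1

/-- The class of a table entry. -/
theorem cl_rep {p : ℕ × ℕ × List ℕ} (hp : p ∈ repsQ) : clF Q0 (qtObj p.2.1) = p.1 := by
  rw [qt_cl (hrepsQ p hp), hcvQ p hp]

theorem rep_mem {p : ℕ × ℕ × List ℕ} (hp : p ∈ repsQ) : qtObj p.2.1 ∈ quartets Dd :=
  qt_master.mem _ _ (hrepsQ p hp)

theorem cl_Q0 : clF Q0 Q0 = 512 := by
  have h : clF Q0 (qtObj 140737538720128) = 512 := cl_rep (p := (512, 140737538720128, q0L)) (by decide +kernel)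
  have key0' : qtTree.find 140737538720128 = some q0L := by decide +kernel
  rw [qtObj_eq key0'] at h
  exact h

theorem eq_Q0 {y : Finset (Finset GolayPt)} (hy : y ∈ quartets Dd) (hc : clF Q0 y = 512) : y = Q0 := by
  obtain ⟨g, hg, e⟩ := hconj Q0_mem hy (by rw [cl_Q0, hc])
  rw [← e]
  exact (Subgroup.mem_inf.1 hg).2

/-- The statement `S1599`. -/
theorem s1599 (d : Finset GolayPt) (hd : d ∈ dodecads) (Q : Finset (Finset GolayPt)) (hQ : Q ∈ quartets d) :
    ∃ X₁ ∈ quartets d, ∃ X₂ ∈ quartets d, ∃ X₃ ∈ quartets d, ∃ X₄ ∈ quartets d,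
      (MulAction.orbit ↥(MulAction.stabilizer M24 d ⊓ MulAction.stabilizer M24 Q) X₁).ncard = 12 ∧
      (MulAction.orbit ↥(MulAction.stabilizer M24 d ⊓ MulAction.stabilizer M24 Q) X₂).ncard = 27 ∧
      (MulAction.orbit ↥(MulAction.stabilizer M24 d ⊓ MulAction.stabilizer M24 Q) X₃).ncard = 72 ∧
      (MulAction.orbit ↥(MulAction.stabilizer M24 d ⊓ MulAction.stabilizer M24 Q) X₄).ncard = 108 ∧
      quartets d = {Q} ∪ MulAction.orbit ↥(MulAction.stabilizer M24 d ⊓ MulAction.stabilizer M24 Q) X₁ ∪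
        MulAction.orbit ↥(MulAction.stabilizer M24 d ⊓ MulAction.stabilizer M24 Q) X₂ ∪
        MulAction.orbit ↥(MulAction.stabilizer M24 d ⊓ MulAction.stabilizer M24 Q) X₃ ∪
        MulAction.orbit ↥(MulAction.stabilizer M24 d ⊓ MulAction.stabilizer M24 Q) X₄ := by
  obtain ⟨g, hg, h1, h2⟩ := exists_to_base hd hQ
  set k := g⁻¹ with hkdef
  have hk : k ∈ M24 := M24.inv_mem hg
  have hdk : k • Dd = d := by rw [← h1, hkdef, inv_smul_smul]
  have hQk : k • Q0 = Q := by rw [← h2, hkdef, inv_smul_smul]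
  subst hdk hQk
  have c1 : clF Q0 (qtObj 140737538720260) = 176 := cl_rep (p := (176, 140737538720260, [8388611,33284,20608,328])) (by decide +kernel)
  have c2 : clF Q0 (qtObj 140737572274496) = 128 := cl_rep (p := (128, 140737572274496, [8388613,33088,16394,4736])) (by decide +kernel)
  have c3 : clF Q0 (qtObj 140737572274312) = 112 := cl_rep (p := (112, 140737572274312, [8388613,32904,16960,4354])) (by decide +kernel)
  have c4 : clF Q0 (qtObj 140737572294656) = 80 := cl_rep (p := (80, 140737572294656, [8388613,53248,776,194])) (by decide +kernel)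
  have m1 : qtObj 140737538720260 ∈ quartets Dd := rep_mem (p := (176, 140737538720260, [8388611,33284,20608,328])) (by decide +kernel)
  have m2 : qtObj 140737572274496 ∈ quartets Dd := rep_mem (p := (128, 140737572274496, [8388613,33088,16394,4736])) (by decide +kernel)
  have m3 : qtObj 140737572274312 ∈ quartets Dd := rep_mem (p := (112, 140737572274312, [8388613,32904,16960,4354])) (by decide +kernel)
  have m4 : qtObj 140737572294656 ∈ quartets Dd := rep_mem (p := (80, 140737572294656, [8388613,53248,776,194])) (by decide +kernel)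
  have hqk : ∀ {y}, y ∈ quartets Dd → k • y ∈ quartets (k • Dd) := fun hy => smul_quartet hk hy
  refine ⟨_, hqk m1, _, hqk m2, _, hqk m3, _, hqk m4, ?_, ?_, ?_, ?_, ?_⟩
  · rw [orbit_eq hk m1, ncard_translate, c1, ncard_class, nq1]
  · rw [orbit_eq hk m2, ncard_translate, c2, ncard_class, nq2]
  · rw [orbit_eq hk m3, ncard_translate, c3, ncard_class, nq3]
  · rw [orbit_eq hk m4, ncard_translate, c4, ncard_class, nq4]
  · rw [orbit_eq hk m1, orbit_eq hk m2, orbit_eq hk m3, orbit_eq hk m4, c1, c2, c3, c4]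
    ext Y
    simp only [Set.mem_union, Set.mem_singleton_iff, Set.mem_image, Set.mem_setOf_eq]
    constructor
    · intro hY
      have hy : k⁻¹ • Y ∈ quartets Dd := by
        have := smul_quartet (M24.inv_mem hk) hY
        rwa [inv_smul_smul] at this
      have hv := class_values hy
      simp only [List.mem_cons, List.not_mem_nil, or_false] at hv
      rcases hv with hv | hv | hv | hv | hv
      · left; left; left; left
        rw [← eq_Q0 hy hv, smul_inv_smul]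
      · left; left; left; right
        exact ⟨_, ⟨hy, hv⟩, smul_inv_smul k Y⟩
      · left; left; right
        exact ⟨_, ⟨hy, hv⟩, smul_inv_smul k Y⟩
      · left; right
        exact ⟨_, ⟨hy, hv⟩, smul_inv_smul k Y⟩
      · right
        exact ⟨_, ⟨hy, hv⟩, smul_inv_smul k Y⟩
    · rintro ((((rfl | ⟨y, ⟨hy, -⟩, rfl⟩) | ⟨y, ⟨hy, -⟩, rfl⟩) | ⟨y, ⟨hy, -⟩, rfl⟩) | ⟨y, ⟨hy, -⟩, rfl⟩)
      · exact hQ
      all_goals exact hqk hy

end Cfsg.Agent.Lib.Sporadic.M24Qt2
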