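import Cfsg.Agent.Lib.Sporadic.M24Qt3Data

/-!
# The structure of the stabiliser of a quartet
-/

namespace Cfsg.Agent.Lib.Sporadic.M24Qt3

open Cfsg Cfsg.Agent.Lib.Sporadic.GolayCore Cfsg.Agent.Lib.Sporadic.M24Tbl
open Cfsg.Agent.Lib.Sporadic.M24Chain Cfsg.Agent.Lib.Sporadic.M24Basic
open Cfsg.Agent.Lib.Sporadic.M24Orbit Cfsg.Agent.Lib.Sporadic.M24Sextet Cfsg.Agent.Lib.Sporadic.M24Fast
open Cfsg.Agent.Lib.Sporadic.M24Cert Cfsg.Agent.Lib.Sporadic.M24Classes
open Cfsg.Agent.Lib.Sporadic.M24Dodecad Cfsg.Agent.Lib.Sporadic.M24DodFlag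
open Cfsg.Agent.Lib.Sporadic.M24QtTree Cfsg.Agent.Lib.Sporadic.M24QtCert
open Cfsg.Agent.Lib.Sporadic.M24Qt Cfsg.Agent.Lib.Sporadic.M24Qt2 Cfsg.Agent.Lib.Sporadic.M24TblGroup
open scoped Pointwise
open Cfsg.Agent.Lib.Sporadic.M24Qt3Data

theorem exists_quot_GL {K : Type*} [Group K] [Finite K] (N : Subgroup K) [hn : N.Normal]
    (hN : Nat.card N = 9) (h3 : ∀ x ∈ N, x ^ 3 = 1) (hab : ∀ x ∈ N, ∀ y ∈ N, x * y = y * x)
    (hC : ∀ g : K, (∀ x ∈ N, g * x = x * g) → g ∈ N) (hK : Nat.card K = 432) :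
    Nonempty (K ⧸ N ≃* GL (Fin 2) (ZMod 3)) := by
  classical
  letI cg : CommGroup N := { (inferInstance : Group N) with
    mul_comm := fun x y => Subtype.ext (hab _ x.2 _ y.2) }
  letI : Module (ZMod 3) (Additive N) := AddCommGroup.zmodModule (n := 3) (fun x => by
    apply Additive.toMul.injective
    apply Subtype.ext
    have := h3 _ (Additive.toMul x).2
    simpa using this)
  haveI : Fact (Nat.Prime 3) := ⟨Nat.prime_three⟩
  haveI : Module.Finite (ZMod 3) (Additive N) := Module.Finite.of_finite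
  have hfr : Module.finrank (ZMod 3) (Additive N) = 2 := by
    have h1 := Module.natCard_eq_pow_finrank (K := ZMod 3) (V := Additive N)
    have h2 : Nat.card (Additive N) = Nat.card N := rfl
    rw [h2, hN, Nat.card_zmod] at h1
    have h4 : (3 : ℕ) ^ 2 = 3 ^ Module.finrank (ZMod 3) (Additive N) := by simpa using h1
    exact (Nat.pow_right_injective (le_refl 2 |>.trans (by norm_num)) h4).symm
  let e : Additive N ≃ₗ[ZMod 3] (Fin 2 → ZMod 3) :=
    LinearEquiv.ofFinrankEq _ _ (by rw [hfr]; simp)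
  let act : K → (Additive N →+ Additive N) := fun g =>
    { toFun := fun a => Additive.ofMul ⟨g * (Additive.toMul a).1 * g⁻¹, hn.conj_mem _ (Additive.toMul a).2 g⟩
      map_zero' := by
        apply Additive.toMul.injective
        apply Subtype.ext
        simp
      map_add' := by
        intro a b
        apply Additive.toMul.injective
        apply Subtype.ext
        simp [mul_assoc] }
  have hact : ∀ (g : K) (a : Additive N), (Additive.toMul (act g a)).1 = g * (Additive.toMul a).1 * g⁻¹ :=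
    fun g a => rfl
  let ρ : K →* Module.End (ZMod 3) (Additive N) :=
    { toFun := fun g => (act g).toZModLinearMap 3
      map_one' := by
        refine LinearMap.ext fun a => ?_
        apply Additive.toMul.injective
        apply Subtype.ext
        show (Additive.toMul (act 1 a)).1 = _
        rw [hact]
        simp
      map_mul' := by
        intro g h
        refine LinearMap.ext fun a => ?_
        apply Additive.toMul.injective
        apply Subtype.ext
        show (Additive.toMul (act (g * h) a)).1 = (Additive.toMul (act g (act h a))).1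
        rw [hact, hact, hact]
        group }
  have hρ : ∀ g, ρ g = 1 ↔ g ∈ N := by
    intro g
    constructor
    · intro h
      apply hC
      intro x hx
      have h1 := LinearMap.congr_fun h (Additive.ofMul ⟨x, hx⟩)
      have h2 : (Additive.toMul (act g (Additive.ofMul ⟨x, hx⟩))).1 = x := congrArg (fun a => (Additive.toMul a).1) h1
      rw [hact] at h2
      have h3 : g * x * g⁻¹ = x := h2
      rw [mul_inv_eq_iff_eq_mul] at h3
      exact h3
    · intro hg
      refine LinearMap.ext fun a => ?_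
      apply Additive.toMul.injective
      apply Subtype.ext
      show (Additive.toMul (act g a)).1 = _
      rw [hact, hab _ hg _ (Additive.toMul a).2]
      simp
  let M : Module.End (ZMod 3) (Additive N) ≃* Matrix (Fin 2) (Fin 2) (ZMod 3) :=
    (e.conjRingEquiv.trans (LinearMap.toMatrixAlgEquiv' (R := ZMod 3) (n := Fin 2)).toRingEquiv).toMulEquiv
  let φ : K →* GL (Fin 2) (ZMod 3) := (Units.map M.toMonoidHom).comp ρ.toHomUnits
  have hφ : ∀ g, φ g = 1 ↔ g ∈ N := by
    intro g
    rw [← hρ]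
    constructor
    · intro h
      have h1 := congrArg Units.val h
      have h2 : M (ρ g) = 1 := h1
      have h3 : M (ρ g) = M 1 := by rw [h2, map_one]
      exact M.injective h3
    · intro h
      apply Units.ext
      show M (ρ g) = 1
      rw [h, map_one]
  let f : K ⧸ N →* GL (Fin 2) (ZMod 3) := QuotientGroup.lift N φ (fun g hg => (hφ g).2 hg)
  have hf : Function.Injective f := by
    rw [injective_iff_map_eq_one]
    intro x
    induction x using QuotientGroup.induction_on with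
    | H g =>
      intro h
      have h1 : φ g = 1 := h
      exact (QuotientGroup.eq_one_iff g).2 ((hφ g).1 h1)
  have hcq : Nat.card (K ⧸ N) = 48 := by
    have h1 := Subgroup.card_eq_card_quotient_mul_card_subgroup N
    rw [hK, hN] at h1
    omega
  have hcg : Nat.card (GL (Fin 2) (ZMod 3)) = 48 := by
    rw [Matrix.card_GL_field, Fin.prod_univ_two, ZMod.card]
    norm_num
  exact ⟨MulEquiv.ofBijective f ((Nat.bijective_iff_injective_and_card f).2 ⟨hf, by rw [hcq, hcg]⟩)⟩

theorem okK_spec {T : List ℕ} (h : genOKF q0L T = true) : ∃ g ∈ stabF q0L, tblOf g = T := by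
  have h1 := h
  simp only [genOKF, Bool.and_eq_true] at h1
  obtain ⟨g, hg, hg2⟩ := moves_of_genOKF h
  refine ⟨gPerm T h1.1, ?_, tblOf_gPerm h1.1⟩
  refine ⟨gPerm_mem h1.1, ?_⟩
  show gPerm T h1.1 • famOf q0L = famOf q0L
  apply Finset.eq_of_subset_of_card_le
  · intro s hs
    obtain ⟨t, ht, rfl⟩ := Finset.mem_smul_finset.1 hs
    obtain ⟨m, hm, rfl⟩ := mem_famOf.1 ht
    simp only [List.all_eq_true, decide_eq_true_eq] at h1
    have h5 := ofMask_applyT (validTbl_of_goodT h1.1) m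
    exact mem_famOf.2 ⟨_, h1.2 m hm, h5⟩
  · rw [Finset.card_smul_finset]

/-- The group in the permutation group. -/
def Kp (d : Finset GolayPt) (Q : Finset (Finset GolayPt)) : Subgroup (Equiv.Perm GolayPt) :=
  M24 ⊓ MulAction.stabilizer _ d ⊓ MulAction.stabilizer _ Q

theorem mem_Kp {d : Finset GolayPt} {Q : Finset (Finset GolayPt)} {g : Equiv.Perm GolayPt} :
    g ∈ Kp d Q ↔ g ∈ M24 ∧ g • d = d ∧ g • Q = Q := by
  simp only [Kp, Subgroup.mem_inf, MulAction.mem_stabilizer_iff, and_assoc]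

theorem equiv_Kp (d : Finset GolayPt) (Q : Finset (Finset GolayPt)) :
    Nonempty (↥(MulAction.stabilizer M24 d ⊓ MulAction.stabilizer M24 Q) ≃* Kp d Q) := by
  let H := (MulAction.stabilizer M24 d ⊓ MulAction.stabilizer M24 Q)
  let f : ↥H →* Equiv.Perm GolayPt := M24.subtype.comp H.subtype
  have hf : Function.Injective f := M24.subtype_injective.comp H.subtype_injective
  have hr : f.range = Kp d Q := by
    ext g
    rw [mem_Kp]
    constructor
    · rintro ⟨⟨⟨x, hx⟩, hH⟩, rfl⟩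
      obtain ⟨h1, h2⟩ := hH
      exact ⟨hx, h1, h2⟩
    · rintro ⟨hx, h1, h2⟩
      exact ⟨⟨⟨g, hx⟩, ⟨h1, h2⟩⟩, rfl⟩
  exact ⟨(MonoidHom.ofInjective hf).trans (MulEquiv.subgroupCongr hr)⟩

theorem equiv_Kp_conj {d d' : Finset GolayPt} {Q Q' : Finset (Finset GolayPt)} {g : Equiv.Perm GolayPt}
    (hg : g ∈ M24) (hd : g • d = d') (hQ : g • Q = Q') : Nonempty (Kp d Q ≃* Kp d' Q') := by
  have key : (Kp d Q).map (MulAut.conj g).toMonoidHom = Kp d' Q' := by
    subst hd hQ
    ext x
    simp only [Subgroup.mem_map, mem_Kp, MulEquiv.coe_toMonoidHom, MulAut.conj_apply]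
    constructor
    · rintro ⟨y, ⟨h0, h1, h2⟩, rfl⟩
      refine ⟨M24.mul_mem (M24.mul_mem hg h0) (M24.inv_mem hg), ?_, ?_⟩
      · rw [mul_smul, mul_smul, inv_smul_smul, h1]
      · rw [mul_smul, mul_smul, inv_smul_smul, h2]
    · rintro ⟨h0, h1, h2⟩
      refine ⟨g⁻¹ * x * g, ⟨M24.mul_mem (M24.mul_mem (M24.inv_mem hg) h0) hg, ?_, ?_⟩, by group⟩
      · rw [mul_smul, mul_smul, h1, inv_smul_smul]
      · rw [mul_smul, mul_smul, h2, inv_smul_smul]
  exact ⟨((MulAut.conj g).subgroupMap (Kp d Q)).trans (MulEquiv.subgroupCongr key)⟩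

theorem Kp_base : Kp Dd Q0 = stabF q0L := by
  ext g
  rw [mem_Kp]
  constructor
  · rintro ⟨h1, -, h2⟩
    exact Subgroup.mem_inf.2 ⟨h1, h2⟩
  · intro h
    exact ⟨(Subgroup.mem_inf.1 h).1, stabF_Dd h, (Subgroup.mem_inf.1 h).2⟩

/-- The order of a stabiliser. -/
theorem card_H {d : Finset GolayPt} (hd : d ∈ dodecads) {Q : Finset (Finset GolayPt)} (hQ : Q ∈ quartets d) :
    Nat.card ↥(MulAction.stabilizer M24 d ⊓ MulAction.stabilizer M24 Q) = 432 := by
  let A := MulAction.stabilizer M24 d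
  have h0 : Nat.card A = 95040 := card_stab_dodecad hd
  have h1 := Subgroup.index_mul_card (MulAction.stabilizer A Q)
  rw [MulAction.index_stabilizer] at h1
  have h2 : MulAction.orbit A Q = quartets d := by
    ext s
    constructor
    · rintro ⟨⟨⟨a, ha⟩, hA⟩, rfl⟩
      have h3 := smul_quartet ha hQ
      have h4 : a • d = d := hA
      rw [h4] at h3
      exact h3
    · intro hs
      obtain ⟨g, hg, h3, h4⟩ := (s1597 d hd).2 Q hQ s hs
      exact ⟨⟨⟨g, hg⟩, h3⟩, h4⟩
  rw [h2, (s1597 d hd).1, h0] at h1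
  have h3 : Nat.card ↥(MulAction.stabilizer M24 d ⊓ MulAction.stabilizer M24 Q) = Nat.card (MulAction.stabilizer A Q) := by
    refine Nat.card_congr
      { toFun := fun g => ⟨⟨g.1, g.2.1⟩, MulAction.mem_stabilizer_iff.2 ?_⟩
        invFun := fun g => ⟨g.1.1, Subgroup.mem_inf.2 ⟨g.1.2, MulAction.mem_stabilizer_iff.2 ?_⟩⟩
        left_inv := fun g => rfl
        right_inv := fun g => rfl }
    · exact MulAction.mem_stabilizer_iff.1 g.2.2
    · exact MulAction.mem_stabilizer_iff.1 g.2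
  rw [h3]
  omega

theorem card_stabF : Nat.card (stabF q0L) = 432 := by
  obtain ⟨e⟩ := equiv_Kp Dd Q0
  rw [← Kp_base, ← Nat.card_congr e.toEquiv]
  exact card_H Dd_mem Q0_mem

theorem elsK_spec : ∀ g ∈ stabF q0L, tblOf g ∈ elsK :=
  mem_of_card (S := (stabF q0L : Set (Equiv.Perm GolayPt))) elsK_nodup
    (by rw [show elsK.length = 432 by decide +kernel]; exact card_stabF)
    (fun T hT => okK_spec (List.all_eq_true.1 elsK_ok T hT))

/-- The normal subgroup. -/
def N0 : Subgroup (Equiv.Perm GolayPt) := tblSubgroup elsN (TG.of_check tgN)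

theorem N0_le : N0 ≤ stabF q0L := by
  intro g hg
  obtain ⟨g', hg', e⟩ := okK_spec (List.all_eq_true.1 elsN_sub _ hg)
  rwa [← tblOf_injective e]

/-- What has to be transported. -/
def HasQ (K : Type*) [Group K] : Prop :=
  ∃ (N : Subgroup K) (_ : N.Normal), Nat.card N = 9 ∧ Nonempty (K ⧸ N ≃* GL (Fin 2) (ZMod 3))

theorem HasQ.congr {K K' : Type*} [Group K] [Group K'] (e : K ≃* K') (h : HasQ K) : HasQ K' := by
  obtain ⟨N, hN, hc, ⟨f⟩⟩ := h
  haveI hN' : (N.map e.toMonoidHom).Normal := Subgroup.Normal.map hN e.toMonoidHom e.surjective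
  refine ⟨N.map e.toMonoidHom, hN', ?_, ?_⟩
  · rw [← hc]
    exact Nat.card_congr (e.subgroupMap N).symm.toEquiv
  · exact ⟨(QuotientGroup.congr N (N.map e.toMonoidHom) e rfl).symm.trans f⟩

theorem hasQ_base : HasQ (stabF q0L) := by
  haveI hn : (N0.subgroupOf (stabF q0L)).Normal := by
    constructor
    rintro ⟨t, ht⟩ htT ⟨x, hx⟩
    have htT' : t ∈ N0 := htT
    rw [Subgroup.mem_subgroupOf]
    show x * t * x⁻¹ ∈ N0
    have h1 := List.all_eq_true.1 nnorm _ (elsK_spec x hx)
    have h2 := List.all_eq_true.1 h1 _ htT'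
    obtain ⟨t', ht', e⟩ := List.any_eq_true.1 h2
    have e' : tcomp (tblOf x) (tblOf t) = tcomp t' (tblOf x) := by simpa using e
    obtain ⟨u, -, rfl⟩ := okK_spec (List.all_eq_true.1 elsN_sub _ ht')
    have e2 : x * t = u * x := by
      apply tblOf_injective
      rw [tblOf_mul, tblOf_mul, e']
    have e3 : x * t * x⁻¹ = u := by rw [e2, mul_inv_cancel_right]
    rw [e3]
    exact ht'
  have hc : Nat.card (N0.subgroupOf (stabF q0L)) = 9 := by
    rw [Nat.card_congr (Subgroup.subgroupOfEquivOfLe N0_le).toEquiv, N0, card_tblSubgroup]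
    decide +kernel
  refine ⟨N0.subgroupOf (stabF q0L), hn, hc, ?_⟩
  apply exists_quot_GL _ hc
  · rintro ⟨t, ht⟩ htT
    have htT' : t ∈ N0 := htT
    apply Subtype.ext
    show t ^ 3 = 1
    apply tblOf_injective
    have h1 := List.all_eq_true.1 ncube _ htT'
    have h2 : tcomp (tblOf t) (tcomp (tblOf t) (tblOf t)) = idTbl := by simpa using h1
    rw [pow_succ', pow_two, tblOf_mul, tblOf_mul, h2, tblOf_one]
  · rintro ⟨t, ht⟩ htT ⟨u, hu⟩ huT
    have htT' : t ∈ N0 := htT
    have huT' : u ∈ N0 := huT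
    apply Subtype.ext
    show t * u = u * t
    apply tblOf_injective
    have h1 := List.all_eq_true.1 (List.all_eq_true.1 nab _ htT') _ huT'
    rw [tblOf_mul, tblOf_mul]
    simpa using h1
  · rintro ⟨g, hg⟩ hcomm
    have h1 := List.all_eq_true.1 ncent _ (elsK_spec g hg)
    have h2 : (elsN.all fun t => tcomp (tblOf g) t == tcomp t (tblOf g)) = true := by
      rw [List.all_eq_true]
      intro T hT
      obtain ⟨u, hu, rfl⟩ := okK_spec (List.all_eq_true.1 elsN_sub _ hT)
      have h3 := hcomm ⟨u, hu⟩ (show u ∈ N0 from hT)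
      have h4 : g * u = u * g := congrArg Subtype.val h3
      rw [← tblOf_mul, ← tblOf_mul, h4]
      simp
    rw [h2] at h1
    simp only [Bool.not_true, Bool.false_or, List.contains_iff_mem] at h1
    exact h1
  · exact card_stabF

/-- The statement `S1598`. -/
theorem s1598 (d : Finset GolayPt) (hd : d ∈ dodecads) (Q : Finset (Finset GolayPt)) (hQ : Q ∈ quartets d) :
    Nat.card ↥(MulAction.stabilizer M24 d ⊓ MulAction.stabilizer M24 Q) = 432 ∧
      (∃ (N : Subgroup ↥(MulAction.stabilizer M24 d ⊓ MulAction.stabilizer M24 Q)) (_ : N.Normal),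
        Nat.card N = 9 ∧ Nonempty (↥(MulAction.stabilizer M24 d ⊓ MulAction.stabilizer M24 Q) ⧸ N ≃* GL (Fin 2) (ZMod 3))) ∧
      ∀ p ∈ d, ∀ q ∈ d, ∃ g ∈ (MulAction.stabilizer M24 d ⊓ MulAction.stabilizer M24 Q),
        ((g : M24) : Equiv.Perm GolayPt) p = q := by
  obtain ⟨g, hg, h1, h2⟩ := exists_to_base hd hQ
  refine ⟨card_H hd hQ, ?_, ?_⟩
  · obtain ⟨e1⟩ := equiv_Kp d Q
    obtain ⟨e2⟩ := equiv_Kp_conj hg h1 h2
    have e3 : Kp Dd Q0 ≃* stabF q0L := MulEquiv.subgroupCongr Kp_base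
    exact hasQ_base.congr ((e1.trans (e2.trans e3)).symm)
  · intro p hp q hq
    have hgp : ∀ x ∈ d, ∃ t ∈ stabF q0L, t (pt 0) = g x := by
      intro x hx
      have hx' : g x ∈ Dd := by
        rw [← h1]
        exact (apply_mem_smul g d x).2 hx
      have h3 := List.all_eq_true.1 traK_all _ (List.mem_range.2 (idx_lt (g x)))
      rw [Bool.or_eq_true] at h3
      rcases h3 with h3 | h3
      · have h4 : Nat.testBit dMask (idx (g x)) = true := mem_ofMask.1 hx'
        rw [h4] at h3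
        simp at h3
      · obtain ⟨m, hm, hm2⟩ := List.any_eq_true.1 h3
        obtain ⟨t, ht, e⟩ := okK_spec (List.all_eq_true.1 traK_ok m hm)
        refine ⟨t, ht, ?_⟩
        apply idx_injective
        have h5 := getD_tblOf t (i := 0) (by norm_num)
        rw [e] at h5
        rw [← h5]
        simpa using hm2
    obtain ⟨a, ha, ea⟩ := hgp p hp
    obtain ⟨b, hb, eb⟩ := hgp q hq
    have hab : b * a⁻¹ ∈ stabF q0L := (stabF q0L).mul_mem hb ((stabF q0L).inv_mem ha)
    have hM := (Subgroup.mem_inf.1 hab).1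
    have hc1 := stabF_Dd hab
    have hc2 : (b * a⁻¹) • Q0 = Q0 := (Subgroup.mem_inf.1 hab).2
    have hk : g⁻¹ * (b * a⁻¹) * g ∈ M24 := M24.mul_mem (M24.mul_mem (M24.inv_mem hg) hM) hg
    refine ⟨⟨g⁻¹ * (b * a⁻¹) * g, hk⟩, ⟨?_, ?_⟩, ?_⟩
    · show (g⁻¹ * (b * a⁻¹) * g) • d = d
      rw [mul_smul, mul_smul, h1, hc1, ← h1, inv_smul_smul]
    · show (g⁻¹ * (b * a⁻¹) * g) • Q = Q
      rw [mul_smul, mul_smul, h2, hc2, ← h2, inv_smul_smul]
    · show (g⁻¹ * (b * a⁻¹) * g) p = q
      have h6 : a⁻¹ (g p) = pt 0 := by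
        rw [← ea]
        simp
      simp only [Equiv.Perm.mul_apply]
      rw [h6, eb]
      simp

end Cfsg.Agent.Lib.Sporadic.M24Qt3
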