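import Cfsg.Agent.Lib.Sporadic.M24DodFlag

/-!
# Copies of `S6`: the stabiliser of two octads meeting in two points, and of a hexad in a dodecad
-/

namespace Cfsg.Agent.Lib.Sporadic.M24S6

open Cfsg Cfsg.Agent.Lib.Sporadic.GolayCore Cfsg.Agent.Lib.Sporadic.M24Tbl
open Cfsg.Agent.Lib.Sporadic.M24Chain Cfsg.Agent.Lib.Sporadic.M24Basic
open Cfsg.Agent.Lib.Sporadic.M24Act Cfsg.Agent.Lib.Sporadic.M24Lists
open Cfsg.Agent.Lib.Sporadic.M24Orbit Cfsg.Agent.Lib.Sporadic.M24Count
open Cfsg.Agent.Lib.Sporadic.M24Flag Cfsg.Agent.Lib.Sporadic.M24Dodecad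
open Cfsg.Agent.Lib.Sporadic.M24Octad Cfsg.Agent.Lib.Sporadic.M24OctadStab
open Cfsg.Agent.Lib.Sporadic.M24DodFlag
open scoped Pointwise

/-- Restriction to a finite subset stabilised by a subgroup of `M24`. -/
noncomputable def restr (J : Subgroup M24) (E : Finset GolayPt)
    (hJ : ∀ k ∈ J, (k : Equiv.Perm GolayPt) • E = E) : J →* Equiv.Perm ↥E where
  toFun k := ((k : M24) : Equiv.Perm GolayPt).subtypePerm (mem_iff_of_stab (hJ k k.2))
  map_one' := by
    ext x
    rfl
  map_mul' a b := by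
    ext x
    rfl

theorem restr_apply (J : Subgroup M24) (E : Finset GolayPt)
    (hJ : ∀ k ∈ J, (k : Equiv.Perm GolayPt) • E = E) (k : J) (x : ↥E) :
    ((restr J E hJ k x : ↥E) : GolayPt) = ((k : M24) : Equiv.Perm GolayPt) x := rfl

theorem restr_injective (J : Subgroup M24) (E : Finset GolayPt)
    (hJ : ∀ k ∈ J, (k : Equiv.Perm GolayPt) • E = E)
    (hf : ∀ k ∈ J, (∀ p ∈ E, (k : Equiv.Perm GolayPt) p = p) → k = 1) :
    Function.Injective (restr J E hJ) := by
  rw [injective_iff_map_eq_one]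
  intro k hk
  apply Subtype.ext
  apply hf k.1 k.2
  intro p hp
  have := congrArg (fun e : Equiv.Perm ↥E => ((e ⟨p, hp⟩ : ↥E) : GolayPt)) hk
  exact this

/-- A faithful bijective restriction gives an isomorphism with a symmetric group. -/
theorem nonempty_equiv_perm (J : Subgroup M24) (E : Finset GolayPt)
    (hJ : ∀ k ∈ J, (k : Equiv.Perm GolayPt) • E = E) {n : ℕ} (hE : E.card = n)
    (hb : Function.Bijective (restr J E hJ)) : Nonempty (J ≃* Equiv.Perm (Fin n)) :=
  ⟨(MulEquiv.ofBijective _ hb).trans (E.equivFinOfCardEq hE).permCongrHom⟩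

theorem bijective_of_card (J : Subgroup M24) (E : Finset GolayPt)
    (hJ : ∀ k ∈ J, (k : Equiv.Perm GolayPt) • E = E)
    (hf : ∀ k ∈ J, (∀ p ∈ E, (k : Equiv.Perm GolayPt) p = p) → k = 1) (hc : Nat.card J = E.card.factorial) :
    Function.Bijective (restr J E hJ) := by
  apply (Nat.bijective_iff_injective_and_card _).2 ⟨restr_injective J E hJ hf, ?_⟩
  rw [hc, Nat.card_eq_fintype_card (α := Equiv.Perm ↥E), Fintype.card_perm, Fintype.card_coe]

/-- The octad in standard position relative to `octad0`. -/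
def rep2 : ℕ := 252432

theorem rep2_is : isOctad rep2 = true := by decide +kernel

theorem rep2_mem : ofMask rep2 ∈ octads := isOctad_ofMask rep2_is

theorem card_inter_rep2 : (ofMask octad0 ∩ ofMask rep2).card = 2 := by decide +kernel

/-- The only element of the sixteen tables fixing `rep2` is the identity. -/
theorem tbl6_rep2 : ∀ T ∈ levelTbl6, applyT T rep2 = rep2 → T = List.range 24 := by
  decide +kernel

theorem diff_pts : ∀ f ∈ ([5, 3, 2, 1, 0, 23] : List ℕ), pt f ∈ ofMask octad0 \ ofMask rep2 := by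
  decide +kernel

theorem gPerm_range {T : List ℕ} (hT : goodT T = true) (h : T = List.range 24) : gPerm T hT = 1 := by
  subst h
  refine Equiv.ext fun p => ?_
  apply idx_injective
  show idx (tblPerm _ _ p) = idx p
  rw [idx_tblPerm]
  rw [List.getD_eq_getElem _ _ (by simpa using idx_lt p)]
  simp

theorem eq_one_of_fix_diff {k : Equiv.Perm GolayPt} (hk : k ∈ fixG [5, 3, 2, 1, 0, 23])
    (h : k • ofMask rep2 = ofMask rep2) : k = 1 := by
  obtain ⟨T, hT, rfl⟩ := fixG6_elements hk
  apply gPerm_range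
  apply tbl6_rep2 T hT
  have h1 := ofMask_applyT (validTbl_of_goodT (goodT_of_levelOK level6_ok hT)) rep2
  have h2 : ofMask (applyT T rep2) = ofMask rep2 := h1.trans h
  exact (ofMask_inj (applyT_lt (validTbl_of_goodT (goodT_of_levelOK level6_ok hT)) _)
    (by decide +kernel)).1 h2

/-- The joint stabiliser of two octads meeting in two points is isomorphic to `S6`. -/
theorem two_octads_S6 {o o' : Finset GolayPt} (ho : o ∈ octads) (ho' : o' ∈ octads)
    (h₂ : (o ∩ o').card = 2) :
    Nonempty (↥(MulAction.stabilizer M24 o ⊓ MulAction.stabilizer M24 o') ≃* Equiv.Perm (Fin 6)) := by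
  set J := MulAction.stabilizer M24 o ⊓ MulAction.stabilizer M24 o' with hJdef
  set E := o \ o' with hE
  have hEc : E.card = 6 := by
    have := Finset.card_sdiff_add_card_inter o o'
    rw [h₂, ho.2, ← hE] at this
    omega
  have hJ : ∀ k ∈ J, (k : Equiv.Perm GolayPt) • E = E := by
    rintro ⟨k, hkM⟩ ⟨h1, h2⟩
    have h1' := (mem_stabilizer_M24_finset _ _).1 h1
    have h2' := (mem_stabilizer_M24_finset _ _).1 h2
    show k • (o \ o') = o \ o'
    rw [Finset.smul_finset_sdiff, h1', h2']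
  have hf : ∀ k ∈ J, (∀ p ∈ E, (k : Equiv.Perm GolayPt) p = p) → k = 1 := by
    rintro ⟨k, hkM⟩ ⟨h1, h2⟩ hfix
    have h1' : k • o = o := (mem_stabilizer_M24_finset _ _).1 h1
    have h2' : k • o' = o' := (mem_stabilizer_M24_finset _ _).1 h2
    have hfix' : ∀ p ∈ E, k p = p := hfix
    -- move to the standard position
    obtain ⟨u, hu, huo⟩ := exists_smul_octad ho octad0_mem
    have hc : (ofMask octad0 ∩ u • o').card = (ofMask octad0 ∩ ofMask rep2).card := by
      rw [card_inter_rep2, ← h₂, ← inter_smul_card u o o', huo]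
    obtain ⟨v, hv, hv1, hv2⟩ := octad_orbit_O0 (smul_mem_octads hu ho') rep2_mem hc
    set w := v * u with hw
    have hwM : w ∈ M24 := M24.mul_mem hv hu
    have hwo : w • o = ofMask octad0 := by rw [hw, mul_smul, huo, hv1]
    have hwo' : w • o' = ofMask rep2 := by rw [hw, mul_smul, hv2]
    have hkfix : w * k * w⁻¹ ∈ fixG [5, 3, 2, 1, 0, 23] := by
      refine mem_fixG.2 ⟨M24.mul_mem (M24.mul_mem hwM hkM) (M24.inv_mem hwM), fun f hf => ?_⟩
      have h3 := diff_pts f hf
      rw [← hwo, ← hwo', ← Finset.smul_finset_sdiff] at h3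
      obtain ⟨q, hq, hqe⟩ := Finset.mem_smul_finset.1 h3
      have hqe' : w q = pt f := hqe
      rw [← hqe']
      simp only [Equiv.Perm.mul_apply]
      have h5 : w⁻¹ (w q) = q := by simp
      rw [h5, hfix' q hq]
    have hks : (w * k * w⁻¹) • ofMask rep2 = ofMask rep2 := by
      rw [← hwo', mul_smul, mul_smul, inv_smul_smul, h2']
    have h1w := eq_one_of_fix_diff hkfix hks
    have hk1 : k = 1 := by
      have h3 : k = w⁻¹ * (w * k * w⁻¹) * w := by group
      rw [h3, h1w]
      simp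
    exact Subtype.ext hk1
  have hc : Nat.card J = E.card.factorial := by
    rw [hEc]
    exact (joint_orders ho ho').2.2 h₂
  have := nonempty_equiv_perm J E hJ hEc (bijective_of_card J E hJ hf hc)
  exact this

/-! ### Hexads in a dodecad -/

/-- Enumeration of a 5-set. -/
noncomputable def enumFive (s : Finset GolayPt) (hs : s.card = 5) : Fin 5 ↪ GolayPt :=
  (s.equivFinOfCardEq hs).symm.toEmbedding.trans (Function.Embedding.subtype _)

theorem enumFive_mem (s : Finset GolayPt) (hs : s.card = 5) (i : Fin 5) : enumFive s hs i ∈ s :=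
  ((s.equivFinOfCardEq hs).symm i).2

/-- An element of the dodecad stabiliser fixing five points of the dodecad is the identity. -/
theorem eq_one_of_fix_five {d : Finset GolayPt} (hd : d ∈ dodecads) {k : Equiv.Perm GolayPt}
    (hk : k ∈ M24) (hkd : k • d = d) {s : Finset GolayPt} (hs : s ⊆ d) (hc : 5 ≤ s.card)
    (hfix : ∀ p ∈ s, k p = p) : k = 1 := by
  obtain ⟨s5, hs5, hs5c⟩ := Finset.exists_subset_card_eq hc
  have hmem : ∀ i, enumFive s5 hs5c i ∈ d := fun i => hs (hs5 (enumFive_mem _ _ i))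
  have h1 := (sharply_five hd (enumFive s5 hs5c) (enumFive s5 hs5c) hmem hmem).unique
    (y₁ := ⟨⟨k, hk⟩, (mem_stabilizer_M24_finset _ _).2 hkd⟩) (y₂ := 1)
    (fun i => hfix _ (hs5 (enumFive_mem _ _ i))) (fun i => rfl)
  have h2 := congrArg (fun x : MulAction.stabilizer M24 d => ((x : M24) : Equiv.Perm GolayPt)) h1
  exact h2

/-- Hexads with five common points are equal. -/
theorem hexad_eq_of_five {d o o' : Finset GolayPt} (ho : o ∈ octads) (ho' : o' ∈ octads)
    {s : Finset GolayPt} (hc : 5 ≤ s.card) (hs : s ⊆ o) (hs' : s ⊆ o') : o = o' :=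
  eq_of_octads_of_five ho ho' (hc.trans (Finset.card_le_card (Finset.subset_inter hs hs')))

theorem hexad_S6 {d : Finset GolayPt} (hd : d ∈ dodecads) {C : Finset GolayPt}
    (hC : C ∈ hexadsOn d) :
    Nonempty (↥(MulAction.stabilizer M24 d ⊓ MulAction.stabilizer M24 C) ≃* Equiv.Perm (Fin 6)) ∧
    (∀ g ∈ MulAction.stabilizer M24 d ⊓ MulAction.stabilizer M24 C,
      (∀ p ∈ C, ((g : M24) : Equiv.Perm GolayPt) p = p) → g = 1) ∧
    ∀ g ∈ MulAction.stabilizer M24 d ⊓ MulAction.stabilizer M24 C,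
      (∀ p ∈ d \ C, ((g : M24) : Equiv.Perm GolayPt) p = p) → g = 1 := by
  obtain ⟨hC6, o, ho, hoC⟩ := hC
  have hCd : C ⊆ d := by rw [← hoC]; exact Finset.inter_subset_right
  have hCo : C ⊆ o := by rw [← hoC]; exact Finset.inter_subset_left
  set J := MulAction.stabilizer M24 d ⊓ MulAction.stabilizer M24 C with hJdef
  have hJ : ∀ k ∈ J, (k : Equiv.Perm GolayPt) • C = C := by
    rintro ⟨k, hkM⟩ ⟨-, h2⟩
    exact (mem_stabilizer_M24_finset _ _).1 h2
  have hf : ∀ k ∈ J, (∀ p ∈ C, (k : Equiv.Perm GolayPt) p = p) → k = 1 := by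
    rintro ⟨k, hkM⟩ ⟨h1, -⟩ hfix
    exact Subtype.ext (eq_one_of_fix_five hd hkM ((mem_stabilizer_M24_finset _ _).1 h1) hCd
      (by rw [hC6]; norm_num) hfix)
  have hf' : ∀ k ∈ J, (∀ p ∈ d \ C, (k : Equiv.Perm GolayPt) p = p) → k = 1 := by
    rintro ⟨k, hkM⟩ ⟨h1, -⟩ hfix
    refine Subtype.ext (eq_one_of_fix_five hd hkM ((mem_stabilizer_M24_finset _ _).1 h1)
      Finset.sdiff_subset ?_ hfix)
    rw [Finset.card_sdiff_of_subset hCd, hd.2, hC6]
    norm_num
  refine ⟨?_, hf, hf'⟩
  apply nonempty_equiv_perm J C hJ hC6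
  refine ⟨restr_injective J C hJ hf, fun σ => ?_⟩
  -- surjectivity
  obtain ⟨s5, hs5, hs5c⟩ := Finset.exists_subset_card_eq (s := C) (n := 5) (by rw [hC6]; norm_num)
  let x : Fin 5 ↪ GolayPt := enumFive s5 hs5c
  have hxC : ∀ i, x i ∈ C := fun i => hs5 (enumFive_mem _ _ i)
  let y : Fin 5 ↪ GolayPt := ⟨fun i => (σ ⟨x i, hxC i⟩ : ↥C), fun a b hab => by
    have := σ.injective (Subtype.ext hab)
    have h3 : x a = x b := congrArg (fun z : ↥C => z.1) this
    exact x.injective h3⟩
  have hyC : ∀ i, y i ∈ C := fun i => (σ ⟨x i, hxC i⟩).2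
  obtain ⟨⟨⟨g, hgM⟩, hgS⟩, hg, -⟩ := sharply_five hd x y (fun i => hCd (hxC i)) (fun i => hCd (hyC i))
  have hgd : g • d = d := (mem_stabilizer_M24_finset _ _).1 hgS
  have hg' : ∀ i, g (x i) = y i := hg
  -- `g` moves `o` to itself
  have hgo : g • o = o := by
    have h5 : (s5.image g).card = 5 := by
      rw [Finset.card_image_of_injective _ g.injective, hs5c]
    symm
    apply hexad_eq_of_five (d := d) ho (smul_mem_octads hgM ho) (s := s5.image g) h5.ge
    · intro q hq
      obtain ⟨p, hp, rfl⟩ := Finset.mem_image.1 hq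
      obtain ⟨i, hi⟩ : ∃ i, x i = p := by
        refine ⟨(s5.equivFinOfCardEq hs5c) ⟨p, hp⟩, ?_⟩
        show (((s5.equivFinOfCardEq hs5c).symm ((s5.equivFinOfCardEq hs5c) ⟨p, hp⟩) : ↥s5) : GolayPt) = p
        simp
      rw [← hi, hg']
      exact hCo (hyC i)
    · intro q hq
      obtain ⟨p, hp, rfl⟩ := Finset.mem_image.1 hq
      exact (apply_mem_smul g o p).2 (hCo (hs5 hp))
  have hgC : g • C = C := by
    rw [← hoC, Finset.smul_finset_inter, hgo, hgd]
  refine ⟨⟨⟨g, hgM⟩, (mem_stabilizer_M24_finset _ _).2 hgd, (mem_stabilizer_M24_finset _ _).2 hgC⟩, ?_⟩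
  -- agreement on five points gives agreement on the sixth
  set e := restr J C hJ ⟨⟨g, hgM⟩, (mem_stabilizer_M24_finset _ _).2 hgd,
    (mem_stabilizer_M24_finset _ _).2 hgC⟩ with he
  have hag : ∀ p : ↥C, p.1 ∈ s5 → e p = σ p := by
    intro p hp
    apply Subtype.ext
    obtain ⟨i, hi⟩ : ∃ i, x i = p.1 := by
      refine ⟨(s5.equivFinOfCardEq hs5c) ⟨p.1, hp⟩, ?_⟩
      show (((s5.equivFinOfCardEq hs5c).symm ((s5.equivFinOfCardEq hs5c) ⟨p.1, hp⟩) : ↥s5) : GolayPt) = p.1
      simp
    show g p.1 = _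
    rw [← hi, hg']
    show ((σ ⟨x i, hxC i⟩ : ↥C) : GolayPt) = ((σ p : ↥C) : GolayPt)
    congr 2
    exact Subtype.ext hi
  -- the remaining point
  have hrest : ∀ a b : Equiv.Perm ↥C, (∀ p : ↥C, p.1 ∈ s5 → a p = b p) → a = b := by
    intro a b hab
    refine Equiv.ext fun p => ?_
    by_cases hp : p.1 ∈ s5
    · exact hab p hp
    · by_contra hne
      -- both images avoid the image of the other five points
      have h1 : ∀ q : ↥C, q ≠ p → a q ≠ a p := fun q hq h => hq (a.injective h)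
      have h2 : ∀ q : ↥C, q ≠ p → b q ≠ b p := fun q hq h => hq (b.injective h)
      have h3 : Finset.univ.image a = Finset.univ := Finset.image_univ_of_surjective a.surjective
      have hcount : (Finset.univ.filter fun q : ↥C => q.1 ∈ s5).card = 5 := by
        rw [← hs5c]
        exact Finset.card_bij (fun q _ => q.1) (fun q hq => by simpa using hq)
          (fun a _ b _ h => Subtype.ext h) (fun q hq => ⟨⟨q, hs5 hq⟩, by simpa using hq, rfl⟩)
      -- the images of `s5` under `a`, plus `a p`, `b p` would be seven points of `C`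
      have hsub : insert (a p) (insert (b p) ((Finset.univ.filter fun q : ↥C => q.1 ∈ s5).image a)) ⊆
          (Finset.univ : Finset ↥C) := Finset.subset_univ _
      have hc1 : ((Finset.univ.filter fun q : ↥C => q.1 ∈ s5).image a).card = 5 := by
        rw [Finset.card_image_of_injective _ a.injective, hcount]
      have hb : b p ∉ (Finset.univ.filter fun q : ↥C => q.1 ∈ s5).image a := by
        intro h
        obtain ⟨q, hq, hqe⟩ := Finset.mem_image.1 h
        have hq' : q.1 ∈ s5 := by simpa using hq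
        rw [hab q hq'] at hqe
        exact hp (by rw [← b.injective hqe]; exact hq')
      have ha : a p ∉ insert (b p) ((Finset.univ.filter fun q : ↥C => q.1 ∈ s5).image a) := by
        intro h
        rcases Finset.mem_insert.1 h with h | h
        · exact hne h
        · obtain ⟨q, hq, hqe⟩ := Finset.mem_image.1 h
          have hq' : q.1 ∈ s5 := by simpa using hq
          exact hp (by rw [← a.injective hqe]; exact hq')
      have hc2 := Finset.card_le_card hsub
      rw [Finset.card_insert_of_notMem ha, Finset.card_insert_of_notMem hb, hc1, Finset.card_univ,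
        Fintype.card_coe, hC6] at hc2
      omega
  exact hrest _ _ hag

end Cfsg.Agent.Lib.Sporadic.M24S6
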