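import Cfsg.Agent.Lib.Sporadic.M24Chain

/-!
# Explicit subgroups of `M24` given by the list of the tables of their elements
-/

namespace Cfsg.Agent.Lib.Sporadic.M24TblGroup

open Cfsg Cfsg.Agent.Lib.Sporadic.GolayCore Cfsg.Agent.Lib.Sporadic.M24Tbl
open Cfsg.Agent.Lib.Sporadic.M24Chain

/-- The table of a permutation. -/
def tblOf (g : Equiv.Perm GolayPt) : List ℕ := (List.range 24).map fun i => idx (g (pt i))

/-- The composition of tables. -/
def tcomp (A B : List ℕ) : List ℕ := B.map fun j => A.getD j 0

/-- The identity table. -/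
def idTbl : List ℕ := List.range 24

theorem length_tblOf (g : Equiv.Perm GolayPt) : (tblOf g).length = 24 := by simp [tblOf]

theorem getD_tblOf (g : Equiv.Perm GolayPt) {i : ℕ} (hi : i < 24) :
    (tblOf g).getD i 0 = idx (g (pt i)) := by
  simp [tblOf, hi, List.getD_eq_getElem?_getD]

theorem pt_idx' (p : GolayPt) : pt (idx p) = p := by
  apply idx_injective
  exact idx_pt (idx_lt p)

theorem idx_apply_eq_getD (g : Equiv.Perm GolayPt) (p : GolayPt) :
    idx (g p) = (tblOf g).getD (idx p) 0 := by
  rw [getD_tblOf g (idx_lt p), pt_idx']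

theorem tblOf_injective : Function.Injective tblOf := by
  intro g h e
  refine Equiv.ext fun p => ?_
  apply idx_injective
  rw [idx_apply_eq_getD, idx_apply_eq_getD, e]

theorem tblOf_one : tblOf 1 = idTbl := by
  unfold tblOf idTbl
  exact List.ext_getElem (by simp) (by
    intro i h1 h2
    have hi : i < 24 := by simpa using h1
    simp only [List.getElem_map, List.getElem_range, Equiv.Perm.one_apply]
    exact idx_pt hi)

theorem tblOf_mul (g h : Equiv.Perm GolayPt) : tblOf (g * h) = tcomp (tblOf g) (tblOf h) := by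
  unfold tcomp
  have e : tblOf h = (List.range 24).map fun i => idx (h (pt i)) := rfl
  rw [e, List.map_map]
  apply List.map_congr_left
  intro i hi
  simp only [Function.comp_apply]
  show idx (g (h (pt i))) = _
  rw [idx_apply_eq_getD]

theorem tblOf_gPerm {T : List ℕ} (h : goodT T = true) : tblOf (gPerm T h) = T := by
  have hv := validTbl_of_goodT h
  apply List.ext_getElem
  · rw [length_tblOf, hv.1]
  · intro i h1 h2
    have hi : i < 24 := by rwa [length_tblOf] at h1
    have e := getD_tblOf (gPerm T h) hi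
    rw [List.getD_eq_getElem _ _ h1] at e
    rw [e]
    show idx (tblPerm T hv (pt i)) = _
    rw [idx_tblPerm hv, idx_pt hi, List.getD_eq_getElem _ _ h2]

/-- The element of the group with table `T`. -/
theorem exists_of_good {T : List ℕ} (h : goodT T = true) : ∃ g ∈ M24, tblOf g = T :=
  ⟨gPerm T h, gPerm_mem h, tblOf_gPerm h⟩

/-- A list of good tables closed under composition. -/
structure TG (L : List (List ℕ)) : Prop where
  good : ∀ T ∈ L, goodT T = true
  nodup : L.Nodup
  one : idTbl ∈ L
  mul : ∀ A ∈ L, ∀ B ∈ L, tcomp A B ∈ L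

/-- The check of a table group. -/
def tgCheck (L : List (List ℕ)) : Bool :=
  L.all goodT && decide L.Nodup && L.contains idTbl && L.all fun A => L.all fun B => L.contains (tcomp A B)

theorem TG.of_check {L : List (List ℕ)} (h : tgCheck L = true) : TG L := by
  simp only [tgCheck, Bool.and_eq_true, List.all_eq_true, decide_eq_true_eq, List.contains_iff_mem] at h
  exact ⟨h.1.1.1, h.1.1.2, h.1.2, h.2⟩

/-- The subgroup attached to a table group. -/
def tblSubgroup (L : List (List ℕ)) (h : TG L) : Subgroup (Equiv.Perm GolayPt) where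
  carrier := {g | tblOf g ∈ L}
  mul_mem' := by
    intro a b ha hb
    show tblOf (a * b) ∈ L
    rw [tblOf_mul]
    exact h.mul _ ha _ hb
  one_mem' := by
    show tblOf 1 ∈ L
    rw [tblOf_one]
    exact h.one
  inv_mem' := by
    intro a ha
    have hpow : ∀ n : ℕ, tblOf (a ^ n) ∈ L := by
      intro n
      induction n with
      | zero => rw [pow_zero, tblOf_one]; exact h.one
      | succ n ih =>
        rw [pow_succ, tblOf_mul]
        exact h.mul _ ih _ ha
    have hord : 0 < orderOf a := orderOf_pos a
    have e : a⁻¹ = a ^ (orderOf a - 1) := by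
      rw [inv_eq_iff_mul_eq_one, ← pow_succ']
      rw [Nat.sub_add_cancel hord]
      exact pow_orderOf_eq_one a
    show tblOf a⁻¹ ∈ L
    rw [e]
    exact hpow _

theorem mem_tblSubgroup {L : List (List ℕ)} {h : TG L} {g : Equiv.Perm GolayPt} :
    g ∈ tblSubgroup L h ↔ tblOf g ∈ L := Iff.rfl

theorem tblSubgroup_le_M24 {L : List (List ℕ)} (h : TG L) : tblSubgroup L h ≤ M24 := by
  intro g hg
  have h1 := h.good _ hg
  have : g = gPerm _ h1 := tblOf_injective (tblOf_gPerm h1).symm
  rw [this]
  exact gPerm_mem h1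

theorem nat_card_mem_list {α : Type*} [DecidableEq α] {L : List α} (h : L.Nodup) :
    Nat.card {x // x ∈ L} = L.length := by
  rw [Nat.card_eq_fintype_card]
  have : Fintype.card {x // x ∈ L.toFinset} = L.toFinset.card := Fintype.card_coe _
  have e : Nat.card {x // x ∈ L} = Nat.card {x // x ∈ L.toFinset} :=
    Nat.card_congr (Equiv.subtypeEquivRight fun x => by simp)
  rw [← Nat.card_eq_fintype_card, e, Nat.card_eq_fintype_card, this, List.toFinset_card_of_nodup h]

/-- The tables of a list of good tables, and a set of permutations. -/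
theorem card_of_tables {S : Set (Equiv.Perm GolayPt)} {L : List (List ℕ)} (hnd : L.Nodup)
    (h1 : ∀ g ∈ S, tblOf g ∈ L) (h2 : ∀ T ∈ L, ∃ g ∈ S, tblOf g = T) : Nat.card S = L.length := by
  rw [← nat_card_mem_list hnd]
  refine Nat.card_congr (Equiv.ofBijective (fun x => ⟨tblOf x.1, h1 x.1 x.2⟩) ⟨?_, ?_⟩)
  · intro x y e
    exact Subtype.ext (tblOf_injective (congrArg Subtype.val e))
  · rintro ⟨T, hT⟩
    obtain ⟨g, hg, rfl⟩ := h2 T hT
    exact ⟨⟨g, hg⟩, rfl⟩

theorem card_tblSubgroup {L : List (List ℕ)} (h : TG L) : Nat.card (tblSubgroup L h) = L.length := by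
  apply card_of_tables h.nodup (S := (tblSubgroup L h : Set (Equiv.Perm GolayPt)))
  · intro g hg; exact hg
  · intro T hT
    obtain ⟨g, _, rfl⟩ := exists_of_good (h.good T hT)
    exact ⟨g, hT, rfl⟩

/-- If a set has as many elements as a list of its tables, then the list lists all its elements. -/
theorem mem_of_card {S : Set (Equiv.Perm GolayPt)} {L : List (List ℕ)} (hnd : L.Nodup)
    (hc : Nat.card S = L.length) (h2 : ∀ T ∈ L, ∃ g ∈ S, tblOf g = T) :
    ∀ g ∈ S, tblOf g ∈ L := by
  classical
  let f : {x // x ∈ L} → S := fun x => ⟨(h2 x.1 x.2).choose, (h2 x.1 x.2).choose_spec.1⟩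
  have hf : Function.Injective f := by
    intro x y e
    have e1 := congrArg (fun z : S => tblOf z.1) e
    simp only [f] at e1
    rw [(h2 x.1 x.2).choose_spec.2, (h2 y.1 y.2).choose_spec.2] at e1
    exact Subtype.ext e1
  have hbij : Function.Bijective f := by
    refine (Function.Injective.bijective_of_nat_card_le hf ?_)
    rw [hc, nat_card_mem_list hnd]
  intro g hg
  obtain ⟨x, hx⟩ := hbij.2 ⟨g, hg⟩
  have e1 := congrArg (fun z : S => tblOf z.1) hx
  simp only [f] at e1
  rw [(h2 x.1 x.2).choose_spec.2] at e1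
  rw [← e1]
  exact x.2

end Cfsg.Agent.Lib.Sporadic.M24TblGroup
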