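import Cfsg.Agent.Lib.Compute.M24Enum
import Cfsg.Agent.Lib.Sporadic.M24TblGroup
import Cfsg.Agent.Lib.Sporadic.M24Act

/-!
# Sylow arguments in the group of the length-24 code
-/

set_option autoImplicit false

namespace Cfsg.Agent.Lib.Sporadic.M24Syl

open Cfsg Cfsg.Agent.Lib.Sporadic.GolayCore Cfsg.Agent.Lib.Sporadic.M24Tbl
open Cfsg.Agent.Lib.Sporadic.M24Chain Cfsg.Agent.Lib.Sporadic.M24Basic Cfsg.Agent.Lib.Sporadic.M24TblGroup
open Cfsg.Agent.Lib.Sporadic.M24Act
open scoped Pointwise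

section generic

variable {G : Type*} [Group G] [Finite G]

theorem fact_eq {p a n : ℕ} (hp : p.Prime) (hn : n ≠ 0) (h1 : p ^ a ∣ n) (h2 : ¬ p ^ (a + 1) ∣ n) :
    n.factorization p = a := by
  have h3 := (hp.pow_dvd_iff_le_factorization hn).1 h1
  have h4 : ¬ (a + 1 ≤ n.factorization p) := fun h => h2 ((hp.pow_dvd_iff_le_factorization hn).2 h)
  omega

theorem mem_normalizer_subgroupOf {H Q : Subgroup G} (hQH : Q ≤ H) (x : H) :
    x ∈ Subgroup.normalizer ((Q.subgroupOf H : Subgroup H) : Set H) ↔ (x : G) ∈ Subgroup.normalizer (Q : Set G) := by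
  rw [Subgroup.mem_normalizer_iff, Subgroup.mem_normalizer_iff]
  constructor
  · intro h y
    by_cases hy : y ∈ H
    · have h1 := h ⟨y, hy⟩
      simpa [Subgroup.mem_subgroupOf] using h1
    · constructor
      · intro h2
        exact absurd (hQH h2) hy
      · intro h2
        exfalso
        apply hy
        have h3 := H.mul_mem (H.mul_mem (H.inv_mem x.2) (hQH h2)) x.2
        have e : (x : G)⁻¹ * ((x : G) * y * (x : G)⁻¹) * (x : G) = y := by group
        rwa [e] at h3
  · intro h y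
    have h1 := h y
    simpa [Subgroup.mem_subgroupOf] using h1

/-- The number of Sylow subgroups. -/
theorem sylow_count {p : ℕ} [hp : Fact p.Prime] {H Q : Subgroup G} (hQH : Q ≤ H) {a : ℕ} (hQ : Nat.card Q = p ^ a)
    (hH : ¬ p ^ (a + 1) ∣ Nat.card H) :
    ∃ k, Nat.card H = k * Nat.card ↥(H ⊓ Subgroup.normalizer (Q : Set G)) ∧ k ≡ 1 [MOD p] := by
  classical
  have hQ' : Nat.card (Q.subgroupOf H) = p ^ a := by
    rw [← hQ]
    exact Nat.card_congr (Subgroup.subgroupOfEquivOfLe hQH).toEquiv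
  have hdvd : p ^ a ∣ Nat.card H := by
    rw [← hQ']
    exact Subgroup.card_subgroup_dvd_card _
  have hf : (Nat.card H).factorization p = a := fact_eq hp.out Nat.card_pos.ne' hdvd hH
  let S : Sylow p H := Sylow.ofCard (Q.subgroupOf H) (by rw [hQ', hf])
  have h1 := S.card_eq_index_normalizer
  have h2 := card_sylow_modEq_one p H
  refine ⟨(Subgroup.normalizer ((Q.subgroupOf H : Subgroup H) : Set H)).index, ?_, ?_⟩
  · have h3 := Subgroup.index_mul_card (Subgroup.normalizer ((Q.subgroupOf H : Subgroup H) : Set H))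
    rw [← h3]
    congr 1
    refine Nat.card_congr
      { toFun := fun x => ⟨(x.1 : G), Subgroup.mem_inf.2 ⟨x.1.2, (mem_normalizer_subgroupOf hQH _).1 x.2⟩⟩
        invFun := fun x => ⟨⟨x.1, (Subgroup.mem_inf.1 x.2).1⟩, (mem_normalizer_subgroupOf hQH _).2 (Subgroup.mem_inf.1 x.2).2⟩
        left_inv := fun x => rfl
        right_inv := fun x => rfl }
  · have h4 : Nat.card (Sylow p H) = (Subgroup.normalizer ((Q.subgroupOf H : Subgroup H) : Set H)).index := h1
    rw [← h4]
    exact h2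

/-- Conjugating a subgroup so that it contains a given Sylow subgroup. -/
theorem exists_conj_contains {p : ℕ} [hp : Fact p.Prime] {K H C : Subgroup G} (hHK : H ≤ K) (hCK : C ≤ K) {a : ℕ}
    (hC : Nat.card C = p ^ a) (hdvd : p ^ a ∣ Nat.card H) (hK : ¬ p ^ (a + 1) ∣ Nat.card K) :
    ∃ g ∈ K, C ≤ H.map (MulAut.conj g).toMonoidHom := by
  classical
  obtain ⟨A, hA⟩ := Sylow.exists_subgroup_card_pow_prime p hdvd
  have hdvdK : p ^ a ∣ Nat.card K := hdvd.trans (Subgroup.card_dvd_of_le hHK)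
  have hf : (Nat.card K).factorization p = a := fact_eq hp.out Nat.card_pos.ne' hdvdK hK
  let A₁ : Subgroup G := A.map H.subtype
  have hA₁H : A₁ ≤ H := by
    rintro _ ⟨x, -, rfl⟩
    exact x.2
  have hA₁ : Nat.card A₁ = p ^ a := by
    rw [← hA]
    exact Subgroup.card_map_of_injective H.subtype_injective
  have hA₂ : Nat.card (A₁.subgroupOf K) = p ^ a := by
    rw [← hA₁]
    exact Nat.card_congr (Subgroup.subgroupOfEquivOfLe (hA₁H.trans hHK)).toEquiv
  have hC₂ : Nat.card (C.subgroupOf K) = p ^ a := by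
    rw [← hC]
    exact Nat.card_congr (Subgroup.subgroupOfEquivOfLe hCK).toEquiv
  let SA : Sylow p K := Sylow.ofCard (A₁.subgroupOf K) (by rw [hA₂, hf])
  let SC : Sylow p K := Sylow.ofCard (C.subgroupOf K) (by rw [hC₂, hf])
  obtain ⟨g, hg⟩ := MulAction.exists_smul_eq K SA SC
  refine ⟨g, g.2, fun x hx => ?_⟩
  have hxK : x ∈ K := hCK hx
  have h1 : (⟨x, hxK⟩ : K) ∈ (SC : Subgroup K) := hx
  rw [← hg, Sylow.coe_subgroup_smul, Subgroup.mem_pointwise_smul_iff_inv_smul_mem, MulAut.smul_def,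
    MulAut.conj_inv_apply] at h1
  have h2 : (g : G)⁻¹ * x * g ∈ A₁ := h1
  refine ⟨(g : G)⁻¹ * x * g, hA₁H h2, ?_⟩
  simp only [MulEquiv.coe_toMonoidHom, MulAut.conj_apply]
  group

theorem conj_le {K H : Subgroup G} {g : G} (hg : g ∈ K) (hH : H ≤ K) : H.map (MulAut.conj g).toMonoidHom ≤ K := by
  rintro _ ⟨x, hx, rfl⟩
  exact K.mul_mem (K.mul_mem hg (hH hx)) (K.inv_mem hg)

theorem card_conj (H : Subgroup G) (g : G) : Nat.card (H.map (MulAut.conj g).toMonoidHom) = Nat.card H :=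
  Subgroup.card_map_of_injective (MulAut.conj g).injective

/-- An element of the normaliser of the powers of an element of prime order conjugates it to a proper power. -/
theorem exists_pow_of_normalizer {c y : G} {p : ℕ} (hp : p.Prime) (hc : c ^ p = 1) (hc1 : c ≠ 1)
    (hy : y ∈ Subgroup.normalizer ((Subgroup.zpowers c : Subgroup G) : Set G)) :
    ∃ k, 1 ≤ k ∧ k < p ∧ y * c = c ^ k * y := by
  classical
  haveI : Fact p.Prime := ⟨hp⟩
  have hord : orderOf c = p := orderOf_eq_prime hc hc1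
  rw [Subgroup.mem_normalizer_iff] at hy
  have h1 : y * c * y⁻¹ ∈ Subgroup.zpowers c := (hy c).1 (Subgroup.mem_zpowers c)
  rw [mem_zpowers_iff_mem_range_orderOf, hord, Finset.mem_image] at h1
  obtain ⟨k, hk, e⟩ := h1
  have hk' : k < p := Finset.mem_range.1 hk
  refine ⟨k, ?_, hk', ?_⟩
  · by_contra h0
    have : k = 0 := by omega
    subst this
    apply hc1
    rw [pow_zero] at e
    have : y * c * y⁻¹ = 1 := e.symm
    have h3 : y * c = y := by
      rw [mul_inv_eq_one] at this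
      exact this
    simpa using h3
  · rw [e, inv_mul_cancel_right]

end generic

theorem card_dvd_cases {n p q : ℕ} (h1 : n ∣ p * q) (h2 : p ∣ n) (hq : q ≠ 0) (hp : p ≠ 0) : ∃ d, n = p * d ∧ d ∣ q := by
  obtain ⟨d, rfl⟩ := h2
  refine ⟨d, rfl, ?_⟩
  exact (Nat.mul_dvd_mul_iff_left (Nat.pos_of_ne_zero hp)).1 h1

/-- The table of a permutation is the one of the other library. -/
theorem tblOf_eq_toL (g : Equiv.Perm GolayPt) : tblOf g = Cfsg.Agent.Lib.Compute.M24.toL g := by
  have h1 : ∀ p : GolayPt, idx p = Cfsg.Agent.Lib.Compute.Golay.ptIdx p := by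
    intro p
    cases p <;> rfl
  have h2 : ∀ n, pt n = Cfsg.Agent.Lib.Compute.Golay.idxPt n := fun n => rfl
  simp only [tblOf, Cfsg.Agent.Lib.Compute.M24.toL, h1, h2]

end Cfsg.Agent.Lib.Sporadic.M24Syl
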