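import Cfsg.Agent.Lib.Sporadic.M24TData

/-!
# Orbits of subgroups containing a Sylow 2-subgroup of the stabiliser of a point
-/

set_option autoImplicit false

namespace Cfsg.Agent.Lib.Sporadic.M24T

open Cfsg Cfsg.Agent.Lib.Sporadic.GolayCore Cfsg.Agent.Lib.Sporadic.M24Tbl
open Cfsg.Agent.Lib.Sporadic.M24Chain Cfsg.Agent.Lib.Sporadic.M24Basic Cfsg.Agent.Lib.Sporadic.M24TblGroup
open Cfsg.Agent.Lib.Sporadic.M24Act Cfsg.Agent.Lib.Sporadic.M24Syl Cfsg.Agent.Lib.Sporadic.M24TData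
open scoped Pointwise

local notation "P" => Equiv.Perm GolayPt

/-! ### Fixed points -/

/-- The congruence for fixed points on an invariant set. -/
theorem card_mod {p : ℕ} [hp : Fact p.Prime] {h : P} (hh : h ^ p = 1) (Ω : Finset GolayPt)
    (hΩ : ∀ x, h x ∈ Ω ↔ x ∈ Ω) : Ω.card ≡ (Ω.filter fun x => h x = x).card [MOD p] := by
  classical
  let s : Equiv.Perm {x // x ∈ Ω} := h.subtypePerm hΩ
  have hs : s ^ p ^ 1 = 1 := by
    rw [pow_one]
    apply Equiv.ext
    intro x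
    apply Subtype.ext
    rw [Equiv.Perm.subtypePerm_pow]
    show (h ^ p) x.1 = x.1
    rw [hh]
    rfl
  have h1 := Equiv.Perm.card_compl_support_modEq hs
  have h2 : Fintype.card {x // x ∈ Ω} = Ω.card := Fintype.card_coe Ω
  rw [h2] at h1
  have h3 : ((Equiv.Perm.support s)ᶜ).card = (Ω.filter fun x => h x = x).card := by
    apply Finset.card_bij (fun x _ => x.1)
    · intro x hx
      rw [Finset.mem_compl, Equiv.Perm.mem_support, not_not] at hx
      have h4 : (s x).1 = x.1 := congrArg Subtype.val hx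
      exact Finset.mem_filter.2 ⟨x.2, h4⟩
    · intro x _ y _ e
      exact Subtype.ext e
    · intro y hy
      rw [Finset.mem_filter] at hy
      refine ⟨⟨y, hy.1⟩, ?_, rfl⟩
      rw [Finset.mem_compl, Equiv.Perm.mem_support, not_not]
      exact Subtype.ext hy.2
  rw [h3] at h1
  exact h1.symm

/-- An element of `M24` of prime order not dividing 48 fixes at most four points. -/
theorem fix_le_four {h : P} (hM : h ∈ M24) {q : ℕ} [hq : Fact q.Prime] (hq48 : ¬ q ∣ 48) (hh : h ^ q = 1) (h1 : h ≠ 1) :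
    (Finset.univ.filter fun x => h x = x).card ≤ 4 := by
  classical
  by_contra hc
  push Not at hc
  obtain ⟨s, hs, hs5⟩ := Finset.exists_subset_card_eq (s := Finset.univ.filter fun x => h x = x) (n := 5) (by omega)
  let x : Fin 5 ↪ GolayPt := ⟨fun i => (s.equivFinOfCardEq hs5).symm i, fun i j e =>
    (s.equivFinOfCardEq hs5).symm.injective (Subtype.ext e)⟩
  let y : Fin 5 ↪ GolayPt := ⟨fun i => pt (![23, 0, 1, 2, 3] i), by decide +kernel⟩
  obtain ⟨g, hg, e⟩ := exists_map_embedding (k := 5) le_rfl x y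
  have hfix : ∀ i, h (x i) = x i := by
    intro i
    have : x i ∈ s := ((s.equivFinOfCardEq hs5).symm i).2
    exact (Finset.mem_filter.1 (hs this)).2
  have hmem : g * h * g⁻¹ ∈ fixG [3, 2, 1, 0, 23] := by
    refine mem_fixG.2 ⟨M24.mul_mem (M24.mul_mem hg hM) (M24.inv_mem hg), ?_⟩
    have key : ∀ i, (g * h * g⁻¹) (y i) = y i := by
      intro i
      rw [← e i]
      simp [Equiv.Perm.mul_apply, hfix i]
    intro f hf
    simp only [List.mem_cons, List.not_mem_nil, or_false] at hf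
    rcases hf with rfl | rfl | rfl | rfl | rfl
    · exact key 4
    · exact key 3
    · exact key 2
    · exact key 1
    · exact key 0
  have hord : orderOf (⟨g * h * g⁻¹, hmem⟩ : fixG [3, 2, 1, 0, 23]) = q := by
    apply orderOf_eq_prime
    · apply Subtype.ext
      show (g * h * g⁻¹) ^ q = 1
      rw [conj_pow, hh]
      group
    · intro e1
      have e2 : g * h * g⁻¹ = 1 := congrArg Subtype.val e1
      apply h1
      rw [mul_inv_eq_one] at e2
      exact mul_left_cancel (e2.trans (mul_one g).symm)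
  have hdvd := orderOf_dvd_natCard (⟨g * h * g⁻¹, hmem⟩ : fixG [3, 2, 1, 0, 23])
  rw [hord, card_fixG_5] at hdvd
  exact hq48 hdvd

/-- The number of fixed points of an element of prime order not dividing 48. -/
theorem card_fix_mod {h : P} {q : ℕ} [hq : Fact q.Prime] (hh : h ^ q = 1) :
    (Finset.univ.filter fun x => h x = x).card ≡ 24 [MOD q] := by
  have := card_mod hh Finset.univ (by simp)
  have hc : (Finset.univ : Finset GolayPt).card = 24 := by decide +kernel
  rw [hc] at this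
  exact this.symm

/-! ### Orbits -/

/-- An orbit, as a finite set. -/
noncomputable def orb (X : Subgroup P) (a : GolayPt) : Finset GolayPt := by
  classical
  exact Finset.univ.filter fun p => ∃ g ∈ X, g a = p

theorem mem_orb {X : Subgroup P} {a p : GolayPt} : p ∈ orb X a ↔ ∃ g ∈ X, g a = p := by
  simp [orb]

theorem self_mem_orb (X : Subgroup P) (a : GolayPt) : a ∈ orb X a := mem_orb.2 ⟨1, X.one_mem, rfl⟩

theorem apply_mem_orb {X : Subgroup P} {a p : GolayPt} {g : P} (hg : g ∈ X) : g p ∈ orb X a ↔ p ∈ orb X a := by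
  rw [mem_orb, mem_orb]
  constructor
  · rintro ⟨t, ht, e⟩
    refine ⟨g⁻¹ * t, X.mul_mem (X.inv_mem hg) ht, ?_⟩
    rw [Equiv.Perm.mul_apply, e]
    simp
  · rintro ⟨t, ht, e⟩
    exact ⟨g * t, X.mul_mem hg ht, by rw [Equiv.Perm.mul_apply, e]⟩

theorem orb_card_dvd (X : Subgroup P) (a : GolayPt) : (orb X a).card ∣ Nat.card X := by
  have h1 : ((orb X a : Finset GolayPt) : Set GolayPt) = MulAction.orbit X a := by
    ext p
    rw [Finset.mem_coe, mem_orb, MulAction.mem_orbit_iff]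
    constructor
    · rintro ⟨g, hg, e⟩
      exact ⟨⟨g, hg⟩, e⟩
    · rintro ⟨g, e⟩
      exact ⟨g.1, g.2, e⟩
  have h2 := MulAction.index_stabilizer (G := X) (x := a)
  rw [← h1, Set.ncard_coe_finset] at h2
  rw [← h2]
  exact Subgroup.index_dvd_card _

/-- The residue of the size of an orbit. -/
theorem orb_mod {X : Subgroup P} (a : GolayPt) {q : ℕ} [hq : Fact q.Prime] {h : P} (hX : h ∈ X) (hh : h ^ q = 1) :
    (orb X a).card ≡ ((orb X a).filter fun x => h x = x).card [MOD q] :=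
  card_mod hh _ (fun _ => apply_mem_orb hX)

/-- The existence of an element of prime order. -/
theorem exists_order (X : Subgroup P) {q : ℕ} [hq : Fact q.Prime] (hq2 : q ∣ Nat.card X) :
    ∃ h ∈ X, h ^ q = 1 ∧ h ≠ 1 := by
  obtain ⟨x, hx⟩ := exists_prime_orderOf_dvd_card' q hq2
  refine ⟨x.1, x.2, ?_, ?_⟩
  · have := pow_orderOf_eq_one x
    rw [hx] at this
    exact congrArg Subtype.val this
  · intro e
    have e2 : x = 1 := Subtype.ext e
    rw [e2, orderOf_one] at hx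
    exact hq.out.one_lt.ne hx

/-! ### The group of order 128 -/

/-- The group of order 128. -/
noncomputable def T0 : Subgroup P := tblSubgroup T0L tg_T0

theorem card_T0 : Nat.card T0 = 128 := by
  rw [T0, card_tblSubgroup, len_T0]

theorem T0_le : T0 ≤ fixG [23] := by
  intro g hg
  refine mem_fixG.2 ⟨tblSubgroup_le_M24 _ hg, ?_⟩
  intro f hf
  rw [List.mem_singleton] at hf
  subst hf
  have h1 := List.all_eq_true.1 fix_T0 _ hg
  apply idx_injective
  rw [idx_pt (by norm_num), ← getD_tblOf g (by norm_num)]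
  simpa using h1

theorem exists_T0 {b y : ℕ} (hb : b < 24) {T : List ℕ} (hT : T ∈ T0L) (h : T.getD b 0 = y) :
    ∃ t ∈ T0, t (pt b) = pt y := by
  obtain ⟨t, ht⟩ := exists_of_good (tg_T0.good T hT)
  refine ⟨t, ?_, ?_⟩
  · obtain ⟨-, e⟩ := ht
    show tblOf t ∈ T0L
    rw [e]
    exact hT
  · have h1 := getD_tblOf t hb
    rw [ht.2, h] at h1
    rw [← pt_idx' (t (pt b)), ← h1]

section
variable {X : Subgroup P} (hT : T0 ≤ X)
include hT

theorem orb_A4 {y : ℕ} (hy : y ∈ l4) : pt y ∈ orb X (pt 3) := by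
  obtain ⟨T, hT', e⟩ := List.any_eq_true.1 (List.all_eq_true.1 tr4 y hy)
  obtain ⟨t, ht, e2⟩ := exists_T0 (by norm_num) hT' (beq_iff_eq.1 e)
  rw [← e2]
  exact (apply_mem_orb (hT ht)).2 (self_mem_orb _ _)

theorem orb_D : pt 1 ∈ orb X (pt 3) ↔ pt 0 ∈ orb X (pt 3) := by
  obtain ⟨T, hT', e⟩ := List.any_eq_true.1 trD
  obtain ⟨t, ht, e2⟩ := exists_T0 (by norm_num) hT' (beq_iff_eq.1 e)
  rw [← e2]
  exact apply_mem_orb (hT ht)

theorem orb_A16 {y : ℕ} (hy : y ∈ l16) : pt y ∈ orb X (pt 3) ↔ pt 4 ∈ orb X (pt 3) := by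
  obtain ⟨T, hT', e⟩ := List.any_eq_true.1 (List.all_eq_true.1 tr16 y hy)
  obtain ⟨t, ht, e2⟩ := exists_T0 (by norm_num) hT' (beq_iff_eq.1 e)
  rw [← e2]
  exact apply_mem_orb (hT ht)

end

/-- The masks of the possible orbits. -/
def mk (a b c : Bool) : ℕ := 147496 ||| (cond a 4 0) ||| (cond b 3 0) ||| (cond c 8241104 0)

theorem testBit_mk : ∀ a b c : Bool, ∀ i : Fin 24, (mk a b c).testBit i =
    (i.val ∈ l4 || (a && i.val == 2) || (b && (i.val == 0 || i.val == 1)) || (c && decide (i.val ∈ l16))) := by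
  decide +kernel

theorem cases_pt : ∀ i : Fin 24, i.val = 23 ∨ i.val = 2 ∨ i.val = 0 ∨ i.val = 1 ∨ i.val ∈ l4 ∨ i.val ∈ l16 := by
  decide +kernel

/-- The points in the orbit. -/
theorem orb_iff {X : Subgroup P} (hT : T0 ≤ X) (hX : X ≤ fixG [23]) (i : ℕ) (hi : i < 24) :
    pt i ∈ orb X (pt 3) ↔ (i ∈ l4 ∨ (i = 2 ∧ pt 2 ∈ orb X (pt 3)) ∨ ((i = 0 ∨ i = 1) ∧ pt 0 ∈ orb X (pt 3)) ∨
      (i ∈ l16 ∧ pt 4 ∈ orb X (pt 3))) := by
  rcases cases_pt ⟨i, hi⟩ with h | h | h | h | h | h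
  · simp only at h
    subst h
    have h1 : pt 23 ∉ orb X (pt 3) := by
      intro h2
      obtain ⟨g, hg, e⟩ := mem_orb.1 h2
      have h3 := (mem_fixG.1 (hX hg)).2 23 (by simp)
      rw [← h3] at e
      have := congrArg idx (g.injective e)
      rw [idx_pt (by norm_num), idx_pt (by norm_num)] at this
      omega
    have h4 : (23 : ℕ) ∉ l4 := by decide
    have h5 : (23 : ℕ) ∉ l16 := by decide
    simp [h1, h4, h5]
  · simp only at h
    subst h
    have h4 : (2 : ℕ) ∉ l4 := by decide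
    have h5 : (2 : ℕ) ∉ l16 := by decide
    simp [h4, h5]
  · simp only at h
    subst h
    have h4 : (0 : ℕ) ∉ l4 := by decide
    have h5 : (0 : ℕ) ∉ l16 := by decide
    simp [h4, h5]
  · simp only at h
    subst h
    have h4 : (1 : ℕ) ∉ l4 := by decide
    have h5 : (1 : ℕ) ∉ l16 := by decide
    simp [h4, h5, orb_D hT]
  · simp only at h
    have h5 := orb_A4 hT h
    simp [h5, h]
  · simp only at h
    have h5 := orb_A16 hT h
    have h6 : ∀ j ∈ l16, j ∉ l4 ∧ j ≠ 2 ∧ j ≠ 0 ∧ j ≠ 1 := by decide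
    obtain ⟨h7, h8, h9, h10⟩ := h6 i h
    simp [h5, h, h7, h8, h9, h10]

/-- The orbit of the point 3. -/
theorem orb_eq {X : Subgroup P} (hT : T0 ≤ X) (hX : X ≤ fixG [23]) :
    ∃ a b c, (a = true ↔ pt 2 ∈ orb X (pt 3)) ∧ (b = true ↔ pt 0 ∈ orb X (pt 3)) ∧ (c = true ↔ pt 4 ∈ orb X (pt 3)) ∧
      orb X (pt 3) = ofMask (mk a b c) := by
  classical
  refine ⟨decide (pt 2 ∈ orb X (pt 3)), decide (pt 0 ∈ orb X (pt 3)), decide (pt 4 ∈ orb X (pt 3)), by simp, by simp, by simp, ?_⟩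
  ext p
  rw [mem_ofMask]
  have hb := testBit_mk (decide (pt 2 ∈ orb X (pt 3))) (decide (pt 0 ∈ orb X (pt 3))) (decide (pt 4 ∈ orb X (pt 3))) ⟨idx p, idx_lt p⟩
  simp only at hb
  rw [hb]
  have h1 := orb_iff hT hX (idx p) (idx_lt p)
  rw [pt_idx' p] at h1
  rw [h1]
  simp
  tauto

/-- The size of the orbit is one of these. -/
theorem popc_mk : ∀ a b c : Bool, (ofMask (mk a b c)).card = 4 + cond a 1 0 + cond b 2 0 + cond c 16 0 := by
  decide +kernel

/-- Residues give all the constraints. -/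
theorem orb_residue {X : Subgroup P} (hX : X ≤ fixG [23]) {q : ℕ} [hq : Fact q.Prime] (hq48 : ¬ q ∣ 48)
    (hq2 : q ∣ Nat.card X) : ∃ n f, f ≤ 4 ∧ f ≡ 24 [MOD q] ∧ n + 1 ≤ f ∧ (orb X (pt 3)).card ≡ n [MOD q] := by
  classical
  obtain ⟨h, hh, h1, h2⟩ := exists_order X hq2
  have hM : h ∈ M24 := fixG_le_M24 _ (hX hh)
  have h3 := fix_le_four hM hq48 h1 h2
  have h4 := card_fix_mod (q := q) h1
  have h5 := orb_mod (pt 3) hh h1
  have hfix23 : h (pt 23) = pt 23 := (mem_fixG.1 (hX hh)).2 23 (by simp)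
  have h23 : pt 23 ∉ orb X (pt 3) := by
    intro h6
    obtain ⟨g, hg, e⟩ := mem_orb.1 h6
    have h7 := (mem_fixG.1 (hX hg)).2 23 (by simp)
    rw [← h7] at e
    have := congrArg idx (g.injective e)
    rw [idx_pt (by norm_num), idx_pt (by norm_num)] at this
    omega
  refine ⟨_, _, h3, h4, ?_, h5⟩
  apply Finset.card_lt_card
  rw [Finset.ssubset_iff_of_subset]
  · exact ⟨pt 23, by simp [hfix23], fun h6 => h23 (Finset.mem_filter.1 h6).1⟩
  · intro y hy
    exact Finset.mem_filter.2 ⟨Finset.mem_univ _, (Finset.mem_filter.1 hy).2⟩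

/-- The constraint for seven. -/
theorem orb_mod7 {X : Subgroup P} (hX : X ≤ fixG [23]) (h7 : 7 ∣ Nat.card X) : (orb X (pt 3)).card % 7 ≤ 2 := by
  haveI : Fact (Nat.Prime 7) := ⟨by norm_num⟩
  obtain ⟨n, f, h1, h2, h3, h4⟩ := orb_residue hX (q := 7) (by norm_num) h7
  have h5 : f % 7 = 24 % 7 := h2
  have h6 : (orb X (pt 3)).card % 7 = n % 7 := h4
  omega

/-- The constraint for five. -/
theorem orb_mod5 {X : Subgroup P} (hX : X ≤ fixG [23]) (h5 : 5 ∣ Nat.card X) : (orb X (pt 3)).card % 5 ≤ 3 := by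
  haveI : Fact (Nat.Prime 5) := ⟨by norm_num⟩
  obtain ⟨n, f, h1, h2, h3, h4⟩ := orb_residue hX (q := 5) (by norm_num) h5
  have h7 : f % 5 = 24 % 5 := h2
  have h6 : (orb X (pt 3)).card % 5 = n % 5 := h4
  omega

/-- A subgroup of order divisible by seven and by neither eleven nor twenty-three: two possibilities. -/
theorem orb_two_cases {X : Subgroup P} (hT : T0 ≤ X) (hX : X ≤ fixG [23]) (h7 : 7 ∣ Nat.card X)
    (h11 : ¬ 11 ∣ Nat.card X) (h23 : ¬ 23 ∣ Nat.card X) :
    orb X (pt 3) = ofMask (mk true true false) ∨ orb X (pt 3) = ofMask (mk true false true) := by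
  obtain ⟨a, b, c, -, -, -, e⟩ := orb_eq hT hX
  have h1 := orb_mod7 hX h7
  have h2 := orb_card_dvd X (pt 3)
  rw [e] at h1 h2 ⊢
  rw [popc_mk] at h1 h2
  cases a <;> cases b <;> cases c <;> simp at h1 h2 ⊢
  · exact (h11 (Dvd.dvd.trans (by norm_num) h2)).elim
  · exact (h23 h2).elim

end Cfsg.Agent.Lib.Sporadic.M24T
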