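import Mathlib
import Cfsg.Agent.Lib.Compute.M24Enum
import Cfsg.Agent.Lib.Sporadic.M24Basic

/-!
# Elements of order three of the Mathieu group
-/

set_option autoImplicit false
set_option maxRecDepth 100000

namespace Cfsg.Agent.Lib.Sporadic.M24Three

open Cfsg Subgroup Cfsg.Agent.Lib.Compute.M24 Cfsg.Agent.Lib.Compute.M24Enum

/-- The permutation. -/
def sL3 : List ℕ := [15,9,4,6,17,0,10,22,1,8,3,23,21,12,7,5,11,2,19,20,18,13,14,16]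

/-- The permutation. -/
noncomputable def S3 : P := ofL sL3

/-- A group of order `27`. -/
def P0L : List (List ℕ) := [[0,1,2,3,4,5,6,7,8,9,10,11,12,13,14,15,16,17,18,19,20,21,22,23],[0,1,11,20,23,5,18,4,8,9,19,14,3,10,2,15,22,16,21,13,12,6,17,7],[0,1,14,12,7,5,21,23,8,9,13,2,20,19,11,15,17,22,6,10,3,18,16,4],[0,8,16,12,14,5,6,11,9,1,19,22,20,10,17,15,23,4,18,13,3,21,7,2],[0,8,17,20,11,5,21,2,9,1,10,16,3,13,22,15,4,7,6,19,12,18,23,14],[0,8,22,3,2,5,18,14,9,1,13,17,12,19,16,15,7,23,21,10,20,6,4,11],[0,9,4,3,22,5,21,16,1,8,19,23,12,10,7,15,14,11,6,13,20,18,2,17],[0,9,7,12,16,5,18,17,1,8,10,4,20,13,23,15,11,2,21,19,3,6,14,22],[0,9,23,20,17,5,6,22,1,8,13,7,3,19,4,15,2,14,18,10,12,21,11,16],[5,1,2,10,7,15,12,23,8,9,18,11,13,6,14,0,22,16,3,21,19,20,17,4],[5,1,11,19,4,15,3,7,8,9,21,14,10,18,2,0,17,22,20,6,13,12,16,23],[5,1,14,13,23,15,20,4,8,9,6,2,19,21,11,0,16,17,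12,18,10,3,22,7],[5,8,16,19,11,15,20,2,9,1,18,22,10,6,17,0,7,23,12,21,13,3,4,14],[5,8,17,10,2,15,3,14,9,1,6,16,13,21,22,0,23,4,20,18,19,12,7,11],[5,8,22,13,14,15,12,11,9,1,21,17,19,18,16,0,4,7,3,6,10,20,23,2],[5,9,4,19,16,15,12,17,1,8,6,23,10,21,7,0,2,14,3,18,13,20,11,22],[5,9,7,10,17,15,20,22,1,8,21,4,13,18,23,0,14,11,12,6,19,3,2,16],[5,9,23,13,22,15,3,16,1,8,18,7,19,6,4,0,11,2,20,21,10,12,14,17],[15,1,2,18,23,0,13,4,8,9,3,11,6,12,14,5,17,22,10,20,21,19,16,7],[15,1,11,21,7,0,10,23,8,9,20,14,18,3,2,5,16,17,19,12,6,13,22,4],[15,1,14,6,4,0,19,7,8,9,12,2,21,20,11,5,22,16,13,3,18,10,17,23],[15,8,16,18,2,0,10,14,9,1,12,22,6,20,17,5,4,7,19,3,21,13,23,11],[15,8,17,6,14,0,13,11,9,1,20,16,21,3,22,5,7,23,10,12,18,19,4,2],[15,8,22,21,11,0,19,2,9,1,3,17,18,12,16,5,23,4,13,20,6,10,7,14],[15,9,4,6,17,0,10,22,1,8,3,23,21,12,7,5,11,2,19,20,18,13,14,16],[15,9,7,21,22,0,13,16,1,8,12,4,18,20,23,5,2,14,10,3,6,19,11,17],[15,9,23,18,16,0,19,17,1,8,20,7,6,3,4,5,14,11,13,12,21,10,2,22]]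

/-- A central element. -/
def Zt : List ℕ := [0,1,11,20,23,5,18,4,8,9,19,14,3,10,2,15,22,16,21,13,12,6,17,7]

/-- Conjugating elements. -/
def Wit : List (List ℕ × List ℕ) := [([0,1,11,20,23,5,18,4,8,9,19,14,3,10,2,15,22,16,21,13,12,6,17,7],[0,1,2,3,4,5,6,7,8,9,10,11,12,13,14,15,16,17,18,19,20,21,22,23]),([0,1,14,12,7,5,21,23,8,9,13,2,20,19,11,15,17,22,6,10,3,18,16,4],[0,1,2,7,12,5,18,3,8,15,10,14,4,19,11,9,17,16,6,13,23,21,22,20]),([0,8,16,12,14,5,6,11,9,1,19,22,20,10,17,15,23,4,18,13,3,21,7,2],[0,2,21,13,12,1,5,23,11,14,17,7,10,22,3,8,6,20,9,16,19,15,4,18]),([0,8,17,20,11,5,21,2,9,1,10,16,3,13,22,15,4,7,6,19,12,18,23,14],[0,10,16,14,21,1,4,17,19,13,5,6,11,8,20,9,18,22,7,15,2,23,12,3]),([0,8,22,3,2,5,18,14,9,1,13,17,12,19,16,15,7,23,21,10,20,6,4,11],[0,3,17,1,22,5,13,4,20,12,18,11,8,21,23,15,7,14,10,6,9,19,16,2]),([0,9,4,3,22,5,21,16,1,8,19,23,12,10,7,15,14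,11,6,13,20,18,2,17],[0,4,22,1,17,5,13,3,7,23,18,2,8,6,12,9,20,14,19,21,15,10,16,11]),([0,9,7,12,16,5,18,17,1,8,10,4,20,13,23,15,11,2,21,19,3,6,14,22],[0,10,17,11,21,1,12,16,13,19,5,18,14,8,23,15,6,22,3,9,2,20,4,7]),([0,9,23,20,17,5,6,22,1,8,13,7,3,19,4,15,2,14,18,10,12,21,11,16],[0,2,21,19,4,1,5,20,14,11,16,3,10,22,7,8,18,23,15,17,13,9,12,6]),([5,1,2,10,7,15,12,23,8,9,18,11,13,6,14,0,22,16,3,21,19,20,17,4],[10,0,1,4,18,19,11,21,5,8,23,9,14,2,15,13,17,22,7,20,3,12,16,6]),([5,1,11,19,4,15,3,7,8,9,21,14,10,18,2,0,17,22,20,6,13,12,16,23],[3,0,17,23,1,20,4,5,8,15,2,16,14,21,22,12,19,13,6,7,18,11,10,9]),([5,1,14,13,23,15,20,4,8,9,6,2,19,21,11,0,16,17,12,18,10,3,22,7],[2,0,6,20,10,11,17,13,1,5,22,21,7,12,18,14,8,15,23,4,16,3,9,19]),([5,8,16,19,11,15,20,2,9,1,18,22,10,6,17,0,7,23,12,21,13,3,4,14],[0,1,2,18,16,15,12,17,9,8,10,11,6,13,14,5,4,7,3,19,21,20,23,22]),([5,8,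17,10,2,15,3,14,9,1,6,16,13,21,22,0,23,4,20,18,19,12,7,11],[0,3,8,2,9,15,17,23,6,10,4,20,21,13,16,5,18,1,22,7,14,12,11,19]),([5,8,22,13,14,15,12,11,9,1,21,17,19,18,16,0,4,7,3,6,10,20,23,2],[0,4,7,11,6,15,8,18,17,2,13,19,1,23,10,5,3,20,16,9,21,12,22,14]),([5,9,4,19,16,15,12,17,1,8,6,23,10,21,7,0,2,14,3,18,13,20,11,22],[0,4,7,21,22,15,8,20,2,17,9,10,1,23,19,5,14,18,12,13,11,16,6,3]),([5,9,7,10,17,15,20,22,1,8,21,4,13,18,23,0,14,11,12,6,19,3,2,16],[0,3,8,14,11,15,17,1,10,6,7,16,21,13,20,5,19,23,12,4,2,22,9,18]),([5,9,23,13,22,15,3,16,1,8,18,7,19,6,4,0,11,2,20,21,10,12,14,17],[0,1,2,21,23,15,12,7,8,9,19,14,6,13,11,5,22,17,20,10,18,3,16,4]),([15,1,2,18,23,0,13,4,8,9,3,11,6,12,14,5,17,22,10,20,21,19,16,7],[10,0,1,12,6,13,14,21,5,8,20,15,11,2,9,19,16,22,3,23,7,4,17,18]),([15,1,11,21,7,0,10,23,8,9,20,14,18,3,2,5,16,17,19,12,6,13,22,4],[2,0,18,23,10,14,16,19,1,5,22,21,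3,4,6,11,8,9,20,12,17,7,15,13]),([15,1,14,6,4,0,19,7,8,9,12,2,21,20,11,5,22,16,13,3,18,10,17,23],[4,0,22,12,1,7,3,5,8,9,11,16,14,6,17,23,10,13,21,20,18,2,19,15]),([15,8,16,18,2,0,10,14,9,1,12,22,6,20,17,5,4,7,19,3,21,13,23,11],[0,4,7,12,14,5,1,18,17,2,9,10,8,23,19,15,22,20,21,13,16,11,3,6]),([15,8,17,6,14,0,13,11,9,1,20,16,21,3,22,5,7,23,10,12,18,19,4,2],[0,3,8,12,19,5,21,23,6,10,7,16,17,13,20,15,11,1,14,4,22,2,18,9]),([15,8,22,21,11,0,19,2,9,1,3,17,18,12,16,5,23,4,13,20,6,10,7,14],[0,1,2,20,22,5,6,17,9,8,19,14,12,13,11,15,23,7,21,10,3,18,4,16]),([15,9,4,6,17,0,10,22,1,8,3,23,21,12,7,5,11,2,19,20,18,13,14,16],[0,1,2,3,4,5,6,7,8,9,10,11,12,13,14,15,16,17,18,19,20,21,22,23]),([15,9,7,21,22,0,13,16,1,8,12,4,18,20,23,5,2,14,10,3,6,19,11,17],[0,3,8,22,18,5,21,1,10,6,4,20,17,13,16,15,9,23,2,7,12,14,19,11]),([15,9,23,18,16,0,19,17,1,8,20,7,6,3,4,5,14,11,13,12,21,10,2,22],[0,4,7,16,3,5,1,20,2,17,13,19,8,23,10,15,6,18,11,9,12,21,14,22])]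

theorem P0_nodup : P0L.Nodup := by decide +kernel
theorem P0_valid : ∀ a ∈ P0L, validL a = true := by decide +kernel
theorem P0_inM24 : ∀ a ∈ P0L, inM24 a = true := by decide +kernel
theorem P0_id : idL ∈ P0L := by decide +kernel
theorem P0_mul : ∀ a ∈ P0L, ∀ b ∈ P0L, mulL a b ∈ P0L := by decide +kernel
theorem P0_inv : ∀ a ∈ P0L, mulL a (mulL a a) = idL := by decide +kernel
theorem Zt_mem : Zt ∈ P0L := by decide +kernel
theorem Zt_cent : ∀ a ∈ P0L, mulL a Zt = mulL Zt a := by decide +kernel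
theorem Wit_chk : ∀ a ∈ P0L, a = idL ∨ ∃ x ∈ Wit, x.1 = a ∧ validL x.2 = true ∧ inM24 x.2 = true ∧
    (mulL x.2 a = mulL Zt x.2 ∨ mulL x.2 a = mulL sL3 x.2) := by decide +kernel
theorem sL3_valid : validL sL3 = true := by decide +kernel
theorem Zt_valid : validL Zt = true := by decide +kernel

theorem toL_S3 : toL S3 = sL3 := toL_ofL sL3_valid

theorem S3_mem : S3 ∈ M24 := mem_M24_of_inM24 (codes_ofL sL3_valid) (by decide +kernel)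

theorem S3_pow : S3 ^ 3 = 1 := by
  apply eq_of_toL
  rw [toL_pow, toL_S3, toL_one]
  decide +kernel

/-- The group of order `27`. -/
def P0 : Subgroup P where
  carrier := {x | toL x ∈ P0L}
  mul_mem' := by
    intro a b ha hb
    show toL _ ∈ P0L
    rw [toL_mul]
    exact P0_mul _ ha _ hb
  one_mem' := by
    show toL _ ∈ P0L
    rw [toL_one]
    exact P0_id
  inv_mem' := by
    intro a ha
    have h3 : a * (a * a) = 1 := eq_of_toL (by rw [toL_mul, toL_mul, P0_inv _ ha, toL_one])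
    have h4 : a⁻¹ = a * a := by
      rw [inv_eq_iff_mul_eq_one]
      rw [← mul_assoc] at h3
      rw [← mul_assoc]
      exact h3
    show toL _ ∈ P0L
    rw [h4, toL_mul]
    exact P0_mul _ ha _ ha

theorem mem_P0 {x : P} : x ∈ P0 ↔ toL x ∈ P0L := Iff.rfl

theorem P0_le : P0 ≤ M24 := fun x hx => mem_M24_of_inM24 (codes_toL x) (P0_inM24 _ hx)

theorem card_P0 : Nat.card P0 = 27 := by
  have e : P0 ≃ {l : List ℕ // l ∈ P0L} := Equiv.ofBijective (fun x => ⟨toL x.1, x.2⟩) (by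
    constructor
    · intro a b h
      exact Subtype.ext (eq_of_toL (congrArg Subtype.val h))
    · rintro ⟨l, hl⟩
      have h1 := toL_ofL (P0_valid l hl)
      exact ⟨⟨ofL l, by show toL _ ∈ P0L; rw [h1]; exact hl⟩, Subtype.ext h1⟩)
  rw [Nat.card_congr e, Nat.card_eq_fintype_card, Fintype.card_of_subtype P0L.toFinset (by simp),
    List.toFinset_card_of_nodup P0_nodup]
  rfl

theorem fact_three : (244823040 : ℕ).factorization 3 = 3 := by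
  have hp : Nat.Prime 3 := by norm_num
  have h0 : (244823040 : ℕ) ≠ 0 := by norm_num
  apply le_antisymm
  · by_contra h
    have h1 : 4 ≤ (244823040 : ℕ).factorization 3 := by omega
    have h2 := (Nat.Prime.pow_dvd_iff_le_factorization hp h0).2 h1
    norm_num at h2
  · exact (Nat.Prime.pow_dvd_iff_le_factorization hp h0).1 (by norm_num)

/-- Elements of order three. -/
theorem lemmaA (τ : P) (hτ : τ ∈ M24) (h3 : τ ^ 3 = 1) (h1 : τ ≠ 1) :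
    (∃ T : Subgroup P, T ≤ M24 ∧ Nat.card T = 27 ∧ τ ∈ T ∧ ∀ x ∈ T, x * τ = τ * x) ∨
      ∃ w ∈ M24, w * τ * w⁻¹ = S3 := by
  haveI : Fact (Nat.Prime 3) := ⟨by norm_num⟩
  let Q : Subgroup ↥M24 := P0.subgroupOf M24
  have hQ : Nat.card Q = 27 := by
    rw [← card_P0]
    exact Nat.card_congr (Subgroup.subgroupOfEquivOfLe P0_le).toEquiv
  have hc : Nat.card Q = 3 ^ (Nat.card ↥M24).factorization 3 := by
    rw [hQ, Cfsg.Agent.Lib.Sporadic.M24Basic.card_M24, fact_three]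
    norm_num
  let Syl : Sylow 3 ↥M24 := Sylow.ofCard Q hc
  let τ₁ : ↥M24 := ⟨τ, hτ⟩
  have hτ1 : τ₁ ≠ 1 := fun h => h1 (congrArg Subtype.val h)
  have hτ3 : τ₁ ^ 3 = 1 := Subtype.ext h3
  have hpg : IsPGroup 3 (zpowers τ₁) := by
    rw [IsPGroup.iff_card]
    exact ⟨1, by rw [Nat.card_zpowers, orderOf_eq_prime hτ3 hτ1, pow_one]⟩
  obtain ⟨R, hR⟩ := hpg.exists_le_sylow
  obtain ⟨g, hg⟩ := MulAction.exists_smul_eq ↥M24 Syl R
  have hmem : τ₁ ∈ (R : Subgroup ↥M24) := hR (mem_zpowers τ₁)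
  have he : (g⁻¹ * τ₁ * g : ↥M24) ∈ Q := by
    rw [← hg, Sylow.coe_subgroup_smul, Subgroup.mem_pointwise_smul_iff_inv_smul_mem] at hmem
    have h6 : (g⁻¹ * τ₁ * g) ∈ (Syl : Subgroup ↥M24) := by
      simpa [MulAut.smul_def, MulAut.conj_apply] using hmem
    exact h6
  set e : P := ((g⁻¹ * τ₁ * g : ↥M24) : P) with he_def
  have heP : toL e ∈ P0L := he
  have he1 : e = (g : P)⁻¹ * τ * (g : P) := rfl
  rcases Wit_chk _ heP with h | ⟨x, hx, hxe, hv, hm, hc2⟩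
  · exfalso
    have : e = 1 := eq_of_toL (by rw [h, toL_one])
    apply h1
    rw [he1] at this
    have h5 : τ = (g : P) * ((g : P)⁻¹ * τ * (g : P)) * (g : P)⁻¹ := by group
    rw [h5, this]
    group
  · have hwM : ofL x.2 ∈ M24 := mem_M24_of_inM24 (codes_ofL hv) hm
    set w := ofL x.2 with hw
    have htw : toL w = x.2 := toL_ofL hv
    set h : P := w * (g : P)⁻¹ with hh
    have hhM : h ∈ M24 := mul_mem hwM (inv_mem g.2)
    have hconj : h * τ * h⁻¹ = w * e * w⁻¹ := by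
      rw [hh, he1]
      group
    rcases hc2 with hc3 | hc3
    · left
      set Zp : P := ofL Zt with hZp
      have htZ : toL Zp = Zt := toL_ofL Zt_valid
      have hwe : w * e = Zp * w := eq_of_toL (by rw [toL_mul, toL_mul, htw, htZ, hc3])
      have hZ : h * τ * h⁻¹ = Zp := by
        rw [hconj, hwe]
        group
      have hτZ : τ = h⁻¹ * Zp * h := by
        rw [← hZ]
        group
      refine ⟨P0.map (MulAut.conj h⁻¹).toMonoidHom, ?_, ?_, ?_, ?_⟩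
      · rintro _ ⟨y, hy, rfl⟩
        show h⁻¹ * y * h⁻¹⁻¹ ∈ M24
        exact mul_mem (mul_mem (inv_mem hhM) (P0_le hy)) (inv_mem (inv_mem hhM))
      · rw [Subgroup.card_map_of_injective (MulAut.conj h⁻¹).injective, card_P0]
      · refine ⟨Zp, ?_, ?_⟩
        · show toL _ ∈ P0L
          rw [htZ]
          exact Zt_mem
        · show h⁻¹ * Zp * h⁻¹⁻¹ = τ
          rw [hτZ]
          group
      · rintro _ ⟨y, hy, rfl⟩
        have hyZ : y * Zp = Zp * y := eq_of_toL (by rw [toL_mul, toL_mul, htZ]; exact Zt_cent _ hy)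
        show h⁻¹ * y * h⁻¹⁻¹ * τ = τ * (h⁻¹ * y * h⁻¹⁻¹)
        rw [hτZ]
        calc h⁻¹ * y * h⁻¹⁻¹ * (h⁻¹ * Zp * h) = h⁻¹ * (y * Zp) * h := by group
          _ = h⁻¹ * (Zp * y) * h := by rw [hyZ]
          _ = h⁻¹ * Zp * h * (h⁻¹ * y * h⁻¹⁻¹) := by group
    · right
      refine ⟨h, hhM, ?_⟩
      have htS : toL S3 = sL3 := toL_ofL sL3_valid
      have hwe : w * e = S3 * w := eq_of_toL (by rw [toL_mul, toL_mul, htw, htS, hc3])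
      rw [hconj, hwe]
      group

end Cfsg.Agent.Lib.Sporadic.M24Three
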