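import Cfsg.Agent.Lib.Sporadic.M24TrOctData

/-!
# The fifteen trios through the standard octad
-/

namespace Cfsg.Agent.Lib.Sporadic.M24TrOct

open Cfsg Cfsg.Agent.Lib.Sporadic.GolayCore Cfsg.Agent.Lib.Sporadic.M24Tbl
open Cfsg.Agent.Lib.Sporadic.M24Chain Cfsg.Agent.Lib.Sporadic.M24Basic
open Cfsg.Agent.Lib.Sporadic.M24Act Cfsg.Agent.Lib.Sporadic.M24Lists
open Cfsg.Agent.Lib.Sporadic.M24Orbit Cfsg.Agent.Lib.Sporadic.M24Count
open Cfsg.Agent.Lib.Sporadic.M24Sextet Cfsg.Agent.Lib.Sporadic.M24Fast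
open Cfsg.Agent.Lib.Sporadic.M24Classes Cfsg.Agent.Lib.Sporadic.M24Cert
open scoped Pointwise
open Cfsg.Agent.Lib.Sporadic.M24OcStab Cfsg.Agent.Lib.Sporadic.M24TrioTab
open Cfsg.Agent.Lib.Sporadic.M24TrioTree Cfsg.Agent.Lib.Sporadic.M24TrioTrans
open Cfsg.Agent.Lib.Sporadic.M24OctadStab Cfsg.Agent.Lib.Sporadic.M24TrOctData
open Cfsg.Agent.Lib.Sporadic.M24Six

/-- The standard octad. -/
abbrev o0 : Finset GolayPt := ofMask 8536111

theorem o0_mem : o0 ∈ octads := ofMask_mem_octads_of_fOct (by decide +kernel)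

theorem mem_trObj_of_mem_kl {m : ℕ} (hm : m ∈ kl) : trObj m ∈ trios ∧ o0 ∈ trObj m := by
  refine ⟨tr_master.mem m _ (kl_find m hm), ?_⟩
  rw [trObj_eq (kl_find m hm)]
  exact mem_famOf.2 ⟨_, memB_iff.1 (kl_has m hm), rfl⟩

theorem exists_key_of_mem {T : Finset (Finset GolayPt)} (hT : T ∈ trios) (h0 : o0 ∈ T) :
    ∃ m ∈ kl, trObj m = T := by
  obtain ⟨m, v, hf, rfl⟩ := tr_master.surj T hT
  refine ⟨m, ?_, rfl⟩
  have h1 := ctAll_of_find kl_complete hf
  rw [trObj_eq hf] at h0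
  have h2 : memB 8536111 v = true :=
    memB_iff.2 (mem_famOf_mask (by norm_num) (tr_nodup_lt hf).2 h0)
  rw [h2] at h1
  simpa using memB_iff.1 h1

theorem ncard_trios_o0 : {T : Finset (Finset GolayPt) | T ∈ trios ∧ o0 ∈ T}.ncard = 15 := by
  rw [tr_master.ncard_filter (fun T => o0 ∈ T) (fun _ v => memB 8536111 v), kl_count]
  intro m v hf
  rw [trObj_eq hf]
  constructor
  · intro h
    exact memB_iff.2 (mem_famOf_mask (by norm_num) (tr_nodup_lt hf).2 h)
  · intro h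
    exact mem_famOf.2 ⟨_, memB_iff.1 h, rfl⟩

theorem pair_spec {t : CT} {mi mj : ℕ} (h2 : pairOK t mi mj = true) : ∃ w, (∀ i ∈ w, i < 8) ∧
      trSem (wordF tbsO w) m0 (tv m0) mi (tv mi) = true ∧
      trSem (wordF tbsO w) m1 (tv m1) mj (tv mj) = true := by
  unfold pairOK at h2
  split at h2
  · rename_i w _
    simp only [Bool.and_eq_true, List.all_eq_true] at h2
    obtain ⟨⟨h4, h5⟩, h6⟩ := h2
    exact ⟨w, fun i hi => Nat.le_of_ble_eq_true (h4 i hi), h5, h6⟩
  · simp at h2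

theorem pair_moves {mi mj : ℕ} (hi : mi ∈ kl) (hj : mj ∈ kl) (hne : mi ≠ mj) :
    ∃ g ∈ M24, g • o0 = o0 ∧ g • trObj m0 = trObj mi ∧ g • trObj m1 = trObj mj := by
  have h1 := List.all_eq_true.1 pairs_ok mi hi
  have h2 := List.all_eq_true.1 h1 mj hj
  have h3 : Nat.beq mi mj = false := by
    rw [← Bool.not_eq_true]
    exact fun h => hne (Nat.eq_of_beq_eq_true h)
  rw [h3, Bool.false_or] at h2
  obtain ⟨w, h4, h5, h6⟩ := pair_spec h2
  have hgens := moves_of_gensFOK gensO_ok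
  have hlen : tbsO.length = 8 := rfl
  obtain ⟨g, hg, hg'⟩ := moves_wordF hgens w (fun i hi => by
    rw [hlen]
    exact h4 i hi)
  refine ⟨g, hg.1, ?_, ?_, ?_⟩
  · have h0 : g • famOf famO = famOf famO := hg.2
    have h7 : famOf famO = {o0} := by simp [famOf, famO]
    rw [h7, Finset.smul_finset_singleton, Finset.singleton_inj] at h0
    exact h0
  · exact tr_sys.sound g _ m0 mi _ _ hg.1 hg' (kl_find _ m0_mem) (kl_find _ hi) h5
  · exact tr_sys.sound g _ m1 mj _ _ hg.1 hg' (kl_find _ m1_mem) (kl_find _ hj) h6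

/-- Two-transitivity on the trios through the standard octad. -/
theorem two_trans_o0 {T₁ T₂ T₁' T₂' : Finset (Finset GolayPt)} (h₁ : T₁ ∈ trios) (h₂ : T₂ ∈ trios)
    (h₁' : T₁' ∈ trios) (h₂' : T₂' ∈ trios) (m₁ : o0 ∈ T₁) (m₂ : o0 ∈ T₂) (m₁' : o0 ∈ T₁')
    (m₂' : o0 ∈ T₂') (hne : T₁ ≠ T₂) (hne' : T₁' ≠ T₂') :
    ∃ g ∈ M24, g • o0 = o0 ∧ g • T₁ = T₁' ∧ g • T₂ = T₂' := by
  obtain ⟨a, ha, rfl⟩ := exists_key_of_mem h₁ m₁
  obtain ⟨b, hb, rfl⟩ := exists_key_of_mem h₂ m₂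
  obtain ⟨a', ha', rfl⟩ := exists_key_of_mem h₁' m₁'
  obtain ⟨b', hb', rfl⟩ := exists_key_of_mem h₂' m₂'
  obtain ⟨g, hg, g0, g1, g2⟩ := pair_moves ha hb (fun h => hne (by rw [h]))
  obtain ⟨g', hg', g0', g1', g2'⟩ := pair_moves ha' hb' (fun h => hne' (by rw [h]))
  refine ⟨g' * g⁻¹, M24.mul_mem hg' (M24.inv_mem hg), ?_, ?_, ?_⟩
  · rw [mul_smul, inv_smul_eq_iff.2 g0.symm, g0']
  · rw [mul_smul, ← g1, inv_smul_smul, g1']
  · rw [mul_smul, ← g2, inv_smul_smul, g2']

/-- The pointwise stabiliser of the octad fixes the trios through it. -/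
theorem fix_trios_of_fix {g : Equiv.Perm GolayPt} (hg : g ∈ M24) (hfix : ∀ p ∈ o0, g p = p)
    {T : Finset (Finset GolayPt)} (hT : T ∈ trios) (h0 : o0 ∈ T) : g • T = T := by
  -- the point outside
  have hp : pt 4 ∉ o0 := by decide +kernel
  have hq : g (pt 4) ∉ o0 := by
    intro h
    have h1 := hfix _ h
    have h2 : g (pt 4) = pt 4 := g.injective h1
    rw [h2] at h
    exact hp h
  have hq' : idx (g (pt 4)) ∈ outpts := by
    have h1 : ∀ q : GolayPt, q ∉ o0 → idx q ∈ outpts := by decide +kernel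
    exact h1 _ hq
  have h1 := List.all_eq_true.1 etbls_trans _ hq'
  obtain ⟨t, ht, h2⟩ := List.any_eq_true.1 h1
  have h3 := List.all_eq_true.1 etbls_ok t ht
  simp only [Bool.and_eq_true, List.all_eq_true] at h3
  obtain ⟨hgood, hfx⟩ := h3
  have hfx' : ∀ p ∈ o0, gPerm t hgood p = p := by
    intro p hp
    have h4 : idx p ∈ o0pts := by
      have : ∀ p : GolayPt, p ∈ o0 → idx p ∈ o0pts := by decide +kernel
      exact this p hp
    have h5 := hfx _ h4
    have h6 : t.getD (idx p) 0 = idx p := by simpa using h5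
    have h7 := gPerm_pt hgood (idx_lt p)
    rw [pt_idx, h6, pt_idx] at h7
    exact h7
  have h8 : gPerm t hgood (pt 4) = g (pt 4) := by
    rw [gPerm_pt hgood (by norm_num)]
    have h9 : t.getD 4 0 = idx (g (pt 4)) := by simpa using h2
    rw [h9, pt_idx]
  have h10 : (gPerm t hgood)⁻¹ * g = 1 := by
    apply free_outside o0_mem (M24.mul_mem (M24.inv_mem (gPerm_mem hgood)) hg) _ hp
    · simp [← h8]
    · intro x hx
      simp only [Equiv.Perm.mul_apply]
      rw [hfix x hx]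
      conv_lhs => rw [← hfx' x hx]
      simp
  have h11 : g = gPerm t hgood := by
    rw [inv_mul_eq_one] at h10
    exact h10.symm
  obtain ⟨m, hm, rfl⟩ := exists_key_of_mem hT h0
  rw [h11]
  have h12 := List.all_eq_true.1 (List.all_eq_true.1 etbls_trios t ht) m hm
  exact tr_sys.sound _ (applyT t) m m _ _ (gPerm_mem hgood)
    (fun a => ofMask_applyT _ a) (kl_find m hm) (kl_find m hm) h12

/-- The elements of the stabiliser fixing all trios through the octad. -/
def kerTr : Subgroup (MulAction.stabilizer M24 o0) where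
  carrier := {s | ∀ T ∈ trios, o0 ∈ T → ((s : M24) : Equiv.Perm GolayPt) • T = T}
  one_mem' := fun T _ _ => one_smul _ T
  mul_mem' := by
    intro a b ha hb T hT h0
    show (((a : M24) : Equiv.Perm GolayPt) * ((b : M24) : Equiv.Perm GolayPt)) • T = T
    rw [mul_smul, hb T hT h0, ha T hT h0]
  inv_mem' := by
    intro a ha T hT h0
    show ((a : M24) : Equiv.Perm GolayPt)⁻¹ • T = T
    conv_lhs => rw [← ha T hT h0]
    rw [inv_smul_smul]

theorem mem_stab_o0 (s : MulAction.stabilizer M24 o0) : ((s : M24) : Equiv.Perm GolayPt) • o0 = o0 :=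
  (mem_stabilizer_M24_finset _ _).1 s.2

theorem kerTr_normal : kerTr.Normal := by
  constructor
  intro a ha h T hT h0
  show (((h : M24) : Equiv.Perm GolayPt) * ((a : M24) : Equiv.Perm GolayPt) *
    ((h : M24) : Equiv.Perm GolayPt)⁻¹) • T = T
  have h1 := mem_stab_o0 h
  have hh : ((h : M24) : Equiv.Perm GolayPt) ∈ M24 := (h : M24).2
  have h2 : o0 ∈ ((h : M24) : Equiv.Perm GolayPt)⁻¹ • T := by
    have := Finset.smul_mem_smul_finset (a := ((h : M24) : Equiv.Perm GolayPt)⁻¹) h0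
    rwa [inv_smul_eq_iff.2 h1.symm] at this
  rw [mul_smul, mul_smul, ha _ (smul_mem_trios (M24.inv_mem hh) hT) h2, smul_inv_smul]

/-- Restriction, into the alternating group. -/
noncomputable def restrA : MulAction.stabilizer M24 o0 →* alternatingGroup ↥o0 :=
  (restrictTo o0).codRestrict (alternatingGroup ↥o0) (fun s => by
    rw [← range_eq_alt o0_mem]
    exact ⟨s, rfl⟩)

theorem restrA_surjective : Function.Surjective restrA := by
  rintro ⟨e, he⟩
  rw [← range_eq_alt o0_mem] at he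
  obtain ⟨s, rfl⟩ := he
  exact ⟨s, rfl⟩

theorem fix_of_restrA_eq_one {s : MulAction.stabilizer M24 o0} (h : restrA s = 1) (p : GolayPt)
    (hp : p ∈ o0) : ((s : M24) : Equiv.Perm GolayPt) p = p := by
  have h1 : restrictTo o0 s = 1 := congrArg Subtype.val h
  have h2 := congrArg (fun e : Equiv.Perm ↥o0 => ((e ⟨p, hp⟩ : ↥o0) : GolayPt)) h1
  simpa [restrictTo_apply] using h2

/-- The elements fixing all trios through the octad fix the octad pointwise. -/
theorem fix_of_fix_trios {g : Equiv.Perm GolayPt} (hg : g ∈ M24) (h0 : g • o0 = o0)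
    (hT : ∀ T ∈ trios, o0 ∈ T → g • T = T) (p : GolayPt) (hp : p ∈ o0) : g p = p := by
  haveI : IsSimpleGroup (alternatingGroup ↥o0) := alternatingGroup.isSimpleGroup (by
    rw [Nat.card_eq_fintype_card, Fintype.card_coe, o0_mem.2]
    norm_num)
  haveI := kerTr_normal
  let s : MulAction.stabilizer M24 o0 := ⟨⟨g, hg⟩, (mem_stabilizer_M24_finset _ _).2 h0⟩
  have hs : s ∈ kerTr := hT
  have hN : (kerTr.map restrA).Normal := Subgroup.Normal.map kerTr_normal _ restrA_surjective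
  rcases hN.eq_bot_or_eq_top with hb | ht
  · have h1 : restrA s ∈ kerTr.map restrA := ⟨s, hs, rfl⟩
    rw [hb, Subgroup.mem_bot] at h1
    exact fix_of_restrA_eq_one h1 p hp
  · exfalso
    obtain ⟨u, hu, hu0, hu1, -⟩ := pair_moves m1_mem m0_mem m01_ne.symm
    let s' : MulAction.stabilizer M24 o0 := ⟨⟨u, hu⟩, (mem_stabilizer_M24_finset _ _).2 hu0⟩
    have h1 : restrA s' ∈ kerTr.map restrA := by
      rw [ht]
      exact Subgroup.mem_top _
    obtain ⟨v, hv, hvs⟩ := h1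
    -- `v⁻¹ * s'` fixes the octad pointwise
    have h2 : restrA (v⁻¹ * s') = 1 := by
      rw [map_mul, map_inv, hvs, inv_mul_cancel]
    have h3 : ∀ p ∈ o0, ((v⁻¹ * s' : MulAction.stabilizer M24 o0) : M24).1 p = p :=
      fun p hp => fix_of_restrA_eq_one h2 p hp
    have hm0 := mem_trObj_of_mem_kl m0_mem
    have hm1 := mem_trObj_of_mem_kl m1_mem
    have hne : trObj m1 ≠ trObj m0 := fun h =>
      m01_ne.symm (tr_master.inj _ _ _ _ (kl_find _ m1_mem) (kl_find _ m0_mem) h)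
    generalize trObj m0 = X at hm0 hu1 hne
    generalize trObj m1 = Y at hm1 hu1 hne
    have h4 := fix_trios_of_fix ((v⁻¹ * s' : MulAction.stabilizer M24 o0) : M24).2 h3 hm0.1 hm0.2
    have h5 : ((v : M24).1⁻¹ * u) • X = X := h4
    rw [mul_smul, hu1] at h5
    have h6 : (v : M24).1 • Y = Y := hv _ hm1.1 hm1.2
    have h7 : (v : M24).1⁻¹ • Y = Y := by
      conv_lhs => rw [← h6]
      exact inv_smul_smul _ _
    rw [h7] at h5
    exact hne h5

end Cfsg.Agent.Lib.Sporadic.M24TrOct
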