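import Cfsg.Agent.Lib.Sporadic.M24TrSData
import Cfsg.Agent.S1557

/-!
# The structure of the stabiliser of a trio
-/

namespace Cfsg.Agent.Lib.Sporadic.M24TrS

open Cfsg Cfsg.Agent.Lib.Sporadic.GolayCore Cfsg.Agent.Lib.Sporadic.M24Tbl
open Cfsg.Agent.Lib.Sporadic.M24Chain Cfsg.Agent.Lib.Sporadic.M24Basic
open Cfsg.Agent.Lib.Sporadic.M24Orbit Cfsg.Agent.Lib.Sporadic.M24Sextet Cfsg.Agent.Lib.Sporadic.M24Fast
open Cfsg.Agent.Lib.Sporadic.M24Cert Cfsg.Agent.Lib.Sporadic.M24Classes
open Cfsg.Agent.Lib.Sporadic.M24SextetTab Cfsg.Agent.Lib.Sporadic.M24SextetTree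
open Cfsg.Agent.Lib.Sporadic.M24TrioTab Cfsg.Agent.Lib.Sporadic.M24TrioTree Cfsg.Agent.Lib.Sporadic.M24TrioTrans
open Cfsg.Agent.Lib.Sporadic.M24SxKer Cfsg.Agent.Lib.Sporadic.M24TblGroup Cfsg.Agent.Lib.Sporadic.M24OctadStab
open scoped Pointwise
open Cfsg.Agent.Lib.Sporadic.M24TrSData

/-- The space. -/
abbrev V := Fin 3 → ZMod 2

/-- The number of a vector. -/
def code (v : V) : ℕ := (v 0).val + 2 * (v 1).val + 4 * (v 2).val

theorem code_add : ∀ v w : V, code (v + w) = Nat.xor (code v) (code w) := by decide +kernel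
theorem code_inj : ∀ v w : V, code v = code w → v = w := by decide +kernel
theorem code_lt : ∀ v : V, code v < 8 := by decide +kernel
theorem code_surj : ∀ u : Fin 8, ∃ v : V, code v = u.val := by decide +kernel
theorem add_self' : ∀ v : V, v + v = 0 := by decide +kernel
theorem code_zero : code 0 = 0 := by decide +kernel
theorem code_ne : ∀ v : V, v ≠ 0 → code v ∈ labels := by decide +kernel

/-- The standard trio. -/
abbrev T0 : Finset (Finset GolayPt) := famOf oL

/-- The sextet of a vector. -/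
noncomputable def Sig (v : V) : Finset (Finset GolayPt) := famOf (lamL.getD (code v) [])

theorem Sig_zero : Sig 0 = ∅ := by
  show famOf (lamL.getD (code 0) []) = ∅
  rw [code_zero]
  rfl

theorem lam_lt : ∀ u ∈ List.range 8, ∀ a ∈ lamL.getD u [], a < 2 ^ 24 := by decide +kernel

theorem mem_Sig_mask {v : V} {x : ℕ} (hx : x < 2 ^ 24) (h : ofMask x ∈ Sig v) : x ∈ lamL.getD (code v) [] := by
  obtain ⟨a, ha, he⟩ := mem_famOf.1 h
  rw [← (ofMask_inj (lam_lt _ (List.mem_range.2 (code_lt v)) a ha) hx).1 he]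
  exact ha

/-- The sextets of the table with nonzero labels are sextets. -/
theorem Sig_mem {v : V} (hv : v ≠ 0) : Sig v ∈ sextets := by
  have hl := code_ne v hv
  have h1 := List.all_eq_true.1 lam_find _ hl
  rw [beq_iff_eq] at h1
  obtain ⟨-, h4, -, -, -, h6⟩ := entry_spec h1
  show famOf _ ∈ sextets
  rw [h6]
  exact sextetOf_mem (by rw [card_ofMask]; exact h4)

/-- Sextets refining the standard trio. -/
def Ref (S : Finset (Finset GolayPt)) : Prop := S ∈ sextets ∧ ∀ t ∈ S, ∃ o ∈ T0, t ⊆ o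

theorem Ref_Sig {v : V} (hv : v ≠ 0) : Ref (Sig v) := by
  refine ⟨Sig_mem hv, ?_⟩
  intro t ht
  obtain ⟨a, ha, rfl⟩ := mem_famOf.1 ht
  have h1 := List.all_eq_true.1 (List.all_eq_true.1 lam_ref _ (code_ne v hv)) a ha
  obtain ⟨o, ho, h2⟩ := List.any_eq_true.1 h1
  refine ⟨ofMask o, mem_famOf.2 ⟨o, ho, rfl⟩, ?_⟩
  have h3 : a &&& o = a := Nat.eq_of_beq_eq_true h2
  rw [← h3, ofMask_and]
  exact Finset.inter_subset_right

theorem Ref_smul {g : Equiv.Perm GolayPt} (hg : g ∈ M24) (hT : g • T0 = T0) {S : Finset (Finset GolayPt)}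
    (h : Ref S) : Ref (g • S) := by
  refine ⟨smul_mem_sextets hg h.1, ?_⟩
  intro t ht
  obtain ⟨t', ht', rfl⟩ := Finset.mem_smul_finset.1 ht
  obtain ⟨o, ho, h2⟩ := h.2 t' ht'
  refine ⟨g • o, ?_, Finset.smul_finset_subset_smul_finset h2⟩
  rw [← hT]
  exact Finset.smul_mem_smul_finset ho

theorem oL_lt : ∀ a ∈ oL, a < 2 ^ 24 := by decide +kernel

theorem exists_of_Ref {S : Finset (Finset GolayPt)} (h : Ref S) : ∃ w, S = Sig w ∧ w ≠ 0 := by
  obtain ⟨m, v, hf, rfl⟩ := sx_master.surj S h.1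
  obtain ⟨-, -, -, -, hlt, he⟩ := entry_spec hf
  have hv : famOf v = sxObj m := he
  have h1 : refB v = true := by
    rw [refB, List.all_eq_true]
    intro t ht
    have h2 : ofMask t ∈ sxObj m := by
      rw [← hv]
      exact mem_famOf.2 ⟨t, ht, rfl⟩
    obtain ⟨o, ho, h3⟩ := h.2 _ h2
    obtain ⟨o', ho', rfl⟩ := mem_famOf.1 ho
    refine List.any_eq_true.2 ⟨o', ho', ?_⟩
    have h4 := subset_iff_mask'.1 h3
    rw [toMask_ofMask (hlt t ht), toMask_ofMask (oL_lt o' ho')] at h4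
    show Nat.beq (t &&& o') t = true
    rw [h4]
    exact Nat.beq_refl t
  have h2 := ctAll_of_find ref_check hf
  rw [h1] at h2
  simp only [Bool.not_true, Bool.false_or] at h2
  obtain ⟨u, hu, e⟩ := List.any_eq_true.1 h2
  have e' : v = lamL.getD u [] := by simpa using e
  have hlab : ∀ x ∈ labels, x < 8 ∧ x ≠ 0 := by decide
  have hu8 : u < 8 := (hlab u hu).1
  obtain ⟨w, hw⟩ := code_surj ⟨u, hu8⟩
  refine ⟨w, ?_, ?_⟩
  · rw [← hv, e']
    show _ = famOf (lamL.getD (code w) [])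
    rw [hw]
  · rintro rfl
    rw [code_zero] at hw
    exact (hlab u hu).2 hw.symm

theorem exists_image {g : Equiv.Perm GolayPt} (hg : g ∈ M24) (hT : g • T0 = T0) (v : V) : ∃ w, g • Sig v = Sig w := by
  by_cases hv : v = 0
  · refine ⟨0, ?_⟩
    rw [hv, Sig_zero]
    simp
  · obtain ⟨w, hw, -⟩ := exists_of_Ref (Ref_smul hg hT (Ref_Sig hv))
    exact ⟨w, hw⟩

theorem Sig_nonempty {v : V} (hv : v ≠ 0) : (Sig v).Nonempty := by
  rw [← Finset.card_pos, (Sig_mem hv).1]
  norm_num

theorem lam_disj {v w : V} (hne : code v ≠ code w) {x : ℕ} (h1 : x ∈ lamL.getD (code v) []) :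
    x ∉ lamL.getD (code w) [] := by
  have h2 := List.all_eq_true.1 (List.all_eq_true.1 lam_sep _ (List.mem_range.2 (code_lt v))) _
    (List.mem_range.2 (code_lt w))
  simp only [Bool.or_eq_true, beq_iff_eq] at h2
  rcases h2 with h2 | h2
  · exact absurd h2 hne
  · have h3 := List.all_eq_true.1 h2 x h1
    simpa using h3

theorem Sig_inj {v w : V} (h : Sig v = Sig w) : v = w := by
  by_contra hne
  have hc : code v ≠ code w := fun e => hne (code_inj v w e)
  by_cases hv : v = 0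
  · have hw : w ≠ 0 := fun e => hne (by rw [hv, e])
    obtain ⟨t, ht⟩ := Sig_nonempty hw
    have ht' := ht
    rw [← h, hv, Sig_zero] at ht'
    simp at ht'
  · obtain ⟨t, ht⟩ := Sig_nonempty hv
    obtain ⟨a, ha, rfl⟩ := mem_famOf.1 ht
    rw [h] at ht
    exact lam_disj hc ha (mem_Sig_mask (lam_lt _ (List.mem_range.2 (code_lt v)) a ha) ht)

theorem smul_xor {g : Equiv.Perm GolayPt} {a b a' b' : ℕ} (h1 : g • ofMask a = ofMask a')
    (h2 : g • ofMask b = ofMask b') : g • ofMask (a ^^^ b) = ofMask (a' ^^^ b') := by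
  ext p
  rw [mem_smul_iff_inv, mem_ofMask, mem_ofMask, Nat.testBit_xor, Nat.testBit_xor]
  have e1 : a.testBit (idx (g⁻¹ p)) = a'.testBit (idx p) := by
    rw [Bool.eq_iff_iff, ← mem_ofMask, ← mem_ofMask, ← h1, mem_smul_iff_inv]
  have e2 : b.testBit (idx (g⁻¹ p)) = b'.testBit (idx p) := by
    rw [Bool.eq_iff_iff, ← mem_ofMask, ← mem_ofMask, ← h2, mem_smul_iff_inv]
  rw [e1, e2]

/-- The stabiliser. -/
abbrev G0 := ↥(MulAction.stabilizer M24 T0)

theorem G0_smul (s : G0) : ((s : M24) : Equiv.Perm GolayPt) • T0 = T0 := s.2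

/-- The action on the space. -/
noncomputable def pi (s : G0) (v : V) : V :=
  (exists_image (s : M24).2 (G0_smul s) v).choose

theorem pi_spec (s : G0) (v : V) : ((s : M24) : Equiv.Perm GolayPt) • Sig v = Sig (pi s v) :=
  (exists_image (s : M24).2 (G0_smul s) v).choose_spec

theorem pi_zero (s : G0) : pi s 0 = 0 := by
  apply Sig_inj
  rw [← pi_spec, Sig_zero]
  simp

theorem pi_one (v : V) : pi 1 v = v := by
  apply Sig_inj
  rw [← pi_spec]
  exact one_smul _ _

theorem pi_mul (s t : G0) (v : V) : pi (s * t) v = pi s (pi t v) := by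
  apply Sig_inj
  rw [← pi_spec, ← pi_spec, ← pi_spec]
  exact mul_smul _ _ _

theorem pi_inj (s : G0) {v w : V} (h : pi s v = pi s w) : v = w := by
  apply Sig_inj
  have h1 := pi_spec s v
  rw [h, ← pi_spec s w] at h1
  exact MulAction.injective _ h1

theorem pi_ne (s : G0) {v : V} (hv : v ≠ 0) : pi s v ≠ 0 := by
  intro h
  apply hv
  apply pi_inj s
  rw [h, pi_zero]

theorem pi_add (s : G0) (v w : V) : pi s (v + w) = pi s v + pi s w := by
  by_cases hv : v = 0
  · rw [hv, zero_add, pi_zero, zero_add]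
  by_cases hw : w = 0
  · rw [hw, add_zero, pi_zero, add_zero]
  by_cases hvw : v = w
  · rw [hvw, add_self' w, add_self' (pi s w), pi_zero]
  have hc : code v ≠ code w := fun e => hvw (code_inj v w e)
  have h1 := List.all_eq_true.1 (List.all_eq_true.1 lines_ex _ (code_ne v hv)) _ (code_ne w hw)
  simp only [Bool.or_eq_true, beq_iff_eq] at h1
  replace h1 := h1.resolve_left hc
  obtain ⟨a, ha, h2⟩ := List.any_eq_true.1 h1
  obtain ⟨b, hb, h3⟩ := List.any_eq_true.1 h2
  rw [List.contains_iff_mem, ← code_add] at h3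
  set g : Equiv.Perm GolayPt := ((s : M24) : Equiv.Perm GolayPt) with hg
  have key : ∀ {v : V} {x : ℕ}, x ∈ lamL.getD (code v) [] → ∃ x' ∈ lamL.getD (code (pi s v)) [], ofMask x' = g • ofMask x := by
    intro v x hx
    have h4 : g • ofMask x ∈ Sig (pi s v) := by
      rw [← pi_spec]
      exact Finset.smul_mem_smul_finset (mem_famOf.2 ⟨x, hx, rfl⟩)
    exact mem_famOf.1 h4
  obtain ⟨a', ha', e1⟩ := key ha
  obtain ⟨b', hb', e2⟩ := key hb
  obtain ⟨c', hc', e3⟩ := key h3
  have e4 := smul_xor e1.symm e2.symm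
  have h5 : Nat.xor a b = a ^^^ b := rfl
  have hlt : ∀ {v : V} {x : ℕ}, x ∈ lamL.getD (code v) [] → x < 2 ^ 24 := fun {v x} hx =>
    lam_lt _ (List.mem_range.2 (code_lt v)) x hx
  have h6 : c' = a' ^^^ b' := by
    refine (ofMask_inj (hlt hc') (Nat.xor_lt_two_pow (hlt ha') (hlt hb'))).1 ?_
    rw [e3]
    exact e4
  have hc2 : code (pi s v) ≠ code (pi s w) := fun e => hvw (pi_inj s (code_inj _ _ e))
  have hvw2 : v + w ≠ 0 := by
    intro e
    apply hvw
    have : v + w = w + w := by rw [e, add_self']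
    exact add_right_cancel this
  have h7 := List.all_eq_true.1 (List.all_eq_true.1 lines_un _ (code_ne _ (pi_ne s hv))) _ (code_ne _ (pi_ne s hw))
  simp only [Bool.or_eq_true, beq_iff_eq, List.all_eq_true] at h7
  replace h7 := h7.resolve_left hc2 _ (code_ne _ (pi_ne s hvw2))
  rcases h7 with h7 | h7
  · apply code_inj
    rw [code_add, h7]
  · exfalso
    have h8 := h7 a' ha' b' hb'
    have h9 : (lamL.getD (code (pi s (v + w))) []).contains (Nat.xor a' b') = true := by
      rw [List.contains_iff_mem]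
      show a' ^^^ b' ∈ _
      rw [← h6]
      exact hc'
    rw [h9] at h8
    simp at h8

/-! ### The kernel -/

/-- The elements of the kernel. -/
def IsE (g : Equiv.Perm GolayPt) : Prop :=
  g ∈ M24 ∧ (∀ o ∈ T0, g • o = o) ∧ ∀ v : V, g • Sig v = Sig v

theorem IsE.mul {g h : Equiv.Perm GolayPt} (hg : IsE g) (hh : IsE h) : IsE (g * h) := by
  refine ⟨M24.mul_mem hg.1 hh.1, fun o ho => ?_, fun v => ?_⟩
  · rw [mul_smul, hh.2.1 o ho, hg.2.1 o ho]
  · rw [mul_smul, hh.2.2 v, hg.2.2 v]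

theorem IsE.inv {g : Equiv.Perm GolayPt} (hg : IsE g) : IsE g⁻¹ := by
  refine ⟨M24.inv_mem hg.1, fun o ho => ?_, fun v => ?_⟩
  · rw [inv_smul_eq_iff, hg.2.1 o ho]
  · rw [inv_smul_eq_iff, hg.2.2 v]

theorem O1_mem : ofMask 8536111 ∈ T0 := mem_famOf.2 ⟨8536111, by decide, rfl⟩

theorem O2_mem : ofMask 4202192 ∈ T0 := mem_famOf.2 ⟨4202192, by decide, rfl⟩

theorem O1_octad : ofMask 8536111 ∈ octads := famT_mem.2.1 _ O1_mem

theorem fix_ts {h : Equiv.Perm GolayPt} (hE : IsE h) (h0 : h (pt 0) = pt 0) {u : ℕ} (hu : u ∈ labels) :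
    h • ofMask (tsL.getD (u - 1) 0) = ofMask (tsL.getD (u - 1) 0) := by
  have h1 := List.all_eq_true.1 ts_lam u hu
  rw [Bool.and_eq_true, List.contains_iff_mem] at h1
  obtain ⟨h2, h3⟩ := h1
  have hlab : ∀ x ∈ labels, x < 8 := by decide
  obtain ⟨v, hv⟩ := code_surj ⟨u, hlab u hu⟩
  have hv' : code v = u := hv
  have h4 : ofMask (tsL.getD (u - 1) 0) ∈ Sig v := by
    refine mem_famOf.2 ⟨_, ?_, rfl⟩
    rw [hv']
    exact h2
  have h5 := Finset.smul_mem_smul_finset (a := h) h4
  rw [hE.2.2 v] at h5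
  obtain ⟨a, ha, e⟩ := mem_famOf.1 h5
  rw [hv'] at ha
  have h6 : pt 0 ∈ ofMask a := by
    rw [e]
    have := (apply_mem_smul h (ofMask (tsL.getD (u - 1) 0)) (pt 0)).2 (mem_ofMask.2 (by rw [idx_pt (by norm_num)]; exact h3))
    rwa [h0] at this
  have h7 : Nat.testBit a 0 = true := by
    have := mem_ofMask.1 h6
    rwa [idx_pt (by norm_num)] at this
  have h8 := List.all_eq_true.1 (List.all_eq_true.1 lam_b0 u hu) a ha
  rw [h7] at h8
  simp only [Bool.not_true, Bool.false_or, beq_iff_eq] at h8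
  rw [← e, h8]

theorem fix_O1 {h : Equiv.Perm GolayPt} (hE : IsE h) (h0 : h (pt 0) = pt 0) : ∀ x ∈ ofMask 8536111, h x = x := by
  intro x hx
  have h1 := hE.2.1 _ O1_mem
  have h2 : h x ∈ ofMask 8536111 := by
    rw [← h1]
    exact (apply_mem_smul h _ x).2 hx
  have h3 := List.all_eq_true.1 sep_O1 _ (List.mem_range.2 (idx_lt x))
  rw [mem_ofMask.1 hx] at h3
  simp only [Bool.not_true, Bool.false_or, List.all_eq_true] at h3
  have h4 := h3 _ (List.mem_range.2 (idx_lt (h x)))
  rw [mem_ofMask.1 h2] at h4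
  simp only [Bool.not_true, Bool.false_or, Bool.or_eq_true, beq_iff_eq] at h4
  rcases h4 with h4 | h4
  · exact (idx_injective h4).symm
  · exfalso
    obtain ⟨t, ht, h5⟩ := List.any_eq_true.1 h4
    have hts : ∀ t ∈ tsL, ∃ u ∈ labels, tsL.getD (u - 1) 0 = t := by decide
    obtain ⟨u, hu, rfl⟩ := hts t ht
    have h6 := fix_ts hE h0 hu
    have h7 : Nat.testBit (tsL.getD (u - 1) 0) (idx x) = Nat.testBit (tsL.getD (u - 1) 0) (idx (h x)) := by
      rw [Bool.eq_iff_iff, ← mem_ofMask, ← mem_ofMask]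
      conv_rhs => rw [← h6]
      exact (apply_mem_smul h _ x).symm
    rw [h7] at h5
    simp at h5

theorem eq_one_of_IsE {h : Equiv.Perm GolayPt} (hE : IsE h) (h0 : h (pt 0) = pt 0) (h4 : h (pt 4) = pt 4) : h = 1 := by
  refine free_outside O1_octad hE.1 (fix_O1 hE h0) (p := pt 4) ?_ h4
  rw [mem_ofMask, idx_pt (by norm_num)]
  decide

/-- The elements listed have the property. -/
theorem isE_of_els {T : List ℕ} (hT : T ∈ elsE) : ∃ g, IsE g ∧ tblOf g = T := by
  have h1 := List.all_eq_true.1 els_ok T hT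
  simp only [Bool.and_eq_true, List.all_eq_true, beq_iff_eq, List.contains_iff_mem] at h1
  obtain ⟨⟨hg, hO⟩, hL⟩ := h1
  refine ⟨gPerm T hg, ⟨gPerm_mem hg, ?_, ?_⟩, tblOf_gPerm hg⟩
  · intro o ho
    obtain ⟨m, hm, rfl⟩ := mem_famOf.1 ho
    have h5 := ofMask_applyT (validTbl_of_goodT hg) m
    rw [hO m hm] at h5
    exact h5.symm
  · intro v
    by_cases hv : v = 0
    · rw [hv, Sig_zero]
      simp
    apply Finset.eq_of_subset_of_card_le
    · intro s hs
      obtain ⟨t, ht, rfl⟩ := Finset.mem_smul_finset.1 hs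
      obtain ⟨m, hm, rfl⟩ := mem_famOf.1 ht
      have h5 := ofMask_applyT (validTbl_of_goodT hg) m
      exact mem_famOf.2 ⟨_, hL _ (code_ne v hv) m hm, h5⟩
    · rw [Finset.card_smul_finset]

theorem tbl_of_IsE {g : Equiv.Perm GolayPt} (hg : IsE g) : tblOf g ∈ elsE := by
  have h1 : g (pt 0) ∈ ofMask 8536111 := by
    rw [← hg.2.1 _ O1_mem]
    refine (apply_mem_smul g _ _).2 ?_
    rw [mem_ofMask, idx_pt (by norm_num)]
    decide
  have h2 : g (pt 4) ∈ ofMask 4202192 := by
    rw [← hg.2.1 _ O2_mem]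
    refine (apply_mem_smul g _ _).2 ?_
    rw [mem_ofMask, idx_pt (by norm_num)]
    decide
  have h3 := List.all_eq_true.1 els_cover _ (List.mem_range.2 (idx_lt (g (pt 0))))
  rw [mem_ofMask.1 h1] at h3
  simp only [Bool.not_true, Bool.false_or, List.all_eq_true] at h3
  have h4 := h3 _ (List.mem_range.2 (idx_lt (g (pt 4))))
  rw [mem_ofMask.1 h2] at h4
  simp only [Bool.not_true, Bool.false_or] at h4
  obtain ⟨T, hT, e⟩ := List.any_eq_true.1 h4
  simp only [Bool.and_eq_true, beq_iff_eq] at e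
  obtain ⟨t, ht, rfl⟩ := isE_of_els hT
  have h5 : t (pt 0) = g (pt 0) := by
    apply idx_injective
    rw [← e.1, getD_tblOf t (by norm_num)]
  have h6 : t (pt 4) = g (pt 4) := by
    apply idx_injective
    rw [← e.2, getD_tblOf t (by norm_num)]
  have h7 : t⁻¹ * g = 1 := by
    apply eq_one_of_IsE (ht.inv.mul hg)
    · rw [Equiv.Perm.mul_apply, ← h5]
      simp
    · rw [Equiv.Perm.mul_apply, ← h6]
      simp
  have h8 : g = t := by
    rw [inv_mul_eq_one] at h7
    exact h7.symm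
  rw [h8]
  exact hT

theorem card_IsE : Nat.card {g // IsE g} = 64 := by
  have := card_of_tables (S := {g | IsE g}) els_nodup (fun g hg => tbl_of_IsE hg)
    (fun T hT => by
      obtain ⟨g, hg, e⟩ := isE_of_els hT
      exact ⟨g, hg, e⟩)
  rw [els_length] at this
  exact this

theorem IsE.sq {g : Equiv.Perm GolayPt} (hg : IsE g) : g * g = 1 := by
  apply tblOf_injective
  have h1 := List.all_eq_true.1 els_sq _ (tbl_of_IsE hg)
  rw [tblOf_mul, tblOf_one]
  simpa using h1

/-! ### The homomorphisms -/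

/-- The linear action. -/
noncomputable def rho : G0 →* Module.End (ZMod 2) V where
  toFun s := (AddMonoidHom.mk' (pi s) (pi_add s)).toZModLinearMap 2
  map_one' := LinearMap.ext fun v => pi_one v
  map_mul' s t := LinearMap.ext fun v => pi_mul s t v

theorem rho_apply (s : G0) (v : V) : rho s v = pi s v := rfl

/-- Endomorphisms as matrices. -/
noncomputable def matE : Module.End (ZMod 2) V ≃* Matrix (Fin 3) (Fin 3) (ZMod 2) :=
  (LinearMap.toMatrixAlgEquiv' (R := ZMod 2) (n := Fin 3)).toRingEquiv.toMulEquiv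

/-- The map to the linear group. -/
noncomputable def phi1 : G0 →* GL (Fin 3) (ZMod 2) := (Units.map matE.toMonoidHom).comp rho.toHomUnits

theorem phi1_eq_one (s : G0) : phi1 s = 1 ↔ ∀ v, pi s v = v := by
  constructor
  · intro h v
    have h1 := congrArg Units.val h
    have h2 : matE (rho s) = 1 := h1
    have h3 : matE (rho s) = matE 1 := by rw [h2, map_one]
    have h4 := matE.injective h3
    exact LinearMap.congr_fun h4 v
  · intro h
    apply Units.ext
    show matE (rho s) = 1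
    have h1 : rho s = 1 := LinearMap.ext fun v => h v
    rw [h1, map_one]

theorem T0_card : T0.card = 3 := famT_mem.1

/-- The map to the symmetric group. -/
noncomputable def phi2 : G0 →* Equiv.Perm (Fin 3) :=
  (Equiv.permCongrHom (T0.equivFinOfCardEq T0_card)).toMonoidHom.comp (onTetrads T0)

/-- The homomorphism. -/
noncomputable def phi : G0 →* GL (Fin 3) (ZMod 2) × Equiv.Perm (Fin 3) := phi1.prod phi2

theorem mem_ker_phi (s : G0) : s ∈ phi.ker ↔ IsE ((s : M24) : Equiv.Perm GolayPt) := by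
  rw [MonoidHom.mem_ker]
  show (phi1 s, phi2 s) = 1 ↔ _
  rw [Prod.mk_eq_one, phi1_eq_one]
  constructor
  · rintro ⟨h1, h2⟩
    refine ⟨(s : M24).2, ?_, ?_⟩
    · intro o ho
      have h3 : onTetrads T0 s = 1 := by
        have h4 : (Equiv.permCongrHom (T0.equivFinOfCardEq T0_card)).toMonoidHom (onTetrads T0 s) = 1 := h2
        apply (Equiv.permCongrHom (T0.equivFinOfCardEq T0_card)).injective
        rw [map_one]
        exact h4
      have h5 := onTetrads_apply s ⟨o, ho⟩
      rw [h3] at h5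
      exact h5.symm
    · intro v
      rw [pi_spec, h1]
  · rintro ⟨-, h2, h3⟩
    constructor
    · intro v
      apply Sig_inj
      rw [← pi_spec, h3]
    · show (Equiv.permCongrHom (T0.equivFinOfCardEq T0_card)).toMonoidHom (onTetrads T0 s) = 1
      have h4 : onTetrads T0 s = 1 := by
        apply Equiv.ext
        intro o
        apply Subtype.ext
        rw [onTetrads_apply]
        exact h2 _ o.2
      rw [h4, map_one]

theorem card_ker : Nat.card phi.ker = 64 := by
  rw [← card_IsE]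
  refine Nat.card_congr (Equiv.ofBijective (fun x => ⟨(((x : G0) : M24) : Equiv.Perm GolayPt), (mem_ker_phi _).1 x.2⟩) ⟨?_, ?_⟩)
  · intro x y e
    exact Subtype.ext (Subtype.ext (Subtype.ext (congrArg (fun z : {g // IsE g} => z.1) e)))
  · rintro ⟨g, hg⟩
    have hs : g • T0 = T0 := by
      apply Finset.eq_of_subset_of_card_le
      · intro o ho
        obtain ⟨o', ho', rfl⟩ := Finset.mem_smul_finset.1 ho
        rw [hg.2.1 o' ho']
        exact ho'
      · rw [Finset.card_smul_finset]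
    exact ⟨⟨⟨⟨g, hg.1⟩, hs⟩, (mem_ker_phi _).2 hg⟩, rfl⟩

theorem ker_sq (x : G0) (hx : x ∈ phi.ker) : x * x = 1 := by
  apply Subtype.ext
  apply Subtype.ext
  exact ((mem_ker_phi x).1 hx).sq

theorem card_G0 : Nat.card G0 = 64512 := by
  have h1 := Subgroup.index_mul_card (MulAction.stabilizer M24 T0)
  have h0 : MulAction.orbit M24 T0 = trios := orbit_trio famT_mem
  rw [MulAction.index_stabilizer, h0, card_M24] at h1
  have h2 : trios.ncard = 3795 := Cfsg.Agent.S1557.result.2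
  rw [h2] at h1
  show Nat.card (MulAction.stabilizer M24 T0) = 64512
  omega

theorem card_target : Nat.card (GL (Fin 3) (ZMod 2) × Equiv.Perm (Fin 3)) = 1008 := by
  rw [Nat.card_prod, Nat.card_perm, Matrix.card_GL_field, Fin.prod_univ_three, ZMod.card]
  simp [Nat.factorial]

theorem card_quot : Nat.card (G0 ⧸ phi.ker) = 1008 := by
  have h1 := Subgroup.card_eq_card_quotient_mul_card_subgroup phi.ker
  rw [card_G0, card_ker] at h1
  omega

/-- The induced map is an isomorphism. -/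
theorem kerLift_bij : Function.Bijective (QuotientGroup.kerLift phi) :=
  (Nat.bijective_iff_injective_and_card _).2 ⟨QuotientGroup.kerLift_injective phi, by rw [card_quot, card_target]⟩

theorem phi_surj : Function.Surjective phi := by
  intro y
  obtain ⟨q, hq⟩ := kerLift_bij.2 y
  induction q using QuotientGroup.induction_on with
  | H s => exact ⟨s, hq⟩

/-- What the statement says. -/
def Good (T : Finset (Finset GolayPt)) : Prop :=
  (∀ e : Equiv.Perm ↥T, ∃ g ∈ MulAction.stabilizer M24 T, ∀ o : ↥T,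
    (g : Equiv.Perm GolayPt) • (o : Finset GolayPt) = ((e o : ↥T) : Finset GolayPt)) ∧
  ∃ (N : Subgroup ↥(MulAction.stabilizer M24 T)) (_ : N.Normal), Nat.card N = 64 ∧ (∀ x ∈ N, x * x = 1) ∧
    Nonempty (↥(MulAction.stabilizer M24 T) ⧸ N ≃* GL (Fin 3) (ZMod 2) × Equiv.Perm (Fin 3))

theorem good_T0 : Good T0 := by
  refine ⟨?_, phi.ker, inferInstance, card_ker, ker_sq, ⟨MulEquiv.ofBijective (QuotientGroup.kerLift phi) kerLift_bij⟩⟩
  intro e
  obtain ⟨s, hs⟩ := phi_surj (1, Equiv.permCongrHom (T0.equivFinOfCardEq T0_card) e)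
  have h1 : phi2 s = Equiv.permCongrHom (T0.equivFinOfCardEq T0_card) e := congrArg Prod.snd hs
  have h2 : onTetrads T0 s = e := (Equiv.permCongrHom (T0.equivFinOfCardEq T0_card)).injective h1
  refine ⟨s, s.2, fun o => ?_⟩
  rw [← h2]
  rfl

theorem Good.smul {T T' : Finset (Finset GolayPt)} (h : Good T) {k : M24} (hk : T' = k • T) : Good T' := by
  obtain ⟨ha, N, hN, hc, hsq, ⟨f⟩⟩ := h
  let m : MulAction.stabilizer M24 T ≃* MulAction.stabilizer M24 T' := MulAction.stabilizerEquivStabilizer hk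
  haveI hN' : (N.map m.toMonoidHom).Normal := Subgroup.Normal.map hN m.toMonoidHom m.surjective
  refine ⟨?_, N.map m.toMonoidHom, hN', ?_, ?_, ?_⟩
  · intro e
    subst hk
    let K : Equiv.Perm GolayPt := (k : Equiv.Perm GolayPt)
    have hsm : ∀ X : Finset (Finset GolayPt), k • X = K • X := fun X => rfl
    let τ : ↥T ≃ ↥(k • T) :=
      { toFun := fun o => ⟨K • (o : Finset GolayPt), Finset.smul_mem_smul_finset o.2⟩
        invFun := fun o => ⟨K⁻¹ • (o : Finset GolayPt), by
          obtain ⟨o', ho', e'⟩ := Finset.mem_smul_finset.1 o.2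
          rw [← e']
          show K⁻¹ • K • o' ∈ T
          rw [inv_smul_smul]
          exact ho'⟩
        left_inv := fun o => Subtype.ext (inv_smul_smul _ _)
        right_inv := fun o => Subtype.ext (smul_inv_smul _ _) }
    obtain ⟨g, hg, hg2⟩ := ha ((τ.trans e).trans τ.symm)
    refine ⟨k * g * k⁻¹, ?_, ?_⟩
    · rw [MulAction.mem_stabilizer_iff, mul_smul, mul_smul, inv_smul_smul, hg, ]
    · intro o
      have h5 := hg2 (τ.symm o)
      have h6 : ((k * g * k⁻¹ : M24) : Equiv.Perm GolayPt) = K * (g : Equiv.Perm GolayPt) * K⁻¹ := rfl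
      rw [h6, mul_smul, mul_smul]
      have h7 : K⁻¹ • (o : Finset GolayPt) = ((τ.symm o : ↥T) : Finset GolayPt) := rfl
      rw [h7, h5]
      have h8 : ∀ x : ↥T, K • (x : Finset GolayPt) = ((τ x : ↥(k • T)) : Finset GolayPt) := fun x => rfl
      rw [h8]
      simp
  · rw [← hc]
    exact Nat.card_congr (m.subgroupMap N).symm.toEquiv
  · rintro _ ⟨y, hy, rfl⟩
    show m y * m y = 1
    rw [← map_mul, hsq y hy, map_one]
  · exact ⟨(QuotientGroup.congr N (N.map m.toMonoidHom) m rfl).symm.trans f⟩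

/-- The statement `S1558`. -/
theorem s1558 (T : Finset (Finset GolayPt)) (hT : T ∈ trios) : Good T := by
  obtain ⟨k, hk, e⟩ := exists_smul_trio famT_mem hT
  exact good_T0.smul (k := ⟨k, hk⟩) e.symm

end Cfsg.Agent.Lib.Sporadic.M24TrS
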