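import Cfsg.Agent.Lib.Sporadic.M24Lists

/-!
# Triads: orbits of the stabiliser of a 3-set, and maximality
-/

namespace Cfsg.Agent.Lib.Sporadic.M24Triad

open Cfsg Cfsg.Agent.Lib.Sporadic.GolayCore Cfsg.Agent.Lib.Sporadic.M24Tbl
open Cfsg.Agent.Lib.Sporadic.M24Chain Cfsg.Agent.Lib.Sporadic.M24Basic
open Cfsg.Agent.Lib.Sporadic.M24Act Cfsg.Agent.Lib.Sporadic.M24Six
open Cfsg.Agent.Lib.Sporadic.M24Lists Cfsg.Agent.Lib.Sporadic.M24Count
open scoped Pointwise

theorem subset_iff_mask' {s t : Finset GolayPt} : s ⊆ t ↔ toMask s &&& toMask t = toMask s := by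
  rw [← toMask_inter]
  constructor
  · intro h
    rw [Finset.inter_eq_left.2 h]
  · intro h
    have h1 : ofMask (toMask (s ∩ t)) = ofMask (toMask s) := by rw [h]
    simp only [ofMask_toMask] at h1
    exact Finset.inter_eq_left.1 h1

/-- Lying in some octad is invariant under `M24`. -/
theorem exists_octad_smul_iff {g : Equiv.Perm GolayPt} (hg : g ∈ M24) (A : Finset GolayPt) :
    (∃ o ∈ octads, g • A ⊆ o) ↔ ∃ o ∈ octads, A ⊆ o := by
  constructor
  · rintro ⟨o, ho, h⟩
    refine ⟨g⁻¹ • o, smul_mem_octads (M24.inv_mem hg) ho, ?_⟩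
    have := Finset.smul_finset_subset_smul_finset (a := g⁻¹) h
    rwa [inv_smul_smul] at this
  · rintro ⟨o, ho, h⟩
    exact ⟨g • o, smul_mem_octads hg ho, Finset.smul_finset_subset_smul_finset h⟩

theorem disjoint_smul_iff (g : Equiv.Perm GolayPt) (A B : Finset GolayPt) :
    Disjoint (g • A) (g • B) ↔ Disjoint A B := by
  rw [Finset.disjoint_iff_inter_eq_empty, Finset.disjoint_iff_inter_eq_empty,
    ← Finset.smul_finset_inter, Finset.smul_finset_eq_empty]

/-- `M24` acts on pairs of disjoint triads with two orbits. -/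
theorem exists_conj_triads {T U U' : Finset GolayPt} (hT : T.card = 3) (hU : U.card = 3)
    (hU' : U'.card = 3) (hd : Disjoint T U) (hd' : Disjoint T U')
    (hs : (∃ o ∈ octads, T ∪ U ⊆ o) ↔ ∃ o ∈ octads, T ∪ U' ⊆ o) :
    ∃ g ∈ M24, g • T = T ∧ g • U = U' := by
  have e : ∀ V : Finset GolayPt, (∃ o ∈ octads, ∀ p ∈ T.toList ++ V.toList, p ∈ o) ↔
      ∃ o ∈ octads, T ∪ V ⊆ o := by
    intro V
    simp only [List.mem_append, Finset.mem_toList, Finset.subset_iff, Finset.mem_union]
  obtain ⟨g, hg, h⟩ := exists_map_lists_six (nodup_toList_append hd) (nodup_toList_append hd')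
    (by simp [hT, hU]) (by simp [hT, hU']) (by rw [e, e]; exact hs)
  rw [List.map_append] at h
  have := List.append_inj h (by simp)
  exact ⟨g, hg, smul_eq_of_map_toList this.1, smul_eq_of_map_toList this.2⟩

def t0Mask : ℕ := 2 ^ 23 + 2 ^ 0 + 2 ^ 1

/-- The standard triad. -/
def t0 : Finset GolayPt := ofMask t0Mask

theorem card_t0 : t0.card = 3 := by decide +kernel

theorem toMask_t0 : toMask t0 = t0Mask := toMask_ofMask (by decide +kernel)

/-- The octads through the standard triad. -/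
def oct21 : List ℕ := [8398155, 8421811, 8505411, 8524371, 8536111, 8657159, 8716939, 8983587,
  9347075, 9465987, 9471495, 9963547, 10496547, 10765331, 11010247, 11731203, 12656663, 12717187,
  13124355, 13893731, 14716939]

theorem oct21_complete : ∀ m ∈ octadList, (t0Mask &&& m == t0Mask) = true → m ∈ oct21 := by
  decide +kernel

theorem oct21_good : ∀ m ∈ oct21, isOctad m = true ∧ (t0Mask &&& m == t0Mask) = true := by
  decide +kernel

def specialT0 (m : ℕ) : Bool := oct21.any fun o => (m &&& o) == m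

theorem special_iff (U : Finset GolayPt) :
    (∃ o ∈ octads, t0 ∪ U ⊆ o) ↔ specialT0 (toMask U) = true := by
  simp only [specialT0, List.any_eq_true, beq_iff_eq]
  constructor
  · rintro ⟨o, ho, h⟩
    refine ⟨toMask o, oct21_complete _ ((mem_octads_iff o).1 ho) ?_, ?_⟩
    · have := subset_iff_mask'.1 (Finset.union_subset_left h)
      rw [toMask_t0] at this
      simp [this]
    · exact subset_iff_mask'.1 (Finset.union_subset_right h)
  · rintro ⟨o, ho, h⟩
    have h1 := oct21_good o ho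
    have h2 := isOctad_mem h1.1
    have hlt := octadList_lt h2
    refine ⟨ofMask o, (ofMask_mem_octads_iff hlt).2 h2, Finset.union_subset ?_ ?_⟩
    · rw [subset_iff_mask', toMask_ofMask hlt, toMask_t0]
      simpa using h1.2
    · rw [subset_iff_mask', toMask_ofMask hlt]
      exact h

/-- Class of `U` relative to the standard triad. -/
def clM (m : ℕ) : Fin 5 :=
  if popc (t0Mask &&& m) = 3 then 0 else if popc (t0Mask &&& m) = 2 then 1
  else if popc (t0Mask &&& m) = 1 then 2 else if specialT0 m then 3 else 4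

def cl (U : Finset GolayPt) : Fin 5 := clM (toMask U)

theorem cnt_classes : ∀ c : Fin 5, M24Choose.chooseCount (fun m => decide (clM m = c)) 24 3 0 1 =
    (![1, 63, 630, 210, 1120] : Fin 5 → ℕ) c := by
  decide +kernel

theorem cl_inter (U : Finset GolayPt) : popc (t0Mask &&& toMask U) = (t0 ∩ U).card := by
  rw [card_eq_popc, toMask_inter, toMask_t0]

theorem inter_le (U : Finset GolayPt) : (t0 ∩ U).card ≤ 3 := by
  rw [← card_t0]; exact Finset.card_le_card Finset.inter_subset_left

theorem cl_eq_zero_iff (U : Finset GolayPt) : cl U = 0 ↔ (t0 ∩ U).card = 3 := by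
  unfold cl clM
  rw [cl_inter]
  split_ifs <;> simp_all

theorem cl_eq_cases {y z : Finset GolayPt} (h : cl y = cl z) :
    (t0 ∩ y).card = (t0 ∩ z).card ∧ ((t0 ∩ y).card = 0 →
      ((∃ o ∈ octads, t0 ∪ y ⊆ o) ↔ ∃ o ∈ octads, t0 ∪ z ⊆ o)) := by
  have hy := inter_le y
  have hz := inter_le z
  unfold cl clM at h
  rw [cl_inter, cl_inter, ] at h
  rw [special_iff, special_iff]
  generalize (t0 ∩ y).card = a at *
  generalize (t0 ∩ z).card = b at *
  generalize specialT0 (toMask y) = s1 at *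
  generalize specialT0 (toMask z) = s2 at *
  interval_cases a <;> interval_cases b <;> cases s1 <;> cases s2 <;> simp_all

theorem isCoatom_t0 : IsCoatom (MulAction.stabilizer M24 t0) := by
  refine OrbitCoatom.isCoatom_stabilizer_of_classes t0 {t | t.card = 3} ?_
    (y₀ := ofMask (2 ^ 2 + 2 ^ 1 + 2 ^ 0)) (by decide +kernel) (by decide +kernel)
    (k := 5) cl ![1, 63, 630, 210, 1120] 2024 ?_ 0 ?_ ?_ ?_ ?_ (by decide +kernel)
  · rw [finset_orbit_of_card (by rw [card_t0]; norm_num), card_t0]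
  · rw [ncard_card_eq]; decide +kernel
  · rw [cl_eq_zero_iff, Finset.inter_self, card_t0]
  · apply hsz_of_masks _ clM _ (fun _ _ => rfl) cnt_classes
  · intro y hy z hz hc
    obtain ⟨h1, h2⟩ := cl_eq_cases hc
    have key : ∃ g ∈ M24, g • t0 = t0 ∧ g • y = z := by
      by_cases h0 : (t0 ∩ y).card = 0
      · have hd : ∀ {w : Finset GolayPt}, (t0 ∩ w).card = 0 → Disjoint t0 w := fun hw => by
          rwa [Finset.card_eq_zero, ← Finset.disjoint_iff_inter_eq_empty] at hw
        exact exists_conj_triads card_t0 hy hz (hd h0) (hd (h1 ▸ h0)) (h2 h0)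
      · apply exists_conj_of_inter (by rw [hy, hz]) h1
        have := Finset.card_union_add_card_inter t0 y
        rw [card_t0, hy] at this
        omega
    obtain ⟨g, hg, h3, h4⟩ := key
    exact ⟨⟨g, hg⟩, (mem_stabilizer_M24_finset _ _).2 h3, h4⟩
  · intro y hy hc
    rw [(cl_eq_zero_iff t0).2 (by rw [Finset.inter_self, card_t0]), cl_eq_zero_iff] at hc
    have h4 : t0 ∩ y = t0 := by
      apply Finset.eq_of_subset_of_card_le Finset.inter_subset_left
      rw [card_t0, hc]
    exact (Finset.eq_of_subset_of_card_le (Finset.inter_eq_left.1 h4)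
      (by rw [card_t0]; exact le_of_eq hy)).symm

theorem isCoatom_triad {s : Finset GolayPt} (hs : s.card = 3) :
    IsCoatom (MulAction.stabilizer M24 s) := by
  obtain ⟨g, hg, hgs⟩ := exists_smul_eq_of_card (s := t0) (t := s) (by rw [card_t0, hs])
    (by rw [card_t0]; norm_num)
  have := isCoatom_stabilizer_smul (⟨g, hg⟩ : M24) isCoatom_t0
  rwa [show (⟨g, hg⟩ : M24) • t0 = s from hgs] at this

theorem cnt_special : M24Choose.chooseCount
    (fun m => decide (popc (t0Mask &&& m) = 0) && specialT0 m) 24 3 0 1 = 210 := by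
  decide +kernel

theorem cnt_nonspecial : M24Choose.chooseCount
    (fun m => decide (popc (t0Mask &&& m) = 0) && !specialT0 m) 24 3 0 1 = 1120 := by
  decide +kernel

theorem disjoint_iff_popc (U : Finset GolayPt) : Disjoint t0 U ↔ popc (t0Mask &&& toMask U) = 0 := by
  rw [cl_inter, Finset.card_eq_zero, Finset.disjoint_iff_inter_eq_empty]

theorem ncard_special_t0 :
    {U : Finset GolayPt | U.card = 3 ∧ Disjoint t0 U ∧ ∃ o ∈ octads, t0 ∪ U ⊆ o}.ncard = 210 := by
  rw [← cnt_special, ← M24Choose.ncard_card_filter (fun U => Disjoint t0 U ∧ ∃ o ∈ octads, t0 ∪ U ⊆ o)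
    (fun m => decide (popc (t0Mask &&& m) = 0) && specialT0 m) 3 (by
      intro t _
      rw [disjoint_iff_popc, special_iff]
      simp)]

theorem ncard_nonspecial_t0 :
    {U : Finset GolayPt | U.card = 3 ∧ Disjoint t0 U ∧ ¬ ∃ o ∈ octads, t0 ∪ U ⊆ o}.ncard = 1120 := by
  rw [← cnt_nonspecial, ← M24Choose.ncard_card_filter
    (fun U => Disjoint t0 U ∧ ¬ ∃ o ∈ octads, t0 ∪ U ⊆ o)
    (fun m => decide (popc (t0Mask &&& m) = 0) && !specialT0 m) 3 (by
      intro t _
      rw [disjoint_iff_popc, special_iff]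
      simp)]

theorem triad_orbits (T : Finset GolayPt) (hT : T.card = 3) :
    {U : Finset GolayPt | U.card = 3 ∧ Disjoint T U ∧ (∃ o ∈ octads, T ∪ U ⊆ o)}.ncard = 210 ∧
    {U : Finset GolayPt | U.card = 3 ∧ Disjoint T U ∧ ¬ (∃ o ∈ octads, T ∪ U ⊆ o)}.ncard = 1120 ∧
    ∀ U U' : Finset GolayPt, U.card = 3 → U'.card = 3 → Disjoint T U → Disjoint T U' →
      ((∃ o ∈ octads, T ∪ U ⊆ o) ↔ (∃ o ∈ octads, T ∪ U' ⊆ o)) →
      ∃ g : Equiv.Perm GolayPt, g ∈ M24 ∧ g • T = T ∧ g • U = U' := by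
  obtain ⟨g, hg, rfl⟩ := exists_smul_eq_of_card (s := t0) (t := T) (by rw [card_t0, hT])
    (by rw [card_t0]; norm_num)
  have e : ∀ s : Finset GolayPt, (∃ o ∈ octads, g • t0 ∪ g • s ⊆ o) ↔ ∃ o ∈ octads, t0 ∪ s ⊆ o := by
    intro s
    rw [← Finset.smul_finset_union]
    exact exists_octad_smul_iff hg _
  refine ⟨?_, ?_, fun U U' h1 h2 h3 h4 h5 => ?_⟩
  · rw [← ncard_special_t0]
    symm
    apply ncard_smul_eq g
    intro s
    simp only [Set.mem_ofPred_eq, Finset.card_smul_finset, disjoint_smul_iff, e]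
  · rw [← ncard_nonspecial_t0]
    symm
    apply ncard_smul_eq g
    intro s
    simp only [Set.mem_ofPred_eq, Finset.card_smul_finset, disjoint_smul_iff, e]
  · obtain ⟨g', hg', h6, h7⟩ := exists_conj_triads hT h1 h2 h3 h4 h5
    exact ⟨g', hg', h6, h7⟩

end Cfsg.Agent.Lib.Sporadic.M24Triad
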