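import Mathlib
import Cfsg.Prelude.Def_SporadicCombinatorics

/-!
# Monomial automorphisms of a linear code, and chains of transversals
-/

set_option autoImplicit false

namespace Cfsg.Agent.Lib.Sporadic.Monomial

open Cfsg

section mono

variable {α F : Type*} [Field F]

/-- A monomial map preserves a code. -/
def Pres (H : Submodule F (α → F)) (σ : Equiv.Perm α) (c : α → Fˣ) : Prop :=
  ∀ x ∈ H, monomialMap σ c x ∈ H

/-- A monomial map is linear. -/
def monoLin (σ : Equiv.Perm α) (c : α → Fˣ) : (α → F) →ₗ[F] (α → F) where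
  toFun := monomialMap σ c
  map_add' x y := by
    funext i
    simp [monomialMap, mul_add]
  map_smul' a x := by
    funext i
    simp only [monomialMap, Pi.smul_apply, smul_eq_mul, RingHom.id_apply]
    ring

theorem monoLin_apply (σ : Equiv.Perm α) (c : α → Fˣ) (x : α → F) : monoLin σ c x = monomialMap σ c x := rfl

theorem monomialMap_comp (σ τ : Equiv.Perm α) (c d : α → Fˣ) (x : α → F) :
    monomialMap σ c (monomialMap τ d x) = monomialMap (σ * τ) (fun i => c i * d (σ.symm i)) x := by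
  funext i
  simp [monomialMap, mul_assoc, Equiv.Perm.mul_def]

theorem Pres.mul {H : Submodule F (α → F)} {σ τ : Equiv.Perm α} {c d : α → Fˣ} (h1 : Pres H σ c) (h2 : Pres H τ d) :
    Pres H (σ * τ) (fun i => c i * d (σ.symm i)) := by
  intro x hx
  rw [← monomialMap_comp]
  exact h1 _ (h2 x hx)

theorem Pres.of_span {H : Submodule F (α → F)} {S : Set (α → F)} (hH : H = Submodule.span F S)
    {σ : Equiv.Perm α} {c : α → Fˣ} (h : ∀ x ∈ S, monomialMap σ c x ∈ H) : Pres H σ c := by
  have h1 : H ≤ H.comap (monoLin σ c) := by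
    conv_lhs => rw [hH]
    rw [Submodule.span_le]
    intro x hx
    exact h x hx
  exact fun x hx => h1 hx

/-- The inverse of a monomial map. -/
theorem Pres.inv {H : Submodule F (α → F)} [Finite H] {σ : Equiv.Perm α} {c : α → Fˣ} (h : Pres H σ c) :
    Pres H σ⁻¹ (fun i => (c (σ i))⁻¹) := by
  intro x hx
  have e1 : ∀ y : α → F, monomialMap σ⁻¹ (fun i => (c (σ i))⁻¹) (monomialMap σ c y) = y := by
    intro y
    funext i
    simp [monomialMap, Equiv.Perm.inv_def]
  have hinj : Function.Injective (fun y : H => (⟨monomialMap σ c y, h y y.2⟩ : H)) := by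
    intro y z e
    have e2 : monomialMap σ c (y : α → F) = monomialMap σ c (z : α → F) := congrArg Subtype.val e
    have e3 := congrArg (monomialMap σ⁻¹ (fun i => (c (σ i))⁻¹)) e2
    rw [e1, e1] at e3
    exact Subtype.ext e3
  obtain ⟨y, hy⟩ := (Finite.injective_iff_surjective.1 hinj) ⟨x, hx⟩
  have hy' : monomialMap σ c (y : α → F) = x := congrArg Subtype.val hy
  rw [← hy', e1]
  exact y.2

theorem Pres.one (H : Submodule F (α → F)) : Pres H 1 (fun _ => 1) := by
  intro x hx
  have : monomialMap (1 : Equiv.Perm α) (fun _ => (1 : Fˣ)) x = x := by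
    funext i
    show ((1 : Fˣ) : F) * x i = x i
    simp
  rwa [this]

theorem Pres.scale {H : Submodule F (α → F)} {σ : Equiv.Perm α} {c : α → Fˣ} (h : Pres H σ c) (a : Fˣ) :
    Pres H σ (fun i => a * c i) := by
  intro x hx
  have : monomialMap σ (fun i => a * c i) x = (a : F) • monomialMap σ c x := by
    funext i
    simp [monomialMap, mul_assoc]
  rw [this]
  exact H.smul_mem _ (h x hx)

/-- The permutation parts, as a subgroup. -/
def permParts (H : Submodule F (α → F)) [Finite H] : Subgroup (Equiv.Perm α) where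
  carrier := {σ | ∃ c, Pres H σ c}
  one_mem' := ⟨_, Pres.one H⟩
  mul_mem' := by
    rintro σ τ ⟨c, hc⟩ ⟨d, hd⟩
    exact ⟨_, hc.mul hd⟩
  inv_mem' := by
    rintro σ ⟨c, hc⟩
    exact ⟨_, hc.inv⟩

theorem mem_permParts {H : Submodule F (α → F)} [Finite H] {σ : Equiv.Perm α} :
    σ ∈ permParts H ↔ ∃ c, Pres H σ c := Iff.rfl

/-- The order of the monomial group, when the diagonal part consists of scalars. -/
theorem card_pres (H : Submodule F (α → F)) [Finite H] (a0 : α)
    (hdiag : ∀ c, Pres H 1 c → ∀ i j, c i = c j) :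
    Nat.card {f : Equiv.Perm α × (α → Fˣ) // ∀ x ∈ H, monomialMap f.1 f.2 x ∈ H} =
      Nat.card (permParts H) * Nat.card Fˣ := by
  classical
  choose c0 hc0 using fun σ : permParts H => σ.2
  rw [← Nat.card_prod]
  refine (Nat.card_congr (Equiv.ofBijective
    (fun p : permParts H × Fˣ => (⟨((p.1 : Equiv.Perm α), fun i => p.2 * c0 p.1 i), (hc0 p.1).scale p.2⟩ :
      {f : Equiv.Perm α × (α → Fˣ) // ∀ x ∈ H, monomialMap f.1 f.2 x ∈ H})) ⟨?_, ?_⟩)).symm
  · rintro ⟨σ, a⟩ ⟨τ, b⟩ e
    have e1 := congrArg Subtype.val e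
    have e2 : (σ : Equiv.Perm α) = τ := congrArg Prod.fst e1
    have e3 : σ = τ := Subtype.ext e2
    subst e3
    have e4 := congrFun (congrArg Prod.snd e1) a0
    have e5 : a * c0 σ a0 = b * c0 σ a0 := e4
    rw [mul_left_inj] at e5
    rw [e5]
  · rintro ⟨⟨σ, c⟩, hc⟩
    have hσ : σ ∈ permParts H := ⟨c, hc⟩
    have h1 := (show Pres H σ c from hc).mul (hc0 ⟨σ, hσ⟩).inv
    rw [mul_inv_cancel] at h1
    have h2 := hdiag _ h1
    refine ⟨(⟨σ, hσ⟩, c a0 * (c0 ⟨σ, hσ⟩ a0)⁻¹), ?_⟩
    apply Subtype.ext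
    refine Prod.ext rfl ?_
    funext i
    have h3 := h2 i a0
    simp only [Equiv.apply_symm_apply] at h3
    show c a0 * (c0 ⟨σ, hσ⟩ a0)⁻¹ * c0 ⟨σ, hσ⟩ i = c i
    rw [← h3]
    group

end mono

section chain

variable {X : Type*} {n : ℕ}

/-- The levels of a chain of transversals give all tuples. -/
theorem exists_of_levels (Q : Subgroup (Equiv.Perm X)) (b : Fin n → X)
    (hL : ∀ k : Fin n, ∀ x, (∀ j : Fin n, j < k → x ≠ b j) →
      ∃ g ∈ Q, (∀ j : Fin n, j < k → g (b j) = b j) ∧ g (b k) = x)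
    (f : Fin n ↪ X) : ∃ g ∈ Q, ∀ i, g (b i) = f i := by
  have key : ∀ m : ℕ, m ≤ n → ∃ g ∈ Q, ∀ i : Fin n, i.val < m → g (b i) = f i := by
    intro m
    induction m with
    | zero =>
      intro _
      exact ⟨1, Q.one_mem, fun i hi => absurd hi (Nat.not_lt_zero _)⟩
    | succ m ih =>
      intro hm
      obtain ⟨g, hg, h⟩ := ih (by omega)
      let k : Fin n := ⟨m, by omega⟩
      obtain ⟨t, ht, h1, h2⟩ := hL k (g⁻¹ (f k)) (by
        intro j hj e
        have e1 : f k = g (b j) := by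
          rw [← e]
          simp
        rw [h j hj] at e1
        have := f.injective e1
        rw [this] at hj
        exact lt_irrefl _ hj)
      refine ⟨g * t, Q.mul_mem hg ht, ?_⟩
      intro i hi
      rw [Equiv.Perm.mul_apply]
      by_cases hik : i.val < m
      · rw [h1 i hik, h i hik]
      · have : i = k := Fin.ext (by show i.val = m; omega)
        rw [this, h2]
        simp
  exact (key n le_rfl).imp fun g hg => ⟨hg.1, fun i => hg.2 i i.2⟩

/-- A chain of transversals in a group where the base has trivial pointwise stabiliser. -/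
theorem eq_and_card [Finite X] {A Q : Subgroup (Equiv.Perm X)} (hQA : Q ≤ A) (b : Fin n → X)
    (hb : Function.Injective b)
    (hL : ∀ k : Fin n, ∀ x, (∀ j : Fin n, j < k → x ≠ b j) →
      ∃ g ∈ Q, (∀ j : Fin n, j < k → g (b j) = b j) ∧ g (b k) = x)
    (htriv : ∀ g ∈ A, (∀ i, g (b i) = b i) → g = 1) :
    Q = A ∧ Nat.card A = Nat.card (Fin n ↪ X) := by
  have h1 : ∀ s ∈ A, s ∈ Q := by
    intro s hs
    let f : Fin n ↪ X := ⟨fun i => s (b i), fun i j e => hb (s.injective e)⟩
    obtain ⟨g, hg, h⟩ := exists_of_levels Q b hL f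
    have h2 : g⁻¹ * s = 1 := by
      apply htriv _ (A.mul_mem (A.inv_mem (hQA hg)) hs)
      intro i
      rw [Equiv.Perm.mul_apply, Equiv.Perm.inv_eq_iff_eq]
      exact (h i).symm
    rw [inv_mul_eq_one] at h2
    rw [← h2]
    exact hg
  refine ⟨le_antisymm hQA h1, ?_⟩
  refine Nat.card_congr (Equiv.ofBijective
    (fun s : A => (⟨fun i => (s : Equiv.Perm X) (b i), fun i j e => hb ((s : Equiv.Perm X).injective e)⟩ : Fin n ↪ X)) ⟨?_, ?_⟩)
  · intro s t e
    have h2 : ∀ i, (s : Equiv.Perm X) (b i) = (t : Equiv.Perm X) (b i) := fun i => congrArg (fun f : Fin n ↪ X => f i) e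
    have h3 : (t : Equiv.Perm X)⁻¹ * s = 1 := by
      apply htriv _ (A.mul_mem (A.inv_mem t.2) s.2)
      intro i
      rw [Equiv.Perm.mul_apply, Equiv.Perm.inv_eq_iff_eq]
      exact h2 i
    rw [inv_mul_eq_one] at h3
    exact Subtype.ext h3.symm
  · intro f
    obtain ⟨g, hg, h⟩ := exists_of_levels Q b hL f
    refine ⟨⟨g, hQA hg⟩, ?_⟩
    ext i
    exact h i

end chain

end Cfsg.Agent.Lib.Sporadic.Monomial
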