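import Mathlib
import Cfsg.Prelude.Def_MonsterType
import Cfsg.Agent.Lib.Sporadic.LeechLocal
import Cfsg.Agent.Lib.PGroup.LargeFz

/-!
# The local analysis in a group of Monster type

We abstract the hypotheses: a subgroup `Qg` of `G`, large extraspecial with centre `⟨z⟩`, normal in `C(z)`, with a
homomorphism of `C(z)` to the first Conway group with kernel `Qg`, and a relation between lattice vectors and elements of
`Qg`.  We show that a conjugate `s ≠ z` of `z` in `Qg` is of type `4`, that `Qg ∩ Qg ^ g` has order `2 ^ 13`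
for `s = g z g⁻¹`, and so on.
-/

set_option autoImplicit false

namespace Cfsg.Agent.Lib.Sporadic.MonsterModel

open Subgroup Cfsg Cfsg.Agent.Lib.PGroup.LargeExtraspecial
  Cfsg.Agent.Lib.Sporadic.GolayCore
  Cfsg.Agent.Lib.Sporadic.LeechNorm Cfsg.Agent.Lib.Sporadic.LeechFacts
  Cfsg.Agent.Lib.Sporadic.LeechAut Cfsg.Agent.Lib.Sporadic.LeechClasses
  Cfsg.Agent.Lib.Sporadic.LeechAct Cfsg.Agent.Lib.Sporadic.LeechMod2
  Cfsg.Agent.Lib.Sporadic.LeechLocal

variable {G : Type*} [Group G]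

attribute [local instance] Classical.propDecidable

/-- The data of a group of Monster type. -/
structure MModel (z : G) (Qg : Subgroup G) where
  L : Large Qg z
  E : Cfsg.IsExtraspecial 2 ↥Qg
  card_Q : Nat.card Qg = 2 ^ 25
  conj_Q : ∀ c y : G, c * z = z * c → y ∈ Qg → c * y * c⁻¹ ∈ Qg
  sym : ∀ g : G, g * z * g⁻¹ ∈ Qg → g * z * g⁻¹ ≠ z → g⁻¹ * z * g ∈ Qg
  pi : ↥(centralizer ({z} : Set G)) →* Spor.Co1
  pi_surj : Function.Surjective pi
  pi_ker : ∀ x, pi x = 1 ↔ (x : G) ∈ Qg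
  Rel : leechLattice → G → Prop
  rel_mem : ∀ {v x}, Rel v x → x ∈ Qg
  rel_exists : ∀ v, ∃ x, Rel v x
  rel_surj : ∀ x ∈ Qg, ∃ v, Rel v x
  rel_add : ∀ {v w x y}, Rel v x → Rel w y → Rel (v + w) (x * y)
  rel_same : ∀ {v x y}, Rel v x → Rel v y → y = x ∨ y = z * x
  rel_z : ∀ {v x}, Rel v x → Rel v (z * x)
  rel_inj : ∀ {v w x}, Rel v x → Rel w x → cl v = cl w
  rel_two : ∀ {v x}, Rel v x → ((x = 1 ∨ x = z) ↔ cl v = cl 0)
  rel_act : ∀ (h : ↥(centralizer ({z} : Set G))) (g : Co0) {v x}, mkC g = pi h → Rel v x →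
    Rel (g • v) ((h : G) * x * (h : G)⁻¹)

namespace MModel

variable {z : G} {Qg : Subgroup G} (M : MModel z Qg)

include M

theorem z_sq : z * z = 1 := M.L.z_sq

theorem z_ne : z ≠ 1 := M.L.z_ne

/-- Lifts of the same class. -/
theorem rel_of_cl {v w : leechLattice} {x : G} (hx : M.Rel v x) (h : cl v = cl w) : M.Rel w x := by
  obtain ⟨y, hy⟩ := M.rel_exists w
  obtain ⟨u, hu, e⟩ := (cl_eq_iff v w).1 h
  have e1 : v = w + (⟨u, hu⟩ + ⟨u, hu⟩) := by
    apply Subtype.ext
    simp only [AddSubgroup.coe_add]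
    have : (v : V) = w + 2 • u := by rw [← e]; abel
    rw [this, two_nsmul]
  obtain ⟨c, hc⟩ := M.rel_exists (⟨u, hu⟩ + ⟨u, hu⟩)
  have hc2 : c = 1 ∨ c = z := (M.rel_two hc).2 (by
    rw [cl_eq_iff]
    refine ⟨u, hu, ?_⟩
    simp only [AddSubgroup.coe_add, ZeroMemClass.coe_zero, sub_zero, two_nsmul])
  have h1 := M.rel_add hy hc
  rw [← e1] at h1
  have hzy : y * z = z * y := M.L.z_comm y (M.rel_mem hy)
  rcases M.rel_same h1 hx with h2 | h2 <;> rcases hc2 with rfl | rfl
  · rw [h2, mul_one]; exact hy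
  · rw [h2, hzy]; exact M.rel_z hy
  · rw [h2, mul_one]; exact M.rel_z hy
  · rw [h2, hzy, ← mul_assoc, M.L.z_sq, one_mul]; exact hy

/-- The transitivity lemma. -/
theorem exists_conj {g : Co0} {v : leechLattice} {x x' : G} (hx : M.Rel v x) (hx' : M.Rel (g • v) x')
    (h1 : x ≠ 1) (hz : x ≠ z) :
    ∃ h : ↥(centralizer ({z} : Set G)), mkC g = M.pi h ∧ (h : G) * x * (h : G)⁻¹ = x' := by
  obtain ⟨h0, hh0⟩ := M.pi_surj (mkC g)
  have h2 := M.rel_act h0 g hh0.symm hx
  have hzc : (h0 : G) * z = z * h0 := mem_centralizer_singleton_iff.1 h0.2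
  set y := (h0 : G) * x * (h0 : G)⁻¹ with hy
  rcases M.rel_same h2 hx' with h3 | h3
  · exact ⟨h0, hh0.symm, h3.symm⟩
  · have hy1 : y ≠ 1 := by
      intro h
      apply h1
      have : x = (h0 : G)⁻¹ * y * h0 := by rw [hy]; group
      rw [this, h]
      group
    have hyz : y ≠ z := by
      intro h
      apply hz
      have : x = (h0 : G)⁻¹ * y * h0 := by rw [hy]; group
      rw [this, h]
      calc (h0 : G)⁻¹ * z * h0 = (h0 : G)⁻¹ * (z * h0) := by group
        _ = (h0 : G)⁻¹ * (h0 * z) := by rw [hzc]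
        _ = z := by group
    obtain ⟨u, hu, huy⟩ := M.L.exists_noncomm (M.rel_mem h2) hy1 hyz
    have huc : u ∈ centralizer ({z} : Set G) := mem_centralizer_singleton_iff.2 (M.L.z_comm u hu)
    refine ⟨⟨u, huc⟩ * h0, ?_, ?_⟩
    · rw [map_mul, (M.pi_ker _).2 hu, one_mul]
      exact hh0.symm
    · show u * (h0 : G) * x * (u * (h0 : G))⁻¹ = x'
      rw [h3]
      calc u * (h0 : G) * x * (u * (h0 : G))⁻¹ = u * y * u⁻¹ := by rw [hy]; group
        _ = z * (y * u) * u⁻¹ := by rw [huy]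
        _ = z * y := by group

/-! ### The quadratic form -/

/-- The powers of `z`. -/
noncomputable def zp (z : G) (a : ZMod 2) : G := if a = 0 then 1 else z

omit M in
theorem zmod2_cases (a : ZMod 2) : a = 0 ∨ a = 1 := by
  revert a
  decide

theorem zp_add (a b : ZMod 2) : zp z (a + b) = zp z a * zp z b := by
  rcases zmod2_cases a with rfl | rfl <;> rcases zmod2_cases b with rfl | rfl <;> simp [zp, M.L.z_sq]
  have : (1 : ZMod 2) + 1 = 0 := by decide
  simp [this, M.L.z_sq]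

theorem zp_inj {a b : ZMod 2} (h : zp z a = zp z b) : a = b := by
  rcases zmod2_cases a with rfl | rfl <;> rcases zmod2_cases b with rfl | rfl
  · rfl
  · exfalso
    simp [zp] at h
    exact M.L.z_ne h.symm
  · exfalso
    simp [zp] at h
    exact M.L.z_ne h
  · rfl

theorem zp_comm (a : ZMod 2) {x : G} (hx : x ∈ Qg) : x * zp z a = zp z a * x := by
  rcases zmod2_cases a with rfl | rfl
  · simp [zp]
  · simpa [zp] using M.L.z_comm x hx

/-- The square of an element of `Qg`. -/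
noncomputable def qq (z x : G) : ZMod 2 := if x * x = 1 then 0 else 1

/-- The commutator of two elements. -/
noncomputable def cc (x y : G) : ZMod 2 := if x * y = y * x then 0 else 1

theorem sq_eq {x : G} (hx : x ∈ Qg) : x * x = zp z (qq z x) := by
  unfold qq
  by_cases h : x * x = 1
  · simp [h, zp]
  · rw [if_neg h]
    have : (1 : ZMod 2) ≠ 0 := by decide
    simp only [zp, if_neg this]
    exact (M.L.sq x hx).resolve_left h

theorem comm_eq {x y : G} (hx : x ∈ Qg) (hy : y ∈ Qg) : x * y = zp z (cc x y) * (y * x) := by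
  unfold cc
  by_cases h : x * y = y * x
  · simp [h, zp]
  · rw [if_neg h]
    have : (1 : ZMod 2) ≠ 0 := by decide
    simp only [zp, if_neg this]
    exact (M.L.comm x hx y hy).resolve_left h

theorem qq_of {x : G} {a : ZMod 2} (h : x * x = zp z a) : qq z x = a := by
  unfold qq
  rcases zmod2_cases a with rfl | rfl
  · simp only [zp, if_true] at h
    rw [if_pos h]
  · have h1 : (1 : ZMod 2) ≠ 0 := by decide
    simp only [zp, if_neg h1] at h
    rw [if_neg (by rw [h]; exact M.L.z_ne)]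

theorem cc_of {x y : G} {a : ZMod 2} (h : x * y = zp z a * (y * x)) : cc x y = a := by
  unfold cc
  rcases zmod2_cases a with rfl | rfl
  · simp only [zp, if_true, one_mul] at h
    rw [if_pos h]
  · have h1 : (1 : ZMod 2) ≠ 0 := by decide
    simp only [zp, if_neg h1] at h
    rw [if_neg]
    intro h2
    rw [h2] at h
    apply M.L.z_ne
    have h3 : z * (y * x) = 1 * (y * x) := by rw [one_mul]; exact h.symm
    exact mul_right_cancel h3

theorem qq_mul {x y : G} (hx : x ∈ Qg) (hy : y ∈ Qg) : qq z (x * y) = cc y x + qq z x + qq z y := by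
  apply M.qq_of
  rw [M.zp_add, M.zp_add]
  calc x * y * (x * y) = x * (y * x) * y := by group
    _ = x * (zp z (cc y x) * (x * y)) * y := by rw [← M.comm_eq hy hx]
    _ = (x * zp z (cc y x)) * x * y * y := by group
    _ = zp z (cc y x) * (x * x) * (y * y) := by rw [M.zp_comm _ hx]; group
    _ = _ := by rw [← M.sq_eq hx, ← M.sq_eq hy]

theorem cc_mul_right {t x y : G} (ht : t ∈ Qg) (hx : x ∈ Qg) (hy : y ∈ Qg) :
    cc t (x * y) = cc t x + cc t y := by
  apply M.cc_of
  rw [M.zp_add]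
  calc t * (x * y) = (t * x) * y := by group
    _ = zp z (cc t x) * (x * t) * y := by rw [← M.comm_eq ht hx]
    _ = zp z (cc t x) * x * (t * y) := by group
    _ = zp z (cc t x) * x * (zp z (cc t y) * (y * t)) := by rw [← M.comm_eq ht hy]
    _ = zp z (cc t x) * (x * zp z (cc t y)) * (y * t) := by group
    _ = zp z (cc t x) * zp z (cc t y) * (x * y * t) := by rw [M.zp_comm _ hx]; group

/-- The quadratic form attached to the model. -/
noncomputable def qf (v : leechLattice) : ZMod 2 := qq z (M.rel_exists v).choose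

omit M in
theorem mul_self_z_mul {z x : G} (hz : z * z = 1) (hc : x * z = z * x) : (z * x) * (z * x) = x * x := by
  calc (z * x) * (z * x) = z * (x * z) * x := by group
    _ = z * (z * x) * x := by rw [hc]
    _ = (z * z) * (x * x) := by group
    _ = x * x := by rw [hz, one_mul]

theorem qf_eq {v : leechLattice} {x : G} (h : M.Rel v x) : M.qf v = qq z x := by
  have h0 := (M.rel_exists v).choose_spec
  unfold qf
  rcases M.rel_same h h0 with h1 | h1
  · rw [h1]
  · rw [h1]
    unfold qq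
    rw [mul_self_z_mul M.L.z_sq (M.L.z_comm x (M.rel_mem h))]

theorem qf_eq_zero_iff {v : leechLattice} {x : G} (h : M.Rel v x) : M.qf v = 0 ↔ x * x = 1 := by
  rw [M.qf_eq h]
  unfold qq
  by_cases h1 : x * x = 1
  · simp [h1]
  · simp [h1]

theorem qf_coset (v w : leechLattice) : M.qf (v + (w + w)) = M.qf v := by
  obtain ⟨x, hx⟩ := M.rel_exists v
  obtain ⟨y, hy⟩ := M.rel_exists w
  have hyQ := M.rel_mem hy
  have h1 := M.rel_add hx (M.rel_add hy hy)
  rw [M.qf_eq h1, M.qf_eq hx, M.qq_mul (M.rel_mem hx) (mul_mem hyQ hyQ), M.qq_mul hyQ hyQ]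
  have h2 : y * y = zp z (qq z y) := M.sq_eq hyQ
  have h3 : cc (y * y) x = 0 := by
    apply M.cc_of
    rw [h2, ← M.zp_comm _ (M.rel_mem hx)]
    simp only [zp, if_true, one_mul]
  rw [h3]
  have h5 : cc y y = 0 := by
    apply M.cc_of
    simp [zp]
  rw [h5]
  have h6 : ∀ a c : ZMod 2, 0 + a + (0 + c + c) = a := by decide
  exact h6 _ _

theorem qf_quad (u v w : leechLattice) :
    M.qf (u + v + w) + M.qf u + M.qf v + M.qf w = M.qf (u + v) + M.qf (u + w) + M.qf (v + w) := by
  obtain ⟨x, hx⟩ := M.rel_exists u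
  obtain ⟨y, hy⟩ := M.rel_exists v
  obtain ⟨t, ht⟩ := M.rel_exists w
  have hxQ := M.rel_mem hx
  have hyQ := M.rel_mem hy
  have htQ := M.rel_mem ht
  rw [M.qf_eq (M.rel_add (M.rel_add hx hy) ht), M.qf_eq hx, M.qf_eq hy, M.qf_eq ht,
    M.qf_eq (M.rel_add hx hy), M.qf_eq (M.rel_add hx ht), M.qf_eq (M.rel_add hy ht),
    M.qq_mul (mul_mem hxQ hyQ) htQ, M.qq_mul hxQ hyQ, M.qq_mul hxQ htQ, M.qq_mul hyQ htQ,
    M.cc_mul_right htQ hxQ hyQ]
  have key : ∀ a b c d e f : ZMod 2,
      a + b + (c + d + e) + f + d + e + f = c + d + e + (a + d + f) + (b + e + f) := by decide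
  exact key _ _ _ _ _ _

theorem qf_inv (g : Co0) (v : leechLattice) : M.qf (g • v) = M.qf v := by
  obtain ⟨x, hx⟩ := M.rel_exists v
  obtain ⟨h, hh⟩ := M.pi_surj (mkC g)
  have h1 := M.rel_act h g hh.symm hx
  have hzc : (h : G) * z = z * h := mem_centralizer_singleton_iff.1 h.2
  rw [M.qf_eq h1, M.qf_eq hx]
  unfold qq
  have e : ((h : G) * x * (h : G)⁻¹) * ((h : G) * x * (h : G)⁻¹) = (h : G) * (x * x) * (h : G)⁻¹ := by group
  rw [e]
  by_cases h2 : x * x = 1
  · rw [h2]
    simp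
  · have h3 := (M.L.sq x (M.rel_mem hx)).resolve_left h2
    rw [if_neg h2, if_neg]
    rw [h3, hzc]
    intro h4
    apply M.L.z_ne
    have : z * (h : G) * (h : G)⁻¹ = 1 := h4
    simpa using this

theorem qf_ne : ∃ v : leechLattice, M.qf v ≠ 0 := by
  by_contra hcon
  push Not at hcon
  have hsq : ∀ x ∈ Qg, x * x = 1 := by
    intro x hx
    obtain ⟨v, hv⟩ := M.rel_surj x hx
    exact (M.qf_eq_zero_iff hv).1 (hcon v)
  have hcomm : ∀ x ∈ Qg, ∀ y ∈ Qg, x * y = y * x := by
    intro x hx y hy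
    have h1 := hsq _ (mul_mem hx hy)
    have h2 := hsq x hx
    have h3 := hsq y hy
    have h4 : x⁻¹ = x := inv_eq_of_mul_eq_one_left h2
    have h5 : y⁻¹ = y := inv_eq_of_mul_eq_one_left h3
    have h6 : (x * y)⁻¹ = x * y := inv_eq_of_mul_eq_one_left h1
    rw [mul_inv_rev, h4, h5] at h6
    exact h6.symm
  have h1 : ∀ x ∈ Qg, x = 1 ∨ x = z := fun x hx => M.L.center x hx (fun y hy => hcomm y hy x hx)
  have h2 : Nat.card Qg ≤ 2 := by
    have : Function.Injective (fun x : ↥Qg => (decide ((x : G) = 1) : Bool)) := by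
      rintro ⟨x, hx⟩ ⟨y, hy⟩ h
      apply Subtype.ext
      simp only [decide_eq_decide] at h
      rcases h1 x hx with rfl | rfl <;> rcases h1 y hy with rfl | rfl
      · rfl
      · exact absurd (h.1 rfl) M.L.z_ne
      · exact absurd (h.2 rfl) M.L.z_ne
      · rfl
    have h3 := Nat.card_le_card_of_injective _ this
    simpa using h3
  rw [M.card_Q] at h2
  omega

/-- The values of the form. -/
theorem qf_form (v : leechLattice) : M.qf v = ((sqNorm (v : V) / 16 : ℤ) : ZMod 2) :=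
  form_eq M.qf M.qf_coset M.qf_quad M.qf_inv M.qf_ne v

theorem sq_iff {v : leechLattice} {x : G} (h : M.Rel v x) :
    x * x = 1 ↔ ((sqNorm (v : V) / 16 : ℤ) : ZMod 2) = 0 := by
  rw [← M.qf_form, M.qf_eq_zero_iff h]

/-- A short representative. -/
theorem exists_short_rel {v : leechLattice} {x : G} (h : M.Rel v x) (h1 : x ≠ 1) (hz : x ≠ z) :
    ∃ y : leechLattice, M.Rel y x ∧
      (sqNorm (y : V) = 32 ∨ sqNorm (y : V) = 48 ∨ sqNorm (y : V) = 64) := by
  obtain ⟨y, hyn, hyc⟩ := exists_short v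
  have hy := M.rel_of_cl h hyc.symm
  refine ⟨y, hy, ?_⟩
  have hy0 : y ≠ 0 := by
    rintro rfl
    rcases (M.rel_two hy).2 rfl with h2 | h2
    · exact h1 h2
    · exact hz h2
  have hy0' : (y : V) ≠ 0 := fun h => hy0 (Subtype.ext h)
  have h16 := sixteen_dvd _ y.2
  have h32' := min_norm_32 _ y.2 hy0'
  omega

end MModel

end Cfsg.Agent.Lib.Sporadic.MonsterModel
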