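import Mathlib
import Cfsg.Agent.Lib.Sporadic.MonsterModel
import Cfsg.Agent.Lib.PGroup.Extraspecial

/-!
# The conjugates of `z` in `Q`

For a conjugate `s = g z g⁻¹ ≠ z` of `z` in `Q`, with `R = g Q g⁻¹`: `z ∈ R`, and `C_R(z)` has at least `2 ^ 24` elements,
its image in `Co1` is a normal `2`-subgroup of the stabiliser of the class of `s`.
-/

set_option autoImplicit false

namespace Cfsg.Agent.Lib.Sporadic.MonsterModel

open Subgroup Cfsg Cfsg.Agent.Lib.PGroup.LargeExtraspecial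
  Cfsg.Agent.Lib.Sporadic.GolayCore
  Cfsg.Agent.Lib.Sporadic.LeechNorm Cfsg.Agent.Lib.Sporadic.LeechFacts
  Cfsg.Agent.Lib.Sporadic.LeechAut Cfsg.Agent.Lib.Sporadic.LeechClasses
  Cfsg.Agent.Lib.Sporadic.LeechAct Cfsg.Agent.Lib.Sporadic.LeechMod2
  Cfsg.Agent.Lib.Sporadic.LeechLocal Cfsg.Agent.Lib.Sporadic.LeechOrbits

variable {G : Type*} [Group G]

namespace MModel

variable {z : G} {Qg : Subgroup G} (M : MModel z Qg)

/-- The conjugate of a subgroup. -/
abbrev Cj (g : G) (X : Subgroup G) : Subgroup G := X.map (MulAut.conj g).toMonoidHom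

omit M in
theorem mem_Cj {g x : G} {X : Subgroup G} : x ∈ Cj g X ↔ g⁻¹ * x * g ∈ X := by
  constructor
  · rintro ⟨y, hy, rfl⟩
    simpa [mul_assoc] using hy
  · intro h
    exact ⟨_, h, by simp [mul_assoc]⟩

omit M in
theorem card_Cj (g : G) (X : Subgroup G) : Nat.card (Cj g X) = Nat.card X :=
  Nat.card_congr (X.equivMapOfInjective _ (MulAut.conj g).injective).symm.toEquiv

include M

theorem card_inf_centralizer {w : G} (hw : w ∈ Qg) : 2 ^ 24 ≤ Nat.card ↥(Qg ⊓ centralizer ({w} : Set G)) := by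
  classical
  have hfin : Finite Qg := Nat.finite_of_card_ne_zero (by rw [M.card_Q]; norm_num)
  have hfin' : Finite ↥(Qg ⊓ centralizer ({w} : Set G)) :=
    Finite.of_injective _ (Subgroup.inclusion_injective (inf_le_left : Qg ⊓ centralizer ({w} : Set G) ≤ Qg))
  by_cases hc : ∀ u ∈ Qg, u * w = w * u
  · have : Qg ⊓ centralizer ({w} : Set G) = Qg := by
      apply inf_eq_left.2
      intro u hu
      exact mem_centralizer_singleton_iff.2 (hc u hu)
    rw [this, M.card_Q]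
    norm_num
  · push Not at hc
    obtain ⟨u, hu, huw⟩ := hc
    have hcomm := (M.L.comm u hu w hw).resolve_left huw
    -- the map to the centraliser times `Bool`
    have key : ∀ y ∈ Qg, y * w ≠ w * y → (u * y) * w = w * (u * y) := by
      intro y hy hyw
      have h1 := (M.L.comm y hy w hw).resolve_left hyw
      have hzu := M.L.z_comm u hu
      have hzw := M.L.z_comm w hw
      calc u * y * w = u * (y * w) := by group
        _ = u * (z * (w * y)) := by rw [h1]
        _ = (u * z) * (w * y) := by group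
        _ = z * (u * w) * y := by rw [hzu]; group
        _ = z * (z * (w * u)) * y := by rw [hcomm]
        _ = (z * z) * (w * u * y) := by group
        _ = w * (u * y) := by rw [M.L.z_sq]; group
    let f : ↥Qg → ↥(Qg ⊓ centralizer ({w} : Set G)) × Bool := fun y =>
      if hy : (y : G) * w = w * y then
        (⟨y, y.2, mem_centralizer_singleton_iff.2 hy⟩, true)
      else
        (⟨u * y, mul_mem hu y.2, mem_centralizer_singleton_iff.2 (key y y.2 hy)⟩, false)
    have hf : Function.Injective f := by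
      intro a b hab
      simp only [f] at hab
      by_cases ha : (a : G) * w = w * a <;> by_cases hb : (b : G) * w = w * b
      · rw [dif_pos ha, dif_pos hb] at hab
        exact Subtype.ext (congrArg (fun t => ((t.1 : ↥(Qg ⊓ centralizer ({w} : Set G))) : G)) hab)
      · rw [dif_pos ha, dif_neg hb] at hab
        simp at hab
      · rw [dif_neg ha, dif_pos hb] at hab
        simp at hab
      · rw [dif_neg ha, dif_neg hb] at hab
        have := congrArg (fun t => ((t.1 : ↥(Qg ⊓ centralizer ({w} : Set G))) : G)) hab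
        exact Subtype.ext (mul_left_cancel this)
    have h1 := Nat.card_le_card_of_injective f hf
    rw [M.card_Q, Nat.card_prod, Nat.card_eq_fintype_card (α := Bool), Fintype.card_bool] at h1
    omega

/-- Abelian subgroups of `Qg` have at most `2 ^ 13` elements. -/
theorem card_le_of_comm (B : Subgroup G) (hB : B ≤ Qg) (hc : ∀ a ∈ B, ∀ b ∈ B, a * b = b * a) :
    Nat.card B ≤ 2 ^ 13 := by
  haveI : Fact (Nat.Prime 2) := ⟨Nat.prime_two⟩
  haveI hfin : Finite Qg := Nat.finite_of_card_ne_zero (by rw [M.card_Q]; norm_num)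
  have hcard : Nat.card ↥(B.subgroupOf Qg) = Nat.card B :=
    Nat.card_congr (subgroupOfEquivOfLe hB).toEquiv
  have h1 := Cfsg.Agent.Lib.PGroup.Extraspecial.card_sq_le_of_le_centralizer (p := 2) M.E.1.1
    (Cfsg.Agent.Lib.PGroup.Extraspecial.IsExtraspecial.comm_mem_center M.E) M.E.2
    (A := B.subgroupOf Qg) (by
      intro a ha
      rw [mem_centralizer_iff]
      intro b hb
      apply Subtype.ext
      exact hc _ hb _ ha)
  rw [hcard, M.card_Q] at h1
  by_contra hlt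
  push Not at hlt
  have h2 : (2 ^ 13 + 1) ^ 2 ≤ Nat.card B ^ 2 := Nat.pow_le_pow_left hlt 2
  omega

section conj

variable {g : G} (hg : g * z * g⁻¹ ∈ Qg) (hne : g * z * g⁻¹ ≠ z)

include hg hne

theorem z_mem_R : z ∈ Cj g Qg := mem_Cj.2 (M.sym g hg hne)

omit hg hne

theorem R_comm {y : G} (hy : y ∈ Cj g Qg) : y * (g * z * g⁻¹) = (g * z * g⁻¹) * y := by
  have h1 := M.L.z_comm _ (mem_Cj.1 hy)
  have h2 : y = g * (g⁻¹ * y * g) * g⁻¹ := by group
  calc y * (g * z * g⁻¹) = g * ((g⁻¹ * y * g) * z) * g⁻¹ := by group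
    _ = g * (z * (g⁻¹ * y * g)) * g⁻¹ := by rw [h1]
    _ = (g * z * g⁻¹) * y := by group

theorem R_conj {c y : G} (hc : c * (g * z * g⁻¹) = (g * z * g⁻¹) * c) (hy : y ∈ Cj g Qg) :
    c * y * c⁻¹ ∈ Cj g Qg := by
  rw [mem_Cj]
  have h1 : (g⁻¹ * c * g) * z = z * (g⁻¹ * c * g) := by
    have e1 : (g⁻¹ * c * g) * z = g⁻¹ * (c * (g * z * g⁻¹)) * g := by group
    have e2 : z * (g⁻¹ * c * g) = g⁻¹ * ((g * z * g⁻¹) * c) * g := by group
    rw [e1, e2, hc]
  have h2 := M.conj_Q _ _ h1 (mem_Cj.1 hy)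
  have e : g⁻¹ * (c * y * c⁻¹) * g = (g⁻¹ * c * g) * (g⁻¹ * y * g) * (g⁻¹ * c * g)⁻¹ := by group
  rw [e]
  exact h2

include hne

theorem inter_comm {a b : G} (ha : a ∈ Qg) (ha' : a ∈ Cj g Qg) (hb : b ∈ Qg) (hb' : b ∈ Cj g Qg) :
    a * b = b * a := by
  rcases M.L.comm a ha b hb with h | h
  · exact h
  · rcases M.L.comm _ (mem_Cj.1 ha') _ (mem_Cj.1 hb') with h1 | h1
    · have e1 : (g⁻¹ * a * g) * (g⁻¹ * b * g) = g⁻¹ * (a * b) * g := by group
      have e2 : (g⁻¹ * b * g) * (g⁻¹ * a * g) = g⁻¹ * (b * a) * g := by group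
      rw [e1, e2] at h1
      have := mul_left_cancel (mul_right_cancel h1)
      exact this
    · exfalso
      apply hne
      have e1 : (g⁻¹ * a * g) * (g⁻¹ * b * g) = g⁻¹ * (a * b) * g := by group
      have e2 : z * ((g⁻¹ * b * g) * (g⁻¹ * a * g)) = g⁻¹ * ((g * z * g⁻¹) * (b * a)) * g := by group
      rw [e1, e2] at h1
      have h3 := mul_left_cancel (mul_right_cancel h1)
      rw [h] at h3
      exact (mul_right_cancel h3).symm

theorem card_inter_le : Nat.card ↥(Qg ⊓ Cj g Qg) ≤ 2 ^ 13 :=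
  M.card_le_of_comm _ inf_le_left (fun _ ha _ hb => M.inter_comm hne ha.1 ha.2 hb.1 hb.2)

/-- The subgroup `C_R(z)`. -/
abbrev AA (z g : G) (Qg : Subgroup G) : Subgroup G := Cj g Qg ⊓ centralizer ({z} : Set G)

include hg

theorem card_AA : 2 ^ 24 ≤ Nat.card ↥(AA z g Qg) := by
  have hmem := M.sym g hg hne
  have h1 := M.card_inf_centralizer hmem
  have h2 : AA z g Qg = Cj g (Qg ⊓ centralizer ({g⁻¹ * z * g} : Set G)) := by
    ext x
    rw [mem_Cj, mem_inf, mem_inf, mem_Cj, mem_centralizer_singleton_iff, mem_centralizer_singleton_iff]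
    refine and_congr_right fun _ => ?_
    constructor
    · intro h
      calc g⁻¹ * x * g * (g⁻¹ * z * g) = g⁻¹ * (x * z) * g := by group
        _ = g⁻¹ * (z * x) * g := by rw [h]
        _ = g⁻¹ * z * g * (g⁻¹ * x * g) := by group
    · intro h
      have h3 : g⁻¹ * (x * z) * g = g⁻¹ * (z * x) * g := by
        calc g⁻¹ * (x * z) * g = g⁻¹ * x * g * (g⁻¹ * z * g) := by group
          _ = g⁻¹ * z * g * (g⁻¹ * x * g) := h
          _ = g⁻¹ * (z * x) * g := by group
      exact mul_left_cancel (mul_right_cancel h3)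
  rw [h2, card_Cj]
  exact h1

/-! ### The image of `C_R(z)` in `Co1` -/

omit hg hne

/-- The elements of `Co0` with image in the image of `C_R(z)`. -/
noncomputable def PP (M : MModel z Qg) (g : G) : Subgroup Co0 :=
  (((AA z g Qg).subgroupOf (centralizer ({z} : Set G))).map M.pi).comap mkC

theorem mem_PP {a : Co0} : a ∈ M.PP g ↔ ∃ b : ↥(centralizer ({z} : Set G)), (b : G) ∈ AA z g Qg ∧ M.pi b = mkC a := by
  unfold PP
  rw [mem_comap, mem_map]
  constructor
  · rintro ⟨b, hb, e⟩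
    rw [mem_subgroupOf] at hb
    exact ⟨b, hb, e⟩
  · rintro ⟨b, hb, e⟩
    exact ⟨b, by rw [mem_subgroupOf]; exact hb, e⟩

omit hne in
theorem map_PP : (M.PP g).map mkC = ((AA z g Qg).subgroupOf (centralizer ({z} : Set G))).map M.pi := by
  unfold PP
  exact map_comap_eq_self_of_surjective (QuotientGroup.mk'_surjective _) _

include hne hg

/-- The counting argument. -/
theorem card_AA_le : Nat.card ↥(AA z g Qg) ≤
    Nat.card ↥(Qg ⊓ Cj g Qg) * Nat.card ((M.PP g).map mkC) := by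
  rw [map_PP]
  haveI : Finite Qg := Nat.finite_of_card_ne_zero (by rw [M.card_Q]; norm_num)
  let A' := (AA z g Qg).subgroupOf (centralizer ({z} : Set G))
  have hcA : Nat.card A' = Nat.card ↥(AA z g Qg) :=
    Nat.card_congr (subgroupOfEquivOfLe inf_le_right).toEquiv
  let f : A' →* Spor.Co1 := M.pi.comp A'.subtype
  have hrange : f.range = A'.map M.pi := by
    ext y
    constructor
    · rintro ⟨a, rfl⟩
      exact ⟨a.1, a.2, rfl⟩
    · rintro ⟨a, ha, rfl⟩
      exact ⟨⟨a, ha⟩, rfl⟩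
  have h1 := Subgroup.card_mul_index f.ker
  rw [Subgroup.index_ker, hrange, hcA] at h1
  rw [← h1]
  apply Nat.mul_le_mul_right
  haveI : Finite ↥(Qg ⊓ Cj g Qg) :=
    Finite.of_injective _ (Subgroup.inclusion_injective (inf_le_left : Qg ⊓ Cj g Qg ≤ Qg))
  apply Nat.card_le_card_of_injective
    (fun x : f.ker => (⟨(((x : A') : ↥(centralizer ({z} : Set G))) : G), ?_, ?_⟩ : ↥(Qg ⊓ Cj g Qg)))
  · intro a b h
    apply Subtype.ext
    apply Subtype.ext
    apply Subtype.ext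
    have := congrArg Subtype.val h
    exact this
  · have := x.2
    rw [MonoidHom.mem_ker] at this
    exact (M.pi_ker _).1 this
  · have := (x : A').2
    rw [mem_subgroupOf] at this
    exact this.1

/-- The properties of `PP` required by the `Leech` lemmas. -/
theorem PP_neg : negCo0 ∈ M.PP g := by
  rw [mem_PP]
  exact ⟨1, one_mem _, by rw [map_one, mkC_neg]⟩

theorem PP_two {a : Co0} (ha : a ∈ M.PP g) : ∃ k : ℕ, a ^ (2 ^ k) = 1 ∨ a ^ (2 ^ k) = negCo0 := by
  obtain ⟨b, hb, e⟩ := (M.mem_PP).1 ha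
  have hp : IsPGroup 2 ↥(Cj g Qg) := M.E.1.1.map _
  obtain ⟨k, hk⟩ := hp ⟨b, hb.1⟩
  refine ⟨k, ?_⟩
  rw [← mkC_eq_one_iff, map_pow, ← e, ← map_pow]
  have h1 : b ^ (2 ^ k) = 1 := by
    apply Subtype.ext
    have := congrArg Subtype.val hk
    simpa using this
  rw [h1, map_one]

variable {v : leechLattice}

theorem PP_fix (hv : M.Rel v (g * z * g⁻¹)) {a : Co0} (ha : a ∈ M.PP g) : cl (a • v) = cl v := by
  obtain ⟨b, hb, e⟩ := (M.mem_PP).1 ha
  have h1 := M.rel_act b a e.symm hv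
  have h2 := M.R_comm hb.1
  have h3 : (b : G) * (g * z * g⁻¹) * (b : G)⁻¹ = g * z * g⁻¹ := by
    rw [h2]; group
  rw [h3] at h1
  exact M.rel_inj h1 hv

theorem PP_conj (hv : M.Rel v (g * z * g⁻¹)) {u : Co0} (hu : cl (u • v) = cl v) {a : Co0} (ha : a ∈ M.PP g) :
    u * a * u⁻¹ ∈ M.PP g := by
  set s := g * z * g⁻¹ with hs
  -- an element above `u` centralising `s`
  have hs1 : s ≠ 1 := by
    intro h
    apply M.L.z_ne
    have : z = g⁻¹ * s * g := by rw [hs]; group
    rw [this, h]; group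
  have hsC : ∃ h : ↥(centralizer ({z} : Set G)), M.pi h = mkC u ∧ (h : G) * s = s * h := by
    obtain ⟨h0, hh0⟩ := M.pi_surj (mkC u)
    have h1 := M.rel_act h0 u hh0.symm hv
    have h2 := M.rel_of_cl h1 hu
    rcases M.rel_same hv h2 with h3 | h3
    · refine ⟨h0, hh0, ?_⟩
      calc (h0 : G) * s = (h0 : G) * s * (h0 : G)⁻¹ * h0 := by group
        _ = s * h0 := by rw [h3]
    · obtain ⟨t, ht, hts⟩ := M.L.exists_noncomm hg hs1 hne
      have htc : t ∈ centralizer ({z} : Set G) := mem_centralizer_singleton_iff.2 (M.L.z_comm t ht)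
      refine ⟨⟨t, htc⟩ * h0, ?_, ?_⟩
      · rw [map_mul, (M.pi_ker _).2 ht, one_mul, hh0]
      · show t * (h0 : G) * s = s * (t * (h0 : G))
        have hzt := M.L.z_comm t ht
        have hzs := M.L.z_comm s hg
        calc t * (h0 : G) * s = t * ((h0 : G) * s * (h0 : G)⁻¹) * h0 := by group
          _ = t * (z * s) * h0 := by rw [h3]
          _ = (t * z) * s * h0 := by group
          _ = z * (t * s) * h0 := by rw [hzt]; group
          _ = z * (z * (s * t)) * h0 := by rw [hts]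
          _ = (z * z) * (s * t) * h0 := by group
          _ = s * (t * h0) := by rw [M.L.z_sq]; group
  obtain ⟨h, hh, hhs⟩ := hsC
  obtain ⟨b, hb, e⟩ := (M.mem_PP).1 ha
  rw [mem_PP]
  refine ⟨h * b * h⁻¹, ⟨M.R_conj hhs hb.1, ?_⟩, ?_⟩
  · exact (h * b * h⁻¹).2
  · rw [map_mul, map_mul, map_mul, map_mul, hh, e, map_inv, map_inv, hh]

end conj

/-! ### Conjugates of `z` in `Q` -/

section conj2

variable {g : G} (hg : g * z * g⁻¹ ∈ Qg) (hne : g * z * g⁻¹ ≠ z)

include M hg hne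

theorem not_type2 {v : leechLattice} (hv : M.Rel v (g * z * g⁻¹)) : sqNorm (v : V) ≠ 32 := by
  intro h32
  have h1 := center_of_norm32 h32 (M.PP g) (M.PP_neg hg hne) (fun a ha => M.PP_fix hg hne hv ha)
    (fun u hu a ha => M.PP_conj hg hne hv hu ha) (fun a ha => M.PP_two hg hne ha)
  have hle : AA z g Qg ≤ Qg ⊓ Cj g Qg := by
    intro b hb
    refine ⟨?_, hb.1⟩
    have h2 : (⟨b, hb.2⟩ : ↥(centralizer ({z} : Set G))) ∈
        ((AA z g Qg).subgroupOf (centralizer ({z} : Set G))) := by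
      rw [mem_subgroupOf]; exact hb
    obtain ⟨a, ha⟩ := QuotientGroup.mk'_surjective (center Co0) (M.pi ⟨b, hb.2⟩)
    have h3 : a ∈ M.PP g := (M.mem_PP).2 ⟨⟨b, hb.2⟩, hb, ha.symm⟩
    have h4 := (mkC_eq_one_iff a).2 (h1 a h3)
    have h5 : M.pi ⟨b, hb.2⟩ = 1 := by rw [← ha]; exact h4
    exact (M.pi_ker _).1 h5
  have h2 := M.card_AA hg hne
  have h3 := M.card_inter_le hne
  haveI : Finite Qg := Nat.finite_of_card_ne_zero (by rw [M.card_Q]; norm_num)
  haveI : Finite ↥(Qg ⊓ Cj g Qg) :=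
    Finite.of_injective _ (Subgroup.inclusion_injective (inf_le_left : Qg ⊓ Cj g Qg ≤ Qg))
  have h4 := Subgroup.card_le_of_le hle
  omega

theorem conj_sq : (g * z * g⁻¹) * (g * z * g⁻¹) = 1 := by
  calc (g * z * g⁻¹) * (g * z * g⁻¹) = g * (z * z) * g⁻¹ := by group
    _ = 1 := by rw [M.L.z_sq]; group

theorem conj_ne_one : g * z * g⁻¹ ≠ 1 := by
  intro h
  apply M.L.z_ne
  have : z = g⁻¹ * (g * z * g⁻¹) * g := by group
  rw [this, h]; group

/-- A conjugate of `z` in `Q` different from `z` is of type `4`. -/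
theorem type_four : ∃ v : leechLattice, M.Rel v (g * z * g⁻¹) ∧ sqNorm (v : V) = 64 := by
  obtain ⟨v0, hv0⟩ := M.rel_surj _ hg
  obtain ⟨v, hv, hn⟩ := M.exists_short_rel hv0 (M.conj_ne_one hg hne) hne
  refine ⟨v, hv, ?_⟩
  rcases hn with hn | hn | hn
  · exact absurd hn (M.not_type2 hg hne hv)
  · exfalso
    have := (M.sq_iff hv).1 (M.conj_sq hg hne)
    rw [hn] at this
    revert this
    decide
  · exact hn

/-- The order of `Q ∩ Q ^ g`. -/
theorem card_inter : Nat.card ↥(Qg ⊓ Cj g Qg) = 2 ^ 13 := by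
  obtain ⟨v, hv, hn⟩ := M.type_four hg hne
  have h1 := card_map_of_norm64 hn (M.PP g) (fun a ha => M.PP_fix hg hne hv ha)
    (fun u hu a ha => M.PP_conj hg hne hv hu ha) (fun a ha => M.PP_two hg hne ha)
  have h2 := M.card_AA_le hg hne
  have h3 := M.card_AA hg hne
  have h4 := M.card_inter_le hne
  apply le_antisymm h4
  by_contra hlt
  push Not at hlt
  have h5 : Nat.card ↥(Qg ⊓ Cj g Qg) * Nat.card ((M.PP g).map mkC) ≤ (2 ^ 13 - 1) * 2048 :=
    Nat.mul_le_mul (by omega) h1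
  omega

end conj2

section final

variable {g₀ : G} (hg₀ : g₀ * z * g₀⁻¹ ∈ Qg) (hne₀ : g₀ * z * g₀⁻¹ ≠ z)

include M hg₀ hne₀

/-- A lift of a vector of norm `64` is a conjugate of `z`. -/
theorem conj_of_type_four {v : leechLattice} {x : G} (hx : M.Rel v x) (hv : sqNorm (v : V) = 64) :
    IsConj z x ∧ x ≠ z := by
  obtain ⟨v', hv', hn'⟩ := M.type_four hg₀ hne₀
  obtain ⟨u, hu⟩ := co0_transitive_64 v' v hn' hv
  rw [← hu] at hx
  obtain ⟨h, -, e⟩ := M.exists_conj hv' hx (M.conj_ne_one hg₀ hne₀) hne₀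
  have hzc : (h : G) * z = z * h := mem_centralizer_singleton_iff.1 h.2
  constructor
  · rw [isConj_iff]
    refine ⟨(h : G) * g₀, ?_⟩
    rw [← e]
    group
  · rw [← e]
    intro h1
    apply hne₀
    have : g₀ * z * g₀⁻¹ = (h : G)⁻¹ * ((h : G) * (g₀ * z * g₀⁻¹) * (h : G)⁻¹) * h := by group
    rw [this, h1]
    calc (h : G)⁻¹ * z * h = (h : G)⁻¹ * (z * h) := by group
      _ = (h : G)⁻¹ * (h * z) := by rw [hzc]
      _ = z := by group

end final

/-- Conjugates of `z` in `Q` are one orbit. -/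
theorem trans_conj {s t g g' : G} (hs : s = g * z * g⁻¹) (ht : t = g' * z * g'⁻¹) (hsQ : s ∈ Qg) (htQ : t ∈ Qg)
    (hs1 : s ≠ z) (ht1 : t ≠ z) : ∃ h : ↥(centralizer ({z} : Set G)), (h : G) * s * (h : G)⁻¹ = t := by
  subst hs ht
  obtain ⟨v, hv, hn⟩ := M.type_four hsQ hs1
  obtain ⟨w, hw, hn'⟩ := M.type_four htQ ht1
  obtain ⟨u, hu⟩ := co0_transitive_64 v w hn hn'
  rw [← hu] at hw
  obtain ⟨h, -, e⟩ := M.exists_conj hv hw (M.conj_ne_one hsQ hs1) hs1
  exact ⟨h, e⟩

/-- Involutions in `Q` not conjugate to `z` are one orbit, given the existence of a conjugate. -/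
theorem trans_nonconj {g₀ : G} (hg₀ : g₀ * z * g₀⁻¹ ∈ Qg) (hne₀ : g₀ * z * g₀⁻¹ ≠ z) {s t : G}
    (hsQ : s ∈ Qg) (htQ : t ∈ Qg) (hs2 : s * s = 1) (ht2 : t * t = 1) (hs1 : s ≠ 1) (ht1 : t ≠ 1)
    (hs : ¬ IsConj z s) (ht : ¬ IsConj z t) :
    ∃ h : ↥(centralizer ({z} : Set G)), (h : G) * s * (h : G)⁻¹ = t := by
  have key : ∀ {s : G}, s ∈ Qg → s * s = 1 → s ≠ 1 → ¬ IsConj z s →
      ∃ v : leechLattice, M.Rel v s ∧ sqNorm (v : V) = 32 := by
    intro s hsQ hs2 hs1 hs
    have hsz : s ≠ z := by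
      rintro rfl
      exact hs (IsConj.refl _)
    obtain ⟨v0, hv0⟩ := M.rel_surj _ hsQ
    obtain ⟨v, hv, hn⟩ := M.exists_short_rel hv0 hs1 hsz
    refine ⟨v, hv, ?_⟩
    rcases hn with hn | hn | hn
    · exact hn
    · exfalso
      have := (M.sq_iff hv).1 hs2
      rw [hn] at this
      revert this
      decide
    · exact absurd (M.conj_of_type_four hg₀ hne₀ hv hn).1 hs
  obtain ⟨v, hv, hn⟩ := key hsQ hs2 hs1 hs
  obtain ⟨w, hw, hn'⟩ := key htQ ht2 ht1 ht
  obtain ⟨u, hu⟩ := Cfsg.Agent.Lib.Sporadic.LeechMin.co0_transitive_min v w hn hn'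
  rw [← hu] at hw
  have hsz : s ≠ z := by
    rintro rfl
    exact hs (IsConj.refl _)
  obtain ⟨h, -, e⟩ := M.exists_conj hv hw hs1 hsz
  exact ⟨h, e⟩

end MModel

end Cfsg.Agent.Lib.Sporadic.MonsterModel
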