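import Mathlib
import Cfsg.Agent.Lib.Sporadic.MonsterLocal
import Cfsg.Agent.S5422

/-!
# The model attached to a group of Monster type
-/

set_option autoImplicit false

namespace Cfsg.Agent.Lib.Sporadic.MonsterModel

open Subgroup Cfsg Cfsg.Agent.Lib.PGroup.LargeExtraspecial Cfsg.Agent.Lib.PGroup.FStarCentralizer
  Cfsg.Agent.Lib.PGroup.LargeFz
  Cfsg.Agent.Lib.Sporadic.LeechNorm Cfsg.Agent.Lib.Sporadic.LeechFacts
  Cfsg.Agent.Lib.Sporadic.LeechAut Cfsg.Agent.Lib.Sporadic.LeechClasses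
  Cfsg.Agent.Lib.Sporadic.LeechAct Cfsg.Agent.Lib.Sporadic.LeechMod2
  Cfsg.Agent.Lib.Sporadic.LeechLocal

variable {G : Type*} [Group G] [Finite G] {z : G} {Q : Subgroup ↥(centralizer ({z} : Set G))} [hQ : Q.Normal]

/-- The image of `Q` in `G`. -/
abbrev QG (Q : Subgroup ↥(centralizer ({z} : Set G))) : Subgroup G := Q.map (centralizer ({z} : Set G)).subtype

omit [Finite G] hQ in
theorem mem_QG {x : G} : x ∈ QG Q ↔ ∃ h : x ∈ centralizer ({z} : Set G), (⟨x, h⟩ : ↥(centralizer ({z} : Set G))) ∈ Q := by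
  constructor
  · rintro ⟨y, hy, rfl⟩
    exact ⟨y.2, hy⟩
  · rintro ⟨h, hx⟩
    exact ⟨_, hx, rfl⟩

omit [Finite G] hQ in
theorem fz_eq (hF : generalizedFittingSubgroup ↥(centralizer ({z} : Set G)) = Q) : fz z = QG Q := by
  unfold fz
  rw [hF]

omit hQ in
theorem large_QG (hz : orderOf z = 2) (hF : generalizedFittingSubgroup ↥(centralizer ({z} : Set G)) = Q)
    (hE : IsExtraspecial 2 ↥Q) : Large (QG Q) z := by
  have := large_fz hz (by rw [hF]; exact hE)
  rwa [fz_eq hF] at this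

omit [Finite G] hQ in
theorem extra_QG (hE : IsExtraspecial 2 ↥Q) : IsExtraspecial 2 ↥(QG Q) :=
  isExtraspecial_of_equiv (Q.equivMapOfInjective _ (centralizer ({z} : Set G)).subtype_injective) hE

omit [Finite G] hQ in
theorem card_QG : Nat.card (QG Q) = Nat.card Q :=
  Nat.card_congr (Q.equivMapOfInjective _ (centralizer ({z} : Set G)).subtype_injective).symm.toEquiv

omit [Finite G] in
theorem conj_QG {c y : G} (hc : c * z = z * c) (hy : y ∈ QG Q) : c * y * c⁻¹ ∈ QG Q := by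
  obtain ⟨y', hy', rfl⟩ := hy
  have hc' : c ∈ centralizer ({z} : Set G) := mem_centralizer_singleton_iff.mpr hc
  exact ⟨⟨c, hc'⟩ * y' * ⟨c, hc'⟩⁻¹, hQ.conj_mem y' hy' ⟨c, hc'⟩, by simp⟩

omit hQ in
theorem sym_QG (hz : orderOf z = 2) (hF : generalizedFittingSubgroup ↥(centralizer ({z} : Set G)) = Q)
    (hE : IsExtraspecial 2 ↥Q) (hcard : Nat.card ↥Q = 2 ^ (2 * 12 + 1)) (g : G) (hg : g * z * g⁻¹ ∈ QG Q)
    (hne : g * z * g⁻¹ ≠ z) : g⁻¹ * z * g ∈ QG Q := by
  have L := large_QG hz hF hE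
  rw [← fz_eq hF] at hg ⊢
  have L' : Large (fz z) z := by rwa [fz_eq hF]
  have hE' : IsExtraspecial 2 ↥(fz z) := by
    rw [fz_eq hF]
    exact extra_QG hE
  have hc' : Nat.card ↥(fz z) = 2 ^ (2 * 12 + 1) := by
    rw [fz_eq hF, card_QG, hcard]
  have h1 := (Cfsg.Agent.S5422.result (fz z) hE' (centralizer_eq L') centralizer_center_le_normalizer 12
    (by norm_num) hc' g ?_ ?_).1
  · have hzz : z ∈ (center ↥(fz z)).map (fz z).subtype := by
      rw [center_map_eq L']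
      exact mem_zpowers z
    obtain ⟨y, hy, e⟩ := h1 hzz
    have : g⁻¹ * z * g = y := by
      rw [← e]
      simp [mul_assoc]
    rw [this]
    exact hy
  · intro hg1
    apply hne
    rw [center_map_eq L'] at hg1
    have h1 := (mem_normalizer_iff.1 hg1 z).1 (mem_zpowers z)
    rcases (mem_zpowers_iff_invol L'.z_sq).1 h1 with h2 | h2
    · exfalso
      apply L'.z_ne
      have : z = g⁻¹ * (g * z * g⁻¹) * g := by group
      rw [this, h2]; group
    · exact h2
  · rw [center_map_eq L']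
    rw [MonoidHom.map_zpowers, zpowers_le]
    exact hg

omit [Finite G] hQ in
theorem mem_center_iff_coe (L : Large (QG Q) z) (q : ↥Q) :
    q ∈ center ↥Q ↔ ((q : ↥(centralizer ({z} : Set G))) : G) = 1 ∨ ((q : ↥(centralizer ({z} : Set G))) : G) = z := by
  constructor
  · intro h
    apply L.center _ ⟨_, q.2, rfl⟩
    rintro _ ⟨y, hy, rfl⟩
    have := Subgroup.mem_center_iff.1 h ⟨y, hy⟩
    exact congrArg (fun t : ↥Q => ((t : ↥(centralizer ({z} : Set G))) : G)) this
  · rintro (h | h)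
    · have : q = 1 := Subtype.ext (Subtype.ext h)
      rw [this]
      exact one_mem _
    · rw [Subgroup.mem_center_iff]
      rintro ⟨y, hy⟩
      apply Subtype.ext
      apply Subtype.ext
      show (y : G) * _ = _ * (y : G)
      rw [h]
      exact L.z_comm _ ⟨y, hy, rfl⟩

/-- The model of a group of Monster type. -/
noncomputable def ofMonster (hset : IsExtraspecialCentralizerSetting z Q 12)
    {e : ↥(centralizer ({z} : Set G)) ⧸ Q ≃* Spor.Co1} {ψ : leechLattice → ↥Q ⧸ center ↥Q}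
    (hψ : IsLeechModTwoIso Q e ψ) : MModel z (QG Q) where
  L := large_QG hset.1 hset.2.1 hset.2.2.1
  E := extra_QG hset.2.2.1
  card_Q := by rw [card_QG, hset.2.2.2.1]
  conj_Q := fun c y hc hy => conj_QG hc hy
  sym := sym_QG hset.1 hset.2.1 hset.2.2.1 hset.2.2.2.1
  pi := e.toMonoidHom.comp (QuotientGroup.mk' Q)
  pi_surj := e.surjective.comp (QuotientGroup.mk'_surjective Q)
  pi_ker := by
    intro x
    show e (QuotientGroup.mk x) = 1 ↔ _
    rw [map_eq_one_iff e e.injective, QuotientGroup.eq_one_iff]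
    constructor
    · intro h
      exact ⟨x, h, rfl⟩
    · rintro ⟨y, hy, e1⟩
      have : y = x := Subtype.ext e1
      rwa [← this]
  Rel := fun v x => ∃ q : ↥Q, ((q : ↥(centralizer ({z} : Set G))) : G) = x ∧ ψ v = QuotientGroup.mk q
  rel_mem := by
    rintro v x ⟨q, rfl, -⟩
    exact ⟨q, q.2, rfl⟩
  rel_exists := by
    intro v
    obtain ⟨q, hq⟩ := QuotientGroup.mk_surjective (ψ v)
    exact ⟨_, q, rfl, hq.symm⟩
  rel_surj := by
    rintro x ⟨y, hy, rfl⟩
    obtain ⟨v, hv⟩ := hψ.2.1 (QuotientGroup.mk (⟨y, hy⟩ : ↥Q))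
    exact ⟨v, ⟨y, hy⟩, rfl, hv⟩
  rel_add := by
    rintro v w x y ⟨q, rfl, hq⟩ ⟨q', rfl, hq'⟩
    refine ⟨q * q', rfl, ?_⟩
    rw [hψ.1, hq, hq']
    rfl
  rel_same := by
    rintro v x y ⟨q, rfl, hq⟩ ⟨q', rfl, hq'⟩
    have L := large_QG hset.1 hset.2.1 hset.2.2.1
    have h1 : (QuotientGroup.mk q : ↥Q ⧸ center ↥Q) = QuotientGroup.mk q' := hq.symm.trans hq'
    rw [QuotientGroup.eq] at h1
    rcases (mem_center_iff_coe L _).1 h1 with h2 | h2
    · left
      have h3 : ((q : ↥(centralizer ({z} : Set G))) : G)⁻¹ * ((q' : ↥(centralizer ({z} : Set G))) : G) = 1 := h2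
      exact (inv_mul_eq_one.1 h3).symm
    · right
      have h3 : ((q : ↥(centralizer ({z} : Set G))) : G)⁻¹ * ((q' : ↥(centralizer ({z} : Set G))) : G) = z := h2
      have h4 := L.z_comm _ (⟨q, q.2, rfl⟩ : ((q : ↥(centralizer ({z} : Set G))) : G) ∈ QG Q)
      have h5 : ((q' : ↥(centralizer ({z} : Set G))) : G) =
          ((q : ↥(centralizer ({z} : Set G))) : G) * z := by
        have h6 := congrArg (fun t => ((q : ↥(centralizer ({z} : Set G))) : G) * t) h3
        simpa using h6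
      rw [h5, h4]
  rel_z := by
    rintro v x ⟨q, rfl, hq⟩
    have L := large_QG hset.1 hset.2.1 hset.2.2.1
    obtain ⟨y, hy, hyz⟩ := L.z_mem
    have hc : (⟨y, hy⟩ : ↥Q) ∈ center ↥Q := (mem_center_iff_coe L _).2 (Or.inr hyz)
    refine ⟨⟨y, hy⟩ * q, ?_, ?_⟩
    · show (y : G) * _ = _
      have hyz' : (y : G) = z := hyz
      rw [hyz']
    · rw [hq]
      rw [QuotientGroup.eq]
      have : q⁻¹ * ((⟨y, hy⟩ : ↥Q) * q) = (⟨y, hy⟩ : ↥Q) := by
        have h1 := Subgroup.mem_center_iff.1 hc q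
        rw [← h1]
        group
      rw [this]
      exact hc
  rel_inj := by
    rintro v w x ⟨q, rfl, hq⟩ ⟨q', hqq, hq'⟩
    have hqe : q' = q := Subtype.ext (Subtype.ext hqq)
    subst hqe
    have h0 : ψ 0 = 1 := (hψ.2.2.1 0).2 ⟨0, by simp⟩
    have h1 : ψ (-w) = (ψ w)⁻¹ := by
      have := hψ.1 w (-w)
      rw [add_neg_cancel, h0] at this
      exact (inv_eq_of_mul_eq_one_right this.symm).symm
    have h2 : ψ (v + -w) = 1 := by
      rw [hψ.1, h1, hq, hq', mul_inv_cancel]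
    obtain ⟨u, hu⟩ := (hψ.2.2.1 _).1 h2
    rw [cl_eq_iff]
    refine ⟨u, u.2, ?_⟩
    have := congrArg (fun t : leechLattice => (t : V)) hu
    simp only [AddSubgroup.coe_add, NegMemClass.coe_neg] at this
    rw [sub_eq_add_neg, this, two_nsmul]
  rel_two := by
    rintro v x ⟨q, rfl, hq⟩
    have L := large_QG hset.1 hset.2.1 hset.2.2.1
    rw [← mem_center_iff_coe L, ← QuotientGroup.eq_one_iff, ← hq, hψ.2.2.1, cl_eq_iff]
    constructor
    · rintro ⟨w, rfl⟩
      refine ⟨w, w.2, ?_⟩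
      rw [two_nsmul]
      simp
    · rintro ⟨u, hu, e1⟩
      refine ⟨⟨u, hu⟩, ?_⟩
      apply Subtype.ext
      simp only [AddSubgroup.coe_add]
      rw [← two_nsmul, ← e1]
      simp
  rel_act := by
    rintro h g v x hh ⟨q, rfl, hq⟩
    exact ⟨_, rfl, hψ.2.2.2 h g hh v q hq⟩

omit hQ in
theorem rel_of_ofMonster [Q.Normal] (hset : IsExtraspecialCentralizerSetting z Q 12)
    {e : ↥(centralizer ({z} : Set G)) ⧸ Q ≃* Spor.Co1} {ψ : leechLattice → ↥Q ⧸ center ↥Q}
    (hψ : IsLeechModTwoIso Q e ψ) {v : leechLattice} {x : G} :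
    (ofMonster hset hψ).Rel v x ↔
      ∃ q : ↥Q, ((q : ↥(centralizer ({z} : Set G))) : G) = x ∧ ψ v = QuotientGroup.mk q := Iff.rfl

omit [Finite G] in
theorem inv_two {x : G} (h : orderOf x = 2) : x * x = 1 ∧ x ≠ 1 := by
  constructor
  · rw [← pow_two, ← h, pow_orderOf_eq_one]
  · rintro rfl
    simp at h

end Cfsg.Agent.Lib.Sporadic.MonsterModel
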