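import Mathlib
import Cfsg.Agent.Lib.Sporadic.MonsterInst

/-!
# The image of the centraliser of a conjugate of `z`
-/

set_option autoImplicit false

namespace Cfsg.Agent.Lib.Sporadic.MonsterModel

open Subgroup Cfsg Cfsg.Agent.Lib.PGroup.LargeExtraspecial
  Cfsg.Agent.Lib.Sporadic.GolayCore
  Cfsg.Agent.Lib.Sporadic.LeechNorm Cfsg.Agent.Lib.Sporadic.LeechFacts
  Cfsg.Agent.Lib.Sporadic.LeechAut Cfsg.Agent.Lib.Sporadic.LeechClasses
  Cfsg.Agent.Lib.Sporadic.LeechAct Cfsg.Agent.Lib.Sporadic.LeechMod2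
  Cfsg.Agent.Lib.Sporadic.LeechLocal Cfsg.Agent.Lib.Sporadic.LeechOrbits

variable {G : Type*} [Group G]

namespace MModel

variable {z : G} {Qg : Subgroup G} (M : MModel z Qg) {g : G}

/-- The image of the centraliser of `s`. -/
noncomputable def Xb (M : MModel z Qg) (s : G) : Subgroup Spor.Co1 :=
  ((centralizer ({z} : Set G) ⊓ centralizer ({s} : Set G)).subgroupOf (centralizer ({z} : Set G))).map M.pi

/-- The image of `C_R(z)`. -/
noncomputable def Eb (M : MModel z Qg) (g : G) : Subgroup Spor.Co1 :=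
  ((AA z g Qg).subgroupOf (centralizer ({z} : Set G))).map M.pi

theorem mem_Xb {s y : G} {x : Spor.Co1} : x ∈ M.Xb s ↔ ∃ h : ↥(centralizer ({z} : Set G)), (h : G) * s = s * h ∧ M.pi h = x := by
  unfold Xb
  rw [mem_map]
  constructor
  · rintro ⟨h, hh, e⟩
    rw [mem_subgroupOf] at hh
    exact ⟨h, mem_centralizer_singleton_iff.1 hh.2, e⟩
  · rintro ⟨h, hh, e⟩
    refine ⟨h, ?_, e⟩
    rw [mem_subgroupOf]
    exact ⟨h.2, mem_centralizer_singleton_iff.2 hh⟩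

theorem mem_Eb {x : Spor.Co1} : x ∈ M.Eb g ↔ ∃ b : ↥(centralizer ({z} : Set G)), (b : G) ∈ AA z g Qg ∧ M.pi b = x := by
  unfold Eb
  rw [mem_map]
  constructor
  · rintro ⟨h, hh, e⟩
    rw [mem_subgroupOf] at hh
    exact ⟨h, hh, e⟩
  · rintro ⟨h, hh, e⟩
    exact ⟨h, by rw [mem_subgroupOf]; exact hh, e⟩

theorem Eb_eq : M.Eb g = (M.PP g).map mkC := (M.map_PP).symm

variable (hg : g * z * g⁻¹ ∈ Qg) (hne : g * z * g⁻¹ ≠ z)

include hg hne

theorem Eb_le_Xb : M.Eb g ≤ M.Xb (g * z * g⁻¹) := by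
  intro x hx
  obtain ⟨b, hb, e⟩ := (M.mem_Eb).1 hx
  exact (M.mem_Xb (y := z)).2 ⟨b, M.R_comm hb.1, e⟩

theorem Eb_normal {x y : Spor.Co1} (hx : x ∈ M.Xb (g * z * g⁻¹)) (hy : y ∈ M.Eb g) : x * y * x⁻¹ ∈ M.Eb g := by
  obtain ⟨h, hh, rfl⟩ := (M.mem_Xb (y := z)).1 hx
  obtain ⟨b, hb, rfl⟩ := (M.mem_Eb).1 hy
  refine (M.mem_Eb).2 ⟨h * b * h⁻¹, ⟨M.R_conj hh hb.1, (h * b * h⁻¹).2⟩, ?_⟩
  simp

theorem card_Eb : Nat.card (M.Eb g) = 2 ^ 11 := by
  obtain ⟨v, hv, hn⟩ := M.type_four hg hne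
  have h1 := card_map_of_norm64 hn (M.PP g) (fun a ha => M.PP_fix hg hne hv ha)
    (fun u hu a ha => M.PP_conj hg hne hv hu ha) (fun a ha => M.PP_two hg hne ha)
  have h2 := M.card_AA_le hg hne
  have h3 := M.card_AA hg hne
  have h4 := M.card_inter hg hne
  rw [Eb_eq]
  rw [h4] at h2
  omega

/-- A lift to the centraliser of `s` of an element preserving the class of `s`. -/
theorem exists_lift {v : leechLattice} (hv : M.Rel v (g * z * g⁻¹)) {u : Co0} (hu : cl (u • v) = cl v) :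
    ∃ h : ↥(centralizer ({z} : Set G)), M.pi h = mkC u ∧ (h : G) * (g * z * g⁻¹) = (g * z * g⁻¹) * h := by
  set s := g * z * g⁻¹ with hs
  have hs1 : s ≠ 1 := M.conj_ne_one hg hne
  obtain ⟨h0, hh0⟩ := M.pi_surj (mkC u)
  have h1 := M.rel_act h0 u hh0.symm hv
  have h2 := M.rel_of_cl h1 hu
  rcases M.rel_same hv h2 with h3 | h3
  · refine ⟨h0, hh0, ?_⟩
    calc (h0 : G) * s = (h0 : G) * s * (h0 : G)⁻¹ * h0 := by group
      _ = s * h0 := by rw [h3]
  · obtain ⟨t, ht, hts⟩ := M.L.exists_noncomm hg hs1 hne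
    have htc : t ∈ centralizer ({z} : Set G) := mem_centralizer_singleton_iff.2 (M.L.z_comm t ht)
    refine ⟨⟨t, htc⟩ * h0, ?_, ?_⟩
    · rw [map_mul, (M.pi_ker _).2 ht, one_mul, hh0]
    · show t * (h0 : G) * s = s * (t * (h0 : G))
      have hzt := M.L.z_comm t ht
      calc t * (h0 : G) * s = t * ((h0 : G) * s * (h0 : G)⁻¹) * h0 := by group
        _ = t * (z * s) * h0 := by rw [h3]
        _ = (t * z) * s * h0 := by group
        _ = z * (t * s) * h0 := by rw [hzt]; group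
        _ = z * (z * (s * t)) * h0 := by rw [hts]
        _ = (z * z) * (s * t) * h0 := by group
        _ = s * (t * h0) := by rw [M.L.z_sq]; group

/-- The structure of the image of the centraliser of `s`. -/
theorem split : ∃ K : Subgroup Spor.Co1, K ≤ M.Xb (g * z * g⁻¹) ∧ M.Eb g ⊓ K = ⊥ ∧
    M.Eb g ⊔ K = M.Xb (g * z * g⁻¹) ∧ Nonempty (K ≃* M24) ∧ (∀ x ∈ M.Eb g, ∀ y ∈ M.Eb g, x * y = y * x) ∧
    ∀ x ∈ M.Eb g, x * x = 1 := by
  obtain ⟨v, hv, hn⟩ := M.type_four hg hne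
  obtain ⟨k, hk⟩ := co0_transitive_64 v v8 hn (norm_u8 none)
  have hle : M.Eb g ≤ Sb k := by
    rw [Eb_eq]
    exact le_Sb hk (M.PP g) (fun a ha => M.PP_fix hg hne hv ha)
      (fun u hu a ha => M.PP_conj hg hne hv hu ha) (fun a ha => M.PP_two hg hne ha)
  have hcS : Nat.card (Sb k) ≤ 2 ^ 11 := by
    rw [card_Sb]
    exact card_map_signSub
  have hEq : M.Eb g = Sb k := by
    haveI : Finite (Sb k) := Nat.finite_of_card_ne_zero (by
      have h := M.card_Eb hg hne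
      intro h0
      have h1 : Nat.card (M.Eb g) ≤ Nat.card (Sb k) := by
        haveI : Finite Spor.Co1 := inferInstance
        exact Subgroup.card_le_of_le hle
      omega)
    apply Subgroup.eq_of_le_of_card_ge hle
    rw [M.card_Eb hg hne]
    exact hcS
  -- membership of classes
  have hcl : ∀ u : Co0, k * u * k⁻¹ ∈ N → cl (u • v) = cl v := by
    intro u hu
    have h1 := mem_N_iff_v8.1 hu
    rw [← hk] at h1
    simp only [mul_smul, inv_smul_smul] at h1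
    have h2 := cl_smul_congr k⁻¹ h1
    simpa using h2
  have hcl' : ∀ u : Co0, cl (u • v) = cl v → k * u * k⁻¹ ∈ N := by
    intro u hu
    rw [mem_N_iff_v8]
    rw [← hk]
    simp only [mul_smul, inv_smul_smul]
    exact cl_smul_congr k hu
  have hX : ∀ x, x ∈ M.Xb (g * z * g⁻¹) ↔ ∃ u : Co0, cl (u • v) = cl v ∧ mkC u = x := by
    intro x
    constructor
    · intro hx
      obtain ⟨h, hh, rfl⟩ := (M.mem_Xb (y := z)).1 hx
      obtain ⟨u, hu⟩ := QuotientGroup.mk'_surjective (center Co0) (M.pi h)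
      refine ⟨u, ?_, hu⟩
      have h1 := M.rel_act h u hu hv
      have h3 : (h : G) * (g * z * g⁻¹) * (h : G)⁻¹ = g * z * g⁻¹ := by
        rw [hh]; group
      rw [h3] at h1
      exact M.rel_inj h1 hv
    · rintro ⟨u, hu, rfl⟩
      obtain ⟨h, hh, hh'⟩ := M.exists_lift hg hne hv hu
      exact (M.mem_Xb (y := z)).2 ⟨h, hh', hh⟩
  refine ⟨(rho k).range, ?_, ?_, ?_, ⟨(MonoidHom.ofInjective (rho_injective k)).symm⟩, ?_, ?_⟩
  · rintro _ ⟨σ, rfl⟩
    rw [hX]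
    refine ⟨_, hcl _ ?_, rfl⟩
    have e : k * (k⁻¹ * permCo0 σ.1 σ.2 * k) * k⁻¹ = permCo0 σ.1 σ.2 := by group
    rw [e]
    exact monom_mem_N (monom_perm σ)
  · rw [eq_bot_iff]
    rintro y ⟨hy1, ⟨σ, rfl⟩⟩
    rw [hEq] at hy1
    obtain ⟨a, ha, e⟩ := mem_Sb.1 hy1
    rw [rho_apply] at e
    have h1 : mkC (permCo0 σ.1 σ.2) = mkC a := by
      have key : ∀ c : Co0, mkC c = mkC k * mkC (k⁻¹ * c * k) * mkC k⁻¹ := by
        intro c
        rw [← map_mul, ← map_mul]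
        congr 1
        group
      rw [key (permCo0 σ.1 σ.2), key a, e]
    have h2 := perm_of_mkC ha h1
    subst h2
    rw [rho_apply]
    simp only [mem_bot]
    exact (rho k).map_one
  · apply le_antisymm
    · apply sup_le (M.Eb_le_Xb hg hne)
      rintro _ ⟨σ, rfl⟩
      rw [hX]
      refine ⟨_, hcl _ ?_, rfl⟩
      have e : k * (k⁻¹ * permCo0 σ.1 σ.2 * k) * k⁻¹ = permCo0 σ.1 σ.2 := by group
      rw [e]
      exact monom_mem_N (monom_perm σ)
    · intro x hx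
      obtain ⟨u, hu, rfl⟩ := (hX x).1 hx
      obtain ⟨s, hs, σ, e⟩ := exists_decomp (hcl' u hu)
      have e1 : u = (k⁻¹ * s * k) * (k⁻¹ * permCo0 σ.1 σ.2 * k) := by
        have : u = k⁻¹ * (k * u * k⁻¹) * k := by group
        rw [this, e]
        group
      rw [e1, map_mul]
      apply mul_mem
      · apply mem_sup_left
        rw [hEq]
        exact mem_Sb.2 ⟨s, hs, rfl⟩
      · apply mem_sup_right
        exact ⟨σ, rfl⟩
  · rw [hEq]
    exact fun x hx y hy => Sb_comm hx hy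
  · rw [hEq]
    exact fun x hx => Sb_sq hx

end MModel

/-- Transport of the structure along an isomorphism. -/
theorem transport_split {A B T : Type*} [Group A] [Group B] [Group T] (φ : A ≃* B) {X E : Subgroup A}
    (h1 : E.map φ.toMonoidHom ≤ X.map φ.toMonoidHom)
    (h2 : ∀ x ∈ X.map φ.toMonoidHom, ∀ y ∈ E.map φ.toMonoidHom, x * y * x⁻¹ ∈ E.map φ.toMonoidHom)
    (h3 : ∀ x ∈ E.map φ.toMonoidHom, ∀ y ∈ E.map φ.toMonoidHom, x * y = y * x)
    (h4 : ∀ x ∈ E.map φ.toMonoidHom, x * x = 1) {n : ℕ} (h5 : Nat.card (E.map φ.toMonoidHom) = n)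
    (h6 : ∃ K : Subgroup B, K ≤ X.map φ.toMonoidHom ∧ E.map φ.toMonoidHom ⊓ K = ⊥ ∧
      E.map φ.toMonoidHom ⊔ K = X.map φ.toMonoidHom ∧ Nonempty (K ≃* T)) :
    E ≤ X ∧ (∀ x ∈ X, ∀ y ∈ E, x * y * x⁻¹ ∈ E) ∧ Cfsg.IsElementaryAbelian 2 E ∧ Nat.card E = n ∧
      ∃ K : Subgroup A, K ≤ X ∧ E ⊓ K = ⊥ ∧ E ⊔ K = X ∧ Nonempty (K ≃* T) := by
  have hinj : Function.Injective φ.toMonoidHom := φ.injective
  have hm : ∀ {Y : Subgroup A} {y : A}, φ y ∈ Y.map φ.toMonoidHom ↔ y ∈ Y := by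
    intro Y y
    constructor
    · rintro ⟨w, hw, e⟩
      have : w = y := φ.injective e
      rwa [← this]
    · intro h
      exact ⟨y, h, rfl⟩
  refine ⟨(Subgroup.map_le_map_iff_of_injective hinj).1 h1, ?_, ⟨⟨⟨?_⟩⟩, ?_⟩, ?_, ?_⟩
  · intro x hx y hy
    rw [← hm]
    have := h2 (φ x) (hm.2 hx) (φ y) (hm.2 hy)
    simpa using this
  · rintro ⟨a, ha⟩ ⟨b, hb⟩
    apply Subtype.ext
    apply φ.injective
    have := h3 (φ a) (hm.2 ha) (φ b) (hm.2 hb)
    simpa using this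
  · intro a ha
    apply φ.injective
    have := h4 (φ a) (hm.2 ha)
    simpa [pow_two] using this
  · rw [← h5]
    exact Nat.card_congr (E.equivMapOfInjective _ hinj).toEquiv
  · obtain ⟨K, hK1, hK2, hK3, ⟨hK4⟩⟩ := h6
    have hKm : (K.map φ.symm.toMonoidHom).map φ.toMonoidHom = K := by
      rw [Subgroup.map_map]
      convert Subgroup.map_id K
      ext x
      simp
    refine ⟨K.map φ.symm.toMonoidHom, ?_, ?_, ?_, ?_⟩
    · apply (Subgroup.map_le_map_iff_of_injective hinj).1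
      rw [hKm]
      exact hK1
    · apply Subgroup.map_injective hinj
      rw [Subgroup.map_inf _ _ _ hinj, hKm, hK2]
      simp
    · apply Subgroup.map_injective hinj
      rw [Subgroup.map_sup, hKm, hK3]
    · refine ⟨?_⟩
      have e1 : ↥(K.map φ.symm.toMonoidHom) ≃* ↥((K.map φ.symm.toMonoidHom).map φ.toMonoidHom) :=
        (K.map φ.symm.toMonoidHom).equivMapOfInjective _ hinj
      rw [hKm] at e1
      exact e1.trans hK4

end Cfsg.Agent.Lib.Sporadic.MonsterModel
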