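import Mathlib
import Cfsg.Agent.Lib.Sporadic.MonsterSplit
import Cfsg.Agent.Lib.Sporadic.MonsterPlus
import Cfsg.Agent.Lib.PGroup.ExtraMk
import Cfsg.Agent.Lib.Components.FStar2
import Cfsg.Agent.Lib.Components.LocalFStar

/-!
# Involutions of `Q` which are not conjugate to `z`: preparations
-/

set_option autoImplicit false

namespace Cfsg.Agent.Lib.Sporadic.MonsterModel

open Subgroup Cfsg Cfsg.Agent.Lib.PGroup.LargeExtraspecial
  Cfsg.Agent.Lib.Sporadic.GolayCore
  Cfsg.Agent.Lib.Sporadic.LeechNorm Cfsg.Agent.Lib.Sporadic.LeechFacts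
  Cfsg.Agent.Lib.Sporadic.LeechAut Cfsg.Agent.Lib.Sporadic.LeechClasses
  Cfsg.Agent.Lib.Sporadic.LeechAct Cfsg.Agent.Lib.Sporadic.LeechMod2
  Cfsg.Agent.Lib.Sporadic.LeechLocal Cfsg.Agent.Lib.Sporadic.LeechOrbits
  Cfsg.Agent.Lib.Sporadic.LeechMat Cfsg.Agent.Lib.Sporadic.LeechMonomial

variable {G : Type*} [Group G]

/-- A recognition of the generalized Fitting subgroup. -/
theorem fstar_eq_ker {X Y : Type*} [Group X] [Finite X] [Group Y] (φ : X →* Y)
    (hφ : Function.Surjective φ) (hY : ∀ W : Subgroup Y, W.Normal → IsPGroup 2 W → W = ⊥)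
    (hQ : IsPGroup 2 φ.ker) (hC : IsPGroup 2 (centralizer (φ.ker : Set X))) :
    generalizedFittingSubgroup X = φ.ker := by
  haveI : Fact (Nat.Prime 2) := ⟨Nat.prime_two⟩
  have key : ∀ P : Subgroup X, P.Normal → IsPGroup 2 P → P ≤ φ.ker := by
    intro P hP h2
    have h1 : P.map φ = ⊥ := hY _ (hP.map φ hφ) (h2.map φ)
    rwa [Subgroup.map_eq_bot_iff] at h1
  have hCk : centralizer (φ.ker : Set X) ≤ φ.ker := key _ normal_centralizer hC
  have hKp : φ.ker ≤ Cfsg.pCore 2 X := Cfsg.Agent.Lib.Basic.PCore.le_pCore inferInstance hQ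
  have hKF : φ.ker ≤ fittingSubgroup X := hKp.trans (Cfsg.Agent.Lib.Basic.PCore.pCore_le_fittingSubgroup 2)
  have hF2 : IsPGroup 2 (fittingSubgroup X) := by
    apply Cfsg.Agent.Lib.Components.LocalFStar.isPGroup_of_forall_coprime 2
    intro x hx hc
    have h1 : x ∈ centralizer (φ.ker : Set X) := by
      rw [mem_centralizer_iff]
      intro u hu
      exact (Cfsg.Agent.Lib.Components.LocalFStar.commute_of_mem_generalizedFitting 2
        (Cfsg.Agent.Lib.Components.FStar.fitting_le_generalizedFitting hx) hc (hKp hu)).symm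
    exact Cfsg.Agent.Lib.Components.LocalFStar.eq_one_of_mem_of_isPGroup 2 hC h1 hc
  have hF : fittingSubgroup X ≤ φ.ker := key _ (Cfsg.Agent.Lib.Basic.PCore.fittingSubgroup_normal _) hF2
  apply le_antisymm
  · exact Cfsg.Agent.Lib.Components.FStar2.generalizedFitting_le_of_centralizer_le _ hF hCk
  · exact hKF.trans Cfsg.Agent.Lib.Components.FStar.fitting_le_generalizedFitting

/-! ### The second Conway group -/

/-- The inclusion of `Co2` in `Co0`. -/
def c2c0 : Spor.Co2 →* Co0 := Subgroup.inclusion (inf_le_left : Co0 ⊓ MulAction.stabilizer (Equiv.Perm leechLattice) Spor.leechU ≤ Co0)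

theorem c2c0_smul (g : Spor.Co2) (v : leechLattice) : c2c0 g • v = g • v := rfl

theorem c2c0_injective : Function.Injective c2c0 := Subgroup.inclusion_injective _

theorem c2c0_fix (g : Spor.Co2) : c2c0 g • Spor.leechU = Spor.leechU := g.2.2

/-- An element of `Co2` from an element of `Co0` fixing `u`. -/
def toCo2 (a : Co0) (h : a • Spor.leechU = Spor.leechU) : Spor.Co2 := ⟨a.1, a.2, h⟩

theorem c2c0_toCo2 (a : Co0) (h : a • Spor.leechU = Spor.leechU) : c2c0 (toCo2 a h) = a := rfl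

theorem sqNorm_leechU : sqNorm (Spor.leechU : V) = 32 := by
  show sqNorm Spor.vecU = 32
  decide +kernel

/-- The second Conway group has no nontrivial normal `2`-subgroup. -/
theorem co2_no_two (W : Subgroup Spor.Co2) (hW : W.Normal) (h2 : IsPGroup 2 W) : W = ⊥ := by
  have h1 : W.map c2c0 = ⊥ := by
    apply o2_min sqNorm_leechU
    · rintro _ ⟨g, -, rfl⟩
      exact c2c0_fix g
    · rintro u hu _ ⟨g, hg, rfl⟩
      refine ⟨toCo2 u hu * g * (toCo2 u hu)⁻¹, hW.conj_mem g hg _, ?_⟩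
      simp [c2c0_toCo2]
    · exact h2.map c2c0
  rw [map_eq_bot_iff_of_injective _ c2c0_injective] at h1
  exact h1

/-- `Co2` as a subgroup of `Co1`. -/
noncomputable def iota : Spor.Co2 →* Spor.Co1 := mkC.comp c2c0

theorem iota_apply (g : Spor.Co2) : iota g = mkC (c2c0 g) := rfl

theorem neg_ne_leechU : negCo0 • Spor.leechU ≠ Spor.leechU := by
  intro h
  apply neg_ne_self sqNorm_leechU
  conv_rhs => rw [← h]
  apply Subtype.ext
  rw [coe_negCo0_smul]
  rfl

theorem iota_injective : Function.Injective iota := by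
  rw [injective_iff_map_eq_one]
  intro g hg
  rcases (mkC_eq_one_iff _).1 hg with h | h
  · exact c2c0_injective (by rw [h, map_one])
  · exfalso
    apply neg_ne_leechU
    rw [← h]
    exact c2c0_fix g

theorem mem_iota_range {a : Co0} (h : cl (a • Spor.leechU) = cl Spor.leechU) : mkC a ∈ iota.range := by
  have h3 : sqNorm ((a • Spor.leechU : leechLattice) : V) = 32 := by rw [co0_sqNorm]; exact sqNorm_leechU
  rcases min_cl h3 sqNorm_leechU h with h4 | h4
  · exact ⟨toCo2 a h4, rfl⟩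
  · have h5 : (negCo0 * a) • Spor.leechU = Spor.leechU := by
      rw [negCo0_mul_smul, h4, neg_neg]
    refine ⟨toCo2 _ h5, ?_⟩
    show mkC (negCo0 * a) = mkC a
    rw [map_mul, mkC_neg, one_mul]

/-! ### Explicit vectors -/

def xBL : List ℤ := [2,0,2,0,2,2,2,0,0,0,2,2,0,0,0,0,0,0,0,0,0,0,0,2]

theorem xBL_ok : inLattice xBL = true := by decide +kernel

noncomputable def xB : leechLattice := ⟨vecOf xBL, inLattice_sound xBL_ok⟩

theorem xB_norm : sqNorm (xB : V) = 32 := by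
  show sqNorm (vecOf xBL) = 32
  decide +kernel

theorem xB_dot : (16 : ℤ) ∣ dotInt (xB : V) (v8 : V) := by
  show (16 : ℤ) ∣ dotInt (vecOf xBL) (Pi.single none 8)
  decide +kernel

theorem cB_mem : ofMask 3145329 ∈ supports (golayCode : Set (GolayPt → ZMod 2)) :=
  (ofMask_mem_supports_iff (by norm_num)).2 (by decide +kernel)

/-- The sign change. -/
noncomputable def eB : Co0 := signCo0 (ofMask 3145329) cB_mem

theorem xB_add_norm : sqNorm ((xB + eB • xB : leechLattice) : V) = 32 := by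
  show sqNorm (vecOf xBL + signChange (ofMask 3145329) (vecOf xBL)) = 32
  decide +kernel

theorem signCo0_mem (c : supports (golayCode : Set (GolayPt → ZMod 2))) : signCo0 c.1 c.2 ∈ signSub := by
  have h1 := (monom_monoElt 1 c).mul (monom_perm 1).inv
  have h2 : monoElt 1 c * (permCo0 (1 : M24).1 (1 : M24).2)⁻¹ = signCo0 c.1 c.2 := by
    show signCo0 c.1 c.2 * permCo0 (1 : M24).1 (1 : M24).2 * (permCo0 (1 : M24).1 (1 : M24).2)⁻¹ = _
    group
  rw [h2] at h1
  have h3 : (1 : M24).1 * (1 : M24).1⁻¹ = 1 := mul_inv_cancel _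
  rw [h3] at h1
  exact h1

namespace MModel

variable {z : G} {Qg : Subgroup G} (M : MModel z Qg)

theorem cc_eq_zero {x y : G} : cc x y = 0 ↔ x * y = y * x := by
  unfold cc
  by_cases h : x * y = y * x <;> simp [h]

theorem cc_eq_one {x y : G} : cc x y = 1 ↔ x * y ≠ y * x := by
  unfold cc
  by_cases h : x * y = y * x <;> simp [h]

theorem cc_symm (x y : G) : cc x y = cc y x := by
  unfold cc
  by_cases h : x * y = y * x
  · rw [if_pos h, if_pos h.symm]
  · rw [if_neg h, if_neg (fun h' => h h'.symm)]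

include M

/-- Commuting and the bilinear form. -/
theorem comm_iff {v w : leechLattice} {x y : G} (hx : M.Rel v x) (hy : M.Rel w y) :
    x * y = y * x ↔ (16 : ℤ) ∣ dotInt (v : V) (w : V) := by
  have h1 := M.qq_mul (M.rel_mem hx) (M.rel_mem hy)
  rw [← M.qf_eq (M.rel_add hx hy), ← M.qf_eq hx, ← M.qf_eq hy, M.qf_form, M.qf_form, M.qf_form] at h1
  obtain ⟨a, ha⟩ := sixteen_dvd _ v.2
  obtain ⟨b, hb⟩ := sixteen_dvd _ w.2
  obtain ⟨c, hc⟩ := eight_dvd_dot v.2 w.2
  have h2 : sqNorm ((v + w : leechLattice) : V) = 16 * (a + b + c) := by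
    have : ((v + w : leechLattice) : V) = (v : V) + w := rfl
    rw [this, sqNorm_add, ha, hb, hc]; ring
  rw [h2, ha, hb, Int.mul_ediv_cancel_left _ (by norm_num), Int.mul_ediv_cancel_left _ (by norm_num),
    Int.mul_ediv_cancel_left _ (by norm_num)] at h1
  push_cast at h1
  have key : ∀ A B C D : ZMod 2, A + B + C = D + A + B → D = C := by decide
  have h3 := key _ _ _ _ h1
  rw [hc, eq_comm, ← cc_eq_zero (x := y), h3]
  rw [ZMod.intCast_zmod_eq_zero_iff_dvd c 2]
  push_cast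
  omega

/-- The centre of `C_Q(t)`. -/
theorem center_Qt {t a : G} (ht : t ∈ Qg) (ht2 : t * t = 1) (ha : a ∈ Qg)
    (hc : ∀ b ∈ Qg, b * t = t * b → a * b = b * a) : a = 1 ∨ a = z ∨ a = t ∨ a = z * t := by
  by_cases hcen : ∀ x ∈ Qg, x * a = a * x
  · rcases M.L.center a ha hcen with h | h
    · exact Or.inl h
    · exact Or.inr (Or.inl h)
  · push Not at hcen
    obtain ⟨u, hu, hua⟩ := hcen
    have hut : u * t ≠ t * u := fun h => hua (hc u hu h).symm
    have key : ∀ x ∈ Qg, x * (a * t) = (a * t) * x := by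
      intro x hx
      have h0 : cc x (a * t) = 0 := by
        rw [M.cc_mul_right hx ha ht]
        have : cc x a = cc x t := by
          by_cases hxt : x * t = t * x
          · rw [cc_eq_zero.2 hxt, cc_eq_zero.2 (hc x hx hxt).symm]
          · have h1 : cc x t = 1 := cc_eq_one.2 hxt
            have h2 : cc t u = 1 := cc_eq_one.2 (Ne.symm hut)
            have h3 : cc t (u * x) = 0 := by
              rw [M.cc_mul_right ht hu hx, h2, cc_symm t x, h1]
              decide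
            have h4 := hc (u * x) (mul_mem hu hx) (cc_eq_zero.1 h3).symm
            have h5 : cc a (u * x) = 0 := cc_eq_zero.2 h4
            rw [M.cc_mul_right ha hu hx] at h5
            have h6 : cc a u = 1 := cc_eq_one.2 (Ne.symm hua)
            rw [h6] at h5
            rw [h1, cc_symm x a]
            have key2 : ∀ A : ZMod 2, 1 + A = 0 → A = 1 := by decide
            exact key2 _ h5
        rw [this]
        exact CharTwo.add_self_eq_zero _
      exact cc_eq_zero.1 h0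
    have htinv : t⁻¹ = t := inv_eq_of_mul_eq_one_left ht2
    rcases M.L.center _ (mul_mem ha ht) key with h | h
    · right; right; left
      have := eq_mul_inv_of_mul_eq h
      rw [this, one_mul, htinv]
    · right; right; right
      have := eq_mul_inv_of_mul_eq h
      rw [this, htinv]

/-- Elements acting trivially on `C_Q(t) / ⟨t⟩` are `2`-elements. -/
theorem two_elt {t a : G} (ht : t ∈ Qg) (ht2 : t * t = 1) (haz : a * z = z * a) (hat : a * t = t * a)
    (h : ∀ b ∈ Qg, b * t = t * b → a * b * a⁻¹ = b ∨ a * b * a⁻¹ = b * t) : ∃ k : ℕ, a ^ (2 ^ k) = 1 := by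
  have hatc : a * t * a⁻¹ = t := by rw [hat]; group
  have hazc : a * z * a⁻¹ = z := by rw [haz]; group
  have hzt : t * z = z * t := M.L.z_comm t ht
  have h1 : ∀ b ∈ Qg, b * t = t * b → (a * a) * b * (a * a)⁻¹ = b := by
    intro b hb hbt
    have e : (a * a) * b * (a * a)⁻¹ = a * (a * b * a⁻¹) * a⁻¹ := by group
    rcases h b hb hbt with h2 | h2
    · rw [e, h2, h2]
    · rw [e, h2]
      have e2 : a * (b * t) * a⁻¹ = (a * b * a⁻¹) * (a * t * a⁻¹) := by group
      rw [e2, h2, hatc, mul_assoc, ht2, mul_one]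
  set a2 := a * a with ha2
  have ha2z : a2 * z = z * a2 := by
    rw [ha2, mul_assoc, haz, ← mul_assoc, haz, mul_assoc]
  have ha2zc : a2 * z * a2⁻¹ = z := by rw [ha2z]; group
  have ha2t : a2 * t = t * a2 := by
    rw [ha2, mul_assoc, hat, ← mul_assoc, hat, mul_assoc]
  have ha2tc : a2 * t * a2⁻¹ = t := by rw [ha2t]; group
  have hQc : ∀ b ∈ Qg, a2 * b * a2⁻¹ ∈ Qg := fun b hb => M.conj_Q a2 b ha2z hb
  -- the element `c`
  have h2 : ∀ u ∈ Qg, ∀ b ∈ Qg, b * t = t * b → (u⁻¹ * (a2 * u * a2⁻¹)) * b = b * (u⁻¹ * (a2 * u * a2⁻¹)) := by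
    intro u hu b hb hbt
    have e0 := h1 b hb hbt
    have e1 : a2 * (u * b * u⁻¹) * a2⁻¹ = (a2 * u * a2⁻¹) * b * (a2 * u * a2⁻¹)⁻¹ := by
      calc a2 * (u * b * u⁻¹) * a2⁻¹ = (a2 * u * a2⁻¹) * (a2 * b * a2⁻¹) * (a2 * u * a2⁻¹)⁻¹ := by group
        _ = _ := by rw [e0]
    have e2 : a2 * (u * b * u⁻¹) * a2⁻¹ = u * b * u⁻¹ := by
      rcases M.L.comm u hu b hb with h3 | h3
      · have e3 : u * b * u⁻¹ = b := by rw [h3]; group
        rw [e3, e0]
      · have e3 : u * b * u⁻¹ = z * b := by rw [h3]; group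
        rw [e3]
        calc a2 * (z * b) * a2⁻¹ = (a2 * z * a2⁻¹) * (a2 * b * a2⁻¹) := by group
          _ = z * b := by rw [ha2zc, e0]
    rw [e1] at e2
    have e3 : (u⁻¹ * (a2 * u * a2⁻¹)) * b * (u⁻¹ * (a2 * u * a2⁻¹))⁻¹ = b := by
      calc (u⁻¹ * (a2 * u * a2⁻¹)) * b * (u⁻¹ * (a2 * u * a2⁻¹))⁻¹
          = u⁻¹ * ((a2 * u * a2⁻¹) * b * (a2 * u * a2⁻¹)⁻¹) * u := by group
        _ = u⁻¹ * (u * b * u⁻¹) * u := by rw [e2]
        _ = b := by group
    calc (u⁻¹ * (a2 * u * a2⁻¹)) * b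
        = ((u⁻¹ * (a2 * u * a2⁻¹)) * b * (u⁻¹ * (a2 * u * a2⁻¹))⁻¹) * (u⁻¹ * (a2 * u * a2⁻¹)) := by group
      _ = _ := by rw [e3]
  have h4 : ∀ u ∈ Qg, (a2 * a2) * u = u * (a2 * a2) := by
    intro u hu
    set c := u⁻¹ * (a2 * u * a2⁻¹) with hc
    have hcQ : c ∈ Qg := mul_mem (inv_mem hu) (hQc u hu)
    have hc4 := M.center_Qt ht ht2 hcQ (h2 u hu)
    have hcfix : a2 * c * a2⁻¹ = c := by
      rcases hc4 with h5 | h5 | h5 | h5
      · rw [h5]; group
      · rw [h5]; exact ha2zc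
      · rw [h5]; exact ha2tc
      · rw [h5]
        calc a2 * (z * t) * a2⁻¹ = (a2 * z * a2⁻¹) * (a2 * t * a2⁻¹) := by group
          _ = z * t := by rw [ha2zc, ha2tc]
    have hcc : c * c = 1 := by
      rcases hc4 with h5 | h5 | h5 | h5
      · rw [h5]; group
      · rw [h5]; exact M.L.z_sq
      · rw [h5]; exact ht2
      · rw [h5]
        calc z * t * (z * t) = z * (t * z) * t := by group
          _ = z * (z * t) * t := by rw [hzt]
          _ = (z * z) * (t * t) := by group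
          _ = 1 := by rw [M.L.z_sq, ht2, one_mul]
    have e1 : a2 * u * a2⁻¹ = u * c := by rw [hc]; group
    have e2 : (a2 * a2) * u * (a2 * a2)⁻¹ = u := by
      calc (a2 * a2) * u * (a2 * a2)⁻¹ = a2 * (a2 * u * a2⁻¹) * a2⁻¹ := by group
        _ = a2 * (u * c) * a2⁻¹ := by rw [e1]
        _ = (a2 * u * a2⁻¹) * (a2 * c * a2⁻¹) := by group
        _ = u := by rw [e1, hcfix, mul_assoc, hcc, mul_one]
    calc (a2 * a2) * u = ((a2 * a2) * u * (a2 * a2)⁻¹) * (a2 * a2) := by group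
      _ = _ := by rw [e2]
  have h5 : a2 * a2 ∈ Qg := M.L.self _ h4
  obtain ⟨k, hk⟩ := M.E.1.1 ⟨a2 * a2, h5⟩
  refine ⟨k + 2, ?_⟩
  have hk' : (a2 * a2) ^ (2 ^ k) = 1 := by simpa using congrArg Subtype.val hk
  rw [pow_add, mul_comm, pow_mul]
  have : a ^ (2 ^ 2) = a2 * a2 := by
    rw [ha2]
    simp [pow_succ, mul_assoc]
  rw [this, hk']

/-- Lifts of vectors of norm `32`. -/
theorem not_conj_of_min {x : G} {a : leechLattice}
    (hx : M.Rel a x) (ha : sqNorm (a : V) = 32) : ¬ IsConj z x := by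
  intro hc
  obtain ⟨g, rfl⟩ := isConj_iff.1 hc
  by_cases hne : g * z * g⁻¹ = z
  · have h1 : cl a = cl 0 := (M.rel_two hx).1 (Or.inr hne)
    have hne0 : a ≠ 0 := by
      rintro rfl
      simp [sqNorm] at ha
    rcases short_cong a 0 hne0 (by omega) (by simp [sqNorm]) h1 with h2 | h2
    · apply hne0
      rw [h2]
      simp
    · omega
  · have hm := M.rel_mem hx
    obtain ⟨w, hw, hn⟩ := M.type_four hm hne
    have h1 := M.rel_inj hw hx
    have hne' : w ≠ a := by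
      rintro rfl
      omega
    rcases short_cong w a hne' (by omega) (by omega) h1 with h2 | h2
    · rw [h2] at hn
      simp only [NegMemClass.coe_neg, sqNorm_neg] at hn
      omega
    · omega

/-- Involutions of `Q` not conjugate to `z` have a lift of norm `32`. -/
theorem exists_min_rel {g₀ : G} (hg₀ : g₀ * z * g₀⁻¹ ∈ Qg) (hne₀ : g₀ * z * g₀⁻¹ ≠ z) {s : G}
    (hsQ : s ∈ Qg) (hs2 : s * s = 1) (hs1 : s ≠ 1) (hs : ¬ IsConj z s) :
    ∃ v : leechLattice, M.Rel v s ∧ sqNorm (v : V) = 32 := by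
  have hsz : s ≠ z := by
    rintro rfl
    exact hs (IsConj.refl _)
  obtain ⟨v0, hv0⟩ := M.rel_surj _ hsQ
  obtain ⟨v, hv, hn⟩ := M.exists_short_rel hv0 hs1 hsz
  refine ⟨v, hv, ?_⟩
  rcases hn with hn | hn | hn
  · exact hn
  · exfalso
    have := (M.sq_iff hv).1 hs2
    rw [hn] at this
    revert this
    decide
  · exact absurd (M.conj_of_type_four hg₀ hne₀ hv hn).1 hs

omit M in
theorem min_ne {a : leechLattice} (ha : sqNorm (a : V) = 32) : cl a ≠ cl 0 := by
  intro h1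
  have hne0 : a ≠ 0 := by
    rintro rfl
    simp [sqNorm] at ha
  rcases short_cong a 0 hne0 (by omega) (by simp [sqNorm]) h1 with h2 | h2
  · apply hne0
    rw [h2]
    simp
  · omega

/-- The intersection `Q ∩ Q ^ g` contains an involution not conjugate to `z`. -/
theorem exists_inter {g₀ : G} (hg₀ : g₀ * z * g₀⁻¹ ∈ Qg) (hne₀ : g₀ * z * g₀⁻¹ ≠ z) :
    ∃ g κ : G, g * z * g⁻¹ ∈ Qg ∧ g * z * g⁻¹ ≠ z ∧ κ ∈ Qg ∧ g⁻¹ * κ * g ∈ Qg ∧ κ * κ = 1 ∧ κ ≠ 1 ∧
      ¬ IsConj z κ := by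
  obtain ⟨v, hv, hn⟩ := M.type_four hg₀ hne₀
  obtain ⟨k, hk⟩ := co0_transitive_64 v v8 hn (norm_u8 none)
  obtain ⟨c, hc⟩ := M.pi_surj (mkC k)
  have hcz : (c : G) * z = z * c := mem_centralizer_singleton_iff.1 c.2
  set g := (c : G) * g₀ with hg
  have hs : g * z * g⁻¹ = (c : G) * (g₀ * z * g₀⁻¹) * (c : G)⁻¹ := by rw [hg]; group
  have hgQ : g * z * g⁻¹ ∈ Qg := by rw [hs]; exact M.conj_Q _ _ hcz hg₀
  have hne : g * z * g⁻¹ ≠ z := by
    rw [hs]
    intro h
    apply hne₀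
    have e : g₀ * z * g₀⁻¹ = (c : G)⁻¹ * ((c : G) * (g₀ * z * g₀⁻¹) * (c : G)⁻¹) * c := by group
    rw [e, h]
    calc (c : G)⁻¹ * z * c = (c : G)⁻¹ * (z * c) := by group
      _ = (c : G)⁻¹ * (c * z) := by rw [hcz]
      _ = z := by group
  have hR8 : M.Rel v8 (g * z * g⁻¹) := by
    have := M.rel_act c k hc.symm hv
    rw [hk, ← hs] at this
    exact this
  have hle := le_Sb (k := 1) (v := v8) (one_smul _ _) (M.PP g) (fun a ha => M.PP_fix hgQ hne hR8 ha)
    (fun u hu a ha => M.PP_conj hgQ hne hR8 hu ha) (fun a ha => M.PP_two hgQ hne ha)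
  have hcard := M.card_Eb hgQ hne
  rw [Eb_eq] at hcard
  have hEq : (M.PP g).map mkC = Sb 1 := by
    apply Subgroup.eq_of_le_of_card_ge hle
    rw [hcard, card_Sb]
    exact card_map_signSub
  have hε : mkC eB ∈ (M.PP g).map mkC := by
    rw [hEq]
    exact mem_Sb.2 ⟨eB, signCo0_mem ⟨_, cB_mem⟩, by simp⟩
  rw [← Eb_eq] at hε
  obtain ⟨b, hb, hbε⟩ := (M.mem_Eb).1 hε
  obtain ⟨y, hy⟩ := M.rel_exists xB
  have hy2 : y * y = 1 := (M.sq_iff hy).2 (by rw [xB_norm]; decide)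
  have hyinv : y⁻¹ = y := inv_eq_of_mul_eq_one_left hy2
  have hys : y * (g * z * g⁻¹) = (g * z * g⁻¹) * y := (M.comm_iff hy hR8).2 xB_dot
  have hRκ : M.Rel (xB + eB • xB) (y * ((b : G) * y * (b : G)⁻¹)) :=
    M.rel_add hy (M.rel_act b eB hbε.symm hy)
  refine ⟨g, _, hgQ, hne, M.rel_mem hRκ, ?_, (M.sq_iff hRκ).2 (by rw [xB_add_norm]; decide), ?_,
    M.not_conj_of_min hRκ xB_add_norm⟩
  · have h1 : (b : G) ∈ Cj g Qg := hb.1
    have e : y * ((b : G) * y * (b : G)⁻¹) = (y * (b : G) * y⁻¹) * (b : G)⁻¹ := by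
      rw [hyinv]
      group
    rw [e]
    exact mem_Cj.1 (mul_mem (M.R_conj hys h1) (inv_mem h1))
  · intro h
    exact min_ne xB_add_norm ((M.rel_two hRκ).1 (Or.inl h))

/-- The non-weak-closure in the centraliser of `t`. -/
theorem exists_conj_in_Qt {g₀ : G} (hg₀ : g₀ * z * g₀⁻¹ ∈ Qg) (hne₀ : g₀ * z * g₀⁻¹ ≠ z) {t : G}
    (htQ : t ∈ Qg) (ht2 : t * t = 1) (ht1 : t ≠ 1) (ht : ¬ IsConj z t) :
    ∃ a : G, a * t = t * a ∧ a * z * a⁻¹ ∈ Qg ∧ a * z * a⁻¹ ≠ z ∧ a * z * a⁻¹ ≠ z * t := by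
  obtain ⟨g, κ, hg, hne, hκ, hκ', hκ2, hκ1, hκc⟩ := M.exists_inter hg₀ hne₀
  have ht'2 : (g⁻¹ * κ * g) * (g⁻¹ * κ * g) = 1 := by
    calc (g⁻¹ * κ * g) * (g⁻¹ * κ * g) = g⁻¹ * (κ * κ) * g := by group
      _ = 1 := by rw [hκ2]; group
  have ht'1 : g⁻¹ * κ * g ≠ 1 := by
    intro h
    apply hκ1
    have : κ = g * (g⁻¹ * κ * g) * g⁻¹ := by group
    rw [this, h]
    group
  have ht'c : ¬ IsConj z (g⁻¹ * κ * g) := by
    intro h
    apply hκc
    refine h.trans (isConj_iff.2 ⟨g, ?_⟩)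
    group
  obtain ⟨h, hh⟩ := M.trans_nonconj hg₀ hne₀ hκ hκ' hκ2 ht'2 hκ1 ht'1 hκc ht'c
  obtain ⟨c, hc⟩ := M.trans_nonconj hg₀ hne₀ hκ htQ hκ2 ht2 hκ1 ht1 hκc ht
  have hzc : (c : G) * z = z * c := mem_centralizer_singleton_iff.1 c.2
  have hzh : (h : G) * z = z * h := mem_centralizer_singleton_iff.1 h.2
  refine ⟨(c : G) * (g * h) * (c : G)⁻¹, ?_, ?_⟩
  · have e : ((c : G) * (g * h) * (c : G)⁻¹) * t * ((c : G) * (g * h) * (c : G)⁻¹)⁻¹ = t := by
      rw [← hc]
      calc ((c : G) * (g * h) * (c : G)⁻¹) * ((c : G) * κ * (c : G)⁻¹) * ((c : G) * (g * h) * (c : G)⁻¹)⁻¹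
          = (c : G) * (g * ((h : G) * κ * (h : G)⁻¹) * g⁻¹) * (c : G)⁻¹ := by group
        _ = (c : G) * κ * (c : G)⁻¹ := by rw [hh]; group
    calc ((c : G) * (g * h) * (c : G)⁻¹) * t
        = (((c : G) * (g * h) * (c : G)⁻¹) * t * ((c : G) * (g * h) * (c : G)⁻¹)⁻¹) * ((c : G) * (g * h) * (c : G)⁻¹) := by group
      _ = _ := by rw [e]
  · have e : ((c : G) * (g * h) * (c : G)⁻¹) * z * ((c : G) * (g * h) * (c : G)⁻¹)⁻¹ =
        (c : G) * (g * z * g⁻¹) * (c : G)⁻¹ := by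
      have e1 : (c : G)⁻¹ * z * c = z := by
        calc (c : G)⁻¹ * z * c = (c : G)⁻¹ * (z * c) := by group
          _ = (c : G)⁻¹ * (c * z) := by rw [hzc]
          _ = z := by group
      have e2 : (h : G) * z * (h : G)⁻¹ = z := by rw [hzh]; group
      calc ((c : G) * (g * h) * (c : G)⁻¹) * z * ((c : G) * (g * h) * (c : G)⁻¹)⁻¹
          = (c : G) * (g * ((h : G) * ((c : G)⁻¹ * z * c) * (h : G)⁻¹) * g⁻¹) * (c : G)⁻¹ := by group
        _ = _ := by rw [e1, e2]
    rw [e]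
    refine ⟨M.conj_Q _ _ hzc hg, ?_, ?_⟩
    · intro h1
      apply hne
      have e2 : g * z * g⁻¹ = (c : G)⁻¹ * ((c : G) * (g * z * g⁻¹) * (c : G)⁻¹) * c := by group
      rw [e2, h1]
      calc (c : G)⁻¹ * z * c = (c : G)⁻¹ * (z * c) := by group
        _ = (c : G)⁻¹ * (c * z) := by rw [hzc]
        _ = z := by group
    · intro h1
      obtain ⟨v, hv, hn⟩ := M.exists_min_rel hg₀ hne₀ htQ ht2 ht1 ht
      have hv2 := M.rel_z hv
      apply M.not_conj_of_min hv2 hn
      rw [← h1]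
      exact isConj_iff.2 ⟨(c : G) * g, by group⟩

end MModel

/-- Changing the identification by an element of `Co0`. -/
noncomputable def MModel.twist {z : G} {Qg : Subgroup G} (M : MModel z Qg) (k : Co0) : MModel z Qg where
  L := M.L
  E := M.E
  card_Q := M.card_Q
  conj_Q := M.conj_Q
  sym := M.sym
  pi := (MulAut.conj (mkC k)⁻¹).toMonoidHom.comp M.pi
  pi_surj := (MulAut.conj (mkC k)⁻¹).surjective.comp M.pi_surj
  pi_ker := by
    intro x
    rw [← M.pi_ker x]
    show (MulAut.conj (mkC k)⁻¹) (M.pi x) = 1 ↔ _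
    rw [map_eq_one_iff _ (MulAut.conj _).injective]
  Rel := fun v x => M.Rel (k • v) x
  rel_mem := fun h => M.rel_mem h
  rel_exists := fun v => M.rel_exists (k • v)
  rel_surj := by
    intro x hx
    obtain ⟨v, hv⟩ := M.rel_surj x hx
    exact ⟨k⁻¹ • v, by simpa using hv⟩
  rel_add := by
    intro v w x y hx hy
    have := M.rel_add hx hy
    rwa [← co0_map_add] at this
  rel_same := fun h1 h2 => M.rel_same h1 h2
  rel_z := fun h => M.rel_z h
  rel_inj := by
    intro v w x h1 h2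
    have := cl_smul_congr k⁻¹ (M.rel_inj h1 h2)
    simpa using this
  rel_two := by
    intro v x h
    rw [M.rel_two h]
    have h00 : ∀ a : Co0, a • (0 : leechLattice) = 0 := fun a => map_zero (co0AddHom a)
    constructor
    · intro h1
      have := cl_smul_congr k⁻¹ h1
      rw [h00] at this
      simpa using this
    · intro h1
      have := cl_smul_congr k h1
      rwa [h00] at this
  rel_act := by
    intro h g v x hh hx
    have e : mkC (k * g * k⁻¹) = M.pi h := by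
      rw [map_mul, map_mul, hh, map_inv]
      show mkC k * ((mkC k)⁻¹ * M.pi h * ((mkC k)⁻¹)⁻¹) * (mkC k)⁻¹ = M.pi h
      group
    have := M.rel_act h (k * g * k⁻¹) e hx
    simpa [mul_smul] using this

end Cfsg.Agent.Lib.Sporadic.MonsterModel
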