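import Mathlib
import Cfsg.Agent.Lib.Sporadic.MonsterBaby

/-!
# The centraliser of an involution of `Q` not conjugate to `z`
-/

set_option autoImplicit false

namespace Cfsg.Agent.Lib.Sporadic.MonsterModel

open Subgroup Cfsg Cfsg.Agent.Lib.PGroup.LargeExtraspecial
  Cfsg.Agent.Lib.PGroup.LargeFz
  Cfsg.Agent.Lib.Sporadic.GolayCore
  Cfsg.Agent.Lib.Sporadic.LeechNorm Cfsg.Agent.Lib.Sporadic.LeechFacts
  Cfsg.Agent.Lib.Sporadic.LeechAut Cfsg.Agent.Lib.Sporadic.LeechClasses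
  Cfsg.Agent.Lib.Sporadic.LeechAct Cfsg.Agent.Lib.Sporadic.LeechMod2
  Cfsg.Agent.Lib.Sporadic.LeechLocal Cfsg.Agent.Lib.Sporadic.LeechOrbits

variable {G : Type*} [Group G] {z : G} {Qg : Subgroup G}

/-- The hypotheses on `t`. -/
structure TD (M : MModel z Qg) (t : G) : Prop where
  mem : t ∈ Qg
  sq : t * t = 1
  ne1 : t ≠ 1
  nez : t ≠ z
  rel : M.Rel Spor.leechU t
  nc : ∀ g : G, g * z * g⁻¹ ≠ z * t
  nw : ∃ a : G, a * t = t * a ∧ a * z * a⁻¹ ∈ Qg ∧ a * z * a⁻¹ ≠ z ∧ a * z * a⁻¹ ≠ z * t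

abbrev At (t : G) : Subgroup G := centralizer ({t} : Set G)

abbrev Tt (t : G) : Subgroup ↥(At t) := (zpowers t).subgroupOf (At t)

abbrev Bt (t : G) [(Tt t).Normal] : Type _ := ↥(At t) ⧸ Tt t

abbrev HH (z t : G) : Subgroup G := centralizer ({z} : Set G) ⊓ At t

abbrev QT (Qg : Subgroup G) (t : G) : Subgroup G := Qg ⊓ At t

variable {M : MModel z Qg} {t : G}

theorem TD.zA (hT : TD M t) : z ∈ At t := mem_centralizer_singleton_iff.2 (M.L.z_comm t hT.mem).symm

theorem mem_T_iff (ht2 : t * t = 1) (a : ↥(At t)) : a ∈ Tt t ↔ (a : G) = 1 ∨ (a : G) = t := by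
  rw [mem_subgroupOf, mem_zpowers_iff_invol ht2]

variable [hn : (Tt t).Normal]

omit hn in
theorem TD.QT_le (hT : TD M t) : QT Qg t ≤ HH z t := fun y hy =>
  ⟨mem_centralizer_singleton_iff.2 (M.L.z_comm y hy.1), hy.2⟩

theorem mk_eq_iff (ht2 : t * t = 1) (a b : ↥(At t)) :
    (QuotientGroup.mk a : Bt t) = QuotientGroup.mk b ↔ (b : G) = a ∨ (b : G) = a * t := by
  rw [QuotientGroup.eq, mem_T_iff ht2]
  show ((a : G)⁻¹ * b = 1 ∨ (a : G)⁻¹ * b = t) ↔ _
  rw [inv_mul_eq_one, inv_mul_eq_iff_eq_mul]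
  rw [eq_comm]

/-- The image of `z`. -/
noncomputable def zb (hT : TD M t) : Bt t := QuotientGroup.mk ⟨z, hT.zA⟩

/-- The centraliser of the image of `z`. -/
abbrev XX (hT : TD M t) : Subgroup (Bt t) := centralizer ({zb hT} : Set (Bt t))

/-- The map of `C(z) ∩ C(t)` onto `XX`. -/
noncomputable def theta (hT : TD M t) : ↥(HH z t) →* ↥(XX hT) where
  toFun a := ⟨QuotientGroup.mk ⟨a, a.2.2⟩, by
    rw [mem_centralizer_singleton_iff]
    show (QuotientGroup.mk (⟨a, a.2.2⟩ * ⟨z, hT.zA⟩) : Bt t) = QuotientGroup.mk (⟨z, hT.zA⟩ * ⟨a, a.2.2⟩)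
    congr 1
    apply Subtype.ext
    exact mem_centralizer_singleton_iff.1 a.2.1⟩
  map_one' := rfl
  map_mul' _ _ := rfl

theorem theta_eq_iff (hT : TD M t) (a b : ↥(HH z t)) :
    theta hT a = theta hT b ↔ (b : G) = a ∨ (b : G) = a * t := by
  rw [← mk_eq_iff hT.sq ⟨a, a.2.2⟩ ⟨b, b.2.2⟩]
  exact Subtype.ext_iff

theorem theta_surj (hT : TD M t) : Function.Surjective (theta hT) := by
  rintro ⟨x, hx⟩
  obtain ⟨a, rfl⟩ := QuotientGroup.mk_surjective x
  rw [mem_centralizer_singleton_iff] at hx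
  have h1 : (QuotientGroup.mk (a * ⟨z, hT.zA⟩) : Bt t) = QuotientGroup.mk (⟨z, hT.zA⟩ * a) := hx
  rw [mk_eq_iff hT.sq] at h1
  have h2 : z * (a : G) = a * z ∨ z * (a : G) = a * z * t := h1
  rcases h2 with h2 | h2
  · refine ⟨⟨a, mem_centralizer_singleton_iff.2 h2.symm, a.2⟩, rfl⟩
  · exfalso
    apply hT.nc (a : G)⁻¹
    calc (a : G)⁻¹ * z * (a : G)⁻¹⁻¹ = (a : G)⁻¹ * (z * a) := by group
      _ = (a : G)⁻¹ * (a * z * t) := by rw [h2]
      _ = z * t := by group

/-- The map to `Co1`. -/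
noncomputable def piH (M : MModel z Qg) (t : G) : ↥(HH z t) →* Spor.Co1 :=
  M.pi.comp (Subgroup.inclusion (inf_le_left : HH z t ≤ centralizer ({z} : Set G)))

omit hn in
theorem piH_apply (a : ↥(HH z t)) : piH M t a = M.pi ⟨a, a.2.1⟩ := rfl

omit hn in
theorem piH_range (hT : TD M t) (a : ↥(HH z t)) : piH M t a ∈ iota.range := by
  obtain ⟨g, hg⟩ := QuotientGroup.mk'_surjective (center Co0) (piH M t a)
  rw [← hg]
  have h1 := M.rel_act ⟨a, a.2.1⟩ g hg hT.rel
  have h2 : (a : G) * t * (a : G)⁻¹ = t := by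
    have := mem_centralizer_singleton_iff.1 a.2.2
    rw [this]
    group
  have h3 : M.Rel (g • Spor.leechU) t := by
    rw [← h2]
    exact h1
  exact mem_iota_range (M.rel_inj h3 hT.rel)

/-- The map to `Co2`. -/
noncomputable def phiH (hT : TD M t) : ↥(HH z t) →* Spor.Co2 :=
  (MonoidHom.ofInjective iota_injective).symm.toMonoidHom.comp ((piH M t).codRestrict iota.range (piH_range hT))

omit hn in
theorem iota_phiH (hT : TD M t) (a : ↥(HH z t)) : iota (phiH hT a) = M.pi ⟨a, a.2.1⟩ :=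
  MonoidHom.apply_ofInjective_symm iota_injective ⟨_, piH_range hT a⟩

omit hn in
theorem phiH_eq_one_iff (hT : TD M t) (a : ↥(HH z t)) : phiH hT a = 1 ↔ (a : G) ∈ Qg := by
  rw [← map_eq_one_iff _ iota_injective, iota_phiH, M.pi_ker]

omit hn in
theorem phiH_surj (hT : TD M t) : Function.Surjective (phiH hT) := by
  intro g
  obtain ⟨c, hc⟩ := M.pi_surj (mkC (c2c0 g))
  have hcz : (c : G) * z = z * c := mem_centralizer_singleton_iff.1 c.2
  have h1 := M.rel_act c (c2c0 g) hc.symm hT.rel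
  rw [c2c0_fix] at h1
  have key : ∃ a : ↥(HH z t), M.pi ⟨a, a.2.1⟩ = mkC (c2c0 g) := by
    rcases M.rel_same hT.rel h1 with h2 | h2
    · refine ⟨⟨c, c.2, mem_centralizer_singleton_iff.2 ?_⟩, hc⟩
      calc (c : G) * t = (c : G) * t * (c : G)⁻¹ * c := by group
        _ = t * c := by rw [h2]
    · obtain ⟨q, hq, hqt⟩ := M.L.exists_noncomm hT.mem hT.ne1 hT.nez
      have hqc : q ∈ centralizer ({z} : Set G) := mem_centralizer_singleton_iff.2 (M.L.z_comm q hq)
      refine ⟨⟨q * c, mul_mem hqc c.2, mem_centralizer_singleton_iff.2 ?_⟩, ?_⟩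
      · calc q * (c : G) * t = q * ((c : G) * t * (c : G)⁻¹) * c := by group
          _ = q * (z * t) * c := by rw [h2]
          _ = (q * z) * t * c := by group
          _ = z * (q * t) * c := by rw [M.L.z_comm q hq]; group
          _ = z * (z * (t * q)) * c := by rw [hqt]
          _ = (z * z) * (t * q) * c := by group
          _ = t * (q * c) := by rw [M.L.z_sq]; group
      · have e : (⟨q * c, mul_mem hqc c.2⟩ : ↥(centralizer ({z} : Set G))) = ⟨q, hqc⟩ * c := rfl
        rw [e, map_mul, (M.pi_ker _).2 hq, one_mul, hc]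
  obtain ⟨a, ha⟩ := key
  refine ⟨a, iota_injective ?_⟩
  rw [iota_phiH, ha]
  rfl

theorem theta_ker_le (hT : TD M t) : (theta hT).ker ≤ (phiH hT).ker := by
  intro a ha
  rw [MonoidHom.mem_ker] at ha ⊢
  rw [phiH_eq_one_iff]
  have h1 : theta hT 1 = theta hT a := by rw [ha, map_one]
  rw [theta_eq_iff] at h1
  rcases h1 with h1 | h1
  · have h2 : (a : G) = 1 := h1
    rw [h2]
    exact one_mem _
  · have h2 : (a : G) = 1 * t := h1
    rw [h2, one_mul]
    exact hT.mem

/-- The map to `Co2`. -/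
noncomputable def phiB (hT : TD M t) : ↥(XX hT) →* Spor.Co2 :=
  (MonoidHom.liftOfSurjective (theta hT) (theta_surj hT)) ⟨phiH hT, theta_ker_le hT⟩

theorem phiB_theta (hT : TD M t) (a : ↥(HH z t)) : phiB hT (theta hT a) = phiH hT a :=
  MonoidHom.liftOfRightInverse_comp_apply (theta hT) _ _ ⟨phiH hT, theta_ker_le hT⟩ a

theorem phiB_surj (hT : TD M t) : Function.Surjective (phiB hT) := by
  intro g
  obtain ⟨a, rfl⟩ := phiH_surj hT g
  exact ⟨theta hT a, phiB_theta hT a⟩

/-- The subgroup `C_Q(t) / ⟨t⟩`. -/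
noncomputable abbrev Qb (hT : TD M t) : Subgroup ↥(XX hT) := (phiB hT).ker

theorem theta_mem_Qb (hT : TD M t) (a : ↥(HH z t)) : theta hT a ∈ Qb hT ↔ (a : G) ∈ Qg := by
  rw [MonoidHom.mem_ker, phiB_theta, phiH_eq_one_iff]

/-- The map of `C_Q(t)` onto `Qb`. -/
noncomputable def rho (hT : TD M t) : ↥(QT Qg t) →* ↥(Qb hT) :=
  ((theta hT).comp (Subgroup.inclusion hT.QT_le)).codRestrict (Qb hT) (fun y => (theta_mem_Qb hT _).2 y.2.1)

theorem coe_rho (hT : TD M t) (y : ↥(QT Qg t)) :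
    (rho hT y : ↥(XX hT)) = theta hT ⟨y, hT.QT_le y.2⟩ := rfl

theorem rho_surj (hT : TD M t) : Function.Surjective (rho hT) := by
  rintro ⟨x, hx⟩
  obtain ⟨a, rfl⟩ := theta_surj hT x
  have h1 := (theta_mem_Qb hT a).1 hx
  exact ⟨⟨a, h1, a.2.2⟩, rfl⟩

theorem rho_eq_iff (hT : TD M t) (a b : ↥(QT Qg t)) :
    rho hT a = rho hT b ↔ (b : G) = a ∨ (b : G) = a * t := by
  rw [← theta_eq_iff hT ⟨a, hT.QT_le a.2⟩ ⟨b, hT.QT_le b.2⟩]
  exact Subtype.ext_iff

/-- `t` and `z` in `C_Q(t)`. -/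
def tQ (hT : TD M t) : ↥(QT Qg t) := ⟨t, hT.mem, mem_centralizer_singleton_iff.2 rfl⟩

def zQ (hT : TD M t) : ↥(QT Qg t) := ⟨z, M.L.z_mem, hT.zA⟩

theorem rho_eq_one_iff (hT : TD M t) (a : ↥(QT Qg t)) : rho hT a = 1 ↔ (a : G) = 1 ∨ (a : G) = t := by
  have h1 := rho_eq_iff hT 1 a
  rw [map_one] at h1
  rw [eq_comm, h1]
  simp

theorem rho_t (hT : TD M t) : rho hT (tQ hT) = 1 := (rho_eq_one_iff hT _).2 (Or.inr rfl)

theorem rho_mul_z (hT : TD M t) {a b : ↥(QT Qg t)} (h : (a : G) = z * b) : rho hT a = rho hT (zQ hT) * rho hT b := by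
  rw [← map_mul]
  congr 1
  exact Subtype.ext h

theorem rho_comm (hT : TD M t) {a b : ↥(QT Qg t)} (h : (a : G) * b = b * a) :
    rho hT a * rho hT b = rho hT b * rho hT a := by
  rw [← map_mul, ← map_mul]
  congr 1
  exact Subtype.ext h

theorem rho_comm_z (hT : TD M t) {a b : ↥(QT Qg t)} (h : (a : G) * b = z * (b * a)) :
    rho hT a * rho hT b = rho hT (zQ hT) * (rho hT b * rho hT a) := by
  rw [← map_mul, ← map_mul, ← map_mul]
  congr 1
  exact Subtype.ext h

theorem mem_center_Qb (hT : TD M t) (x : ↥(Qb hT)) :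
    x ∈ center ↥(Qb hT) ↔ x = 1 ∨ x = rho hT (zQ hT) := by
  constructor
  · intro h
    obtain ⟨a, rfl⟩ := rho_surj hT x
    rw [Subgroup.mem_center_iff] at h
    have h1 : ∀ b ∈ Qg, b * t = t * b → (a : G) * b = b * a := by
      intro b hb hbt
      have hbA : b ∈ At t := mem_centralizer_singleton_iff.2 hbt
      have h2 := h (rho hT ⟨b, hb, hbA⟩)
      rw [← map_mul, ← map_mul, rho_eq_iff] at h2
      have h3 : (a : G) * b = b * a ∨ (a : G) * b = b * a * t := h2
      rcases h3 with h3 | h3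
      · exact h3
      · rcases M.L.comm _ a.2.1 b hb with h4 | h4
        · exact h4
        · exfalso
          apply hT.nez
          have h5 := M.L.z_comm (b * a) (mul_mem hb a.2.1)
          have h6 : b * a * t = b * a * z := by
            rw [← h3, h4, h5]
          exact (mul_left_cancel h6)
    rcases M.center_Qt hT.mem hT.sq a.2.1 h1 with h2 | h2 | h2 | h2
    · left
      exact (rho_eq_one_iff hT a).2 (Or.inl h2)
    · right
      congr 1
      exact Subtype.ext h2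
    · left
      exact (rho_eq_one_iff hT a).2 (Or.inr h2)
    · right
      rw [rho_mul_z hT (b := tQ hT) h2, rho_t, mul_one]
  · rintro (rfl | rfl)
    · exact one_mem _
    · rw [Subgroup.mem_center_iff]
      intro y
      obtain ⟨b, rfl⟩ := rho_surj hT y
      exact rho_comm hT (M.L.z_comm _ b.2.1)

theorem isPGroup_Qb (hT : TD M t) : IsPGroup 2 ↥(Qb hT) :=
  (IsPGroup.to_le (M.E.1.1) (inf_le_left : QT Qg t ≤ Qg)).of_surjective (rho hT) (rho_surj hT)

theorem rho_z_ne (hT : TD M t) : rho hT (zQ hT) ≠ 1 := by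
  intro h
  rcases (rho_eq_one_iff hT _).1 h with h1 | h1
  · exact M.L.z_ne h1
  · exact hT.nez h1.symm

theorem extra_Qb [Finite G] (hT : TD M t) : IsExtraspecial 2 ↥(Qb hT) := by
  apply Cfsg.Agent.Lib.PGroup.ExtraMk.isExtraspecial_of (isPGroup_Qb hT) (rho hT (zQ hT)) (rho_z_ne hT)
    (mem_center_Qb hT)
  · intro x y
    obtain ⟨a, rfl⟩ := rho_surj hT x
    obtain ⟨b, rfl⟩ := rho_surj hT y
    rcases M.L.comm _ a.2.1 _ b.2.1 with h | h
    · left
      rw [commutatorElement_eq_one_iff_mul_comm]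
      exact rho_comm hT h
    · right
      rw [commutatorElement_def, rho_comm_z hT h]
      group
  · intro x
    obtain ⟨a, rfl⟩ := rho_surj hT x
    rw [pow_two, ← map_mul]
    rcases M.L.sq _ a.2.1 with h | h
    · left
      exact (rho_eq_one_iff hT _).2 (Or.inl h)
    · right
      congr 1
      exact Subtype.ext h
  · by_contra hcon
    push Not at hcon
    have h1 : ∀ a ∈ QT Qg t, ∀ b ∈ QT Qg t, a * b = b * a := by
      intro a ha b hb
      rcases M.L.comm _ ha.1 _ hb.1 with h | h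
      · exact h
      · exact absurd (by
          rw [commutatorElement_def, rho_comm_z hT (a := ⟨a, ha⟩) (b := ⟨b, hb⟩) h]
          group) (hcon (rho hT ⟨a, ha⟩) (rho hT ⟨b, hb⟩))
    have h2 : Nat.card ↥(QT Qg t) ≤ 2 ^ 13 := M.card_le_of_comm _ inf_le_left h1
    have h3 : 2 ^ 24 ≤ Nat.card ↥(QT Qg t) := M.card_inf_centralizer hT.mem
    omega

theorem card_QT [Finite G] (hT : TD M t) : Nat.card ↥(QT Qg t) = 2 ^ 24 := by
  have hl : 2 ^ 24 ≤ Nat.card ↥(QT Qg t) := M.card_inf_centralizer hT.mem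
  apply le_antisymm _ hl
  obtain ⟨q, hq, hqt⟩ := M.L.exists_noncomm hT.mem hT.ne1 hT.nez
  have hcard : Nat.card ↥((QT Qg t).subgroupOf Qg) = Nat.card ↥(QT Qg t) :=
    Nat.card_congr (subgroupOfEquivOfLe inf_le_left).toEquiv
  have h1 := Subgroup.card_mul_index ((QT Qg t).subgroupOf Qg)
  rw [hcard, M.card_Q] at h1
  have h2 : ((QT Qg t).subgroupOf Qg).index ≠ 1 := by
    intro h
    rw [Subgroup.index_eq_one] at h
    have h3 : (⟨q, hq⟩ : ↥Qg) ∈ (QT Qg t).subgroupOf Qg := by rw [h]; trivial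
    rw [mem_subgroupOf] at h3
    have h4 := mem_centralizer_singleton_iff.1 h3.2
    rw [show q * t = t * q from h4] at hqt
    apply M.L.z_ne
    have h5 : 1 * (t * q) = z * (t * q) := by rw [one_mul]; exact hqt
    exact (mul_right_cancel h5).symm
  have h3 : ((QT Qg t).subgroupOf Qg).index ≠ 0 := by
    intro h
    rw [h] at h1
    omega
  have h4 : 2 ≤ ((QT Qg t).subgroupOf Qg).index := by omega
  have h5 : Nat.card ↥(QT Qg t) * 2 ≤ 2 ^ 25 := by
    rw [← h1]
    exact Nat.mul_le_mul_left _ h4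
  omega

theorem card_Qb [Finite G] (hT : TD M t) : Nat.card ↥(Qb hT) = 2 ^ (2 * 11 + 1) := by
  have h1 := Subgroup.card_mul_index (rho hT).ker
  rw [Subgroup.index_ker, card_QT hT, MonoidHom.range_eq_top.2 (rho_surj hT), Subgroup.card_top] at h1
  have h2 : Nat.card (rho hT).ker = 2 := by
    rw [Nat.card_eq_two_iff]
    refine ⟨1, ⟨tQ hT, rho_t hT⟩, ?_, ?_⟩
    · intro h
      apply hT.ne1
      have := congrArg (fun x : (rho hT).ker => ((x : ↥(QT Qg t)) : G)) h
      exact this.symm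
    · ext ⟨a, ha⟩
      simp only [Set.mem_insert_iff, Set.mem_singleton_iff, Set.mem_univ, iff_true]
      rw [MonoidHom.mem_ker, rho_eq_one_iff] at ha
      rcases ha with h | h
      · left
        exact Subtype.ext (Subtype.ext h)
      · right
        exact Subtype.ext (Subtype.ext h)
  rw [h2] at h1
  omega

theorem fstar_Qb [Finite G] (hT : TD M t) : generalizedFittingSubgroup ↥(XX hT) = Qb hT := by
  apply fstar_eq_ker (phiB hT) (phiB_surj hT) co2_no_two (isPGroup_Qb hT)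
  rintro ⟨x, hx⟩
  obtain ⟨a, rfl⟩ := theta_surj hT x
  have hat : (a : G) * t = t * a := mem_centralizer_singleton_iff.1 a.2.2
  have hatc : (a : G) * t * (a : G)⁻¹ = t := by rw [hat]; group
  obtain ⟨k, hk⟩ := M.two_elt hT.mem hT.sq (mem_centralizer_singleton_iff.1 a.2.1) hat (by
    intro b hb hbt
    have hbA : b ∈ At t := mem_centralizer_singleton_iff.2 hbt
    have h1 := (mem_centralizer_iff.1 hx) _ (rho hT ⟨b, hb, hbA⟩).2
    have h2 : theta hT (⟨b, hT.QT_le ⟨hb, hbA⟩⟩ * a) = theta hT (a * ⟨b, hT.QT_le ⟨hb, hbA⟩⟩) := by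
      rw [map_mul, map_mul]
      exact h1
    rw [theta_eq_iff] at h2
    have h3 : (a : G) * b = b * a ∨ (a : G) * b = b * a * t := h2
    rcases h3 with h3 | h3
    · left
      rw [h3]
      group
    · right
      rw [h3]
      calc b * a * t * (a : G)⁻¹ = b * ((a : G) * t * (a : G)⁻¹) := by group
        _ = b * t := by rw [hatc])
  refine ⟨k, ?_⟩
  apply Subtype.ext
  apply Subtype.ext
  have h1 : a ^ (2 ^ k) = 1 := Subtype.ext (by simpa using hk)
  have h2 : theta hT (a ^ (2 ^ k)) = 1 := by rw [h1, map_one]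
  rw [map_pow] at h2
  exact congrArg Subtype.val h2

theorem nonweak (hT : TD M t) : ∃ g : Bt t, (∃ hq : g * zb hT * g⁻¹ ∈ XX hT,
    (⟨g * zb hT * g⁻¹, hq⟩ : ↥(XX hT)) ∈ Qb hT) ∧ g * zb hT * g⁻¹ ≠ zb hT := by
  obtain ⟨a, hat, hQ, h1, h2⟩ := hT.nw
  have ha : a ∈ At t := mem_centralizer_singleton_iff.2 hat
  have hs : a * z * a⁻¹ ∈ HH z t :=
    ⟨mem_centralizer_singleton_iff.2 (M.L.z_comm _ hQ), (mul_mem (mul_mem ha hT.zA) (inv_mem ha) : a * z * a⁻¹ ∈ At t)⟩
  refine ⟨QuotientGroup.mk ⟨a, ha⟩, ⟨(theta hT ⟨_, hs⟩).2, (theta_mem_Qb hT ⟨_, hs⟩).2 hQ⟩, ?_⟩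
  intro h
  have h3 := (theta_eq_iff hT ⟨_, hs⟩ ⟨z, mem_centralizer_singleton_iff.2 rfl, hT.zA⟩).1 (Subtype.ext h)
  rcases h3 with h3 | h3
  · exact h1 h3.symm
  · apply h2
    have h4 : z * t = a * z * a⁻¹ * t * t := by rw [← show z = a * z * a⁻¹ * t from h3]
    rw [h4, mul_assoc _ t t, hT.sq, mul_one]

theorem orderOf_zb (hT : TD M t) : orderOf (zb hT) = 2 := by
  haveI : Fact (Nat.Prime 2) := ⟨Nat.prime_two⟩
  apply orderOf_eq_prime
  · rw [pow_two]
    have h1 : (zb hT) * (zb hT) = QuotientGroup.mk (⟨z, hT.zA⟩ * ⟨z, hT.zA⟩) := rfl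
    rw [h1]
    have h2 : (⟨z, hT.zA⟩ * ⟨z, hT.zA⟩ : ↥(At t)) = 1 := Subtype.ext M.L.z_sq
    rw [h2]
    rfl
  · intro h
    have h1 : (QuotientGroup.mk (1 : ↥(At t)) : Bt t) = QuotientGroup.mk ⟨z, hT.zA⟩ := h.symm
    rw [mk_eq_iff hT.sq] at h1
    rcases h1 with h1 | h1
    · exact M.L.z_ne h1
    · have h2 : z = 1 * t := h1
      rw [one_mul] at h2
      exact hT.nez h2.symm

/-! ### The module isomorphism -/

omit hn in
theorem mem_QT_of_rel (hT : TD M t) {x : leechPerpU} {y : G} (hy : M.Rel x y) : y ∈ QT Qg t :=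
  ⟨M.rel_mem hy, mem_centralizer_singleton_iff.2 ((M.comm_iff hy hT.rel).2 x.2)⟩

/-- A lift in `C_Q(t)`. -/
noncomputable def qt (hT : TD M t) (x : leechPerpU) : ↥(QT Qg t) :=
  ⟨(M.rel_exists x).choose, mem_QT_of_rel hT (M.rel_exists x).choose_spec⟩

omit hn in
theorem qt_rel (hT : TD M t) (x : leechPerpU) : M.Rel x (qt hT x) := (M.rel_exists x).choose_spec

/-- The map from the lattice. -/
noncomputable def psiB (hT : TD M t) (x : leechPerpU) : ↥(Qb hT) ⧸ center ↥(Qb hT) :=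
  QuotientGroup.mk (rho hT (qt hT x))

theorem zQ_center (hT : TD M t) : rho hT (zQ hT) ∈ center ↥(Qb hT) := (mem_center_Qb hT _).2 (Or.inr rfl)

theorem mk_eq_mk_of (hT : TD M t) {a b : ↥(QT Qg t)} (h : (b : G) = a ∨ (b : G) = z * a) :
    (QuotientGroup.mk (rho hT a) : ↥(Qb hT) ⧸ center ↥(Qb hT)) = QuotientGroup.mk (rho hT b) := by
  rw [QuotientGroup.eq]
  rcases h with h | h
  · have : b = a := Subtype.ext h
    rw [this, inv_mul_cancel]
    exact one_mem _
  · rw [rho_mul_z hT h, ← Subgroup.mem_center_iff.1 (zQ_center hT) (rho hT a)]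
    simpa using zQ_center hT

theorem psiB_spec (hT : TD M t) {x : leechPerpU} {w : ↥(QT Qg t)} (h : M.Rel x w) :
    psiB hT x = QuotientGroup.mk (rho hT w) :=
  mk_eq_mk_of hT (M.rel_same (qt_rel hT x) h)

/-- The identification with `Co2`. -/
noncomputable def eBb (hT : TD M t) : ↥(XX hT) ⧸ Qb hT ≃* Spor.Co2 :=
  QuotientGroup.quotientKerEquivOfSurjective (phiB hT) (phiB_surj hT)

theorem eBb_mk (hT : TD M t) (x : ↥(XX hT)) : eBb hT (QuotientGroup.mk x) = phiB hT x := rfl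

theorem perp_iso [Finite G] (hT : TD M t) : IsLeechPerpModTwoIso (Qb hT) (eBb hT) (psiB hT) := by
  refine ⟨?_, ?_, ?_, ?_⟩
  · intro x y
    have h1 : M.Rel ((x + y : leechPerpU) : leechLattice) ((qt hT x * qt hT y : ↥(QT Qg t)) : G) :=
      M.rel_add (qt_rel hT x) (qt_rel hT y)
    rw [psiB_spec hT h1, map_mul]
    rfl
  · intro y
    obtain ⟨q, rfl⟩ := QuotientGroup.mk_surjective y
    obtain ⟨w, rfl⟩ := rho_surj hT q
    obtain ⟨v, hv⟩ := M.rel_surj w w.2.1
    have hmem : v ∈ leechPerpU := (M.comm_iff hv hT.rel).1 (mem_centralizer_singleton_iff.1 w.2.2)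
    exact ⟨⟨v, hmem⟩, psiB_spec hT hv⟩
  · intro x
    have hq := qt_rel hT x
    constructor
    · intro h
      have h1 : rho hT (qt hT x) ∈ center ↥(Qb hT) := (QuotientGroup.eq_one_iff _).1 h
      rcases (mem_center_Qb hT _).1 h1 with h2 | h2
      · rcases (rho_eq_one_iff hT _).1 h2 with h3 | h3
        · left
          have h4 : cl (x : leechLattice) = cl 0 := (M.rel_two hq).1 (Or.inl h3)
          obtain ⟨w, hw, e⟩ := (cl_eq_iff _ _).1 h4
          refine ⟨⟨w, hw⟩, ?_⟩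
          apply Subtype.ext
          simp only [AddSubgroup.coe_add]
          rw [← two_nsmul, ← e]
          simp
        · right
          have h4 : cl (x : leechLattice) = cl Spor.leechU := by
            rw [h3] at hq
            exact M.rel_inj hq hT.rel
          obtain ⟨w, hw, e⟩ := (cl_eq_iff _ _).1 h4
          refine ⟨⟨w, hw⟩, ?_⟩
          apply Subtype.ext
          simp only [AddSubgroup.coe_add]
          rw [← two_nsmul, ← e]
          abel
      · have h3 := (rho_eq_iff hT _ _).1 h2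
        have h4 : M.Rel (x : leechLattice) z ∨ M.Rel (x : leechLattice) (z * t) := by
          rcases h3 with h3 | h3
          · left
            have h5 : ((qt hT x : ↥(QT Qg t)) : G) = z := h3.symm
            rw [h5] at hq
            exact hq
          · right
            have h5 : ((qt hT x : ↥(QT Qg t)) : G) = z * t := by
              have h6 : z = (qt hT x : G) * t := h3
              calc ((qt hT x : ↥(QT Qg t)) : G) = (qt hT x : G) * (t * t) := by rw [hT.sq, mul_one]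
                _ = ((qt hT x : G) * t) * t := by group
                _ = z * t := by rw [← h6]
            rw [h5] at hq
            exact hq
        rcases h4 with h4 | h4
        · left
          have h5 : cl (x : leechLattice) = cl 0 := (M.rel_two h4).1 (Or.inr rfl)
          obtain ⟨w, hw, e⟩ := (cl_eq_iff _ _).1 h5
          refine ⟨⟨w, hw⟩, ?_⟩
          apply Subtype.ext
          simp only [AddSubgroup.coe_add]
          rw [← two_nsmul, ← e]
          simp
        · right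
          have h5 : cl (x : leechLattice) = cl Spor.leechU := M.rel_inj h4 (M.rel_z hT.rel)
          obtain ⟨w, hw, e⟩ := (cl_eq_iff _ _).1 h5
          refine ⟨⟨w, hw⟩, ?_⟩
          apply Subtype.ext
          simp only [AddSubgroup.coe_add]
          rw [← two_nsmul, ← e]
          abel
    · intro h
      have hcl : cl (x : leechLattice) = cl 0 ∨ cl (x : leechLattice) = cl Spor.leechU := by
        rcases h with ⟨w, hw⟩ | ⟨w, hw⟩
        · left
          rw [cl_eq_iff]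
          refine ⟨w, w.2, ?_⟩
          rw [hw, two_nsmul]
          simp
        · right
          rw [cl_eq_iff]
          refine ⟨w, w.2, ?_⟩
          rw [hw, two_nsmul]
          simp
      rcases hcl with hcl | hcl
      · rcases (M.rel_two hq).2 hcl with h1 | h1
        · have : rho hT (qt hT x) = 1 := (rho_eq_one_iff hT _).2 (Or.inl h1)
          rw [psiB, this]
          rfl
        · have : qt hT x = zQ hT := Subtype.ext h1
          rw [psiB, this]
          exact (QuotientGroup.eq_one_iff _).2 (zQ_center hT)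
      · have h1 : M.Rel (x : leechLattice) t := M.rel_of_cl hT.rel hcl.symm
        have h2 := psiB_spec hT (w := tQ hT) h1
        rw [h2, rho_t]
        rfl
  · intro h g hg x y hxy q hq
    obtain ⟨a, rfl⟩ := theta_surj hT h
    rw [eBb_mk, phiB_theta] at hg
    subst hg
    have hpi : mkC (c2c0 (phiH hT a)) = M.pi ⟨a, a.2.1⟩ := iota_phiH hT a
    have h1 : M.Rel (y : leechLattice) ((a : G) * qt hT x * (a : G)⁻¹) := by
      have := M.rel_act ⟨a, a.2.1⟩ (c2c0 (phiH hT a)) hpi (qt_rel hT x)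
      rw [c2c0_smul, hxy] at this
      exact this
    have hmem : (a : G) * qt hT x * (a : G)⁻¹ ∈ QT Qg t := mem_QT_of_rel hT h1
    rw [psiB_spec hT (w := ⟨_, hmem⟩) h1]
    have h2 : (rho hT (qt hT x))⁻¹ * q ∈ center ↥(Qb hT) := QuotientGroup.eq.1 hq
    rw [QuotientGroup.eq]
    have hfix : ∀ c : ↥(Qb hT), c ∈ center ↥(Qb hT) →
        (theta hT a) * (c : ↥(XX hT)) * (theta hT a)⁻¹ = c := by
      intro c hc
      rcases (mem_center_Qb hT c).1 hc with rfl | rfl
      · simp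
      · apply Subtype.ext
        have h3 := mem_centralizer_singleton_iff.1 (theta hT a).2
        have h4 : (((theta hT a) * ((rho hT (zQ hT) : ↥(Qb hT)) : ↥(XX hT)) * (theta hT a)⁻¹ : ↥(XX hT)) : Bt t) =
            ((theta hT a : ↥(XX hT)) : Bt t) * zb hT * ((theta hT a : ↥(XX hT)) : Bt t)⁻¹ := rfl
        rw [h4, h3]
        simp
        rfl
    have E : (rho hT ⟨_, hmem⟩)⁻¹ * (⟨(theta hT a) * (q : ↥(XX hT)) * (theta hT a)⁻¹,
        (inferInstance : (Qb hT).Normal).conj_mem (q : ↥(XX hT)) q.2 (theta hT a)⟩ : ↥(Qb hT)) =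
        (rho hT (qt hT x))⁻¹ * q := by
      apply Subtype.ext
      have h3 := hfix _ h2
      rw [← h3]
      have e1 : (((rho hT ⟨_, hmem⟩ : ↥(Qb hT)) : ↥(XX hT))) =
          (theta hT a) * ((rho hT (qt hT x) : ↥(Qb hT)) : ↥(XX hT)) * (theta hT a)⁻¹ := rfl
      show ((rho hT ⟨_, hmem⟩ : ↥(Qb hT)) : ↥(XX hT))⁻¹ * _ = _
      rw [e1]
      push_cast
      group
    rw [E]
    exact h2

/-- The main theorem, for the model. -/
theorem baby_of_TD [Finite G] (hT : TD M t) : IsOfBabyMonsterType (Bt t) :=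
  ⟨zb hT, Qb hT, inferInstance, ⟨orderOf_zb hT, fstar_Qb hT, extra_Qb hT, card_Qb hT, nonweak hT⟩,
    eBb hT, psiB hT, perp_iso hT⟩

end Cfsg.Agent.Lib.Sporadic.MonsterModel
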