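import Mathlib
import Cfsg.Agent.Lib.Sporadic.MonsterBaby
import Cfsg.Agent.Lib.Transfer.TransferReduction
import Cfsg.Agent.Lib.PGroup.ExtraMk

/-!
# The centraliser of an element of odd prime order in a group of Monster type

Let `b` be an element of `C(z)` of odd prime order `p` with image `mkC c` in `Co1`.  Given the
description of the classes of the lattice modulo two fixed by `c` and of the centraliser of `mkC c` in `Co1`,
we describe the centraliser of the image of `z` in `C(b) / ⟨b⟩`.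
-/

set_option autoImplicit false

namespace Cfsg.Agent.Lib.Sporadic.MonsterModel

open Subgroup Cfsg Cfsg.Agent.Lib.PGroup.LargeExtraspecial
  Cfsg.Agent.Lib.PGroup.LargeFz
  Cfsg.Agent.Lib.Sporadic.GolayCore
  Cfsg.Agent.Lib.Sporadic.LeechNorm Cfsg.Agent.Lib.Sporadic.LeechFacts
  Cfsg.Agent.Lib.Sporadic.LeechAut Cfsg.Agent.Lib.Sporadic.LeechClasses
  Cfsg.Agent.Lib.Sporadic.LeechAct Cfsg.Agent.Lib.Sporadic.LeechMod2
  Cfsg.Agent.Lib.Sporadic.LeechLocal Cfsg.Agent.Lib.Sporadic.LeechOrbits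

/-! ### Lifting conjugation -/

section lift

variable {Γ Y : Type*} [Group Γ] [Finite Γ] [Group Y]

theorem mem_norm_of_conj {H : Subgroup Y} [Finite Y] {g : Y} (h : ∀ x ∈ H, g * x * g⁻¹ ∈ H) :
    g ∈ Subgroup.normalizer (H : Set Y) := by
  rw [Subgroup.mem_normalizer_iff_map_conj_eq]
  apply Subgroup.eq_of_le_of_card_ge
  · rintro _ ⟨x, hx, rfl⟩
    exact h x hx
  · exact le_of_eq (Subgroup.card_map_of_injective (MulAut.conj g).injective).symm

/-- A homomorphism with kernel a `2`-group: conjugation of an element of odd prime order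
lifts. -/
theorem lift_conj (f : Γ →* Y) (hf : IsPGroup 2 f.ker) {p : ℕ} (hp : p.Prime) (hp2 : p ≠ 2) {b a₀ : Γ} (hb : b ^ p = 1)
    {e : ℕ} (h : f a₀ * f b * (f a₀)⁻¹ = f b ^ e) : ∃ a, f a = f a₀ ∧ a * b * a⁻¹ = b ^ e := by
  haveI : Fact p.Prime := ⟨hp⟩
  haveI : Fact (Nat.Prime 2) := ⟨Nat.prime_two⟩
  set K := f.ker with hK
  have hcop : (Nat.card K).Coprime p := by
    obtain ⟨k, hk⟩ := IsPGroup.iff_card.1 hf
    rw [hk]
    apply Nat.Coprime.pow_left
    exact (Nat.coprime_primes Nat.prime_two hp).2 (Ne.symm hp2)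
  have hP : IsPGroup p (zpowers b) := by
    intro x
    refine ⟨1, ?_⟩
    obtain ⟨x, k, rfl⟩ := x
    apply Subtype.ext
    show (b ^ k) ^ p ^ 1 = 1
    rw [pow_one, ← zpow_natCast, ← zpow_mul, mul_comm, zpow_mul, zpow_natCast, hb, one_zpow]
  -- the image of `a₀` normalises
  have hy : (QuotientGroup.mk' K) a₀ ∈ Subgroup.normalizer (((zpowers b).map (QuotientGroup.mk' K) : Subgroup (Γ ⧸ K)) : Set (Γ ⧸ K)) := by
    apply mem_norm_of_conj
    rintro _ ⟨_, ⟨k, rfl⟩, rfl⟩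
    refine ⟨b ^ (e * k), ⟨(e : ℤ) * k, ?_⟩, ?_⟩
    · simp [zpow_mul]
    · have h0 : QuotientGroup.mk' K (a₀ * b * a₀⁻¹) = QuotientGroup.mk' K (b ^ e) := by
        rw [QuotientGroup.mk'_apply, QuotientGroup.mk'_apply, QuotientGroup.eq, hK, MonoidHom.mem_ker]
        simp only [map_mul, map_inv, map_pow, h]
        group
      have h1 : QuotientGroup.mk' K a₀ * QuotientGroup.mk' K b * (QuotientGroup.mk' K a₀)⁻¹ =
          (QuotientGroup.mk' K b) ^ e := by
        rw [← map_pow, ← h0]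
        simp
      show QuotientGroup.mk' K (b ^ (e * k)) = QuotientGroup.mk' K a₀ * QuotientGroup.mk' K ((fun x => b ^ x) k) * (QuotientGroup.mk' K a₀)⁻¹
      simp only [map_zpow]
      have h2 : QuotientGroup.mk' K a₀ * (QuotientGroup.mk' K b) ^ k * (QuotientGroup.mk' K a₀)⁻¹ =
          (QuotientGroup.mk' K a₀ * QuotientGroup.mk' K b * (QuotientGroup.mk' K a₀)⁻¹) ^ k := by
        rw [conj_zpow]
      rw [h2, h1, ← zpow_natCast, ← zpow_mul]
  obtain ⟨d, hd, n, hn, hdn⟩ := Cfsg.Agent.Lib.Transfer.TransferReduction.exists_mul_of_map_normalizer hP hcop hy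
  have hfd : f d = 1 := hd
  refine ⟨n, ?_, ?_⟩
  · rw [hdn, map_mul, hfd, one_mul]
  · have h1 : n * b * n⁻¹ ∈ zpowers b :=
      (Subgroup.mem_normalizer_iff.1 hn b).1 (mem_zpowers b)
    have hfn : f n = f a₀ := by rw [hdn, map_mul, hfd, one_mul]
    have h2 : f (n * b * n⁻¹ * (b ^ e)⁻¹) = 1 := by
      rw [map_mul, map_mul, map_mul, map_inv, map_inv, map_pow, hfn, h]
      group
    have h3 : n * b * n⁻¹ * (b ^ e)⁻¹ ∈ zpowers b :=
      mul_mem h1 (inv_mem (pow_mem (mem_zpowers b) e))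
    have h4 : n * b * n⁻¹ * (b ^ e)⁻¹ = 1 := by
      have h5 := Cfsg.Agent.Lib.Transfer.TransferReduction.eq_one_of_coprime (p := 2) (D := zpowers b) (P := K) ?_ hf h3 h2
      · exact h5
      · have : Nat.card (zpowers b) ∣ p := by
          rw [Nat.card_zpowers]
          exact orderOf_dvd_of_pow_eq_one hb
        exact Nat.Coprime.coprime_dvd_left this ((Nat.coprime_primes hp Nat.prime_two).2 hp2)
    exact mul_inv_eq_one.1 h4

end lift

/-! ### The data -/

/-- The data about `c` needed. -/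
structure FxD (c : Co0) (L : Type*) [Group L] (n : ℕ) where
  reps : Fin n → leechLattice
  fix : ∀ i, cl (c • reps i) = cl (reps i)
  inj : ∀ i j, cl (reps i) = cl (reps j) → i = j
  cov : ∀ v : leechLattice, cl (c • v) = cl v → ∃ i, cl v = cl (reps i)
  phi : ↥(centralizer ({mkC c} : Set Spor.Co1)) →* L
  phi_surj : Function.Surjective phi
  phi_ker : ∀ x, phi x = 1 ↔ (x : Spor.Co1) ∈ zpowers (mkC c)
  triv : ∀ g : Co0, mkC g * mkC c = mkC c * mkC g → (∀ i, cl (g • reps i) = cl (reps i)) →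
    mkC g ∈ zpowers (mkC c)

variable {G : Type*} [Group G] {z : G} {Qg : Subgroup G}

/-- The element `b`. -/
structure CD (M : MModel z Qg) (c : Co0) (p : ℕ) (B : Subgroup G) (b : G) : Prop where
  prime : p.Prime
  odd : p ≠ 2
  hB : B = zpowers b
  bz : b * z = z * b
  pow : b ^ p = 1
  ne : b ≠ 1
  cpow : c ^ p = 1
  pi_b : M.pi ⟨b, mem_centralizer_singleton_iff.2 bz⟩ = mkC c

abbrev AtB (B : Subgroup G) : Subgroup G := centralizer (B : Set G)

abbrev TtB (B : Subgroup G) : Subgroup ↥(AtB B) := B.subgroupOf (AtB B)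

abbrev BtB (B : Subgroup G) [(TtB B).Normal] : Type _ := ↥(AtB B) ⧸ TtB B

abbrev HHb (z : G) (B : Subgroup G) : Subgroup G := centralizer ({z} : Set G) ⊓ AtB B

abbrev RR (Qg B : Subgroup G) : Subgroup G := Qg ⊓ AtB B

variable {M : MModel z Qg} {c : Co0} {p : ℕ} {B : Subgroup G} {b : G}

namespace CD

theorem bC (hC : CD M c p B b) : b ∈ centralizer ({z} : Set G) := mem_centralizer_singleton_iff.2 hC.bz

theorem mem_At (hC : CD M c p B b) {a : G} : a ∈ AtB B ↔ a * b = b * a := by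
  rw [hC.hB, mem_centralizer_iff]
  constructor
  · intro h
    exact (h b (mem_zpowers b)).symm
  · rintro h _ ⟨k, rfl⟩
    exact ((Commute.zpow_left (show Commute b a from h.symm) k) : _)

theorem z_At (hC : CD M c p B b) : z ∈ AtB B := hC.mem_At.2 hC.bz.symm

theorem b_mem (hC : CD M c p B b) : b ∈ B := by
  rw [hC.hB]
  exact mem_zpowers b

theorem mem_zp (hC : CD M c p B b) {a : G} (ha : a ∈ B) : ∃ k : ℤ, b ^ k = a := by
  rw [hC.hB] at ha
  exact ha

theorem b_At (hC : CD M c p B b) : b ∈ AtB B := hC.mem_At.2 rfl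

theorem B_pow (hC : CD M c p B b) {a : G} (ha : a ∈ B) : a ^ p = 1 := by
  rw [hC.hB] at ha
  obtain ⟨k, rfl⟩ := ha
  show (b ^ k) ^ p = 1
  rw [← zpow_natCast, ← zpow_mul, mul_comm, zpow_mul, zpow_natCast, hC.pow, one_zpow]

theorem B_At (hC : CD M c p B b) {a : G} (ha : a ∈ B) : a ∈ AtB B := by
  rw [hC.hB] at ha
  obtain ⟨k, rfl⟩ := ha
  exact zpow_mem hC.b_At k

theorem B_z (hC : CD M c p B b) {a : G} (ha : a ∈ B) : a * z = z * a := by
  rw [hC.hB] at ha
  obtain ⟨k, rfl⟩ := ha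
  exact ((Commute.zpow_left (show Commute b z from hC.bz) k) : _)

theorem B_two (hC : CD M c p B b) {a : G} (ha : a ∈ B) {k : ℕ} (h : a ^ (2 ^ k) = 1) : a = 1 := by
  have h1 := hC.B_pow ha
  have h2 := pow_gcd_eq_one.2 ⟨h1, h⟩
  have h3 : Nat.gcd p (2 ^ k) = 1 := by
    apply Nat.Coprime.pow_right
    exact (Nat.coprime_primes hC.prime Nat.prime_two).2 hC.odd
  rwa [h3, pow_one] at h2

theorem B_inter_Q (hC : CD M c p B b) {a : G} (ha : a ∈ B) (hQ : a ∈ Qg) : a = 1 := by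
  obtain ⟨k, hk⟩ := M.E.1.1 ⟨a, hQ⟩
  exact hC.B_two ha (k := k) (by simpa using congrArg Subtype.val hk)

theorem pi_ker_two (M : MModel z Qg) : IsPGroup 2 M.pi.ker := by
  rintro ⟨x, hx⟩
  have h1 := (M.pi_ker x).1 hx
  obtain ⟨k, hk⟩ := M.E.1.1 ⟨x, h1⟩
  refine ⟨k, ?_⟩
  apply Subtype.ext
  apply Subtype.ext
  simpa using congrArg Subtype.val hk

variable [hn : (TtB B).Normal]

omit hn in
theorem HH_At (a : ↥(HHb z B)) : (a : G) ∈ AtB B := a.2.2

omit hn in
theorem mk_eq_iff' (a a' : ↥(AtB B)) :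
    a⁻¹ * a' ∈ TtB B ↔ (a : G)⁻¹ * a' ∈ B := by
  rw [mem_subgroupOf]
  rfl

theorem mk_eq_iff (a a' : ↥(AtB B)) :
    (QuotientGroup.mk a : BtB B) = QuotientGroup.mk a' ↔ (a : G)⁻¹ * a' ∈ B := by
  rw [QuotientGroup.eq, mem_subgroupOf]
  rfl

/-- The image of `z`. -/
noncomputable def zb (hC : CD M c p B b) : BtB B := QuotientGroup.mk ⟨z, hC.z_At⟩

/-- The centraliser of the image of `z`. -/
abbrev XX (hC : CD M c p B b) : Subgroup (BtB B) := centralizer ({hC.zb} : Set (BtB B))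

/-- The map of `C(z) ∩ C(b)` onto `XX`. -/
noncomputable def theta (hC : CD M c p B b) : ↥(HHb z B) →* ↥hC.XX where
  toFun a := ⟨QuotientGroup.mk ⟨a, a.2.2⟩, by
    rw [mem_centralizer_singleton_iff]
    show (QuotientGroup.mk (⟨a, a.2.2⟩ * ⟨z, hC.z_At⟩) : BtB B) = QuotientGroup.mk (⟨z, hC.z_At⟩ * ⟨a, a.2.2⟩)
    congr 1
    apply Subtype.ext
    exact mem_centralizer_singleton_iff.1 a.2.1⟩
  map_one' := rfl
  map_mul' _ _ := rfl

theorem theta_eq_iff (hC : CD M c p B b) (a a' : ↥(HHb z B)) :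
    hC.theta a = hC.theta a' ↔ (a : G)⁻¹ * a' ∈ B := by
  exact (Subtype.ext_iff).trans (mk_eq_iff (⟨(a : G), a.2.2⟩ : ↥(AtB B)) (⟨(a' : G), a'.2.2⟩ : ↥(AtB B)))

theorem theta_surj (hC : CD M c p B b) : Function.Surjective hC.theta := by
  rintro ⟨x, hx⟩
  obtain ⟨a, rfl⟩ := QuotientGroup.mk_surjective x
  rw [mem_centralizer_singleton_iff] at hx
  have h1 : (QuotientGroup.mk (a * ⟨z, hC.z_At⟩) : BtB B) = QuotientGroup.mk (⟨z, hC.z_At⟩ * a) := hx
  rw [mk_eq_iff] at h1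
  have h2 : ((a : G) * z)⁻¹ * (z * a) ∈ B := h1
  set y := ((a : G) * z)⁻¹ * (z * a) with hy
  have hya : (a : G) * y = y * a := by
    have := (mem_centralizer_iff.1 a.2) y h2
    exact this.symm
  have hyz : y * z = z * y := hC.B_z h2
  have e1 : (a : G)⁻¹ * z * a = z * y := by
    rw [hy]
    group
  have hzz := M.L.z_sq
  have e2 : (z * y) * (z * y) = 1 := by
    rw [← e1]
    calc (a : G)⁻¹ * z * a * ((a : G)⁻¹ * z * a) = (a : G)⁻¹ * (z * z) * a := by group
      _ = 1 := by rw [hzz]; group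
  have e3 : y ^ (2 ^ 1) = 1 := by
    have : (z * y) * (z * y) = (z * z) * (y * y) := by
      calc (z * y) * (z * y) = z * (y * z) * y := by group
        _ = z * (z * y) * y := by rw [hyz]
        _ = (z * z) * (y * y) := by group
    rw [this, hzz, one_mul] at e2
    simpa [pow_two] using e2
  have hy1 := hC.B_two h2 e3
  have haz : (a : G) * z = z * a := by
    rw [hy1] at hy
    have : z * a = (a : G) * z * (((a : G) * z)⁻¹ * (z * a)) := by group
    rw [this, ← hy]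
    group
  exact ⟨⟨a, mem_centralizer_singleton_iff.2 haz, a.2⟩, rfl⟩

/-- The map to the centraliser. -/
noncomputable def piH (hC : CD M c p B b) : ↥(HHb z B) →* ↥(centralizer ({mkC c} : Set Spor.Co1)) :=
  (M.pi.comp (Subgroup.inclusion (inf_le_left : HHb z B ≤ centralizer ({z} : Set G)))).codRestrict _ (by
    intro a
    rw [mem_centralizer_singleton_iff, ← hC.pi_b]
    show M.pi ⟨a, a.2.1⟩ * _ = _ * M.pi ⟨a, a.2.1⟩
    rw [← map_mul, ← map_mul]
    congr 1
    apply Subtype.ext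
    exact hC.mem_At.1 a.2.2)

omit hn in
theorem coe_piH (hC : CD M c p B b) (a : ↥(HHb z B)) : (hC.piH a : Spor.Co1) = M.pi ⟨a, a.2.1⟩ := rfl

omit hn in
theorem piH_surj [Finite G] (hC : CD M c p B b) : Function.Surjective hC.piH := by
  rintro ⟨y, hy⟩
  obtain ⟨a₀, rfl⟩ := M.pi_surj y
  rw [mem_centralizer_singleton_iff, ← hC.pi_b] at hy
  obtain ⟨a, ha, hab⟩ := lift_conj (e := 1) M.pi (pi_ker_two M) hC.prime hC.odd (b := ⟨b, hC.bC⟩) (a₀ := a₀)
    (Subtype.ext (by simpa using hC.pow)) (by rw [hy]; group)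
  have hab' : (a : G) * b = b * a := by
    have h1 := congrArg Subtype.val hab
    have h2 : (a : G) * b * (a : G)⁻¹ = b := by simpa using h1
    calc (a : G) * b = (a : G) * b * (a : G)⁻¹ * a := by group
      _ = b * a := by rw [h2]
  refine ⟨⟨a, a.2, hC.mem_At.2 hab'⟩, ?_⟩
  apply Subtype.ext
  rw [coe_piH]
  exact ha

variable {L : Type*} [Group L] {n : ℕ} (F : FxD c L n)

/-- The map to `L`. -/
noncomputable def phiH (hC : CD M c p B b) : ↥(HHb z B) →* L := F.phi.comp hC.piH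

omit hn in
theorem phiH_surj [Finite G] (hC : CD M c p B b) : Function.Surjective (hC.phiH F) :=
  F.phi_surj.comp hC.piH_surj

omit hn in
/-- When `a` maps to the kernel. -/
theorem phiH_eq_one_iff (hC : CD M c p B b) (a : ↥(HHb z B)) :
    hC.phiH F a = 1 ↔ ∃ k : ℤ, (a : G) * b ^ k ∈ Qg := by
  show F.phi (hC.piH a) = 1 ↔ _
  rw [F.phi_ker, coe_piH]
  constructor
  · rintro ⟨k, hk⟩
    refine ⟨-k, ?_⟩
    have hbk : b ^ (-k) ∈ centralizer ({z} : Set G) := zpow_mem hC.bC _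
    have hmem : (a : G) * b ^ (-k) ∈ centralizer ({z} : Set G) := mul_mem a.2.1 hbk
    rw [← M.pi_ker ⟨_, hmem⟩]
    have e : (⟨(a : G) * b ^ (-k), hmem⟩ : ↥(centralizer ({z} : Set G))) =
        ⟨a, a.2.1⟩ * (⟨b, hC.bC⟩ : ↥(centralizer ({z} : Set G))) ^ (-k) := by
      apply Subtype.ext
      simp
    have hk' : mkC c ^ k = M.pi ⟨a, a.2.1⟩ := hk
    rw [e, map_mul, map_zpow, hC.pi_b, ← hk', zpow_neg, mul_inv_cancel]
  · rintro ⟨k, hk⟩
    have hbk : b ^ k ∈ centralizer ({z} : Set G) := zpow_mem hC.bC _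
    have hmem : (a : G) * b ^ k ∈ centralizer ({z} : Set G) := mul_mem a.2.1 hbk
    have h1 := (M.pi_ker ⟨_, hmem⟩).2 hk
    have e : (⟨(a : G) * b ^ k, hmem⟩ : ↥(centralizer ({z} : Set G))) =
        ⟨a, a.2.1⟩ * (⟨b, hC.bC⟩ : ↥(centralizer ({z} : Set G))) ^ k := by
      apply Subtype.ext
      simp
    rw [e, map_mul, map_zpow, hC.pi_b] at h1
    refine ⟨-k, ?_⟩
    show mkC c ^ (-k) = _
    rw [zpow_neg]
    exact (eq_inv_of_mul_eq_one_left h1).symm

theorem theta_ker_le (hC : CD M c p B b) : hC.theta.ker ≤ (hC.phiH F).ker := by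
  intro a ha
  rw [MonoidHom.mem_ker] at ha ⊢
  rw [phiH_eq_one_iff]
  have h1 : hC.theta 1 = hC.theta a := by rw [ha, map_one]
  rw [theta_eq_iff] at h1
  have h2 : (a : G) ∈ B := by simpa using h1
  obtain ⟨k, hk⟩ := hC.mem_zp h2
  refine ⟨-k, ?_⟩
  rw [← hk, ← zpow_add, add_neg_cancel, zpow_zero]
  exact one_mem _

/-- The map to `L`. -/
noncomputable def phiB (hC : CD M c p B b) : ↥hC.XX →* L :=
  (MonoidHom.liftOfSurjective hC.theta hC.theta_surj) ⟨hC.phiH F, hC.theta_ker_le F⟩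

theorem phiB_theta (hC : CD M c p B b) (a : ↥(HHb z B)) : hC.phiB F (hC.theta a) = hC.phiH F a :=
  MonoidHom.liftOfRightInverse_comp_apply hC.theta _ _ ⟨hC.phiH F, hC.theta_ker_le F⟩ a

theorem phiB_surj [Finite G] (hC : CD M c p B b) : Function.Surjective (hC.phiB F) := by
  intro g
  obtain ⟨a, rfl⟩ := hC.phiH_surj F g
  exact ⟨hC.theta a, hC.phiB_theta F a⟩

/-- The kernel. -/
noncomputable abbrev Qb (hC : CD M c p B b) : Subgroup ↥hC.XX := (hC.phiB F).ker

theorem theta_mem_Qb (hC : CD M c p B b) (a : ↥(HHb z B)) :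
    hC.theta a ∈ hC.Qb F ↔ ∃ k : ℤ, (a : G) * b ^ k ∈ Qg := by
  rw [MonoidHom.mem_ker, phiB_theta, phiH_eq_one_iff]

omit hn in
theorem RR_le (hC : CD M c p B b) : RR Qg B ≤ HHb z B := fun y hy =>
  ⟨mem_centralizer_singleton_iff.2 (M.L.z_comm y hy.1), hy.2⟩

/-- The map of `C_Q(b)` onto `Qb`. -/
noncomputable def rho (hC : CD M c p B b) : ↥(RR Qg B) →* ↥(hC.Qb F) :=
  (hC.theta.comp (Subgroup.inclusion hC.RR_le)).codRestrict (hC.Qb F)
    (fun y => (hC.theta_mem_Qb F _).2 ⟨0, by simpa using y.2.1⟩)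

theorem coe_rho (hC : CD M c p B b) (y : ↥(RR Qg B)) :
    (hC.rho F y : ↥hC.XX) = hC.theta ⟨y, hC.RR_le y.2⟩ := rfl

theorem rho_surj (hC : CD M c p B b) : Function.Surjective (hC.rho F) := by
  rintro ⟨x, hx⟩
  obtain ⟨a, rfl⟩ := hC.theta_surj x
  obtain ⟨k, hk⟩ := (hC.theta_mem_Qb F a).1 hx
  have hbk : b ^ k ∈ B := by
    rw [hC.hB]
    exact zpow_mem (mem_zpowers b) k
  refine ⟨⟨(a : G) * b ^ k, hk, mul_mem a.2.2 (hC.B_At hbk)⟩, ?_⟩
  apply Subtype.ext
  rw [coe_rho]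
  rw [eq_comm, theta_eq_iff]
  have e : (a : G)⁻¹ * ((a : G) * b ^ k) = b ^ k := by group
  show (a : G)⁻¹ * ((a : G) * b ^ k) ∈ B
  rw [e]
  exact hbk

theorem rho_eq_iff (hC : CD M c p B b) (x y : ↥(RR Qg B)) : hC.rho F x = hC.rho F y ↔ x = y := by
  constructor
  · intro h
    have h1 : hC.theta ⟨x, hC.RR_le x.2⟩ = hC.theta ⟨y, hC.RR_le y.2⟩ := congrArg Subtype.val h
    rw [theta_eq_iff] at h1
    have h2 := hC.B_inter_Q h1 (mul_mem (inv_mem x.2.1) y.2.1)
    apply Subtype.ext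
    exact (inv_mul_eq_one.1 h2)
  · rintro rfl
    rfl

theorem rho_injective (hC : CD M c p B b) : Function.Injective (hC.rho F) := fun _ _ h =>
  (hC.rho_eq_iff F _ _).1 h

theorem card_Qb (hC : CD M c p B b) : Nat.card ↥(hC.Qb F) = Nat.card ↥(RR Qg B) :=
  (Nat.card_congr (Equiv.ofBijective _ ⟨hC.rho_injective F, hC.rho_surj F⟩)).symm

/-! ### Elements of `R` -/

omit hn in
/-- The action of `b`. -/
theorem rel_b (hC : CD M c p B b) {v : leechLattice} {x : G} (hx : M.Rel v x) : M.Rel (c • v) (b * x * b⁻¹) :=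
  M.rel_act ⟨b, hC.bC⟩ c hC.pi_b.symm hx

omit hn in
/-- Lifts of fixed classes commute with `b`. -/
theorem comm_of_fix (hC : CD M c p B b) {v : leechLattice} {x : G} (hx : M.Rel v x) (hv : cl (c • v) = cl v) :
    x * b = b * x := by
  have h1 := M.rel_of_cl (hC.rel_b hx) hv
  rcases M.rel_same hx h1 with h2 | h2
  · calc x * b = (b * x * b⁻¹) * b := by rw [h2]
      _ = b * x := by group
  · exfalso
    have hxz := M.L.z_comm x (M.rel_mem hx)
    have key : ∀ k : ℕ, b ^ k * x * (b ^ k)⁻¹ = (if Even k then 1 else z) * x := by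
      intro k
      induction k with
      | zero => simp
      | succ k ih =>
        have e : b ^ (k + 1) * x * (b ^ (k + 1))⁻¹ = b * (b ^ k * x * (b ^ k)⁻¹) * b⁻¹ := by
          rw [pow_succ']
          group
        rw [e, ih]
        by_cases hk : Even k
        · have hk' : ¬ Even (k + 1) := by
            rw [Nat.even_add_one]
            simpa using hk
          rw [if_pos hk, if_neg hk', one_mul, h2]
        · have hk' : Even (k + 1) := by
            rw [Nat.even_add_one]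
            exact hk
          rw [if_neg hk, if_pos hk', one_mul]
          calc b * (z * x) * b⁻¹ = (b * z * b⁻¹) * (b * x * b⁻¹) := by group
            _ = z * (z * x) := by
              rw [h2, hC.bz]
              group
            _ = x := by
              rw [← mul_assoc, M.L.z_sq, one_mul]
    have h3 := key p
    rw [hC.pow] at h3
    have hodd : ¬ Even p := by
      rw [Nat.not_even_iff_odd]
      exact hC.prime.odd_of_ne_two hC.odd
    rw [if_neg hodd] at h3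
    have h4 : x = z * x := by simpa using h3
    apply M.L.z_ne
    have h5 : 1 * x = z * x := by rw [one_mul]; exact h4
    exact (mul_right_cancel h5).symm

omit hn in
theorem rel_fix (hC : CD M c p B b) {v : leechLattice} {x : G} (hx : M.Rel v x) (hb : x * b = b * x) :
    cl (c • v) = cl v := by
  have h1 := hC.rel_b hx
  have h2 : b * x * b⁻¹ = x := by rw [← hb]; group
  rw [h2] at h1
  exact M.rel_inj h1 hx

omit hn in
/-- The non-degeneracy. -/
theorem exists_noncomm_R (hC : CD M c p B b) {a : G} (ha : a ∈ RR Qg B) (h1 : a ≠ 1) (hz : a ≠ z) :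
    ∃ d ∈ RR Qg B, a * d ≠ d * a := by
  obtain ⟨q, hq, hqa⟩ := M.L.exists_noncomm ha.1 h1 hz
  obtain ⟨v, hv⟩ := M.rel_surj q hq
  obtain ⟨w, hw⟩ := M.rel_surj a ha.1
  have hwfix : cl (c • w) = cl w := hC.rel_fix hw (hC.mem_At.1 ha.2)
  have hnc : ¬ (16 : ℤ) ∣ dotInt (w : V) (v : V) := by
    rw [← M.comm_iff hw hv]
    intro h
    apply M.L.z_ne
    have h2 : z * (a * q) = 1 * (a * q) := by
      rw [one_mul, ← hqa, h]
    exact mul_right_cancel h2
  -- the average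
  set V' : leechLattice := ∑ k ∈ Finset.range p, (c ^ k) • v with hV'
  have hfix : c • V' = V' := by
    rw [hV']
    have e1 : c • (∑ k ∈ Finset.range p, (c ^ k) • v) = ∑ k ∈ Finset.range p, c • ((c ^ k) • v) :=
      map_sum (co0AddHom c) _ _
    rw [e1]
    have e2 : ∀ k, c • ((c ^ k) • v) = (c ^ (k + 1)) • v := by
      intro k
      rw [← mul_smul, pow_succ']
    simp only [e2]
    have h3 := Finset.sum_range_succ (fun k => (c ^ k) • v) p
    have h4 := Finset.sum_range_succ' (fun k => (c ^ k) • v) p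
    simp only [hC.cpow, one_smul, pow_zero] at h3 h4
    exact add_right_cancel (h4.symm.trans h3)
  obtain ⟨d, hd⟩ := M.rel_exists V'
  have hdb : d * b = b * d := hC.comm_of_fix hd (by rw [hfix])
  refine ⟨d, ⟨M.rel_mem hd, hC.mem_At.2 hdb⟩, ?_⟩
  rw [Ne, M.comm_iff hw hd]
  intro h16
  apply hnc
  have hpow : ∀ k : ℕ, cl ((c ^ k) • w) = cl w := by
    intro k
    induction k with
    | zero => simp
    | succ k ih =>
      rw [pow_succ', mul_smul, ← smul_cl, ih, smul_cl, hwfix]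
  have hterm : ∀ k : ℕ, (16 : ℤ) ∣ dotInt ((c ^ k • v : leechLattice) : V) (w : V) - dotInt (v : V) (w : V) := by
    intro k
    have h3 : cl ((c ^ k) • (((c ^ k)⁻¹) • w)) = cl w := by simp
    have h4 : cl (((c ^ k)⁻¹) • w) = cl w := by
      have h5 := cl_smul_congr ((c ^ k)⁻¹) (hpow k)
      rw [inv_smul_smul] at h5
      exact h5.symm
    have h6 := cl_dot h4 v
    have h7 := Cfsg.Agent.Lib.Sporadic.LeechA0.co0_dotInt (c ^ k) ((c ^ k)⁻¹ • w) v
    rw [smul_inv_smul] at h7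
    rw [dotInt_comm ((c ^ k • v : leechLattice) : V), h7, dotInt_comm (v : V)]
    exact h6
  have hsum : (16 : ℤ) ∣ dotInt (V' : V) (w : V) - p * dotInt (v : V) (w : V) := by
    have e1 : dotInt (V' : V) (w : V) = ∑ k ∈ Finset.range p, dotInt ((c ^ k • v : leechLattice) : V) (w : V) := by
      rw [← dotHom_apply, hV', map_sum]
      rfl
    have e2 : (p : ℤ) * dotInt (v : V) (w : V) = ∑ k ∈ Finset.range p, dotInt (v : V) (w : V) := by
      simp
    rw [e1, e2, ← Finset.sum_sub_distrib]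
    exact Finset.dvd_sum fun k _ => hterm k
  have hodd := hC.prime.odd_of_ne_two hC.odd
  obtain ⟨t, ht⟩ := hodd
  obtain ⟨m, hm⟩ := eight_dvd_dot v.2 w.2
  have h16' : (16 : ℤ) ∣ dotInt (V' : V) (w : V) := by
    rw [dotInt_comm]
    exact h16
  rw [dotInt_comm]
  have h8 : ((p : ℤ)) = 2 * t + 1 := by
    rw [ht]; push_cast; ring
  rw [h8, hm] at hsum
  rw [hm]
  have e3 : (2 * (t : ℤ) + 1) * (8 * m) = 16 * (t * m) + 8 * m := by ring
  rw [e3] at hsum
  generalize (t : ℤ) * m = X at hsum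
  omega

/-! ### Lifts -/

omit hn in
theorem exists_lift (hC : CD M c p B b) (i : Fin n) :
    ∃ x : ↥(RR Qg B), M.Rel (F.reps i) x := by
  obtain ⟨x, hx⟩ := M.rel_exists (F.reps i)
  exact ⟨⟨x, M.rel_mem hx, hC.mem_At.2 (hC.comm_of_fix hx (F.fix i))⟩, hx⟩

/-- A lift of a representative. -/
noncomputable def lft (hC : CD M c p B b) (i : Fin n) : ↥(RR Qg B) := (hC.exists_lift F i).choose

omit hn in
theorem lft_rel (hC : CD M c p B b) (i : Fin n) : M.Rel (F.reps i) (hC.lft F i) := (hC.exists_lift F i).choose_spec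

/-- The element `z` of `R`. -/
def zR (hC : CD M c p B b) : ↥(RR Qg B) := ⟨z, M.L.z_mem, hC.z_At⟩

/-- Every element of `R` is a lift, or `z` times a lift. -/
theorem R_cases (hC : CD M c p B b) (a : ↥(RR Qg B)) :
    ∃ i, (a : G) = hC.lft F i ∨ (a : G) = z * hC.lft F i := by
  obtain ⟨v, hv⟩ := M.rel_surj a a.2.1
  have h1 := hC.rel_fix hv (hC.mem_At.1 a.2.2)
  obtain ⟨i, hi⟩ := F.cov v h1
  exact ⟨i, M.rel_same (hC.lft_rel F i) (M.rel_of_cl hv hi)⟩

theorem card_RR [Finite G] (hC : CD M c p B b) (F : FxD c L n) : Nat.card ↥(RR Qg B) = 2 * n := by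
  let g : Fin n × Bool → ↥(RR Qg B) := fun x =>
    if x.2 then hC.zR * hC.lft F x.1 else hC.lft F x.1
  have hg : ∀ x, M.Rel (F.reps x.1) (g x) := by
    rintro ⟨i, e⟩
    cases e
    · exact hC.lft_rel F i
    · exact M.rel_z (hC.lft_rel F i)
  have hinj : Function.Injective g := by
    rintro ⟨i, e⟩ ⟨j, e'⟩ h
    have h1 := hg (i, e)
    rw [h] at h1
    have hij := F.inj _ _ (M.rel_inj h1 (hg (j, e')))
    simp only at hij
    subst hij
    have hne : ∀ y : G, z * y ≠ y := by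
      intro y h2
      apply M.L.z_ne
      have h3 : z * y = 1 * y := by rw [one_mul]; exact h2
      exact mul_right_cancel h3
    cases e <;> cases e'
    · rfl
    · exact absurd (congrArg Subtype.val h).symm (hne _)
    · exact absurd (congrArg Subtype.val h) (hne _)
    · rfl
  have hsurj : Function.Surjective g := by
    intro a
    obtain ⟨i, hi | hi⟩ := hC.R_cases F a
    · exact ⟨(i, false), Subtype.ext hi.symm⟩
    · exact ⟨(i, true), Subtype.ext hi.symm⟩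
  have h := Nat.card_congr (Equiv.ofBijective g ⟨hinj, hsurj⟩)
  rw [← h, Nat.card_prod, Nat.card_eq_fintype_card, Nat.card_eq_fintype_card]
  simp [mul_comm]

/-! ### The extraspecial group -/

theorem rho_one_iff (hC : CD M c p B b) (a : ↥(RR Qg B)) : hC.rho F a = 1 ↔ (a : G) = 1 := by
  rw [← map_one (hC.rho F), rho_eq_iff]
  exact Subtype.ext_iff

theorem rho_comm (hC : CD M c p B b) {x y : ↥(RR Qg B)} (h : (x : G) * y = y * x) :
    hC.rho F x * hC.rho F y = hC.rho F y * hC.rho F x := by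
  rw [← map_mul, ← map_mul]
  congr 1
  exact Subtype.ext h

theorem rho_comm_z (hC : CD M c p B b) {x y : ↥(RR Qg B)} (h : (x : G) * y = z * (y * x)) :
    hC.rho F x * hC.rho F y = hC.rho F hC.zR * (hC.rho F y * hC.rho F x) := by
  rw [← map_mul, ← map_mul, ← map_mul]
  congr 1
  exact Subtype.ext h

theorem mem_center_Qb (hC : CD M c p B b) (x : ↥(hC.Qb F)) :
    x ∈ center ↥(hC.Qb F) ↔ x = 1 ∨ x = hC.rho F hC.zR := by
  constructor
  · intro h
    obtain ⟨a, rfl⟩ := hC.rho_surj F x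
    rw [Subgroup.mem_center_iff] at h
    by_cases h1 : (a : G) = 1
    · left
      exact (hC.rho_one_iff F a).2 h1
    by_cases h2 : (a : G) = z
    · right
      congr 1
      exact Subtype.ext h2
    exfalso
    obtain ⟨d, hd, hda⟩ := hC.exists_noncomm_R a.2 h1 h2
    have h3 := h (hC.rho F ⟨d, hd⟩)
    rw [← map_mul, ← map_mul, rho_eq_iff] at h3
    exact hda (congrArg Subtype.val h3).symm
  · rintro (rfl | rfl)
    · exact one_mem _
    · rw [Subgroup.mem_center_iff]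
      intro y
      obtain ⟨a, rfl⟩ := hC.rho_surj F y
      exact hC.rho_comm F (M.L.z_comm _ a.2.1)

theorem isPGroup_Qb (hC : CD M c p B b) : IsPGroup 2 ↥(hC.Qb F) :=
  (IsPGroup.to_le (M.E.1.1) (inf_le_left : RR Qg B ≤ Qg)).of_surjective (hC.rho F) (hC.rho_surj F)

theorem rho_z_ne (hC : CD M c p B b) : hC.rho F hC.zR ≠ 1 := by
  intro h
  exact M.L.z_ne ((hC.rho_one_iff F _).1 h)

theorem extra_Qb [Finite G] (hC : CD M c p B b) (hn2 : 2 ≤ n) : IsExtraspecial 2 ↥(hC.Qb F) := by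
  apply Cfsg.Agent.Lib.PGroup.ExtraMk.isExtraspecial_of (hC.isPGroup_Qb F) (hC.rho F hC.zR) (hC.rho_z_ne F)
    (hC.mem_center_Qb F)
  · intro x y
    obtain ⟨a, rfl⟩ := hC.rho_surj F x
    obtain ⟨d, rfl⟩ := hC.rho_surj F y
    rcases M.L.comm _ a.2.1 _ d.2.1 with h | h
    · left
      rw [commutatorElement_eq_one_iff_mul_comm]
      exact hC.rho_comm F h
    · right
      rw [commutatorElement_def, hC.rho_comm_z F h]
      group
  · intro x
    obtain ⟨a, rfl⟩ := hC.rho_surj F x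
    rw [pow_two, ← map_mul]
    rcases M.L.sq _ a.2.1 with h | h
    · left
      exact (hC.rho_one_iff F _).2 h
    · right
      congr 1
      exact Subtype.ext h
  · -- a noncentral element
    have hex : ∃ i : Fin n, cl (F.reps i) ≠ cl 0 := by
      by_contra hcon
      push Not at hcon
      have h1 := F.inj ⟨0, by omega⟩ ⟨1, by omega⟩ ((hcon _).trans (hcon _).symm)
      simp at h1
    obtain ⟨i, hi⟩ := hex
    have hrel := hC.lft_rel F i
    have h1 : ¬ (((hC.lft F i : ↥(RR Qg B)) : G) = 1 ∨ ((hC.lft F i : ↥(RR Qg B)) : G) = z) := fun h =>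
      hi ((M.rel_two hrel).1 h)
    push Not at h1
    obtain ⟨d, hd, hda⟩ := hC.exists_noncomm_R (hC.lft F i).2 h1.1 h1.2
    refine ⟨hC.rho F (hC.lft F i), hC.rho F ⟨d, hd⟩, ?_⟩
    have h2 := (M.L.comm _ (hC.lft F i).2.1 d hd.1).resolve_left hda
    rw [commutatorElement_def, hC.rho_comm_z F (y := ⟨d, hd⟩) h2]
    group

/-- The centraliser. -/
theorem centralizer_Qb_le (hC : CD M c p B b) : centralizer ((hC.Qb F : Subgroup ↥hC.XX) : Set ↥hC.XX) ≤ hC.Qb F := by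
  intro x hx
  obtain ⟨a, rfl⟩ := hC.theta_surj x
  rw [MonoidHom.mem_ker, phiB_theta]
  show F.phi (hC.piH a) = 1
  rw [F.phi_ker, coe_piH]
  obtain ⟨g, hg⟩ := QuotientGroup.mk'_surjective (center Co0) (M.pi ⟨a, a.2.1⟩)
  have hg' : mkC g = M.pi ⟨a, a.2.1⟩ := hg
  rw [← hg']
  apply F.triv
  · rw [hg']
    have := (hC.piH a).2
    rw [mem_centralizer_singleton_iff] at this
    exact this
  · intro i
    have hl := hC.lft_rel F i
    set l := hC.lft F i with hl'
    have h1 : ((hC.rho F l : ↥(hC.Qb F)) : ↥hC.XX) ∈ hC.Qb F := (hC.rho F l).2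
    have h2 := (mem_centralizer_iff.1 hx) _ h1
    have h3 : hC.theta (⟨l, hC.RR_le l.2⟩ * a) = hC.theta (a * ⟨l, hC.RR_le l.2⟩) := by
      rw [map_mul, map_mul]
      exact h2
    rw [theta_eq_iff] at h3
    have h4 : ((l : G) * a)⁻¹ * ((a : G) * l) ∈ B := h3
    have haz : (a : G)⁻¹ * z = z * (a : G)⁻¹ := by
      have := mem_centralizer_singleton_iff.1 a.2.1
      calc (a : G)⁻¹ * z = (a : G)⁻¹ * (z * a) * (a : G)⁻¹ := by group
        _ = (a : G)⁻¹ * (a * z) * (a : G)⁻¹ := by rw [this]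
        _ = z * (a : G)⁻¹ := by group
    have h5 : ((l : G) * a)⁻¹ * ((a : G) * l) ∈ Qg := by
      have e : ((l : G) * a)⁻¹ * ((a : G) * l) = (a : G)⁻¹ * (l : G)⁻¹ * (a : G)⁻¹⁻¹ * l := by group
      rw [e]
      exact mul_mem (M.conj_Q _ _ haz (inv_mem l.2.1)) l.2.1
    have h6 := hC.B_inter_Q h4 h5
    have h7 : (a : G) * l * (a : G)⁻¹ = l := by
      have h8 : (a : G) * l = (l : G) * a := by
        have := inv_mul_eq_one.1 h6
        exact this.symm
      rw [h8]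
      group
    have h9 := M.rel_act ⟨a, a.2.1⟩ g hg' hl
    have h10 : M.Rel (g • F.reps i) l := by
      have e : ((⟨a, a.2.1⟩ : ↥(centralizer ({z} : Set G))) : G) * l * ((⟨a, a.2.1⟩ : ↥(centralizer ({z} : Set G))) : G)⁻¹ = l := h7
      rw [e] at h9
      exact h9
    exact M.rel_inj h10 hl

theorem fstar_Qb [Finite G] (hC : CD M c p B b) (hY : ∀ W : Subgroup L, W.Normal → IsPGroup 2 W → W = ⊥) :
    generalizedFittingSubgroup ↥hC.XX = hC.Qb F :=
  fstar_eq_ker (hC.phiB F) (hC.phiB_surj F) hY (hC.isPGroup_Qb F)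
    (IsPGroup.to_le (hC.isPGroup_Qb F) (hC.centralizer_Qb_le F))

theorem orderOf_zb (hC : CD M c p B b) : orderOf hC.zb = 2 := by
  haveI : Fact (Nat.Prime 2) := ⟨Nat.prime_two⟩
  apply orderOf_eq_prime
  · rw [pow_two]
    have h1 : hC.zb * hC.zb = QuotientGroup.mk (⟨z, hC.z_At⟩ * ⟨z, hC.z_At⟩) := rfl
    rw [h1]
    have h2 : (⟨z, hC.z_At⟩ * ⟨z, hC.z_At⟩ : ↥(AtB B)) = 1 := Subtype.ext M.L.z_sq
    rw [h2]
    rfl
  · intro h
    have h1 : (QuotientGroup.mk (1 : ↥(AtB B)) : BtB B) = QuotientGroup.mk ⟨z, hC.z_At⟩ := h.symm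
    rw [mk_eq_iff] at h1
    have h2 : z ∈ B := by simpa using h1
    exact M.L.z_ne (hC.B_inter_Q h2 M.L.z_mem)

/-- The conjugates of the image of `z` in the image of `R`. -/
theorem isConj_theta_iff (hC : CD M c p B b) (r : ↥(RR Qg B)) :
    IsConj hC.zb ((hC.theta ⟨r, hC.RR_le r.2⟩ : ↥hC.XX) : BtB B) ↔ ∃ m ∈ AtB B, m * z * m⁻¹ = r := by
  rw [_root_.isConj_iff]
  constructor
  · rintro ⟨x, hx⟩
    obtain ⟨m, rfl⟩ := QuotientGroup.mk_surjective x
    refine ⟨m, m.2, ?_⟩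
    have h1 : (QuotientGroup.mk (m * ⟨z, hC.z_At⟩ * m⁻¹) : BtB B) = QuotientGroup.mk ⟨(r : G), r.2.2⟩ := hx
    rw [mk_eq_iff] at h1
    have h2 : ((m : G) * z * (m : G)⁻¹)⁻¹ * r ∈ B := h1
    set y := ((m : G) * z * (m : G)⁻¹)⁻¹ * r with hy
    set s := (m : G) * z * (m : G)⁻¹ with hs
    have hss : s * s = 1 := by
      rw [hs]
      calc (m : G) * z * (m : G)⁻¹ * ((m : G) * z * (m : G)⁻¹) = (m : G) * (z * z) * (m : G)⁻¹ := by group
        _ = 1 := by rw [M.L.z_sq]; group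
    have hsA : s ∈ AtB B := mul_mem (mul_mem m.2 hC.z_At) (inv_mem m.2)
    have hsy : s * y = y * s := by
      have := (mem_centralizer_iff.1 hsA) y h2
      exact this.symm
    have hr : (r : G) = s * y := by rw [hy]; group
    obtain ⟨k, hk⟩ := M.E.1.1 ⟨r, r.2.1⟩
    have hk' : (r : G) ^ (2 ^ k) = 1 := by simpa using congrArg Subtype.val hk
    have h3 : (r : G) ^ (2 ^ (k + 1)) = 1 := by
      rw [pow_succ, pow_mul, hk', one_pow]
    have h4 : (s * y) ^ (2 ^ (k + 1)) = s ^ (2 ^ (k + 1)) * y ^ (2 ^ (k + 1)) :=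
      (show Commute s y from hsy).mul_pow _
    have h5 : s ^ (2 ^ (k + 1)) = 1 := by
      rw [pow_succ, mul_comm, pow_mul, pow_two, hss, one_pow]
    rw [← hr, h3, h5, one_mul] at h4
    have h6 := hC.B_two h2 h4.symm
    rw [h6, mul_one] at hr
    exact hr.symm
  · rintro ⟨m, hm, e⟩
    refine ⟨QuotientGroup.mk ⟨m, hm⟩, ?_⟩
    show (QuotientGroup.mk (⟨m, hm⟩ * ⟨z, hC.z_At⟩ * ⟨m, hm⟩⁻¹) : BtB B) = QuotientGroup.mk ⟨(r : G), r.2.2⟩
    congr 1
    exact Subtype.ext e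

theorem nonweak (hC : CD M c p B b) {m : G} (hm : m ∈ AtB B) (hQ : m * z * m⁻¹ ∈ Qg) (hne : m * z * m⁻¹ ≠ z) :
    ∃ g : BtB B, (∃ hq : g * hC.zb * g⁻¹ ∈ hC.XX,
    (⟨g * hC.zb * g⁻¹, hq⟩ : ↥hC.XX) ∈ hC.Qb F) ∧ g * hC.zb * g⁻¹ ≠ hC.zb := by
  have hs : m * z * m⁻¹ ∈ RR Qg B := ⟨hQ, (mul_mem (mul_mem hm hC.z_At) (inv_mem hm) : m * z * m⁻¹ ∈ AtB B)⟩
  refine ⟨QuotientGroup.mk ⟨m, hm⟩, ⟨(hC.rho F ⟨_, hs⟩ : ↥(hC.Qb F)).1.2, (hC.rho F ⟨_, hs⟩).2⟩, ?_⟩
  intro h
  have h3 := (hC.theta_eq_iff ⟨_, hC.RR_le hs⟩ ⟨z, mem_centralizer_singleton_iff.2 rfl, hC.z_At⟩).1 (Subtype.ext h)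
  have h4 : (m * z * m⁻¹)⁻¹ * z ∈ B := h3
  have h5 := hC.B_inter_Q h4 (mul_mem (inv_mem hQ) M.L.z_mem)
  exact hne (inv_mul_eq_one.1 h5)

/-- The extraspecial-centraliser setting. -/
theorem setting [Finite G] (hC : CD M c p B b) (hn2 : 2 ≤ n)
    (hY : ∀ W : Subgroup L, W.Normal → IsPGroup 2 W → W = ⊥) {w : ℕ} (hw : 2 * n = 2 ^ (2 * w + 1))
    {m : G} (hm : m ∈ AtB B) (hQ : m * z * m⁻¹ ∈ Qg) (hne : m * z * m⁻¹ ≠ z) :
    IsExtraspecialCentralizerSetting hC.zb (hC.Qb F) w :=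
  ⟨hC.orderOf_zb, hC.fstar_Qb F hY, hC.extra_Qb F hn2, by
    rw [hC.card_Qb F, hC.card_RR F, hw], hC.nonweak F hm hQ hne⟩

/-- The identification of the quotient. -/
noncomputable def eB [Finite G] (hC : CD M c p B b) : ↥hC.XX ⧸ hC.Qb F ≃* L :=
  QuotientGroup.quotientKerEquivOfSurjective (hC.phiB F) (hC.phiB_surj F)

end CD

end Cfsg.Agent.Lib.Sporadic.MonsterModel
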