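import Cfsg.Agent.Lib.Sporadic.Monomial
import Cfsg.Agent.Lib.Compute.TernaryGolay

/-!
# The monomial group of the ternary code of length 12
-/

set_option autoImplicit false

namespace Cfsg.Agent.Lib.Sporadic.TernAut

open Cfsg Cfsg.Agent.Lib.Compute.TernaryGolay Cfsg.Agent.Lib.Sporadic.Monomial
open scoped Pointwise

/-- The hexads. -/
abbrev Hex : Set (Finset ArrayPt) := {h | ∃ x ∈ ternaryGolayCode, ternarySupport x = h ∧ h.card = 6}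

theorem support_mono (σ : Equiv.Perm ArrayPt) (c : ArrayPt → (ZMod 3)ˣ) (x : ArrayPt → ZMod 3) :
    ternarySupport (monomialMap σ c x) = σ • ternarySupport x := by
  have hm : ∀ (y : ArrayPt → ZMod 3) (p : ArrayPt), p ∈ ternarySupport y ↔ y p ≠ 0 := by
    intro y p
    simp [ternarySupport]
  ext p
  rw [hm, Finset.mem_smul_finset]
  constructor
  · intro h
    refine ⟨σ.symm p, (hm _ _).2 fun e => h ?_, by simp [Equiv.Perm.smul_def]⟩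
    show (c p : ZMod 3) * x (σ.symm p) = 0
    rw [e, mul_zero]
  · rintro ⟨y, hy, rfl⟩
    have h1 : σ.symm (σ • y) = y := by simp [Equiv.Perm.smul_def]
    show (c (σ • y) : ZMod 3) * x (σ.symm (σ • y)) ≠ 0
    rw [h1]
    exact mul_ne_zero (Units.ne_zero _) ((hm _ _).1 hy)

theorem smul_hex {σ : Equiv.Perm ArrayPt} (hσ : σ ∈ permParts ternaryGolayCode) {h : Finset ArrayPt} (hh : h ∈ Hex) :
    σ • h ∈ Hex := by
  obtain ⟨c, hc⟩ := hσ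
  obtain ⟨x, hx, rfl, h6⟩ := hh
  exact ⟨_, hc x hx, support_mono σ c x, by rwa [Finset.card_smul_finset]⟩

theorem parts_le : permParts ternaryGolayCode ≤ setSystemAut Hex := by
  intro σ hσ
  rw [MulAction.mem_stabilizer_iff]
  ext s
  rw [Set.mem_smul_set_iff_inv_smul_mem]
  constructor
  · intro h
    have := smul_hex hσ h
    rwa [smul_inv_smul] at this
  · intro h
    exact smul_hex ((permParts ternaryGolayCode).inv_mem hσ) h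

/-! ### Tables -/

/-- The point with a number. -/
def ptN (n : ℕ) : ArrayPt := (Fin.ofNat 4 (n / 3), ((n % 3 : ℕ) : ZMod 3))

theorem ptN_idx : ∀ p : ArrayPt, ptN (idx p).val = p := by decide +kernel

/-- The map of a table. -/
def fT (t : List ℕ) (p : ArrayPt) : ArrayPt := ptN (t.getD (idx p).val 0)

/-- The multipliers of a table. -/
def cT (c : List ℕ) (p : ArrayPt) : (ZMod 3)ˣ := if c.getD (idx p).val 0 = 1 then 1 else -1

/-- Membership in the code, tested. -/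
def testW (x : ArrayPt → ZMod 3) : Prop :=
  x = word ![x (1,2), x (2,1), x (2,2), x (3,1), x (3,2), -(x (0,0) + x (0,1) + x (0,2))]

instance (x : ArrayPt → ZMod 3) : Decidable (testW x) :=
  inferInstanceAs (Decidable (x = word ![x (1,2), x (2,1), x (2,2), x (3,1), x (3,2), -(x (0,0) + x (0,1) + x (0,2))]))

theorem mem_of_testW {x : ArrayPt → ZMod 3} (h : testW x) : x ∈ ternaryGolayCode := by
  rw [h]
  exact word_mem _

/-- The check of a table. -/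
def okE (e : List ℕ × List ℕ × List ℕ) : Bool :=
  decide (∀ p, fT e.2.1 (fT e.1 p) = p) && decide (∀ p, fT e.1 (fT e.2.1 p) = p) &&
    decide (∀ j : Fin 6, testW fun p => (cT e.2.2 p : ZMod 3) * B j (idx (fT e.2.1 p)))

theorem word_eq_sum (a : Fin 6 → ZMod 3) : word a = a 0 • (fun p => B 0 (idx p)) + a 1 • (fun p => B 1 (idx p)) +
      a 2 • (fun p => B 2 (idx p)) + a 3 • (fun p => B 3 (idx p)) +
      a 4 • (fun p => B 4 (idx p)) + a 5 • (fun p => B 5 (idx p)) := by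
  funext p
  simp [word]

theorem pres_of_basis {σ : Equiv.Perm ArrayPt} {c : ArrayPt → (ZMod 3)ˣ}
    (h : ∀ j : Fin 6, monomialMap σ c (fun p => B j (idx p)) ∈ ternaryGolayCode) : Pres ternaryGolayCode σ c := by
  intro x hx
  obtain ⟨a, rfl⟩ := (mem_code_iff x).1 hx
  rw [word_eq_sum, ← monoLin_apply]
  simp only [map_add, map_smul]
  simp only [monoLin_apply]
  refine Submodule.add_mem _ (Submodule.add_mem _ (Submodule.add_mem _ (Submodule.add_mem _ (Submodule.add_mem _ ?_ ?_) ?_) ?_) ?_) ?_ <;>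
    exact Submodule.smul_mem _ _ (h _)

/-- A table gives an element. -/
theorem exists_of_okE {e : List ℕ × List ℕ × List ℕ} (h : okE e = true) :
    ∃ σ ∈ permParts ternaryGolayCode, ∀ p, σ p = fT e.1 p := by
  simp only [okE, Bool.and_eq_true, decide_eq_true_eq] at h
  obtain ⟨⟨h1, h2⟩, h3⟩ := h
  refine ⟨⟨fT e.1, fT e.2.1, h1, h2⟩, ⟨cT e.2.2, pres_of_basis fun j => mem_of_testW (h3 j)⟩, fun p => rfl⟩

/-- The base. -/
def bb (i : Fin 5) : ArrayPt := ptN i.val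

theorem bb_inj : Function.Injective bb := by decide +kernel

/-- The transversals. -/
def ents : List (List ℕ × List ℕ × List ℕ) := [
  ([0,1,2,3,4,5,6,7,8,9,10,11], [0,1,2,3,4,5,6,7,8,9,10,11], [1,1,1,1,1,1,1,1,1,1,1,1]),
  ([1,0,2,3,4,5,11,9,10,7,8,6], [1,0,2,3,4,5,11,9,10,7,8,6], [1,1,1,1,1,1,1,1,1,1,1,1]),
  ([2,0,1,3,4,5,8,6,7,10,11,9], [1,2,0,3,4,5,7,8,6,11,9,10], [1,1,1,1,1,1,1,1,1,1,1,1]),
  ([3,0,1,2,4,5,10,7,6,8,9,11], [1,2,3,0,4,5,8,7,9,10,6,11], [2,2,1,1,2,2,1,1,2,1,2,1]),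
  ([4,0,1,2,3,5,6,9,10,11,7,8], [1,2,3,4,0,5,6,10,11,7,8,9], [1,1,2,1,2,1,1,2,2,2,2,1]),
  ([5,0,1,2,3,4,9,6,8,7,11,10], [1,2,3,4,5,0,7,9,8,6,11,10], [2,2,1,2,2,1,1,2,1,2,1,1]),
  ([6,0,1,2,3,9,5,4,7,10,8,11], [1,2,3,4,7,6,0,8,10,5,9,11], [2,1,2,2,1,2,1,1,1,2,2,1]),
  ([7,0,1,2,3,11,10,8,9,4,5,6], [1,2,3,4,9,10,11,0,7,8,6,5], [2,1,1,1,1,2,2,2,2,2,1,1]),
  ([8,0,1,2,3,10,7,11,4,6,9,5], [1,2,3,4,8,11,9,6,0,10,5,7], [1,1,1,2,1,1,2,2,1,1,2,1]),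
  ([9,0,1,2,3,6,4,5,11,8,10,7], [1,2,3,4,6,7,5,11,9,0,10,8], [2,1,2,2,2,1,2,1,2,1,1,1]),
  ([10,0,1,2,3,8,11,7,5,9,6,4], [1,2,3,4,11,8,10,7,5,9,0,6], [2,2,2,1,2,2,2,2,1,1,2,1]),
  ([11,0,1,2,3,7,8,10,6,5,4,9], [1,2,3,4,10,9,8,5,6,11,7,0], [1,2,2,2,1,2,1,2,2,1,1,1]),
  ([0,1,2,3,4,5,6,7,8,9,10,11], [0,1,2,3,4,5,6,7,8,9,10,11], [1,1,1,1,1,1,1,1,1,1,1,1]),
  ([0,2,1,3,4,5,9,10,11,6,7,8], [0,2,1,3,4,5,9,10,11,6,7,8], [1,1,1,1,1,1,1,1,1,1,1,1]),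
  ([0,3,1,2,4,5,11,8,9,7,6,10], [0,2,3,1,4,5,10,9,7,8,11,6], [2,2,1,1,2,2,1,1,2,1,2,1]),
  ([0,4,1,2,3,5,8,11,7,9,10,6], [0,2,3,4,1,5,11,8,6,9,10,7], [1,1,2,1,2,1,1,2,2,2,2,1]),
  ([0,5,1,2,3,4,10,7,11,6,8,9], [0,2,3,4,5,1,9,7,10,11,6,8], [2,2,1,2,2,1,1,2,1,2,1,1]),
  ([0,6,1,2,3,9,11,10,8,4,7,5], [0,2,3,4,9,11,1,10,8,5,7,6], [2,1,2,2,1,2,1,1,1,2,2,1]),
  ([0,7,1,2,3,11,6,4,5,8,9,10], [0,2,3,4,7,8,6,1,9,10,11,5], [2,1,1,1,1,2,2,2,2,2,1,1]),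
  ([0,8,1,2,3,10,5,6,9,11,4,7], [0,2,3,4,10,6,7,11,1,8,5,9], [1,1,1,2,1,1,2,2,1,1,2,1]),
  ([0,9,1,2,3,6,7,8,10,5,11,4], [0,2,3,4,11,9,5,6,7,1,8,10], [2,1,2,2,2,1,2,1,2,1,1,1]),
  ([0,10,1,2,3,8,4,9,6,7,5,11], [0,2,3,4,6,10,8,9,5,7,1,11], [2,2,2,1,2,2,2,2,1,1,2,1]),
  ([0,11,1,2,3,7,9,5,4,10,6,8], [0,2,3,4,8,7,10,5,11,6,9,1], [1,2,2,2,1,2,1,2,2,1,1,1]),
  ([0,1,2,3,4,5,6,7,8,9,10,11], [0,1,2,3,4,5,6,7,8,9,10,11], [1,1,1,1,1,1,1,1,1,1,1,1]),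
  ([0,1,3,2,4,5,7,6,10,11,8,9], [0,1,3,2,4,5,7,6,10,11,8,9], [2,2,1,1,2,2,1,1,2,1,2,1]),
  ([0,1,4,2,3,5,9,10,6,8,11,7], [0,1,3,4,2,5,8,11,9,6,7,10], [1,1,2,1,2,1,1,2,2,2,2,1]),
  ([0,1,5,2,3,4,6,8,9,10,7,11], [0,1,3,4,5,2,6,10,7,8,9,11], [2,2,1,2,2,1,1,2,1,2,1,1]),
  ([0,1,6,2,3,9,4,7,5,11,10,8], [0,1,3,4,6,8,2,7,11,5,10,9], [2,1,2,2,1,2,1,1,1,2,2,1]),
  ([0,1,7,2,3,11,8,9,10,6,4,5], [0,1,3,4,10,11,9,2,6,7,8,5], [2,1,1,1,1,2,2,2,2,2,1,1]),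
  ([0,1,8,2,3,10,11,4,7,5,6,9], [0,1,3,4,7,9,10,8,2,11,5,6], [1,1,1,2,1,1,2,2,1,1,2,1]),
  ([0,1,9,2,3,6,5,11,4,7,8,10], [0,1,3,4,8,6,5,9,10,2,11,7], [2,1,2,2,2,1,2,1,2,1,1,1]),
  ([0,1,10,2,3,8,7,5,11,4,9,6], [0,1,3,4,9,7,11,6,5,10,2,8], [2,2,2,1,2,2,2,2,1,1,2,1]),
  ([0,1,11,2,3,7,10,6,8,9,5,4], [0,1,3,4,11,10,7,5,8,9,6,2], [1,2,2,2,1,2,1,2,2,1,1,1]),
  ([0,1,2,3,4,5,6,7,8,9,10,11], [0,1,2,3,4,5,6,7,8,9,10,11], [1,1,1,1,1,1,1,1,1,1,1,1]),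
  ([0,1,2,4,3,5,10,9,11,7,6,8], [0,1,2,4,3,5,10,9,11,7,6,8], [1,1,1,1,1,1,1,1,1,1,1,1]),
  ([0,1,2,5,3,4,8,6,7,11,9,10], [0,1,2,4,5,3,7,8,6,10,11,9], [1,1,1,1,1,1,1,1,1,1,1,1]),
  ([0,1,2,6,3,9,7,4,10,8,5,11], [0,1,2,4,7,10,3,6,9,5,8,11], [1,2,2,1,1,1,1,1,1,1,1,1]),
  ([0,1,2,7,3,11,9,8,4,5,10,6], [0,1,2,4,8,9,11,3,7,6,10,5], [2,1,2,1,1,1,1,1,1,1,1,1]),
  ([0,1,2,8,3,10,4,11,6,9,7,5], [0,1,2,4,6,11,8,10,3,9,5,7], [2,2,1,1,1,1,1,1,1,1,1,1]),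
  ([0,1,2,9,3,6,11,5,8,10,4,7], [0,1,2,4,10,7,5,11,8,3,9,6], [1,2,2,1,1,1,1,1,1,1,1,1]),
  ([0,1,2,10,3,8,5,7,9,6,11,4], [0,1,2,4,11,6,9,7,5,8,3,10], [2,2,1,1,1,1,1,1,1,1,1,1]),
  ([0,1,2,11,3,7,6,10,5,4,8,9], [0,1,2,4,9,8,6,5,10,11,7,3], [2,1,2,1,1,1,1,1,1,1,1,1]),
  ([0,1,2,3,4,5,6,7,8,9,10,11], [0,1,2,3,4,5,6,7,8,9,10,11], [1,1,1,1,1,1,1,1,1,1,1,1]),
  ([0,1,2,3,5,4,9,11,10,6,8,7], [0,1,2,3,5,4,9,11,10,6,8,7], [1,1,1,1,1,1,1,1,1,1,1,1]),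
  ([0,1,2,3,6,9,5,8,11,4,7,10], [0,1,2,3,9,6,4,10,7,5,11,8], [1,2,2,1,1,1,1,1,1,1,1,1]),
  ([0,1,2,3,7,11,10,5,6,8,9,4], [0,1,2,3,11,7,8,4,9,10,6,5], [2,1,2,1,1,1,1,1,1,1,1,1]),
  ([0,1,2,3,8,10,7,9,5,11,4,6], [0,1,2,3,10,8,11,6,4,7,5,9], [2,2,1,1,1,1,1,1,1,1,1,1]),
  ([0,1,2,3,9,6,4,10,7,5,11,8], [0,1,2,3,6,9,5,8,11,4,7,10], [1,2,2,1,1,1,1,1,1,1,1,1]),
  ([0,1,2,3,10,8,11,6,4,7,5,9], [0,1,2,3,8,10,7,9,5,11,4,6], [2,2,1,1,1,1,1,1,1,1,1,1]),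
  ([0,1,2,3,11,7,8,4,9,10,6,5], [0,1,2,3,7,11,10,5,6,8,9,4], [2,1,2,1,1,1,1,1,1,1,1,1])]

theorem ents_ok : ents.all okE = true := by decide +kernel

theorem levels : ∀ k : Fin 5, ∀ x : ArrayPt, (∀ j : Fin 5, j < k → x ≠ bb j) →
    (ents.any fun e => decide ((∀ j : Fin 5, j < k → fT e.1 (bb j) = bb j) ∧ fT e.1 (bb k) = x)) = true := by
  decide +kernel

/-! ### The stabiliser of the base -/

/-- The subset of a mask. -/
def ofM (m : ℕ) : Finset ArrayPt := Finset.univ.filter fun p => m.testBit (idx p).val = true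

theorem mem_ofM {m : ℕ} {p : ArrayPt} : p ∈ ofM m ↔ m.testBit (idx p).val = true := by
  simp [ofM]

/-- Some hexads. -/
def LC : List (ℕ × (Fin 6 → ZMod 3)) := [
  (222, ![0,1,0,0,0,0]),
  (237, ![1,1,0,0,0,0]),
  (243, ![1,2,0,0,0,0]),
  (347, ![0,0,1,0,0,0]),
  (366, ![1,0,2,0,0,0]),
  (373, ![1,0,1,0,0,0]),
  (413, ![0,1,2,0,0,0]),
  (427, ![1,2,1,0,0,0]),
  (438, ![1,1,2,0,0,0]),
  (591, ![0,0,0,0,0,1]),
  (630, ![1,0,0,0,0,1]),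
  (633, ![1,0,0,0,0,2]),
  (667, ![0,1,0,0,0,2]),
  (679, ![1,1,0,0,0,2]),
  (700, ![1,2,0,0,0,1]),
  (791, ![0,0,1,0,0,2]),
  (813, ![1,0,2,0,0,1]),
  (826, ![1,0,1,0,0,2]),
  (1117, ![0,0,0,1,0,2]),
  (1127, ![1,0,0,1,0,2]),
  (1146, ![1,0,0,2,0,1]),
  (1175, ![0,1,0,1,0,2]),
  (1198, ![1,2,0,2,0,1]),
  (1209, ![1,1,0,1,0,2]),
  (1295, ![0,0,1,1,0,2]),
  (1331, ![1,0,2,2,0,1]),
  (1340, ![1,0,1,1,0,2]),
  (1566, ![0,0,0,1,0,0]),
  (1579, ![1,0,0,1,0,0]),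
  (1589, ![1,0,0,2,0,0]),
  (2135, ![0,0,0,0,1,2]),
  (2155, ![1,0,0,0,2,1]),
  (2172, ![1,0,0,0,1,2]),
  (2191, ![0,1,0,0,1,2]),
  (2229, ![1,2,0,0,2,1]),
  (2234, ![1,1,0,0,1,2]),
  (2334, ![0,0,1,0,1,2]),
  (2343, ![1,0,1,0,1,2]),
  (2361, ![1,0,2,0,2,1]),
  (2589, ![0,0,0,0,1,0]),
  (2606, ![1,0,0,0,2,0]),
  (2611, ![1,0,0,0,1,0]),
  (3099, ![0,0,0,1,2,0]),
  (3117, ![1,0,0,2,1,0]),
  (3126, ![1,0,0,1,2,0])]

/-- Their masks. -/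
def LM : List ℕ := LC.map Prod.fst

/-- The points off the first hexad. -/
def OL : List ℕ := [6, 7, 8, 9, 10, 11]

theorem LC_ok : (LC.all fun e => decide (∀ p, word e.2 p ≠ 0 ↔ e.1.testBit (idx p).val = true) && decide ((ofM e.1).card = 6)) = true := by
  decide +kernel

theorem hex_of_word {m : ℕ} {c : Fin 6 → ZMod 3} (h1 : ∀ p, word c p ≠ 0 ↔ m.testBit (idx p).val = true)
    (h2 : (ofM m).card = 6) : ofM m ∈ Hex := by
  refine ⟨word c, word_mem c, ?_, h2⟩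
  ext p
  rw [mem_ofM, ← h1 p]
  simp [ternarySupport]

theorem LM_hex {m : ℕ} (hm : m ∈ LM) : ofM m ∈ Hex := by
  obtain ⟨e, he, rfl⟩ := List.mem_map.1 hm
  have h1 := List.all_eq_true.1 LC_ok e he
  simp only [Bool.and_eq_true, decide_eq_true_eq] at h1
  exact hex_of_word h1.1 h1.2

theorem F_hex : ofM 63 ∈ Hex := by
  refine hex_of_word (c := ![1,0,0,0,0,0]) ?_ ?_ <;> decide +kernel

theorem pair_check : (OL.all fun x => OL.all fun z => OL.all fun a => OL.all fun b =>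
    (x == z) || (a == b) || (a == x && b == z) || (a == z && b == x) ||
      !(LM.all fun m => !(m.testBit x && m.testBit z) ||
        LM.any fun m' => m'.testBit a && m'.testBit b && (m' &&& 63 == m &&& 63))) = true := by
  decide +kernel

theorem exists_check : (LM.all fun m => OL.all fun a => LM.any fun m' => (m' &&& 63 == m &&& 63) && m'.testBit a) = true := by
  decide +kernel

theorem card_check : (LM.all fun m => decide ((ofM (m &&& 63)).card = 4)) = true := by decide +kernel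

theorem hex_eq {s h h' : Finset ArrayPt} (hs : s.card = 5) (hh : h ∈ Hex) (hh' : h' ∈ Hex) (h1 : s ⊆ h) (h2 : s ⊆ h') :
    h = h' := (hexads_steiner.2 s hs).unique ⟨hh, h1⟩ ⟨hh', h2⟩

theorem idx_ptN : ∀ n ∈ OL, (idx (ptN n)).val = n := by decide +kernel

theorem off_F : ∀ p : ArrayPt, p ∉ ofM 63 → (idx p).val ∈ OL := by decide +kernel

theorem smul_mem_of_aut {g : Equiv.Perm ArrayPt} (hg : g ∈ setSystemAut Hex) {h : Finset ArrayPt} (hh : h ∈ Hex) :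
    g • h ∈ Hex := by
  have h1 : g • Hex = Hex := hg
  rw [← h1]
  exact Set.smul_mem_smul_set hh

theorem apply_mem_smul' (g : Equiv.Perm ArrayPt) (s : Finset ArrayPt) {p : ArrayPt} (hp : p ∈ s) : g p ∈ g • s :=
  Finset.smul_mem_smul_finset (a := g) hp

section
variable {g : Equiv.Perm ArrayPt} (hg : g ∈ setSystemAut Hex) (hF : ∀ p ∈ ofM 63, g p = p)
include hg hF

theorem off_off {p : ArrayPt} (hp : p ∉ ofM 63) : g p ∉ ofM 63 := by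
  intro h
  have h1 := hF _ h
  exact hp (by rw [← g.injective h1]; exact h)

theorem key {m : ℕ} (hm : m ∈ LM) {x z : ArrayPt} (hx0 : x ∉ ofM 63) (hx : x ∈ ofM m) (hz : z ∈ ofM m) :
    ∃ m' ∈ LM, g x ∈ ofM m' ∧ g z ∈ ofM m' ∧ m' &&& 63 = m &&& 63 := by
  have h1 := off_off hg hF hx0
  have h2 := List.all_eq_true.1 (List.all_eq_true.1 exists_check m hm) _ (off_F _ h1)
  obtain ⟨m', hm', h3⟩ := List.any_eq_true.1 h2
  simp only [Bool.and_eq_true, beq_iff_eq] at h3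
  refine ⟨m', hm', mem_ofM.2 h3.2, ?_, h3.1⟩
  have hc : (ofM (m &&& 63)).card = 4 := by
    have := List.all_eq_true.1 card_check m hm
    simpa using this
  have hsubF : ofM (m &&& 63) ⊆ ofM 63 := by
    intro p hp
    rw [mem_ofM, Nat.testBit_and, Bool.and_eq_true] at hp
    exact mem_ofM.2 hp.2
  have hna : g x ∉ ofM (m &&& 63) := fun h => h1 (hsubF h)
  have e : g • ofM m = ofM m' := by
    apply hex_eq (s := insert (g x) (ofM (m &&& 63))) ?_ (smul_mem_of_aut hg (LM_hex hm)) (LM_hex hm') ?_ ?_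
    · rw [Finset.card_insert_of_notMem hna, hc]
    · intro p hp
      rcases Finset.mem_insert.1 hp with rfl | hp
      · exact apply_mem_smul' _ _ hx
      · rw [← hF p (hsubF hp)]
        apply apply_mem_smul'
        rw [mem_ofM, Nat.testBit_and, Bool.and_eq_true] at hp
        exact mem_ofM.2 hp.1
    · intro p hp
      rcases Finset.mem_insert.1 hp with rfl | hp
      · exact mem_ofM.2 h3.2
      · rw [mem_ofM, ← h3.1] at hp
        rw [Nat.testBit_and, Bool.and_eq_true] at hp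
        exact mem_ofM.2 hp.1
  rw [← e]
  exact apply_mem_smul' _ _ hz

theorem pair_image {x z : ArrayPt} (hx : x ∉ ofM 63) (hz : z ∉ ofM 63) (hxz : x ≠ z) :
    (g x = x ∧ g z = z) ∨ (g x = z ∧ g z = x) := by
  have hx' := off_F _ hx
  have hz' := off_F _ hz
  have hgx := off_F _ (off_off hg hF hx)
  have hgz := off_F _ (off_off hg hF hz)
  have h1 := List.all_eq_true.1 (List.all_eq_true.1 (List.all_eq_true.1 (List.all_eq_true.1 pair_check _ hx') _ hz') _ hgx) _ hgz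
  simp only [Bool.or_eq_true, beq_iff_eq, Bool.and_eq_true, Bool.not_eq_true'] at h1
  have hidx : ∀ {p q : ArrayPt}, (idx p).val = (idx q).val → p = q := by
    intro p q e
    rw [← ptN_idx p, ← ptN_idx q, e]
  rcases h1 with ((((h1 | h1) | h1) | h1) | h1)
  · exact absurd (hidx h1) hxz
  · exact absurd (g.injective (hidx h1)) hxz
  · exact Or.inl ⟨hidx h1.1, hidx h1.2⟩
  · exact Or.inr ⟨hidx h1.1, hidx h1.2⟩
  · exfalso
    have h2 : (LM.all fun m => !(m.testBit (idx x).val && m.testBit (idx z).val) ||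
        LM.any fun m' => m'.testBit (idx (g x)).val && m'.testBit (idx (g z)).val && (m' &&& 63 == m &&& 63)) = true := by
      rw [List.all_eq_true]
      intro m hm
      by_cases h3 : (m.testBit (idx x).val && m.testBit (idx z).val) = true
      · rw [Bool.and_eq_true] at h3
        obtain ⟨m', hm', h4, h5, h6⟩ := key hg hF hm hx (mem_ofM.2 h3.1) (mem_ofM.2 h3.2)
        rw [Bool.or_eq_true]
        refine Or.inr (List.any_eq_true.2 ⟨m', hm', ?_⟩)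
        simp only [Bool.and_eq_true, beq_iff_eq]
        exact ⟨⟨mem_ofM.1 h4, mem_ofM.1 h5⟩, h6⟩
      · rw [Bool.or_eq_true]
        left
        rw [Bool.not_eq_true']
        exact Bool.eq_false_iff.2 h3
    rw [h2] at h1
    exact absurd h1 (by decide)

theorem fix_off {x : ArrayPt} (hx : x ∉ ofM 63) : g x = x := by
  have hl : ∀ n ∈ OL, ∃ z ∈ OL, ∃ z' ∈ OL, z ≠ n ∧ z' ≠ n ∧ z ≠ z' := by decide
  obtain ⟨z, hz, z', hz', h1, h2, h3⟩ := hl _ (off_F x hx)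
  have hO : ∀ n ∈ OL, ptN n ∉ ofM 63 := by decide +kernel
  have hne : ∀ {n : ℕ}, n ∈ OL → n ≠ (idx x).val → x ≠ ptN n := by
    intro n hn h e
    apply h
    rw [e, idx_ptN n hn]
  have e1 := pair_image hg hF hx (hO z hz) (hne hz h1)
  have e2 := pair_image hg hF hx (hO z' hz') (hne hz' h2)
  rcases e1 with e1 | e1
  · exact e1.1
  rcases e2 with e2 | e2
  · exact e2.1
  exfalso
  apply h3
  have h4 := e1.1.symm.trans e2.1
  have h5 := congrArg (fun p => (idx p).val) h4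
  simp only [idx_ptN z hz, idx_ptN z' hz'] at h5
  exact h5

end

/-- The stabiliser of the base is trivial. -/
theorem triv {g : Equiv.Perm ArrayPt} (hg : g ∈ setSystemAut Hex) (hb : ∀ i, g (bb i) = bb i) : g = 1 := by
  have hF' : g • ofM 63 = ofM 63 := by
    apply hex_eq (s := Finset.univ.image bb) (by rw [Finset.card_image_of_injective _ bb_inj]; rfl)
      (smul_mem_of_aut hg F_hex) F_hex
    · intro p hp
      obtain ⟨i, -, rfl⟩ := Finset.mem_image.1 hp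
      rw [← hb i]
      apply apply_mem_smul'
      revert i
      decide +kernel
    · intro p hp
      obtain ⟨i, -, rfl⟩ := Finset.mem_image.1 hp
      revert i
      decide +kernel
  have h5 : g (ptN 5) = ptN 5 := by
    have h1 : g (ptN 5) ∈ ofM 63 := by
      rw [← hF']
      apply apply_mem_smul'
      decide +kernel
    have h2 : ∀ p ∈ ofM 63, (∃ i, p = bb i) ∨ p = ptN 5 := by decide +kernel
    rcases h2 _ h1 with ⟨i, e⟩ | e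
    · exfalso
      rw [← hb i] at e
      have h9 : ∀ i, ptN 5 ≠ bb i := by decide +kernel
      exact h9 i (g.injective e)
    · exact e
  have hF : ∀ p ∈ ofM 63, g p = p := by
    intro p hp
    have h2 : ∀ p ∈ ofM 63, (∃ i, p = bb i) ∨ p = ptN 5 := by decide +kernel
    rcases h2 p hp with ⟨i, rfl⟩ | rfl
    · exact hb i
    · exact h5
  apply Equiv.ext
  intro p
  by_cases hp : p ∈ ofM 63
  · exact hF p hp
  · exact fix_off hg hF hp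

/-- The statement `S1594`. -/
theorem s1594 : Nat.card {f : Equiv.Perm ArrayPt × (ArrayPt → (ZMod 3)ˣ) // (∀ x ∈ ternaryGolayCode, monomialMap f.1 f.2 x ∈ ternaryGolayCode)} = 190080 ∧
    {σ : Equiv.Perm ArrayPt | ∃ c : ArrayPt → (ZMod 3)ˣ, (∀ x ∈ ternaryGolayCode, monomialMap σ c x ∈ ternaryGolayCode)} =
      (setSystemAut Hex : Set (Equiv.Perm ArrayPt)) := by
  have hL : ∀ k : Fin 5, ∀ x, (∀ j : Fin 5, j < k → x ≠ bb j) →
      ∃ g ∈ permParts ternaryGolayCode, (∀ j : Fin 5, j < k → g (bb j) = bb j) ∧ g (bb k) = x := by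
    intro k x hx
    obtain ⟨e, he, h⟩ := List.any_eq_true.1 (levels k x hx)
    rw [decide_eq_true_eq] at h
    obtain ⟨σ, hσ, h1⟩ := exists_of_okE (List.all_eq_true.1 ents_ok e he)
    refine ⟨σ, hσ, fun j hj => ?_, ?_⟩
    · rw [h1]
      exact h.1 j hj
    · rw [h1]
      exact h.2
  obtain ⟨h1, h2⟩ := eq_and_card parts_le bb bb_inj hL (fun g hg hb => triv hg hb)
  constructor
  · rw [card_pres ternaryGolayCode (0, 0) (fun c hc i j => diag_const c hc i j), h1, h2]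
    rw [Nat.card_eq_fintype_card, Nat.card_eq_fintype_card, Fintype.card_embedding_eq]
    have h3 : Fintype.card ArrayPt = 12 := by simp [ZMod.card]
    rw [h3]
    rfl
  · exact congrArg (fun S : Subgroup (Equiv.Perm ArrayPt) => (S : Set (Equiv.Perm ArrayPt))) h1

end Cfsg.Agent.Lib.Sporadic.TernAut
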